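/-
Subgroups of `M24` of order divisible by 23, and a recognition lemma for `PGL(2,23)`.
-/
import Cfsg.Agent.Spor.J4T2
import Cfsg.Agent.Spor.OutMathieu
import Cfsg.Agent.Spor.SelfCent
import Cfsg.Agent.Spor.M12Sylow
import Cfsg.Agent.S0732

set_option autoImplicit false

namespace CL.J4.PGL

open Cfsg CL.Spor Subgroup MulAction
open CL.F24 (ap all2 all2_spec)

/-- The standard element of order 23. -/
noncomputable abbrev x0 : M24 := m24 r23

/-- Its normaliser. -/
noncomputable abbrev B0 : Subgroup M24 := normalizer (zpowers x0 : Set M24)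

theorem rep_y0 : Rep y0 (m24 y0) := rep_m24 (by decide +kernel)

theorem orderOf_y0 : orderOf (m24 y0) = 11 :=
  rep_y0.orderOf_prime (by norm_num) (by decide +kernel) (by decide +kernel)

theorem cent_x0 : centralizer {x0} = zpowers x0 :=
  (eq_of_le_of_card_ge (zpowers_le.2 (mem_centralizer_singleton_iff.2 rfl))
    (by rw [card_C23, Nat.card_zpowers, orderOf_r23])).symm

theorem cent_y0 : centralizer {m24 y0} = zpowers (m24 y0) := by
  obtain ⟨c, e⟩ := class_11 orderOf_y0
  exact (eq_of_le_of_card_ge (zpowers_le.2 (mem_centralizer_singleton_iff.2 rfl)) (by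
    rw [card_centralizer_eq_of_isConj (isConj_iff.2 ⟨c, e⟩), card_C11, Nat.card_zpowers, orderOf_y0])).symm

theorem card_norm_y0 : Nat.card (normalizer (zpowers (m24 y0) : Set M24)) = 110 := by
  obtain ⟨c, e⟩ := class_11 orderOf_y0
  have h : zpowers (m24 r11) = cj c (zpowers (m24 y0)) := by rw [cj, MonoidHom.map_zpowers, ← e]; rfl
  rw [← card_N11, h, Ten.normalizer_cj', card_cj]

theorem y0_mem : m24 y0 ∈ B0 := (chainN23.mem_iff_sift rep_y0).2 (by decide +kernel)

theorem not_inv {h : M24} (hh : h ∈ B0) : h * x0 * h⁻¹ ≠ x0⁻¹ := fun e => by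
  obtain ⟨P, hP, h1⟩ := chainN23.forall_mem
    (f := fun P => not (Nat.beq (pmul (pmul P r23) (pinv P)) (pinv r23))) (by decide +kernel) h hh
  rw [((hP.mul rep_r23).mul hP.inv).unique' (e ▸ rep_r23.inv)] at h1
  simp at h1

theorem fix_x0 {a : ℕ} (ha : a < 2048) (h : ap (vcols r23) a = a) : a = 0 := by
  have : (fun A => all2 (fun a => or (not (Nat.beq (ap A a) a)) (Nat.beq a 0)) 11 0) (vcols r23) = true := by
    decide +kernel
  simpa [h] using all2_spec this a ha

theorem fix_y0 {a : ℕ} (ha : a < 2048) (h : ap (vcols y0) a = a) : a = 0 ∨ a = 1141 := by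
  have : (fun A => all2 (fun a => or (not (Nat.beq (ap A a) a)) (or (Nat.beq a 0) (Nat.beq a 1141))) 11 0)
      (vcols y0) = true := by decide +kernel
  simpa [h] using all2_spec this a ha

theorem primePow_mod {d : ℕ} (hd : d ∣ 10644480) (h : IsPrimePow d) : d % 23 ≠ 1 := by
  obtain ⟨q, k, hq, hk, rfl⟩ := (isPrimePow_nat_iff d).1 h
  have h1 : q ∣ 2 ^ 10 * 3 ^ 3 * 5 * 7 * 11 := (dvd_pow_self q hk.ne').trans hd
  have h2 : ∀ n, ¬ q ^ n ∣ 10644480 → k < n := fun n hn => by
    by_contra! hc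
    exact hn ((pow_dvd_pow q hc).trans hd)
  simp only [hq.dvd_mul] at h1
  rcases h1 with (((h1 | h1) | h1) | h1) | h1
  · obtain rfl := (Nat.prime_dvd_prime_iff_eq hq Nat.prime_two).1 (hq.dvd_of_dvd_pow h1)
    have := h2 11 (by norm_num); interval_cases k <;> norm_num
  · obtain rfl := (Nat.prime_dvd_prime_iff_eq hq Nat.prime_three).1 (hq.dvd_of_dvd_pow h1)
    have := h2 4 (by norm_num); interval_cases k <;> norm_num
  all_goals
    obtain rfl := (Nat.prime_dvd_prime_iff_eq hq (by norm_num)).1 h1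
    have := h2 2 (by norm_num); interval_cases k; norm_num

theorem le_of_mem {Y : Subgroup M24} (hx : x0 ∈ Y) (hY : Nat.card Y ≠ 23) : B0 ≤ Y := by
  have h1 : Nat.card (B0 ⊓ Y : Subgroup M24) ∣ 253 := card_N23 ▸ card_dvd_of_le inf_le_left
  have h2 : 23 ∣ Nat.card (B0 ⊓ Y : Subgroup M24) :=
    orderOf_r23 ▸ orderOf_dvd_card_of_mem (mem_inf.2 ⟨le_normalizer (mem_zpowers _), hx⟩)
  obtain ⟨d, hd⟩ := h2
  rw [hd] at h1
  rcases (Nat.dvd_prime (p := 11) (by norm_num)).1 (Nat.dvd_of_mul_dvd_mul_left (by norm_num) h1) with rfl | rfl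
  · exfalso
    obtain ⟨m, hm⟩ : 23 ∣ Nat.card Y := orderOf_r23 ▸ orderOf_dvd_card_of_mem hx
    have h3 : m ∣ 10644480 := Nat.dvd_of_mul_dvd_mul_left (k := 23) (by norm_num) (by
      rw [← hm]; exact Y.card_subgroup_dvd_card.trans card_M24.dvd)
    have h4 : ¬ 23 ∣ m := fun h => absurd (h.trans h3) (by norm_num)
    have h5 : orderOf (⟨x0, hx⟩ : Y) = 23 := by rw [orderOf_mk, orderOf_r23]
    have h6 : zpowers (⟨x0, hx⟩ : Y) = (zpowers x0).subgroupOf Y := by
      ext y
      simp only [mem_zpowers_iff, mem_subgroupOf, Subtype.ext_iff, coe_zpow]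
    have h7 : Nat.card (normalizer (zpowers (⟨x0, hx⟩ : Y) : Set Y)) = 23 := by
      rw [h6, ← subgroupOf_normalizer_eq (by simpa using hx), ← inf_subgroupOf_right,
        Nat.card_congr (subgroupOfEquivOfLe inf_le_right).toEquiv, hd]
    have h8 : Nat.card (centralizer ({⟨x0, hx⟩} : Set Y)) = 23 := by
      refine le_antisymm (h7 ▸ card_le_of_le ?_) (Nat.le_of_dvd Nat.card_pos
        (h5 ▸ orderOf_dvd_card_of_mem (mem_centralizer_singleton_iff.2 rfl)))
      rw [← centralizer_zpowers_eq]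
      exact centralizer_le_normalizer _
    obtain ⟨K, _, hK⟩ := exists_normal_compl (p := 23) (m := m) (by norm_num) (by rw [hm, pow_one]) h4 h5
      (by rw [h7, h8])
    have h9 := eq_bot_of_normal_of_selfcent (p := 23) (m := m) (by norm_num) (by rw [hm, pow_one]) h4
      (fun d hd => primePow_mod ((Nat.dvd_of_mem_divisors hd).trans h3)) h5 h8 K (hK ▸ h4)
    rw [h9, card_bot] at hK
    exact hY (by rw [hm, ← hK])
  · exact inf_eq_left.1 (eq_of_le_of_card_ge inf_le_left (by rw [hd, card_N23]))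

theorem card_cases {Y : Subgroup M24} (h : B0 ≤ Y) :
    Nat.card Y = 253 ∨ Nat.card Y = 6072 ∨ Nat.card Y = 10200960 ∨ Nat.card Y = 244823040 := by
  obtain ⟨n, h1, h2⟩ := exists_card_eq_mul_normalizer' (p := 23) (by norm_num) orderOf_r23
    (by rw [card_M24]; norm_num) h
  obtain ⟨k, h3, h4⟩ := exists_card_eq_mul_normalizer (p := 11) (by norm_num) orderOf_y0
    (by rw [card_M24]; norm_num) (h y0_mem)
  rw [card_N23] at h2
  have h5 : n ∣ 967680 := Nat.dvd_of_mul_dvd_mul_right (k := 253) (by norm_num) (by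
    rw [← h2]; exact Y.card_subgroup_dvd_card.trans card_M24.dvd)
  have h6 : Nat.card (normalizer (zpowers (m24 y0) : Set M24) ⊓ Y : Subgroup M24) ∣ 110 :=
    card_norm_y0 ▸ card_dvd_of_le inf_le_left
  have h7 : 11 ∣ Nat.card (normalizer (zpowers (m24 y0) : Set M24) ⊓ Y : Subgroup M24) :=
    orderOf_y0 ▸ orderOf_dvd_card_of_mem (mem_inf.2 ⟨le_normalizer (mem_zpowers _), h y0_mem⟩)
  have h8 : all2 (fun k => or (not (Nat.beq (Nat.mod 967680 (Nat.succ (Nat.mul 23 k))) 0))
      (anyL (fun m => Nat.beq (Nat.succ (Nat.mul 23 k)) m) [1, 24, 70, 576, 1680, 13824, 40320, 967680])) 16 0 = true := by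
    decide +kernel
  have h9 := all2_spec h8 (n / 23) (by have := Nat.le_of_dvd (by norm_num) h5; omega)
  have e1 : Nat.succ (Nat.mul 23 (n / 23)) = n := by show 23 * (n / 23) + 1 = n; omega
  have e2 : Nat.mod 967680 n = 0 := Nat.mod_eq_zero_of_dvd h5
  rw [e1, e2] at h9
  obtain ⟨m, hm, e⟩ := (anyL_iff (fun m => Nat.beq n m) [1, 24, 70, 576, 1680, 13824, 40320, 967680]).1 h9
  obtain rfl := Nat.eq_of_beq_eq_true e
  obtain ⟨d, hd⟩ := h7
  rw [hd] at h4 h6
  have h10 : d ∣ 10 := Nat.dvd_of_mul_dvd_mul_left (k := 11) (by norm_num) h6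
  have h11 := Nat.le_of_dvd (by norm_num) h10
  rw [h2] at h4 ⊢
  simp only [List.mem_cons, List.not_mem_nil, or_false] at hm
  rcases hm with rfl | rfl | rfl | rfl | rfl | rfl | rfl | rfl <;> interval_cases d <;> omega

theorem card_out {Y : Subgroup M24} (h : Nat.card Y = 10200960 ∨ Nat.card Y = 244823040) : Nat.card (Out Y) = 1 := by
  rcases h with h | h
  · have h1 := Y.index_mul_card
    rw [h, card_M24] at h1
    obtain ⟨p, hp⟩ := Des.M24_index_24 Y (by omega)
    have h2 : Y = fixS {p} := eq_of_le_of_card_ge (fun g hg => mem_fixS.2 fun q hq => by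
      rw [Finset.mem_singleton.1 hq, hp g hg]) (by rw [h, card_fixS_one (Finset.card_singleton p)])
    rw [h2]
    exact Des.card_out_fixS_one (Finset.card_singleton p)
  · rw [eq_top_of_card_eq Y (h.trans card_M24.symm), Des.card_out_congr topEquiv, Des.card_out_M24]

/-- A group of order `24 * 23 * 22` with a self-centralising element of order 23. -/
theorem pgl_of_card {K : Type*} [Group K] [Finite K] (hK : Nat.card K = 12144) {a : K} (ha : orderOf a = 23)
    (hC : Nat.card (centralizer ({a} : Set K)) = 23) :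
    Nonempty (K ≃* GL (Fin 2) (ZMod 23) ⧸ center (GL (Fin 2) (ZMod 23))) := by
  classical
  have h1 := card_normalizer_of_selfcent (p := 23) (e := 22) (m := 528) (by norm_num) hK (by norm_num) rfl ha hC
  set H := normalizer (zpowers a : Set K) with hH
  have h2 : H.index = 24 := by
    have := H.index_mul_card
    rw [h1, hK] at this
    omega
  have h3 : H.normalCore = ⊥ := by
    refine eq_bot_of_normal_of_selfcent (p := 23) (m := 528) (by norm_num) hK (by norm_num) (fun d hd h => ?_) ha hC _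
      fun hd => ?_
    · exact primePow_mod ((Nat.dvd_of_mem_divisors hd).trans (by norm_num)) h
    have h4 : H = ⊤ := eq_top_iff.2 fun g _ => mem_normalizer_zpowers (by
      have h5 : (g * a * g⁻¹) ^ 23 = 1 := by rw [conj_pow, ← ha, pow_orderOf_eq_one]; group
      have h6 := H.normalCore_le (mem_normal_of_pow_prime H.normalCore (by norm_num) hd (by rw [hK]; norm_num) h5)
      exact mem_normal_of_pow_prime ((zpowers a).subgroupOf H) (p := 23) (by norm_num) (by
        rw [Nat.card_congr (subgroupOfEquivOfLe le_normalizer).toEquiv, Nat.card_zpowers, ha])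
        (by rw [h1]; norm_num) (x := ⟨_, h6⟩) (Subtype.ext h5))
    rw [h4, index_top] at h2
    cases h2
  have := Fintype.ofFinite (K ⧸ H)
  have h4 : Function.Injective (toPermHom K (K ⧸ H)) := by
    rw [← MonoidHom.ker_eq_bot_iff, ← normalCore_eq_ker, h3]
  have : IsPretransitive (toPermHom K (K ⧸ H)).range (K ⧸ H) := ⟨fun u v => by
    obtain ⟨g, e⟩ := exists_smul_eq K u v
    exact ⟨⟨_, g, rfl⟩, e⟩⟩
  rcases Cfsg.Agent.S0732.result (p := 23) (d := 22) (by norm_num) (by rw [← Nat.card_eq_fintype_card]; exact h2)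
    (toPermHom K (K ⧸ H)).range (by rw [← Nat.card_congr (MonoidHom.ofInjective h4).toEquiv, hK]) (by norm_num) with
    ⟨-, ⟨e⟩⟩ | ⟨h5, -⟩ | ⟨q, -, h5, h6, -⟩
  · exact ⟨(MonoidHom.ofInjective h4).trans e⟩
  · cases h5
  · have h7 : 3 ∣ 2 ^ q := h5 ▸ by norm_num
    exact absurd (Nat.prime_three.dvd_of_dvd_pow h7) (by norm_num)

end CL.J4.PGL
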