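/-
Maximal subgroups of a group of Janko-four type: overgroups of the normaliser of a Sylow 37-subgroup.
-/
import Cfsg.Agent.Spor.J4X1

set_option autoImplicit false

namespace CL.J4X

open Cfsg Subgroup CL.J4 CL.Fus CL.Spor MulAction
open scoped Pointwise

variable {G : Type*} [Group G] [Finite G]

/-- Normalisers grow. -/
theorem syl_of_norm {p : ℕ} [Fact p.Prime] {X B Y : Subgroup G} (h : SylIn p X B) (hY : X ≤ Y)
    (hN : ∀ g ∈ Y, g ∈ normalizer (X : Set G) → g ∈ B) : SylIn p X Y := by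
  obtain ⟨S, hS, h4⟩ := exists_sylIn_le h.isPGroup hY
  rcases h4.eq_or_lt with e | e
  · exact e ▸ hS
  obtain ⟨x, x1, x2, x3⟩ := Inv.exists_mem_normalizer_of_lt_pgroup hS.isPGroup e
  exact absurd (h.2.2 (S ⊓ normalizer (X : Set G)) hS.isPGroup.to_inf_left (le_inf h4 le_normalizer)
    (fun g hg => hN g (hS.le hg.1) hg.2) ⟨x1, x3⟩) x2

/-- Burnside's theorem inside a subgroup. -/
theorem burn {p : ℕ} [hp : Fact p.Prime] {X Y : Subgroup G} (h : SylIn p X Y)
    (hN : ∀ g ∈ Y, g ∈ normalizer (X : Set G) → ∀ x ∈ X, x * g = g * x) :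
    ∃ O ≤ Y, Y ≤ normalizer (O : Set G) ∧ Nat.card Y = Nat.card O * Nat.card X ∧ ¬ p ∣ Nat.card O ∧
      ∀ g ∈ Y, (orderOf g).Coprime p → g ∈ O := by
  have hP : normalizer ((h.toSylow : Subgroup Y) : Set Y) ≤ centralizer (h.toSylow : Set Y) := fun g hg x hx => by
    rw [h.coe_toSylow, ← subgroupOf_normalizer_eq h.le] at hg
    exact Subtype.ext (hN g g.2 hg x hx)
  have hc := MonoidHom.ker_transferSylow_isComplement' h.toSylow hP
  refine ⟨(MonoidHom.transferSylow h.toSylow hP).ker.map Y.subtype, map_subtype_le _, fun g hg =>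
    le_normalizer_map Y.subtype ⟨⟨g, hg⟩, by rw [normalizer_eq_top]; trivial, rfl⟩, ?_, ?_, fun x hx c => ⟨⟨x, hx⟩, ?_, rfl⟩⟩
  · rw [card_map_of_injective Y.subtype_injective, ← hc.card_mul_card,
      ← Nat.card_congr (subgroupOfEquivOfLe h.le).toEquiv]
    rfl
  · rw [card_map_of_injective Y.subtype_injective, ← hc.index_eq_card]
    exact h.toSylow.not_dvd_index
  · obtain ⟨k, hk⟩ := h.toSylow.isPGroup' (MonoidHom.transferSylow h.toSylow hP ⟨x, hx⟩)
    exact orderOf_eq_one_iff.1 (Nat.eq_one_of_dvd_coprimes (c.pow_right k)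
      ((orderOf_map_dvd _ _).trans (orderOf_mk x hx).dvd) (orderOf_dvd_of_pow_eq_one hk))

theorem card_diff {X R : Subgroup G} (h : X ≤ R) : Nat.card ↥((R : Set G) \ X) + Nat.card X = Nat.card R := by
  rw [Nat.card_coe_set_eq]
  exact Set.ncard_sdiff_add_ncard_of_subset (s := (X : Set G)) (t := (R : Set G)) h

theorem ex_pow {a x : G} {n : ℕ} (o : orderOf a = n) (h : x ∈ zpowers a) : ∃ k < n, a ^ k = x := by
  classical
  obtain ⟨k, hk, e⟩ := Finset.mem_image.1 (mem_zpowers_iff_mem_range_orderOf.1 h)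
  exact ⟨k, o ▸ Finset.mem_range.1 hk, e⟩

theorem eq_of_zp2 {i x : G} (oi : orderOf i = 2) (h : x ∈ zpowers i) (ox : orderOf x = 2) : x = i := by
  obtain ⟨k, hk, rfl⟩ := ex_pow oi h
  interval_cases k
  · simp at ox
  · simp

section Twelve

variable {W : Subgroup G} {b : G} (ob : orderOf b = 12)
include ob

omit [Finite G] in
theorem ord_pow {k : ℕ} (h : k ∣ 12) (h0 : k ≠ 0) : orderOf (b ^ k) = 12 / k := by
  rw [orderOf_pow_of_dvd h0 (ob ▸ h), ob]

theorem syl2 : SylIn 2 (zpowers (b ^ 3)) (zpowers b) :=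
  sylIn_of_card (k := 2) (m := 3) Nat.prime_two (zpowers_le.2 (pow_mem (mem_zpowers b) 3))
    ((Nat.card_zpowers _).trans (ord_pow ob (by norm_num) (by norm_num))) ((Nat.card_zpowers _).trans ob) (by norm_num)

theorem syl3 : SylIn 3 (zpowers (b ^ 4)) (zpowers b) :=
  sylIn_of_card (k := 1) (m := 4) Nat.prime_three (zpowers_le.2 (pow_mem (mem_zpowers b) 4))
    ((Nat.card_zpowers _).trans (ord_pow ob (by norm_num) (by norm_num))) ((Nat.card_zpowers _).trans ob) (by norm_num)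

variable (hs : ∀ g ∈ W, g ∈ normalizer (zpowers (b ^ 2) : Set G) → g ∈ zpowers b)
include hs

theorem star {g : G} (hg : g ∈ W) (h1 : g ∈ normalizer (zpowers (b ^ 4) : Set G)) (h2 : g * b ^ 6 * g⁻¹ = b ^ 6) :
    g ∈ zpowers b := by
  refine hs g hg (mem_norm_zpowers ?_)
  have e : b ^ 2 = b ^ 6 * (b ^ 4) ^ 2 := by
    rw [← pow_mul, ← pow_add, show 6 + 4 * 2 = 12 + 2 from rfl, pow_add, ← ob, pow_orderOf_eq_one, one_mul]
  have h3 : ∀ k, b ^ (2 * k) ∈ zpowers (b ^ 2) := fun k => pow_mul b 2 k ▸ pow_mem (mem_zpowers _) k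
  rw [show g * b ^ 2 * g⁻¹ = b ^ 6 * (g * b ^ 4 * g⁻¹) ^ 2 by rw [e, ← conj_mul, h2, conj_pow]]
  exact mul_mem (h3 3) (pow_mem (zpowers_le.2 (h3 2) ((mem_normalizer_iff.1 h1 _).1 (mem_zpowers _))) 2)

theorem star' {g : G} (hg : g ∈ W) (h1 : g ∈ normalizer (zpowers (b ^ 4) : Set G))
    (h2 : g ∈ normalizer (zpowers (b ^ 3) : Set G)) : g ∈ zpowers b := by
  have o6 : orderOf (b ^ 6) = 2 := ord_pow ob (by norm_num) (by norm_num)
  refine star ob hs hg h1 (eq_of_zp2 o6 ?_ ((ord_conj _ _).trans o6))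
  obtain ⟨k, hk⟩ := (mem_normalizer_iff.1 h2 _).1 (mem_zpowers _)
  refine ⟨k, ?_⟩
  show (b ^ (3 * 2)) ^ k = g * b ^ (3 * 2) * g⁻¹
  rw [pow_mul, ← conj_pow, ← hk]; group

/-- The structure of the normaliser of `⟨b ^ 4⟩`. -/
theorem exO (hb : b ∈ W) : ∃ O ≤ normalizer (zpowers (b ^ 4) : Set G) ⊓ W,
    Nat.card ↥(normalizer (zpowers (b ^ 4) : Set G) ⊓ W) = Nat.card O * 4 ∧ ¬ 2 ∣ Nat.card O ∧ b ^ 4 ∈ O ∧
    b ^ 3 ∈ normalizer (O : Set G) ∧
    (∀ g ∈ normalizer (zpowers (b ^ 4) : Set G) ⊓ W, (orderOf g).Coprime 2 → g ∈ O) ∧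
    normalizer (zpowers (b ^ 4) : Set G) ⊓ W ≤ centralizer {b ^ 4} ∧
    ∀ R ≤ O, b ^ 4 ∈ R → b ^ 3 ∈ normalizer (R : Set G) → Nat.card R % 4 = 3 := by
  set C := normalizer (zpowers (b ^ 4) : Set G) ⊓ W
  have o3 : orderOf (b ^ 3) = 4 := ord_pow ob (by norm_num) (by norm_num)
  have o4 : orderOf (b ^ 4) = 3 := ord_pow ob (by norm_num) (by norm_num)
  have h0 : zpowers b ≤ centralizer {b ^ 4} ⊓ C := zpowers_le.2 ⟨mem_centralizer_singleton_iff.2 (by group),
    mem_norm_zpowers (by rw [show b * b ^ 4 * b⁻¹ = b ^ 4 by group]; exact mem_zpowers _), hb⟩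
  have h1 : SylIn 2 (zpowers (b ^ 3)) C :=
    syl_of_norm (syl2 ob) (fun x hx => (h0 ((syl2 ob).le hx)).2) fun g hg => star' ob hs hg.2 hg.1
  obtain ⟨O, a1, a2, a3, a4, a5⟩ := burn h1 fun g hg h x hx => by
    obtain ⟨k, rfl⟩ := star' ob hs hg.2 hg.1 h
    obtain ⟨l, rfl⟩ := (syl2 ob).le hx
    group
  rw [Nat.card_zpowers, o3] at a3
  have a6 : b ^ 4 ∈ O := a5 _ (h0 (pow_mem (mem_zpowers b) 4)).2 (by rw [o4]; norm_num)
  have co : (Nat.card O).Coprime 2 := ((Nat.Prime.coprime_iff_not_dvd Nat.prime_two).2 a4).symm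
  refine ⟨O, a1, a3, a4, a6, a2 (h0 (pow_mem (mem_zpowers b) 3)).2, a5, ?_, fun R r1 r2 r3 => ?_⟩
  · have h2 : O ≤ centralizer {b ^ 4} ⊓ C := fun g hg => by
      refine ⟨El.mem_of_pow (n := 2) (co.coprime_dvd_left (O.orderOf_dvd_natCard hg)) ?_, a1 hg⟩
      obtain ⟨k, hk, e⟩ := ex_pow o4 ((mem_normalizer_iff.1 (a1 hg).1 _).1 (mem_zpowers _))
      have h3 : g ^ 2 * b ^ 4 * (g ^ 2)⁻¹ = (b ^ 4) ^ (k * k) := by
        rw [pow_mul (b ^ 4), e, conj_pow, e]; simp only [sq, mul_inv_rev, mul_assoc]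
      rw [mem_centralizer_singleton_iff, ← mul_inv_eq_iff_eq_mul, h3]
      interval_cases k
      · rw [pow_zero, eq_comm, conj_eq_one_iff] at e
        rw [e, one_pow]
      · exact pow_one _
      · rw [show 2 * 2 = 3 + 1 from rfl, pow_succ, ← o4, pow_orderOf_eq_one, one_mul]
    refine fun g hg => ((eq_of_le_of_card_ge (inf_le_right : centralizer {b ^ 4} ⊓ C ≤ C) ?_).ge hg).1
    rw [a3]
    refine Nat.le_of_dvd Nat.card_pos ((co.pow_right 2).mul_dvd_of_dvd_of_dvd (card_dvd_of_le h2) ?_)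
    exact o3.symm.dvd.trans (Subgroup.orderOf_dvd_natCard _ (h0 (pow_mem (mem_zpowers b) 3)))
  · have h2 : O ⊓ zpowers b ≤ zpowers (b ^ 4) := by
      refine (eq_of_le_of_card_ge (zpowers_le.2 (mem_inf.2 ⟨a6, pow_mem (mem_zpowers b) 4⟩)) ?_).ge
      have h3 := card_dvd_of_le (inf_le_right : O ⊓ zpowers b ≤ _)
      rw [Nat.card_zpowers, ob] at h3
      rw [Nat.card_zpowers, o4]
      exact Nat.le_of_dvd (by norm_num) (((co.coprime_dvd_left (card_dvd_of_le inf_le_left)).pow_right 2).dvd_of_dvd_mul_left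
        (show _ ∣ 2 ^ 2 * 3 from h3))
    have h4 := Grp.card_dvd_card_of_conj_free (zpowers (b ^ 3)) ((R : Set G) \ zpowers (b ^ 4))
      (fun h hh x hx => ⟨(mem_normalizer_iff.1 (zpowers_le.2 r3 hh) x).1 hx.1,
        fun e => hx.2 ((mem_normalizer_iff.1 (h1.le hh).1 x).2 e)⟩)
      (fun h hh x hx e => by
        by_contra hn
        refine hx.2 (h2 ⟨r1 hx.1, star ob hs (a1 (r1 hx.1)).2 (a1 (r1 hx.1)).1 ?_⟩)
        have c : Commute h x := mul_inv_eq_iff_eq_mul.1 e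
        obtain ⟨k, hk, rfl⟩ := ex_pow o3 hh
        refine mul_inv_eq_iff_eq_mul.2 (Commute.eq (Commute.symm ?_))
        interval_cases k
        · exact absurd (pow_zero _) hn
        · simpa only [← pow_mul] using c.pow_left 2
        · simpa only [← pow_mul] using c
        · have := c.pow_left 2
          rwa [← pow_mul, ← pow_mul, show 3 * (3 * 2) = 12 + 6 from rfl, pow_add, ← ob, pow_orderOf_eq_one,
            one_mul] at this)
    have h5 := card_diff (zpowers_le.2 r2)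
    rw [Nat.card_zpowers, o3] at h4
    rw [Nat.card_zpowers, o4] at h5
    omega

end Twelve

variable [IsSimpleGroup G] (J : JM G)
include J

theorem card_cent3 {y : G} (oy : orderOf y = 3) : Nat.card (centralizer ({y} : Set G)) ∣ 443520 * 6 := by
  have h : centralizer {J.p} = J.Cp := (inf_of_le_right J.cent_p).symm
  rw [← Big.card_cent_of_isConj (J.isConj_p oy), h, J.card_of_le_Np J.zp_mem_K0 J.K0_le_K,
    ← card_fixS_two duad0_card]
  refine mul_dvd_mul_right (card_dvd_of_le fun x hx => ?_) 6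
  obtain ⟨g, hg, _, rfl⟩ := J.mem_im.1 hx
  exact HM.π_mem_of_K0 hg

theorem card6' {i c : G} (oi : orderOf i = 2) (h : Commute J.p i) (hc : Commute c J.p) (hn : ¬ Commute c i) :
    Nat.card (normalizer (zpowers (J.p * i) : Set G)) ≤ 4608 := by
  have hi : i ∈ J.Cp := ⟨J.cent_p (mem_centralizer_singleton_iff.2 h.symm), mem_centralizer_singleton_iff.2 h.symm⟩
  have hz : i ≠ J.z := fun e => hn (e ▸ J.mem_H.1 (J.cent_p (mem_centralizer_singleton_iff.2 hc)))
  have h2 : i ^ 2 = 1 := oi ▸ pow_orderOf_eq_one i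
  have i1 : i ≠ 1 := fun e => by rw [e, orderOf_one] at oi; cases oi
  have e4 : (J.p * i) ^ 4 = J.p := by
    rw [h.mul_pow, show 4 = 2 * 2 from rfl, pow_mul i, h2, show 2 * 2 = 3 + 1 from rfl, pow_succ, J.p3]; simp
  have e3 : (J.p * i) ^ 3 = i := by rw [h.mul_pow, J.p3, pow_succ, h2]; simp
  have h3 : J.π ⟨i, hi.1⟩ ≠ 1 := fun e => by
    obtain ⟨a, b, e⟩ := HM.ker_K (J.K0_le_K hi) e
    have c3 : Commute J.p J.z := J.mem_H.1 J.rp.mem
    have h4 : i ^ 3 = J.z ^ (b * 3) := by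
      rw [e, (c3.pow_pow a b).mul_pow, ← pow_mul, mul_comm a, pow_mul, J.p3, one_pow, one_mul, ← pow_mul]
    rw [pow_succ, h2, one_mul] at h4
    rcases J.zp_cases (b * 3) with e' | e'
    · exact i1 (h4.trans e')
    · exact hz (h4.trans e')
  obtain ⟨a, ha, h4⟩ := exists_conj_a0 (fixS_duad0 ▸ HM.π_mem_of_K0 hi) (orderOf_eq_prime (by
    rw [← map_pow]; exact (congrArg J.π (Subtype.ext h2)).trans (map_one _)) h3)
  have h5 : normalizer (zpowers (J.p * i) : Set G) ≤ J.Np ⊓ centralizer {i} := fun g hg => by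
    obtain ⟨k, hk⟩ := (mem_normalizer_iff.1 hg _).1 (mem_zpowers _)
    have h6 : g ∈ normalizer (zpowers J.p : Set G) := mem_norm_zpowers ⟨k, by
      show J.p ^ k = _
      rw [← e4, ← conj_pow, ← hk]; group⟩
    refine ⟨⟨J.norm_P h6, h6⟩, mem_centralizer_singleton_iff.2 ?_⟩
    have h7 : g * i * g⁻¹ ∈ zpowers i := ⟨k, by
      show i ^ k = _
      rw [← e3, ← conj_pow, ← hk]; group⟩
    exact mul_inv_eq_iff_eq_mul.1 (eq_of_zp2 oi h7 ((ord_conj g i).trans oi))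
  refine (card_le_of_le h5).trans ?_
  rw [J.card_of_le_Np (le_inf (J.zp_mem_K0.trans J.K0_le_K) (zpowers_le.2 (mem_centralizer_singleton_iff.2
    ((show Commute J.z i from (J.mem_H.1 hi.1).symm).mul_left h)))) inf_le_left, ← card_map_conj _ a]
  refine (Nat.mul_le_mul_right 6 (card_le_of_le ?_)).trans (by rw [chainC.card_eq]; decide +kernel)
  rintro _ ⟨x, hx, rfl⟩
  obtain ⟨g, hg, hg', rfl⟩ := J.mem_im.1 hx
  refine ⟨(stabilizer M24 duad0).mul_mem (mul_mem ha (J.π_mem _)) (inv_mem ha), mem_centralizer_singleton_iff.2 ?_⟩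
  have h8 : J.π ⟨g, hg'⟩ * J.π ⟨i, hi.1⟩ = J.π ⟨i, hi.1⟩ * J.π ⟨g, hg'⟩ := by
    rw [← map_mul, ← map_mul]; exact congrArg J.π (Subtype.ext (mem_centralizer_singleton_iff.1 hg.2))
  show a * _ * a⁻¹ * _ = _ * (a * _ * a⁻¹)
  rw [← h4, conj_mul, conj_mul, h8]

/-- The normaliser of a cyclic group of order six whose involution is not central in the centraliser of the element of
order three. -/
theorem card6 {y i c : G} (oy : orderOf y = 3) (oi : orderOf i = 2) (h : Commute y i) (hc : Commute c y)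
    (hn : ¬ Commute c i) : Nat.card (normalizer (zpowers (y * i) : Set G)) ≤ 4608 := by
  obtain ⟨a, ha⟩ := isConj_iff.1 (J.isConj_p oy)
  have := card6' J (i := a * i * a⁻¹) (c := a * c * a⁻¹) ((ord_conj a i).trans oi) (ha ▸ h.map (MulAut.conj a))
    (ha ▸ hc.map (MulAut.conj a)) fun e => hn (Commute.of_map (MulAut.conj a).injective e)
  rwa [← ha, conj_mul, show zpowers (a * (y * i) * a⁻¹) = cj a (zpowers (y * i)) from
    (MonoidHom.map_zpowers (MulAut.conj a).toMonoidHom _).symm, normalizer_cj, card_cj] at this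

/-- Subgroups of order 27. -/
theorem r27 {R : Subgroup G} (h : Nat.card R = 27) : SylIn 3 R ⊤ ∧ Nat.card (normalizer (R : Set G)) = 864 ∧
    Nat.card (center R) = 3 := by
  haveI := Fact.mk Nat.prime_three
  have h1 : SylIn 3 R ⊤ := J.sylIn_R27.of_card_le (IsPGroup.of_card (n := 3) h) le_top (by rw [h, J.card_R27])
  obtain ⟨a, -, e⟩ := h1.exists_map_conj_eq J.sylIn_R27
  refine ⟨h1, ?_, ?_⟩
  · rw [← e, normalizer_cj, card_cj, J.card_norm_R27]
  · obtain ⟨φ⟩ := cj_equiv a J.R27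
    exact e ▸ (Grp.extra_of_mulEquiv J.R27_extra.1 φ).2

/-- A normal 3-complement and the order 37 exclude the prime 7. -/
theorem not7 {K : Subgroup G} (h3 : ¬ 3 ∣ Nat.card K) (h37 : 37 ∣ Nat.card K) : ¬ 7 ∣ Nat.card K := fun h7 => by
  haveI : Fact (Nat.Prime 7) := ⟨by norm_num⟩
  obtain ⟨s, hs⟩ := exists_prime_orderOf_dvd_card' 7 h7
  rw [← orderOf_coe] at hs
  obtain ⟨h1, -, h2, -⟩ := J.toNM.seven (zpowers (s : G)) ((Nat.card_zpowers _).trans hs)
  refine absurd (dvd_of_nc J (r := 37) (e := 12) (by decide) (by norm_num) h37 s.2 hs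
    (fun d => h1 (d.trans (card_subgroup_dvd_card K))) fun g hg e => ?_) (by norm_num)
  have h4 : ((centralizer (zpowers (s : G) : Set G)).subgroupOf (normalizer (zpowers (s : G) : Set G))).index = 3 := by
    have := Grp.card_mul_relIndex (centralizer_le_normalizer (zpowers (s : G) : Set G))
    rw [h2, mul_comm 3] at this
    exact Nat.eq_of_mul_eq_mul_left Nat.card_pos this
  have h5 := pow_index_mem ((centralizer (zpowers (s : G) : Set G)).subgroupOf (normalizer (zpowers (s : G) : Set G)))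
    ⟨g, mem_norm_zpowers e⟩
  rw [h4] at h5
  exact (El.mem_of_pow (K := centralizer (zpowers (s : G) : Set G)) (n := 3) (((Nat.Prime.coprime_iff_not_dvd
    Nat.prime_three).2 h3).symm.coprime_dvd_left (K.orderOf_dvd_natCard hg)) h5 _ (mem_zpowers _)).symm

variable {W : Subgroup G} {b : G} (ob : orderOf b = 12)
  (hs : ∀ g ∈ W, g ∈ normalizer (zpowers (b ^ 2) : Set G) → g ∈ zpowers b) (hb : b ∈ W)
include ob hs hb

/-- The case of a Sylow 3-subgroup of order three. -/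
theorem case3 (h37 : 37 ∣ Nat.card W) (h9 : ¬ 9 ∣ Nat.card W) : ¬ 7 ∣ Nat.card W ∧ ¬ 31 ∣ Nat.card W ∧
    Nat.gcd (Nat.card W) 1331 % 3 = 1 ∧ (5 ∣ Nat.card W → Nat.card W / 60 % 3 = 1) := by
  haveI := Fact.mk Nat.prime_three
  obtain ⟨O, a1, a2, a3, a4, a5, -, a7, a8⟩ := exO ob hs hb
  have o4 : orderOf (b ^ 4) = 3 := ord_pow ob (by norm_num) (by norm_num)
  have hy := W.pow_mem hb 4
  have hN : ∀ g ∈ W, g * b ^ 4 * g⁻¹ ∈ zpowers (b ^ 4) → g * b ^ 4 = b ^ 4 * g := fun g hg e =>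
    mem_centralizer_singleton_iff.1 (a7 ⟨mem_norm_zpowers e, hg⟩)
  have hS : SylIn 3 (zpowers (b ^ 4)) W := sylIn_of_not_dvd (zpowers_le.2 hy)
    (IsPGroup.of_card (n := 1) ((Nat.card_zpowers _).trans o4)) fun d => h9 (by
      rw [← Grp.card_mul_relIndex (zpowers_le.2 hy), Nat.card_zpowers, o4]; exact mul_dvd_mul_left 3 d)
  have h7 : ¬ 7 ∣ Nat.card W := by
    obtain ⟨K, -, -, k1, k2, -⟩ := burn hS fun g hg h x ⟨k, e⟩ =>
      e ▸ (Commute.zpow_left (hN g hg ((mem_normalizer_iff.1 h _).1 (mem_zpowers _))).symm k).eq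
    rw [k1, Nat.card_zpowers, o4] at h37 ⊢
    exact fun d => not7 J k2 (Nat.Coprime.dvd_of_dvd_mul_right (by norm_num) h37)
      (Nat.Coprime.dvd_of_dvd_mul_right (by norm_num) d)
  have hO : Nat.card O = 3 ∨ Nat.card O = 15 := by
    have b1 := card_dvd_of_le (a1.trans inf_le_right)
    have b2 : Nat.card O ∣ 2 ^ 8 * 10395 := (card_dvd_of_le (a1.trans a7)).trans (card_cent3 J o4)
    have b3 := (((Nat.Prime.coprime_iff_not_dvd Nat.prime_two).2 a3).symm.pow_right 8).dvd_of_dvd_mul_left b2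
    exact (by decide +kernel : ∀ o ∈ Nat.divisors 10395, o % 4 = 3 → 3 ∣ o → ¬ 9 ∣ o → ¬ 7 ∣ o → o = 3 ∨ o = 15) _
      (Nat.mem_divisors.2 ⟨b3, by norm_num⟩) (a8 O le_rfl a4 a5) (o4 ▸ O.orderOf_dvd_natCard a4)
      (fun d => h9 (d.trans b1)) fun d => h7 (d.trans b1)
  have hC : centralizer {b ^ 4} ⊓ W = normalizer (zpowers (b ^ 4) : Set G) ⊓ W :=
    le_antisymm (inf_le_inf_right _ (cent_zpowers (b ^ 4) ▸ centralizer_le_normalizer _)) (le_inf a7 inf_le_right)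
  refine ⟨h7, fun d => absurd (dvd_of_nc J (r := 31) (e := 10) (by decide) (by norm_num) d hy o4 h9 hN) (by norm_num),
    ?_, fun d => ?_⟩
  · by_cases d : 11 ∣ Nat.card W
    · haveI : Fact (Nat.Prime 11) := ⟨by norm_num⟩
      obtain ⟨X, hX⟩ := exists_sylIn 11 W
      obtain ⟨c, c1, c2, c3⟩ := nc_mod (by norm_num) hy o4 h9 hN hX
      rw [(t11 J hX d).1] at c1 c3
      rw [hC, a2] at c2
      have c4 : c ∣ Nat.gcd 1331 60 := Nat.dvd_gcd (c1.trans (Nat.gcd_dvd_right _ _))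
        (c2.trans (by rcases hO with e | e <;> rw [e]; norm_num))
      rw [Nat.dvd_one.1 c4] at c3
      exact c3
    · rw [(((Nat.Prime.coprime_iff_not_dvd (by norm_num)).2 d).symm.pow_right 3 : Nat.gcd _ 1331 = 1)]
  · haveI := Fact.mk Nat.prime_five
    obtain ⟨X, hX⟩ := exists_sylIn 5 W
    obtain ⟨c, c1, c2, c3⟩ := nc_mod (by norm_num) hy o4 h9 hN hX
    have x1 : Nat.card X = 5 := by
      obtain ⟨k, hk⟩ := IsPGroup.iff_card.1 hX.isPGroup
      have x2 := card_dvd J X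
      have x3 := hX.not_dvd_relIndex
      rw [← Grp.card_mul_relIndex hX.le] at d
      rw [hk] at x2 d ⊢
      rcases k with _ | _ | k
      · exact absurd (by simpa using d) x3
      · rfl
      · exact absurd ((pow_dvd_pow 5 (by omega : 2 ≤ k + 1 + 1)).trans x2) (by norm_num)
    rw [x1] at c1 c3
    rw [hC, a2] at c2
    obtain ⟨m, m1, m2⟩ := count hS
    rcases (Nat.dvd_prime Nat.prime_five).1 c1 with rfl | rfl
    · exact absurd c3 (by decide)
    rcases hO with e | e <;> rw [e] at c2 a2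
    · exact absurd c2 (by norm_num)
    · rw [m1, a2]; omega

/-- The case of a Sylow 3-subgroup of larger order. -/
theorem case9 (h9 : 9 ∣ Nat.card W) : 27 ∣ Nat.card W ∧ Nat.card W / 108 % 3 = 1 := by
  haveI := Fact.mk Nat.prime_three
  obtain ⟨O, a1, a2, a3, a4, a5, a6, a7, a8⟩ := exO ob hs hb
  have o3 : orderOf (b ^ 3) = 4 := ord_pow ob (by norm_num) (by norm_num)
  have o4 : orderOf (b ^ 4) = 3 := ord_pow ob (by norm_num) (by norm_num)
  have c4 := (Nat.card_zpowers _).trans o4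
  have co : (Nat.card O).Coprime 2 := ((Nat.Prime.coprime_iff_not_dvd Nat.prime_two).2 a3).symm
  obtain ⟨R, r1, r2, r3⟩ := Grp.exists_isSylowIn_ge_le_normalizer (p := 3) (zpowers_le.2 a5)
    (by rw [Nat.card_zpowers, o3]; exact co.symm.pow_left 2) (Or.inl inferInstance) (zpowers_le.2 a4)
    (IsPGroup.of_card (n := 1) c4) (zpowers_le.2 (mem_norm_zpowers (by
      rw [show b ^ 3 * b ^ 4 * (b ^ 3)⁻¹ = b ^ 4 by group]; exact mem_zpowers _)))
  have r4 := a8 R r1.le (r2 (mem_zpowers _)) (r3 (mem_zpowers _))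
  have r5 : Nat.card R = 27 := by
    obtain ⟨k, hk⟩ := IsPGroup.iff_card.1 r1.2.1
    have x2 := card_dvd J R
    rw [hk] at x2 r4
    rcases k with _ | _ | _ | _ | k
    · cases r4
    · have e := eq_of_le_of_card_ge r2 (by rw [hk, c4]; rfl)
      have h1 : SylIn 3 (zpowers (b ^ 4)) W := by
        refine syl_of_norm (B := normalizer (zpowers (b ^ 4) : Set G) ⊓ W) (sylIn_of_not_dvd (r2.trans (r1.le.trans a1))
          (e ▸ r1.2.1) fun d => r1.2.2 ?_) (zpowers_le.2 (W.pow_mem hb 4)) fun g h1 h2 => ⟨h2, h1⟩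
        rw [← relIndex_mul_relIndex _ O _ (r2.trans r1.le) a1] at d
        refine e ▸ ((Nat.Prime.dvd_mul Nat.prime_three).1 d).resolve_right ?_
        rw [Nat.eq_of_mul_eq_mul_left Nat.card_pos ((Grp.card_mul_relIndex a1).trans a2)]
        norm_num
      rw [← Grp.card_mul_relIndex h1.le, c4] at h9
      exact absurd (Nat.dvd_of_mul_dvd_mul_left (by norm_num) (show 3 * 3 ∣ 3 * _ from h9)) h1.not_dvd_relIndex
    · cases r4
    · exact hk
    · exact absurd ((pow_dvd_pow 3 (by omega : 4 ≤ k + 1 + 1 + 1 + 1)).trans x2) (by norm_num)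
  obtain ⟨s1, s2, s3⟩ := r27 J r5
  have hRW : R ≤ W := r1.le.trans (a1.trans inf_le_right)
  have hz : zpowers (⟨⟨_, r2 (mem_zpowers _)⟩, mem_center_iff.2 fun g => Subtype.ext
      (mem_centralizer_singleton_iff.1 (a7 (a1 (r1.le g.2))))⟩ : center R) = ⊤ :=
    eq_top_of_card_eq _ (by rw [Nat.card_zpowers, s3, ← orderOf_coe, ← orderOf_coe, o4])
  have h2 : normalizer (R : Set G) ⊓ W ≤ normalizer (zpowers (b ^ 4) : Set G) ⊓ W := inf_le_inf_right _ fun g hg => by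
    obtain ⟨k, hk⟩ := hz.ge (mem_top ⟨⟨_, (mem_normalizer_iff.1 hg _).1 (r2 (mem_zpowers _))⟩,
      mem_center_iff.2 fun x => Subtype.ext (by
        have := mem_centralizer_singleton_iff.1 (a7 (a1 (r1.le ((mem_normalizer_iff.1 (inv_mem hg) _).1 x.2))))
        show x * (g * b ^ 4 * g⁻¹) = g * b ^ 4 * g⁻¹ * x
        calc _ = g * (g⁻¹ * x * g⁻¹⁻¹ * b ^ 4) * g⁻¹ := by group
          _ = _ := by rw [this]; group)⟩)
    exact mem_norm_zpowers ⟨k, congrArg (fun u : center R => ((u : R) : G)) hk⟩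
  have h3 : Nat.card ↥(normalizer (R : Set G) ⊓ W) = 108 := by
    have b2 : Nat.card O ∣ 2 ^ 8 * 10395 := (card_dvd_of_le (a1.trans a7)).trans (card_cent3 J o4)
    refine Nat.dvd_antisymm (Nat.dvd_gcd (s2 ▸ card_dvd_of_le inf_le_left) ((card_dvd_of_le h2).trans
      (a2 ▸ mul_dvd_mul_right ((co.pow_right 8).dvd_of_dvd_mul_left b2) 4)) : _ ∣ Nat.gcd 864 (10395 * 4)) ?_
    exact Nat.Coprime.mul_dvd_of_dvd_of_dvd (by norm_num : Nat.Coprime 27 4)
      (r5 ▸ card_dvd_of_le (le_inf le_normalizer hRW))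
      (o3.symm.dvd.trans (Subgroup.orderOf_dvd_natCard _ (mem_inf.2 ⟨r3 (mem_zpowers _), W.pow_mem hb 3⟩)))
  obtain ⟨m, m1, m2⟩ := count (s1.mono hRW le_top)
  exact ⟨r5 ▸ card_dvd_of_le hRW, by rw [m1, h3]; omega⟩

omit J [IsSimpleGroup G] in
/-- The order `8 · 27 · 5 · 7 · 37` does not occur. -/
theorem not279720 : Nat.card W ≠ 279720 := fun hn => by
  haveI := Fact.mk Nat.prime_three
  have o3 : orderOf (b ^ 3) = 4 := ord_pow ob (by norm_num) (by norm_num)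
  have o4 : orderOf (b ^ 4) = 3 := ord_pow ob (by norm_num) (by norm_num)
  have c3 := (Nat.card_zpowers _).trans o3
  set C := normalizer (zpowers (b ^ 3) : Set G) ⊓ W
  have h0 : zpowers b ≤ C := zpowers_le.2
    ⟨mem_norm_zpowers (by rw [show b * b ^ 3 * b⁻¹ = b ^ 3 by group]; exact mem_zpowers _), hb⟩
  have h1 : SylIn 3 (zpowers (b ^ 4)) C :=
    syl_of_norm (syl3 ob) ((syl3 ob).le.trans h0) fun g hg h => star' ob hs hg.2 h hg.1
  obtain ⟨Q, hQ, q1⟩ := exists_sylIn_le (syl2 ob).isPGroup ((syl2 ob).le.trans h0)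
  have q2 : Nat.card Q = 8 := by
    obtain ⟨k, hk⟩ := IsPGroup.iff_card.1 hQ.isPGroup
    have x1 := card_dvd_of_le q1
    have x2 := card_dvd_of_le (hQ.le.trans inf_le_right)
    rw [hn] at x2
    rw [c3] at x1
    rw [hk] at x1 x2
    rcases k with _ | _ | _ | _ | k
    · cases (by simpa using x1 : False)
    · cases (by simpa using x1 : False)
    · have e := eq_of_le_of_card_ge q1 (by rw [hk, c3]; rfl)
      have h2 : SylIn 2 (zpowers (b ^ 3)) W :=
        syl_of_norm (B := C) (e ▸ hQ) (zpowers_le.2 (W.pow_mem hb 3)) fun g h1 h2 => ⟨h2, h1⟩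
      have h3 := Grp.card_mul_relIndex h2.le
      rw [c3, hn] at h3
      exact absurd (by omega) h2.not_dvd_relIndex
    · exact hk
    · exact absurd ((pow_dvd_pow 2 (by omega : 4 ≤ k + 1 + 1 + 1 + 1)).trans x2) (by norm_num)
  obtain ⟨g, hg, h4⟩ := nc (q := 3) (r := 2) (by norm_num) (h1.le (mem_zpowers _)) o4 (fun d => h1.not_dvd_relIndex (by
    rw [← Grp.card_mul_relIndex h1.le, Nat.card_zpowers, o4] at d
    exact Nat.dvd_of_mul_dvd_mul_left (by norm_num) (show 3 * 3 ∣ 3 * _ from d))) (fun g hg e => by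
      obtain ⟨k, rfl⟩ := star' ob hs hg.2 (mem_norm_zpowers e) hg.1
      group) hQ
  have h5 := El.card_mod Nat.prime_three (g := g * b ^ 4 * g⁻¹)
    (by rw [conj_pow, ← o4, pow_orderOf_eq_one]; group) fun x hx => (h4 x).1 hx
  have h6 : zpowers (b ^ 3) ≤ Q ⊓ centralizer {g * b ^ 4 * g⁻¹} := fun x hx => mem_inf.2 ⟨q1 hx, by
    obtain ⟨k, hk⟩ := (syl2 ob).le ((mem_normalizer_iff.1 (inv_mem hg.1) x).1 hx)
    rw [mem_centralizer_singleton_iff, show x = g * b ^ k * g⁻¹ by simp only at hk; rw [hk]; group]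
    group⟩
  have h7 : cj g⁻¹ (Q ⊓ centralizer {g * b ^ 4 * g⁻¹}) ≤ zpowers b := by
    rintro _ ⟨x, ⟨x1, x2⟩, rfl⟩
    have x3 : g⁻¹ * x * g⁻¹⁻¹ ∈ C := mul_mem (mul_mem (inv_mem hg) (hQ.le x1)) (inv_mem (inv_mem hg))
    refine star' ob hs x3.2 (mem_norm_zpowers ?_) x3.1
    show g⁻¹ * x * g⁻¹⁻¹ * b ^ 4 * (g⁻¹ * x * g⁻¹⁻¹)⁻¹ ∈ _
    rw [show g⁻¹ * x * g⁻¹⁻¹ * b ^ 4 * (g⁻¹ * x * g⁻¹⁻¹)⁻¹ = g⁻¹ * (x * (g * b ^ 4 * g⁻¹)) * x⁻¹ * g by group,
      mem_centralizer_singleton_iff.1 x2, show g⁻¹ * (g * b ^ 4 * g⁻¹ * x) * x⁻¹ * g = b ^ 4 by group]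
    exact mem_zpowers _
  have h8 := card_dvd_of_le h7
  have h9 := card_dvd_of_le h6
  have h10 := card_dvd_of_le (inf_le_left : Q ⊓ centralizer {g * b ^ 4 * g⁻¹} ≤ Q)
  rw [card_cj, Nat.card_zpowers, ob] at h8
  rw [c3] at h9
  rw [q2] at h5 h10
  rw [Nat.dvd_antisymm (Nat.dvd_gcd h10 h8 : _ ∣ Nat.gcd 8 12) h9] at h5
  exact absurd h5 (by decide)

omit ob hs hb in
/-- In a proper overgroup of the normaliser `37 : 12`, the normaliser of the cyclic subgroup of order six grows. -/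
theorem thm37 (h29 : MaxP G 29) (P : Sylow 37 G) {b : G} (hb : b ∈ normalizer ((P : Subgroup G) : Set G))
    (ob : orderOf b = 12) {W : Subgroup G} (h : normalizer ((P : Subgroup G) : Set G) < W) (hT : W ≠ ⊤) :
    ∃ g ∈ W, g ∈ normalizer (zpowers (b ^ 2) : Set G) ∧ g ∉ zpowers b := by
  by_contra hn
  have hs : ∀ g ∈ W, g ∈ normalizer (zpowers (b ^ 2) : Set G) → g ∈ zpowers b := fun g h1 h2 =>
    by_contra fun h3 => hn ⟨g, h1, h2, h3⟩
  obtain ⟨f1, f2⟩ := full_mem J (r := 37) (e := 12) (by decide) P h.le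
  have h37 : 37 ∣ Nat.card W := (Dvd.intro _ rfl).trans f1
  obtain ⟨-, a1, a2⟩ := (ar37 (card_dvd J W) (ok_card J W) f1 f2).resolve_left fun e => hT (eq_top J e)
  by_cases h9 : 9 ∣ Nat.card W
  · obtain ⟨c1, c2⟩ := case9 J ob hs (h.le hb) h9
    rcases a2 c1 c2 with e | ⟨e1, e2⟩ | ⟨e1, e2⟩ | ⟨e1, e2⟩
    · exact not279720 ob hs (h.le hb) e
    · exact absurd (not_one J (r := 37) (e := 12) (by decide) (by decide) (by norm_num) e1 h37 e2) (by norm_num)
    · exact absurd (not_one J (r := 37) (e := 12) (by decide) (by decide) (by norm_num) e1 h37 e2) (by norm_num)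
    · exact hT (top_of_full J (by decide) h29 e1 e2 fun e => absurd (e ▸ h37) (by norm_num))
  · obtain ⟨c1, c2, c3, c4⟩ := case3 J ob hs (h.le hb) h37 h9
    exact h.ne (eq_of_le_of_card_ge h.le (by
      rw [a1 h9 c1 c2 c3 c4, (loc J (r := 37) (e := 12) (by decide) P).2.2]))

end CL.J4X
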