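/-
Maximal subgroups of a group of Janko-four type: the 2-local subgroups `H`, `N(V)`, `N(L)` and the
prime seven step for the Sylow 29- and 43-normalisers.
-/
import Cfsg.Agent.Spor.J4X1

set_option autoImplicit false

namespace CL.J4X

open Cfsg Subgroup CL.J4 CL.Fus CL.Mx

variable {G : Type*} [Group G] [Finite G]

theorem card_ne_of_lt {X W : Subgroup G} (h : X < W) : Nat.card W ≠ Nat.card X := fun e =>
  h.ne (eq_of_le_of_card_ge h.le e.le)

/-- the Sylow count when the whole normaliser lies in `W` -/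
theorem count_le {p a : ℕ} [Fact p.Prime] {X W : Subgroup G} (h : SylIn p X W) (hN : normalizer (X : Set G) ≤ W)
    (ha : Nat.card (normalizer (X : Set G)) = a) : Nat.card W / a % p = 1 := by
  obtain ⟨m, h1, h2⟩ := count h
  rw [inf_of_le_left hN, ha] at h1
  rwa [h1, Nat.mul_div_cancel_left _ (ha ▸ Nat.card_pos)]

variable [IsSimpleGroup G] (J : JM G)

theorem thmH (h37 : MaxP G 37) {W : Subgroup G} (h : J.H < W) : W = ⊤ := by
  haveI := Fact.mk Nat.prime_three
  have hd : 21799895040 ∣ Nat.card W := J.card_H ▸ card_dvd_of_le h.le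
  rcases arH (card_dvd J W) (ok_card J W) hd with e | e | e | ⟨h1, h2⟩
  · exact absurd (e.trans J.card_H.symm) (card_ne_of_lt h)
  · exact eq_top J e
  · have hS : SylIn 3 J.R27 W := ⟨le_normalizer.trans (J.norm_R27.trans h.le), J.sylIn_R27.isPGroup,
      fun Z hZ h1 _ => J.sylIn_R27.2.2 Z hZ h1 le_top⟩
    have := count_le hS (J.norm_R27.trans h.le) J.card_norm_R27
    rw [e] at this
    norm_num at this
  · exact top_of_full J (r := 37) (e := 12) (by decide) h37 h1 h2 fun e => by
      rw [e] at hd; norm_num at hd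

include J in
theorem thmV (h37 : MaxP G 37) {V W : Subgroup G} (hV : IsElementaryAbelian 2 V) (hc : Nat.card V = 2 ^ 11)
    (h : normalizer (V : Set G) < W) : W = ⊤ := by
  obtain ⟨g, rfl⟩ := J.uniqG V hV hc
  have hN : Nat.card (normalizer ((J.V.map (MulAut.conj g).toMonoidHom : Subgroup G) : Set G)) = 501397585920 := by
    rw [← map_equiv_normalizer_eq, card_map_of_injective (MulAut.conj g).injective]
    exact J.card_N
  have hd : 501397585920 ∣ Nat.card W := hN ▸ card_dvd_of_le h.le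
  rcases arV (card_dvd J W) (ok_card J W) hd with e | e | ⟨h1, h2⟩
  · exact absurd (e.trans hN.symm) (card_ne_of_lt h)
  · exact eq_top J e
  · exact top_of_full J (r := 37) (e := 12) (by decide) h37 h1 h2 fun e => by
      rw [e] at hd; norm_num at hd

theorem thmK {W : Subgroup G} (h : normalizer (J.L : Set G) < W) : W = ⊤ := by
  haveI := Fact.mk Nat.prime_five
  haveI : Fact (Nat.Prime 7) := ⟨by norm_num⟩
  rw [J.normalizer_L] at h
  have hM : Nat.card J.M3 = 660602880 := J.card_M3.1
  have c5 : Nat.card (zpowers J.g5) = 5 := (Nat.card_zpowers _).trans J.orderOf_g5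
  have c7 : Nat.card (zpowers J.σ) = 7 := (Nat.card_zpowers _).trans J.orderOf_σ
  have n5 := J.norm_g5_le.trans h.le
  have n7 := J.norm_σ_le.trans h.le
  have h5 := count_le (sylIn_prime Nat.prime_five c5 (le_normalizer.trans n5)
    fun d => J.not_dvd_25 (d.trans (card_subgroup_dvd_card W))) n5 (J.five _ c5).2.2.2.1
  have h7 := count_le (sylIn_prime (by norm_num) c7 (le_normalizer.trans n7)
    fun d => J.not_dvd_49 (d.trans (card_subgroup_dvd_card W))) n7 J.card_norm_σ
  rcases arK (card_dvd J W) (ok_card J W) (hM ▸ card_dvd_of_le h.le) h5 h7 with e | e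
  · exact absurd (e.trans hM.symm) (card_ne_of_lt h)
  · exact eq_top J e

include J in
theorem thm7 {r e : ℕ} (hr : (r, e) = (29, 28) ∨ (r, e) = (43, 14)) (P : Sylow r G) {b : G}
    (hb : b ∈ normalizer ((P : Subgroup G) : Set G)) (ob : orderOf b = e) {W : Subgroup G}
    (h : normalizer ((P : Subgroup G) : Set G) < W) (hT : W ≠ ⊤) :
    ∃ g ∈ W, g ∈ normalizer (zpowers (b ^ (e / 7)) : Set G) ∧ g ∉ zpowers b := by
  haveI := Fact.mk Nat.prime_three
  haveI : Fact (Nat.Prime 7) := ⟨by norm_num⟩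
  by_contra hc
  push Not at hc
  have hL : (r, e) ∈ L5 := by rcases hr with q | q <;> rw [q] <;> decide
  have he : e = 28 ∨ e = 14 := hr.imp (congrArg Prod.snd) (congrArg Prod.snd)
  have os : orderOf (b ^ (e / 7)) = 7 := by
    rw [orderOf_pow, ob]
    rcases he with q | q <;> rw [q] <;> norm_num
  set s := b ^ (e / 7)
  have hbW : b ∈ W := h.le hb
  have hsW : s ∈ W := W.pow_mem hbW _
  have h49 : ¬ 7 ^ 2 ∣ Nat.card W := fun d => J.not_dvd_49 (d.trans (card_subgroup_dvd_card W))
  have hcm : ∀ g ∈ zpowers b, g * s = s * g := by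
    rintro _ ⟨k, rfl⟩
    exact ((Commute.refl b).zpow_left k).pow_right _
  have hN : normalizer (zpowers s : Set G) ⊓ W = zpowers b :=
    le_antisymm (fun g hg => hc g hg.2 hg.1) fun g hg =>
      ⟨mem_norm_zpowers (by rw [hcm g hg, mul_inv_cancel_right]; exact mem_zpowers s), zpowers_le.2 hbW hg⟩
  have hcb : Nat.card (zpowers b) = e := (Nat.card_zpowers _).trans ob
  obtain ⟨m, h1, h2⟩ := count (sylIn_prime (by norm_num) ((Nat.card_zpowers _).trans os) (zpowers_le.2 hsW) h49)
  rw [hN, hcb] at h1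
  have h3 : Nat.card W / e % 7 = 1 := by rwa [h1, Nat.mul_div_cancel_left _ (hcb ▸ Nat.card_pos)]
  obtain ⟨h4, h5⟩ := full_mem J hL P h.le
  have h6 : Nat.card W = r * e ∨ 3 ∣ Nat.card W := by
    rcases hr with q | q <;> obtain ⟨rfl, rfl⟩ := Prod.mk.inj q
    · exact ((ar29 (card_dvd J W) (ok_card J W) h4 h5).resolve_left fun e => hT (eq_top J e)).1 h3
    · exact ((ar43 (card_dvd J W) (ok_card J W) h4 h5).resolve_left fun e => hT (eq_top J e)).1 h3
  rcases h6 with h6 | h6
  · exact card_ne_of_lt h (h6.trans (loc J hL P).2.2.symm)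
  obtain ⟨R, hR⟩ := exists_sylIn 3 W
  obtain ⟨c, c1, c2, c3⟩ := nc_mod (q := 7) (r := 3) (by norm_num) hsW os h49
    (fun g hg e => hcm g (hc g hg (mem_norm_zpowers e))) hR
  have c4 : c ∣ e := c2.trans (hcb ▸ hN ▸ card_dvd_of_le (inf_le_inf_right W fun g hg => mem_norm_zpowers (by
    rw [mem_centralizer_singleton_iff.1 hg, mul_inv_cancel_right]; exact mem_zpowers s)))
  obtain ⟨k, hk⟩ := IsPGroup.iff_card.1 hR.isPGroup
  have c5 : c = 1 := by
    have : c ∣ Nat.gcd (3 ^ k) e := Nat.dvd_gcd (hk ▸ c1) c4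
    rwa [(Nat.Coprime.pow_left k (by rcases he with q | q <;> rw [q] <;> norm_num) : Nat.Coprime (3 ^ k) e),
      Nat.dvd_one] at this
  have k1 : k ≠ 0 := by
    rintro rfl
    refine hR.not_dvd_relIndex ?_
    rwa [← Grp.card_mul_relIndex hR.le, hk, pow_zero, one_mul] at h6
  have k2 : k < 4 := by
    by_contra hk4
    have : 3 ^ 4 ∣ 86775571046077562880 :=
      (pow_dvd_pow 3 (not_lt.1 hk4)).trans (hk ▸ (card_dvd_of_le hR.le).trans (card_dvd J W))
    norm_num at this
  rw [hk, c5] at c3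
  interval_cases k
  · exact k1 rfl
  all_goals exact absurd c3 (by decide)

end CL.J4X
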