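/-
Maximal subgroups of a group of Janko-four type: the normalisers of the Sylow 29-, 37- and 43-subgroups.
-/
import Cfsg.Agent.Spor.J4XD
import Cfsg.Agent.Spor.J4XH
import Cfsg.Agent.Spor.J4X37
import Cfsg.Agent.Spor.J4U2

set_option autoImplicit false

namespace CL.J4X

open Cfsg Subgroup CL.J4 CL.Fus CL.Mx

variable {G : Type*} [Group G] [Finite G] [IsSimpleGroup G] (J : JM G)
include J

theorem coatom {X : Subgroup G} {n : ℕ} (hn : Nat.card X = n) (h : n ≠ 86775571046077562880)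
    (hm : ∀ W, X < W → W = ⊤) : IsCoatom X :=
  ⟨fun e => h (by rw [← hn, e, card_top, J.card_G]), hm⟩

theorem MaxP.coatom {r e : ℕ} (hL : (r, e) ∈ L5) (h : MaxP G r) (P : Sylow r G) :
    IsCoatom (normalizer ((P : Subgroup G) : Set G)) :=
  J4X.coatom J (loc J hL P).2.2 ((by decide : ∀ x ∈ L5, x.1 * x.2 ≠ 86775571046077562880) _ hL) (h P)

theorem maxP_of {r e : ℕ} (hL : (r, e) ∈ L5) {a b : G} (oa : orderOf a = r) (hb : b ∈ normalizer (zpowers a : Set G))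
    {Q : G → Prop} {good : List ℕ} (h1 : ∀ P : Sylow r G, b ∈ normalizer ((P : Subgroup G) : Set G) → ∀ W : Subgroup G,
      normalizer ((P : Subgroup G) : Set G) < W → W ≠ ⊤ → ∃ g ∈ W, Q g)
    (h2 : ∀ W : Subgroup G, a ∈ W → b ∈ W → ∀ g ∈ W, Q g → ∃ x ∈ good, x ∣ Nat.card W)
    (h3 : ∀ W : Subgroup G, r * e ∣ Nat.card W → e ∈ ks (Nat.card W) r e →
      Nat.card W = 86775571046077562880 ∨ ∀ x ∈ good, ¬ x ∣ Nat.card W) : MaxP G r := fun P => by
  obtain ⟨p1, -, p2⟩ := L5_prime J hL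
  haveI := Fact.mk p1
  obtain ⟨S, hS⟩ := sylIn_top_iff.1 (sylIn_prime p1 ((Nat.card_zpowers _).trans oa) le_top
    (by rwa [card_top, J.card_G]))
  have h4 : IsCoatom (normalizer ((S : Subgroup G) : Set G)) :=
    coatom J (loc J hL S).2.2 ((by decide : ∀ x ∈ L5, x.1 * x.2 ≠ 86775571046077562880) _ hL) fun W h => by
      by_contra hT
      obtain ⟨g, hg, hQ⟩ := h1 S (hS ▸ hb) W h hT
      obtain ⟨x, hx, hd⟩ := h2 W (h.le (le_normalizer (hS ▸ mem_zpowers a))) (h.le (hS ▸ hb)) g hg hQ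
      obtain ⟨q1, q2⟩ := full_mem J hL S h.le
      exact (h3 W q1 q2).elim (fun e => hT (eq_top J e)) fun k => k x hx hd
  obtain ⟨g, rfl⟩ := MulAction.exists_smul_eq G S P
  have : IsCoatom ((normalizer ((S : Subgroup G) : Set G)).map (MulAut.conj g).toMonoidHom) :=
    ((MulAut.conj g).mapSubgroup.isCoatom_iff _).2 h4
  rw [map_equiv_normalizer_eq] at this
  exact this.2

theorem exists_rep : ∃ ρ : G →* GL (Fin 112) (ZMod 2), Function.Injective ρ ∧
    ∀ X ∈ [a29, b29, a43, b43, a37, b37, g7, h7, g1, g6, g5, c6], ∃ g, Rp ρ X g := by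
  obtain ⟨e⟩ := Un.isoJ4 J ⟨J4M.simple, J4M.card⟩
  refine ⟨J4Rep.rho.comp e.toMonoidHom, J4M.rho_inj.comp e.injective, fun X hX => ?_⟩
  obtain ⟨g, hg⟩ := slp_in link slp X hX
  obtain ⟨g, rfl⟩ := e.surjective g
  exact ⟨g, hg⟩

theorem card7 {b : G} {d e : ℕ} (ob : orderOf b = e) (h : e / Nat.gcd e d = 7) :
    Nat.card (normalizer (zpowers (b ^ d) : Set G)) = 2520 :=
  (J.seven _ (by rw [Nat.card_zpowers, orderOf_pow, ob, h])).2.2.2

theorem maxP29 : MaxP G 29 := by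
  obtain ⟨ρ, hρ, h⟩ := exists_rep J
  simp only [List.forall_mem_cons] at h
  obtain ⟨h1, h2, -, -, -, -, h3, h4, -⟩ := h
  obtain ⟨a, b, -, oa, ob, hb, k⟩ := master hρ (show ∀ X ∈ [a29, b29, g7, h7], _ by
    simp only [List.forall_mem_cons]; exact ⟨h1, h2, h3, h4, nofun⟩) (by norm_num) (by norm_num) bas29 perm29 red29 test29
  exact maxP_of J (e := 28) (by decide) oa hb (fun P hP W h1 h2 => thm7 J (Or.inl rfl) P hP ob h1 h2)
    (k (card7 J ob (by norm_num)).le) fun W h1 h2 => (ar29 (card_dvd J W) (ok_card J W) h1 h2).imp_right (·.2)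

theorem maxP43 : MaxP G 43 := by
  obtain ⟨ρ, hρ, h⟩ := exists_rep J
  simp only [List.forall_mem_cons] at h
  obtain ⟨-, h5, h1, h2, -, -, h3, h4, -⟩ := h
  obtain ⟨a, b, -, oa, ob, hb, k⟩ := master hρ (show ∀ X ∈ [a43, b43, g7, h7, b29], _ by
    simp only [List.forall_mem_cons]; exact ⟨h1, h2, h3, h4, h5, nofun⟩) (by norm_num) (by norm_num) bas43 perm43 red43
    test43
  exact maxP_of J (e := 14) (by decide) oa hb (fun P hP W h1 h2 => thm7 J (Or.inr rfl) P hP ob h1 h2)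
    (k (card7 J ob (by norm_num)).le) fun W h1 h2 => (ar43 (card_dvd J W) (ok_card J W) h1 h2).imp_right (·.2)

theorem maxP37 : MaxP G 37 := by
  obtain ⟨ρ, hρ, h⟩ := exists_rep J
  simp only [List.forall_mem_cons] at h
  obtain ⟨-, -, -, -, h1, h2, -, -, h3, h4, h5, ⟨c, hc⟩, -⟩ := h
  obtain ⟨a, b, rb, oa, ob, hb, k⟩ := master hρ (show ∀ X ∈ [a37, b37, g1, g6, g5], _ by
    simp only [List.forall_mem_cons]; exact ⟨h1, h2, h3, h4, h5, nofun⟩) (by norm_num) (by norm_num) bas37 perm37 red37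
    test37
  have h6 := c6_ok
  rw [force_eq, Bool.and_eq_true] at h6
  have h7 := card6 J (y := b ^ 8) (i := b ^ 6) (c := c) (by rw [orderOf_pow, ob]; norm_num)
    (by rw [orderOf_pow, ob]; norm_num) ((Commute.refl b).pow_pow 8 6)
    (mul_inv_eq_iff_eq_mul.1 ((nrmB_spec hρ (rb.pw 8) hc h6.1).trans (pow_one _)))
    ((hc.mul (rb.pw 6)).ne ((rb.pw 6).mul hc) h6.2)
  rw [← pow_add, show 8 + 6 = orderOf b + 2 by rw [ob], pow_add, pow_orderOf_eq_one, one_mul] at h7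
  exact maxP_of J (e := 12) (by decide) oa hb (fun P hP W h1 h2 => thm37 J (maxP29 J) P hP ob h1 h2)
    (k h7) fun W h1 h2 => (ar37 (card_dvd J W) (ok_card J W) h1 h2).imp_right (·.1)

end CL.J4X
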