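/-
Maximal subgroups of a group of Janko-four type: the normaliser of a Sylow 11-subgroup.
-/
import Cfsg.Agent.Spor.J4X1

set_option autoImplicit false
set_option linter.style.haveILetI false

namespace CL.J4X

open Cfsg Subgroup CL.J4 CL.Fus CL.Mx

variable {G : Type*} [Group G] [Finite G]

namespace TU

omit [Finite G] in
theorem card_Qs (M : HM G) : Nat.card M.Qs = 8192 := by
  let f : Fin 4096 × Fin 2 → M.Qs := fun e => ⟨M.c e.1 * M.z ^ (e.2 : ℕ), e.1, e.1.2, e.2, rfl⟩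
  have hf : Function.Bijective f := by
    refine ⟨fun ⟨a, i⟩ ⟨b, j⟩ h => ?_, fun ⟨_, a, ha, j, rfl⟩ =>
      ⟨(⟨a, ha⟩, ⟨j % 2, Nat.mod_lt _ (by norm_num)⟩), Subtype.ext ?_⟩⟩
    · have h1 := (M.c_eq_iff a.2 b.2).1 (Subtype.mk.inj h)
      have h2 : i = j := Fin.ext (by have := i.2; have := j.2; have : (i : ℕ) % 2 = j % 2 := h1.2; omega)
      rw [show a = b from Fin.ext h1.1, h2]
    · show M.c a * M.z ^ (j % 2) = _
      rw [← pow_eq_pow_mod j M.z_sq]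
  rw [← Nat.card_congr (Equiv.ofBijective f hf)]
  simp

theorem cy_le (y : G) : centralizer {y} ≤ normalizer (zpowers y : Set G) := fun _ h =>
  mem_norm_zpowers (by rw [mem_centralizer_singleton_iff.1 h, mul_inv_cancel_right]; exact mem_zpowers y)

theorem card_XH (M : NM G) : Nat.card ↥(normalizer (zpowers M.y : Set G) ⊓ M.H) = 2640 := by
  have h1 : {x : G | ∃ g ∈ normalizer (zpowers M.y : Set G) ⊓ M.H, g * M.y * g⁻¹ = x} = (zpowers M.y : Set G) \ {1} := by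
    refine Set.Subset.antisymm ?_ fun w hw => ?_
    · rintro _ ⟨g, hg, rfl⟩
      refine ⟨(mem_normalizer_iff.1 hg.1 _).1 (mem_zpowers _), fun e => ?_⟩
      have := El.ord_y M
      rw [conj_eq_one_iff.1 e, orderOf_one] at this
      cases this
    · obtain ⟨j, -, l, -, e⟩ := El.autom M.y11 (El.f_y M) (El.k_y M) hw.1 hw.2
      exact ⟨_, mul_mem (pow_mem (mem_inf.2 ⟨mem_norm_zpowers (El.f_y M ▸ pow_mem (mem_zpowers _) 3), (El.rhf M).mem⟩) j)
        (pow_mem (mem_inf.2 ⟨mem_norm_zpowers (El.k_y M ▸ pow_mem (mem_zpowers _) 10), (El.rhk M).mem⟩) l), e⟩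
  have h2 := Set.ncard_sdiff_singleton_add_one (s := (zpowers M.y : Set G)) (one_mem _)
  rw [← h1, show (zpowers M.y : Set G).ncard = 11 from (Nat.card_zpowers _).trans (El.ord_y M)] at h2
  rw [Spor.card_eq_card_conj_mul _ M.y, inf_right_comm, inf_of_le_right (cy_le M.y), El.card_cent_y,
    show Nat.card {x : G // ∃ g ∈ normalizer (zpowers M.y : Set G) ⊓ M.H, g * M.y * g⁻¹ = x} = 10 from
      Nat.add_right_cancel h2]

theorem no_Q8 : ∀ a b : Equiv.Perm (Fin 5), a * a = b * b → b * a * b⁻¹ = a⁻¹ → a * a = 1 := by decide +kernel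

/-- no element of order seven centralises the quaternion group `R` -/
theorem not_cent (M : NM G) {s : G} (hs : orderOf s = 7) : ¬ El.R M ≤ centralizer {s} := fun h => by
  obtain ⟨-, ⟨I, ⟨h1, -, h2, h3, h4⟩, ⟨e⟩⟩, -⟩ := M.seven (zpowers s) ((Nat.card_zpowers s).trans hs)
  have h5 : El.R M ≤ I := fun r hr => by
    obtain ⟨a, ha, b, hb, rfl⟩ := (mem_sup_of_le_normalizer (H := zpowers s) (N := I) fun a ha =>
      centralizer_le_normalizer _ fun b hb => (h2 a ha b hb).symm).1 (h4.ge (centralizer_zpowers s ▸ h hr))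
    have a1 : (a * b) ^ 8 = 1 := orderOf_dvd_iff_pow_eq_one.1 (El.card_R M ▸ Subgroup.orderOf_dvd_natCard _ hr)
    rw [Commute.mul_pow (h2 a ha b hb)] at a1
    have a2 : a ^ 8 ∈ I := eq_inv_of_mul_eq_one_left a1 ▸ inv_mem (pow_mem hb 8)
    refine mul_mem (El.mem_of_pow (Nat.Coprime.coprime_dvd_left (orderOf_dvd_of_mem_zpowers ha) ?_) a2) hb
    rw [hs]; norm_num
  have h6 := no_Q8 (e ⟨_, h5 (El.i_mem M)⟩) (e ⟨_, h5 (El.j_mem M)⟩)
    (by rw [← map_mul, ← map_mul]; exact congrArg e (Subtype.ext ((El.i_sq M).trans (El.j_sq M).symm)))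
    (by rw [← map_inv, ← map_inv, ← map_mul, ← map_mul]; exact congrArg e (Subtype.ext (El.j_i M)))
  rw [← map_mul, map_eq_one_iff _ e.injective] at h6
  exact M.z_ne ((El.i_sq M).symm.trans (congrArg Subtype.val h6))

/-- An involution acting on an elementary abelian 2-group has many fixed points. -/
theorem card_le_sq {E : Subgroup G} (hc : ∀ a ∈ E, ∀ b ∈ E, a * b = b * a) (hs : ∀ a ∈ E, a * a = 1) {g : G}
    (hn : ∀ a ∈ E, g * a * g⁻¹ ∈ E) (h2 : g * g = 1) : Nat.card E ≤ Nat.card ↥(E ⊓ centralizer {g}) ^ 2 := by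
  have hi : g⁻¹ = g := inv_eq_of_mul_eq_one_right h2
  let φ : E →* G := MonoidHom.mk' (fun a => a * (g * a * g⁻¹)) fun a b => by
    have h1 := hc _ b.2 _ (hn _ a.2)
    show (a : G) * b * (g * (a * b) * g⁻¹) = a * (g * a * g⁻¹) * (b * (g * b * g⁻¹))
    calc (a : G) * b * (g * (a * b) * g⁻¹) = a * (b * (g * a * g⁻¹)) * (g * b * g⁻¹) := by group
      _ = _ := by rw [h1]; group
  have h1 : φ.range ≤ E ⊓ centralizer {g} := by
    rintro _ ⟨a, rfl⟩
    refine ⟨mul_mem a.2 (hn _ a.2), mem_centralizer_singleton_iff.2 ?_⟩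
    show (a : G) * (g * a * g⁻¹) * g = g * (a * (g * a * g⁻¹))
    conv_rhs => rw [hc _ a.2 _ (hn _ a.2)]
    rw [hi, mul_assoc, mul_assoc _ g g, h2, mul_one, ← mul_assoc g, ← mul_assoc g, ← mul_assoc g, h2, one_mul, mul_assoc]
  have h3 : φ.ker.map E.subtype ≤ E ⊓ centralizer {g} := by
    rintro _ ⟨a, ha, rfl⟩
    refine ⟨a.2, mem_centralizer_singleton_iff.2 ?_⟩
    have ha : (a : G) * (g * a * g⁻¹) = 1 := ha
    exact (mul_inv_eq_iff_eq_mul.1 (mul_left_cancel (ha.trans (hs _ a.2).symm))).symm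
  have h5 := card_le_of_le h3
  rw [card_subtype] at h5
  rw [← φ.ker.card_mul_index, index_ker, sq]
  exact Nat.mul_le_mul h5 (card_le_of_le h1)

theorem two_dvd {T W : Subgroup G} (h : SylIn 2 T W) {a : ℕ} (ha : 2 ^ a ∣ Nat.card W) : 2 ^ a ∣ Nat.card T := by
  rw [← Grp.card_mul_relIndex h.le] at ha
  exact ((Nat.prime_two.coprime_iff_not_dvd.2 h.not_dvd_relIndex).pow_left a).dvd_of_dvd_mul_right ha

variable (M : NM G) {W : Subgroup G} (hW : normalizer (zpowers M.y : Set G) ≤ W)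
include hW

theorem R_le : El.R M ≤ W ⊓ M.H :=
  (le_sup_left.trans (El.L_le M)).trans (inf_le_inf_right _ ((cy_le _).trans hW))

theorem card_C (h9 : 3 ^ 2 ∣ Nat.card W) : ∃ c, Nat.card ↥(W ⊓ M.H) = 2640 * c ∧ c % 11 = 1 ∧
    (centralizer {M.p} ≤ M.H → 3 ∣ c) := by
  haveI : Fact (Nat.Prime 11) := ⟨by norm_num⟩
  have h1 : zpowers M.y ≤ W ⊓ M.H := le_inf (le_normalizer.trans hW) (zpowers_le.2 (El.rhy M).mem)
  have h2 : Nat.card (zpowers M.y) = 11 := (Nat.card_zpowers _).trans (El.ord_y M)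
  obtain ⟨c, h3, h4⟩ := count (sylIn_of_not_dvd (p := 11) h1 (IsPGroup.of_card (n := 1) h2) fun d => by
    have := card_dvd_of_le (inf_le_right : W ⊓ M.H ≤ _)
    rw [← Grp.card_mul_relIndex h1, h2, M.card_H] at this
    exact absurd ((mul_dvd_mul_left 11 d).trans this) (by norm_num))
  rw [← inf_assoc, inf_of_le_left hW, card_XH] at h3
  refine ⟨c, h3, h4, fun hp => ?_⟩
  have h5 : M.p ∈ W := hW (cy_le _ (mem_centralizer_singleton_iff.2 (El.p_y M)))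
  have h6 := Spor.sq_dvd_card_centralizer (x := (⟨M.p, h5⟩ : W)) Nat.prime_three ((orderOf_mk _ _).trans (El.ord_p M)) h9
  rw [← card_subtype] at h6
  have h7 := h6.trans (card_dvd_of_le (K := W ⊓ M.H) (by
    rintro _ ⟨x, hx, rfl⟩
    exact ⟨x.2, hp (mem_centralizer_singleton_iff.2 (congrArg Subtype.val (mem_centralizer_singleton_iff.1 hx)))⟩))
  omega

omit [Finite G] hW in
theorem norm_E [Finite G] {g x : G} (hg : g ∈ W ⊓ M.H) (hx : x ∈ M.Qs ⊓ W) : g * x * g⁻¹ ∈ M.Qs ⊓ W :=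
  ⟨(mem_normalizer_iff.1 (M.H_le_normalizer_Qs hg.2) x).1 hx.1, W.mul_mem (W.mul_mem hg.1 hx.2) (W.inv_mem hg.1)⟩

theorem inf_Qs (h1 : 2 ^ 18 ∣ Nat.card W) (h2 : ¬ 2 ^ 18 ∣ Nat.card ↥(W ⊓ M.H)) : M.Qs ⊓ W = El.R M := by
  have hz : M.z ∈ M.Qs := ⟨0, by norm_num, 1, by simp [M.c_zero]⟩
  have hc : ∀ a < 4096, M.c a ∈ M.Qs := fun a ha => ⟨a, ha, 0, by simp⟩
  have h3 : El.R M ≤ M.Qs ⊓ W := le_inf (sup_le (zpowers_le.2 (hc _ (by norm_num))) (zpowers_le.2 (hc _ (by norm_num))))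
    ((R_le M hW).trans inf_le_left)
  have h4 : El.R M ≤ centralizer {M.y} ⊓ M.H := le_sup_left.trans (El.L_le M)
  have h5 := El.card_mod (r := 11) (by norm_num) M.y11 (A := M.Qs ⊓ W) fun x =>
    norm_E M ⟨hW (le_normalizer (mem_zpowers _)), (El.rhy M).mem⟩
  rw [(Spor.sylIn_of_card (k := 3) (m := 33) Nat.prime_two h4 (El.card_R M) (El.card_cent_y M) (by norm_num)).eq_of_le
    (Z := M.Qs ⊓ W ⊓ centralizer {M.y}) M.isPGroup_Qs.to_inf_left.to_inf_left (le_inf h3 (h4.trans inf_le_left))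
    (le_inf inf_le_right (inf_le_left.trans (inf_le_left.trans M.Qs_le))), El.card_R] at h5
  obtain ⟨k, hk, h6⟩ := (Nat.dvd_prime_pow (m := 13) Nat.prime_two).1
    (card_Qs M.toHM ▸ card_dvd_of_le (inf_le_left : M.Qs ⊓ W ≤ _))
  rw [h6] at h5
  rcases (by decide : ∀ k ≤ 13, 2 ^ k % 11 = 8 % 11 → k = 3 ∨ k = 13) k hk h5 with rfl | rfl
  · exact (eq_of_le_of_card_ge h3 (by rw [h6, El.card_R]; rfl)).symm
  have h7 : M.Qs ≤ W := inf_eq_left.1 (eq_of_le_of_card_ge inf_le_left (by rw [h6, card_Qs]; rfl))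
  obtain ⟨T, hT, h8⟩ := exists_sylIn_le M.isPGroup_Qs h7
  haveI : Nontrivial T := ⟨⟨⟨_, h8 hz⟩, 1, fun e => M.z_ne (congrArg Subtype.val e)⟩⟩
  haveI := hT.isPGroup.center_nontrivial
  obtain ⟨⟨t, ht⟩, t1⟩ := exists_ne (1 : center T)
  have h9 : ∀ x ∈ T, x * t = t * x := fun x hx => congrArg Subtype.val (mem_center_iff.1 ht ⟨x, hx⟩)
  have h10 := (M.mem_Z.1 (M.cent t (M.mem_H.2 (h9 _ (h8 hz)).symm) fun a ha => (h9 _ (h8 (hc a ha))).symm)).resolve_left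
    fun e => t1 (Subtype.ext (Subtype.ext e))
  exact absurd ((two_dvd hT h1).trans (card_dvd_of_le (le_inf hT.le fun x hx => M.mem_H.2 (h10 ▸ h9 x hx)))) h2

omit hW

variable (hE : M.Qs ⊓ W = El.R M)
include hE

theorem norm_R : W ⊓ M.H ≤ normalizer (El.R M : Set G) := fun _ hg =>
  mem_normalizer_fintype fun _ hx => hE ▸ norm_E M hg (hE ▸ hx)

theorem dvd_H : Nat.card ↥(W ⊓ M.H) * 1024 ∣ 21799895040 := by
  have h1 := Grp.card_sup_mul_card_inf (inf_le_right.trans M.H_le_normalizer_Qs : W ⊓ M.H ≤ _)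
  rw [inf_assoc, inf_of_le_right M.Qs_le, inf_comm W M.Qs, hE, El.card_R, card_Qs] at h1
  rw [← M.card_H, show _ * 1024 = Nat.card ↥(W ⊓ M.H ⊔ M.Qs) by omega]
  exact card_dvd_of_le (sup_le inf_le_right M.Qs_le)

theorem not_seven : ¬ 7 ∣ Nat.card ↥(W ⊓ M.H) := fun h => by
  haveI : Fact (Nat.Prime 7) := ⟨by norm_num⟩
  obtain ⟨⟨s, hs⟩, os⟩ := exists_prime_orderOf_dvd_card' 7 h
  rw [orderOf_mk] at os
  have h1 := El.card_mod (r := 7) (by norm_num) (os ▸ pow_orderOf_eq_one s) (A := El.R M) fun x =>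
    (mem_normalizer_iff.1 (norm_R M hE hs) x).1
  have h2 := card_dvd_of_le (inf_le_left : El.R M ⊓ centralizer {s} ≤ _)
  have h3 := Subgroup.orderOf_dvd_natCard (El.R M ⊓ centralizer {s})
    ⟨El.z_mem M, mem_centralizer_singleton_iff.2 (M.mem_H.1 hs.2).symm⟩
  rw [El.card_R] at h1 h2
  rw [M.ord_z] at h3
  refine not_cent M os (inf_eq_left.1 (eq_of_le_of_card_ge inf_le_left ?_))
  have h4 := Nat.le_of_dvd (by norm_num) h2
  rw [El.card_R]
  unfold Nat.ModEq at h1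
  omega

end TU

open TU

variable [IsSimpleGroup G] (J : JM G) {W : Subgroup G}

omit [IsSimpleGroup G] in
theorem TU.not_six (hE : J.Qs ⊓ W = El.R J.toNM) (h1 : 2 ^ 18 ∣ Nat.card W) : Nat.card ↥(W ⊓ J.H) ≠ 2640 * 12 := fun h => by
  have hR : El.R J.toNM ≤ W ⊓ J.H := hE.ge.trans (inf_comm J.Qs W ▸ inf_le_inf_left _ J.Qs_le)
  obtain ⟨T, hT, h2⟩ := exists_sylIn_le (IsPGroup.of_card (p := 2) (n := 3) (El.card_R J.toNM)) (hR.trans inf_le_left)
  obtain ⟨g, hg⟩ := J.sylow T hT.isPGroup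
  have hz := h2 (El.z_mem _)
  have h3 : T ≤ normalizer (cj g⁻¹ J.V : Set G) := fun x hx => by
    rw [normalizer_cj, mem_cj, inv_inv]
    exact (hg (conj_mem_cj.2 hx)).2
  have hV := elem_cj J.V_elem g⁻¹
  have h4 : Nat.card (cj g⁻¹ J.V) = 2048 := (card_cj _ _).trans J.card_V
  generalize cj g⁻¹ J.V = V at h3 hV h4
  have hs : ∀ a ∈ T ⊓ V, a * a = 1 := fun a ha => by rw [← sq]; exact hV.2 a ha.2
  have hc : ∀ a ∈ T ⊓ V, ∀ b ∈ T ⊓ V, a * b = b * a := fun a ha b hb =>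
    congrArg Subtype.val (hV.1.1.1 ⟨a, ha.2⟩ ⟨b, hb.2⟩)
  have h5 : 256 ≤ Nat.card ↥(T ⊓ V) := by
    have a1 := Grp.card_sup_mul_card_inf h3
    obtain ⟨k, hk⟩ := IsPGroup.iff_card.1 (hT.isPGroup.to_sup_of_normal_right' (isPGroup_of_elem hV) h3)
    have a2 : k < 22 := El.pow_lt (hk ▸ J.card_G ▸ card_subgroup_dvd_card _) (by norm_num : ¬ 2 ^ 22 ∣ 86775571046077562880)
    have a3 := Nat.mul_le_mul_right (Nat.card ↥(T ⊓ V)) (Nat.pow_le_pow_right (n := 2) (by norm_num) (Nat.le_of_lt_succ a2))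
    have a4 := Nat.le_of_dvd Nat.card_pos (two_dvd hT h1)
    rw [hk, h4] at a1
    omega
  have key : ∀ B ≤ T ⊓ V, ∀ m, Nat.card B ∣ m → Nat.card B ≤ Nat.gcd m 2048 := fun B hB m hm =>
    Nat.le_of_dvd (Nat.gcd_pos_of_pos_right _ (by norm_num))
      (Nat.dvd_gcd hm (h4 ▸ card_dvd_of_le (hB.trans inf_le_right)))
  by_cases h6 : J.z ∈ V
  · exact absurd (h5.trans (key _ le_rfl _ (h ▸ card_dvd_of_le (H := T ⊓ V) (K := W ⊓ J.H) fun x hx =>
      ⟨hT.le hx.1, J.mem_H.2 (hc x hx _ ⟨hz, h6⟩)⟩))) (by norm_num)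
  have h7 := card_le_sq hc hs (g := J.z) (fun a ha => ⟨T.mul_mem (T.mul_mem hz ha.1) (T.inv_mem hz),
    (mem_normalizer_iff.1 (h3 hz) a).1 ha.2⟩) J.z_mul
  have h8 : T ⊓ V ⊓ J.H ≤ W ⊓ J.H := inf_le_inf_right _ (inf_le_left.trans hT.le)
  have h9 := card_dvd_of_le (sup_le h8 hR)
  rw [Grp.card_sup_of_inf_eq_bot (h8.trans (norm_R _ hE)) (eq_bot_iff.2 fun r hr => by_contra fun r1 =>
    h6 (El.eq_z _ hr.2 (orderOf_eq_prime (by rw [sq]; exact hs r hr.1.1) r1) ▸ hr.1.1.2)), El.card_R, h] at h9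
  have h10 := key _ inf_le_left 3960 (Nat.dvd_of_mul_dvd_mul_right (by norm_num) h9)
  exact absurd (h5.trans (h7.trans (Nat.pow_le_pow_left h10 2))) (by norm_num)

theorem TU.not_121 (hW : normalizer (El.U J.toNM : Set G) < W) : Nat.card W ≠ 121 * Nat.card ↥(W ⊓ J.H) := fun h => by
  have hp := J.cent_p
  have hU : El.U J.toNM ≤ W := le_normalizer.trans hW.le
  have hy : Nat.card (zpowers J.y) = 11 := (Nat.card_zpowers _).trans (El.ord_y J.toNM)
  have hz : J.z ∈ centralizer {J.y} := (El.L_le _ (mem_sup_left (El.z_mem _))).1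
  have h1 := Spor.card_eq_card_conj_mul W J.z
  have h2 := Spor.card_eq_card_conj_mul (El.U J.toNM) J.z
  rw [El.U_inf, El.card_U J hp, hy] at h2
  rw [h] at h1
  have h3 : {x : G | ∃ g ∈ El.U J.toNM, g * J.z * g⁻¹ = x} = {x : G | ∃ g ∈ W, g * J.z * g⁻¹ = x} :=
    Set.eq_of_subset_of_ncard_le (fun _ ⟨g, hg, e⟩ => ⟨g, hU hg, e⟩) (by
      change Nat.card {x : G // ∃ g ∈ W, g * J.z * g⁻¹ = x} ≤ Nat.card {x : G // ∃ g ∈ El.U J.toNM, g * J.z * g⁻¹ = x}
      rw [← Nat.eq_of_mul_eq_mul_right Nat.card_pos h1]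
      omega)
  have h4 : ∀ g ∈ W, g * J.z * g⁻¹ ∈ centralizer {J.y} := fun g hg => by
    obtain ⟨u, hu, e⟩ := h3.ge ⟨g, hg, rfl⟩
    exact e ▸ mul_mem (mul_mem (El.U_le _ hu) hz) (inv_mem (El.U_le _ hu))
  obtain ⟨u, hu, h5⟩ : ∃ u ∈ El.U J.toNM, u ∉ zpowers J.y := SetLike.not_le_iff_exists.1 fun e => by
    have := card_le_of_le e
    rw [El.card_U J hp, hy] at this
    omega
  have h6 : J.z * (u * J.z * u⁻¹) ∈ El.U J.toNM := by
    have := mul_mem ((mem_normalizer_iff.1 (El.X_norm _ hz) u).1 hu) (inv_mem hu)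
    rwa [J.z_inv, mul_assoc, mul_assoc, ← mul_assoc u] at this
  have h7 : J.z * (u * J.z * u⁻¹) ≠ 1 := fun e => h5 ((El.U_inf _).le ⟨hu, J.mem_H.2 (mul_inv_eq_iff_eq_mul.1
    (mul_left_cancel (e.trans J.z_mul.symm)))⟩)
  haveI : Fact (Nat.Prime 11) := ⟨by norm_num⟩
  refine hW.not_ge fun g hg => ti_U J h6 h7 (El.mem_U J hp (k := 1) ?_ ?_)
  · rw [show g * (J.z * (u * J.z * u⁻¹)) * g⁻¹ = g * J.z * g⁻¹ * (g * u * J.z * (g * u)⁻¹) by group]
    exact mul_mem (h4 g hg) (h4 _ (mul_mem hg (hU hu)))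
  · rw [ord_conj, orderOf_eq_prime (El.pow_U J hp h6) h7, pow_one]

include J in
theorem TU.core (h29 : MaxP G 29) (hW : normalizer (El.U J.toNM : Set G) < W) : W = ⊤ := by
  have hp := J.cent_p
  haveI : Fact (Nat.Prime 11) := ⟨by norm_num⟩
  have hX : Nat.card (normalizer (El.U J.toNM : Set G)) = 319440 := by rw [El.norm_U J hp, El.card_Ny J hp]
  obtain ⟨m, h1, h2⟩ := count_ti (p := 11) ((Spor.sylIn_of_card (m := 65195770883604480) (by norm_num) le_top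
    (El.card_U J hp) (by rw [card_top, J.card_G]; norm_num) (by norm_num)).mono (le_normalizer.trans hW.le) le_top)
    (by rw [El.card_U J hp]; norm_num) fun g _ x hx => ti_U J hx
  rw [inf_of_le_left hW.le, hX] at h1
  rw [El.card_U J hp] at h2
  have hy : normalizer (zpowers J.y : Set G) ≤ W := El.norm_U J hp ▸ hW.le
  have key : ∀ t a, a ≤ 15 → Nat.card W = 2 ^ 18 * 9 * t → Nat.gcd (2 ^ 18 * 9 * t) 21799895040 = 2640 * (2 ^ a * 21) →
      (a = 15 → 2 ^ 18 * 9 * t = 121 * (2640 * (21 * 2 ^ 15))) → False := fun t a ha h3 h4 h5 => by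
    have h6 : 2 ^ 18 ∣ Nat.card W := ⟨9 * t, by rw [h3, mul_assoc]⟩
    obtain ⟨c, c1, c2, c3⟩ := card_C J.toNM hy (h3 ▸ Dvd.dvd.mul_right (dvd_mul_left _ _) _)
    have h7 : c ∣ 2 ^ a * 21 := Nat.dvd_of_mul_dvd_mul_left (by norm_num : 0 < 2640) (by
      rw [← h4, ← c1, ← h3, ← J.card_H]
      exact Nat.dvd_gcd (card_dvd_of_le inf_le_left) (card_dvd_of_le inf_le_right))
    rcases arC ha h7 (c3 hp) c2 with rfl | rfl | rfl | rfl
    · exact not_six J (inf_Qs _ hy h6 (by rw [c1]; norm_num)) h6 c1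
    · exact absurd (c1 ▸ dvd_H _ (inf_Qs _ hy h6 (by rw [c1]; norm_num))) (by norm_num)
    · exact not_seven _ (inf_Qs _ hy h6 (by rw [c1]; norm_num)) (by rw [c1]; norm_num)
    · rw [mul_comm 21] at h7
      exact not_121 J hW (by rw [h3, c1, h5 (le_antisymm ha ((Nat.pow_dvd_pow_iff_le_right (by norm_num)).1
        (Nat.dvd_of_mul_dvd_mul_right (by norm_num) h7))), mul_comm 21])
  rcases arU (card_dvd J W) (ok_card J W) ⟨m, h1⟩ (by rw [h1, Nat.mul_div_cancel_left _ (by norm_num)]; exact h2)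
    with h | h | h | h | h
  · exact absurd (h.trans hX.symm) (card_lt_of_lt hW).ne'
  · exact eq_top J h
  · exact (key (2 * 5 * 7 * 1331) 15 le_rfl (h.trans (by norm_num)) (by norm_num) fun _ => by norm_num).elim
  · exact (key (5 * 7 * 1331 * 31 * 43) 14 (by norm_num) (h.trans (by norm_num)) (by norm_num) (by norm_num)).elim
  · exact top_of_full J (by decide) h29 h.1 h.2 (by omega)

include J in
/-- The normaliser of a Sylow 11-subgroup is maximal. -/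
theorem thmU (h29 : MaxP G 29) (S : Sylow 11 G) {W : Subgroup G}
    (h : normalizer ((S : Subgroup G) : Set G) < W) : W = ⊤ := by
  obtain ⟨a, ha⟩ := exists_cj J S
  have h1 : cj a (S : Subgroup G) = El.U J.toNM := Subgroup.ext fun x => by
    rw [mem_cj, ha]; simp [mul_assoc]
  have h2 := core J h29 (W := cj a W) (by
    rw [← h1, normalizer_cj]
    exact lt_of_le_of_ne (map_mono h.le) fun e => h.ne (cj_injective a e))
  exact eq_top_iff.2 fun x _ => conj_mem_cj.1 (h2.ge (mem_top (a * x * a⁻¹)))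

end CL.J4X
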