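/-
A standard permutation model (PSL, dimension 3, field with 2 elements): degree 7, order 168.
Generated by tools/pg.
-/
import Cfsg.Agent.Spor.PGCls
import Cfsg.Agent.Spor.PGCtx

set_option autoImplicit false
set_option maxRecDepth 200000
set_option Elab.async false
set_option linter.unusedVariables false

namespace CL.Std.L32.M
open CL.PG

def P : Par := ⟨7, 8, 3, 2⟩
theorem hP : P.Ok := by decide
noncomputable def a0 : Net := (.cons 4 (nat_lit 0x5)
 .nil)
noncomputable def a1 : Net := (.cons 4 (nat_lit 0x4)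
 (.cons 2 (nat_lit 0x3)
 (.cons 4 (nat_lit 0x4)
 .nil)))
noncomputable def a2 : Net := (.cons 4 (nat_lit 0x8)
 (.cons 2 (nat_lit 0x30)
 (.cons 1 (nat_lit 0x50)
 (.cons 4 (nat_lit 0x8)
 .nil))))
noncomputable def a3 : Net := (.cons 4 (nat_lit 0x3)
 (.cons 1 (nat_lit 0x11)
 .nil))
noncomputable def a4 : Net := (.cons 4 (nat_lit 0x2)
 (.cons 2 (nat_lit 0x3)
 (.cons 1 (nat_lit 0x14)
 (.cons 4 (nat_lit 0x4)
 .nil))))
noncomputable def a5 : Net := (.cons 4 (nat_lit 0x8)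
 (.cons 2 (nat_lit 0x12)
 (.cons 1 (nat_lit 0x44)
 (.cons 2 (nat_lit 0x22)
 (.cons 4 (nat_lit 0x8)
 .nil)))))
noncomputable def a6 : Net := (.cons 4 (nat_lit 0x4)
 (.cons 2 (nat_lit 0x12)
 (.cons 4 (nat_lit 0x4)
 .nil)))
noncomputable def a7 : Net := (.cons 4 (nat_lit 0x8)
 (.cons 2 (nat_lit 0x30)
 (.cons 1 (nat_lit 0x50)
 (.cons 4 (nat_lit 0x8)
 .nil))))
noncomputable def a8 : Net := (.cons 4 (nat_lit 0x8)
 (.cons 1 (nat_lit 0x50)
 (.cons 4 (nat_lit 0x8)
 .nil)))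
noncomputable def ns0 : List Net := [a0, a1, a2]
noncomputable def ws : List (List ℕ) :=
  [W (nat_lit 0x4018030140500c03),
  W (nat_lit 0x3018040180101405),
  W (nat_lit 0x80240902409),
  W (nat_lit 0xa02009),
  W (nat_lit 0x300c),
  W (nat_lit 0xe0300d0300c0300e)]
noncomputable def ns : List Net := [a0, a1, a2, a3, a4, a5, a6, a7, a8]
noncomputable def D : List (ℕ × List ℕ) := app [] (mkDefs ws 3)
noncomputable def chk : List (List ℕ × List ℕ) → Bool := P.relsB ns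
noncomputable def V : List ℕ :=
  [(nat_lit 0x552a),
  (nat_lit 0x6619),
  (nat_lit 0x7807)]
noncomputable def ms : List (List (List ℕ) × List (List ℕ)) :=
  [([[1, 0, 0], [0, 1, 0], [1, 0, 1]],
   [[1, 0, 0], [0, 1, 0], [1, 0, 1]]),
  ([[1, 0, 0], [1, 0, 1], [1, 1, 0]],
   [[1, 0, 0], [1, 0, 1], [1, 1, 0]]),
  ([[1, 0, 1], [0, 1, 0], [0, 0, 1]],
   [[1, 0, 1], [0, 1, 0], [0, 0, 1]])]
noncomputable def G_v0 : Lev :=
  ⟨0, 7, sg (W (nat_lit 0x1c0902407)), [[10], [12]], 2, 2⟩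
noncomputable def G_v1 : Lev :=
  ⟨1, 6, sg (W (nat_lit 0xb0340b)), [[14], [16]], 4, 2⟩
noncomputable def G_v2 : Lev :=
  ⟨3, 4, sg (W (nat_lit 0x440f)), [], 6, 0⟩
noncomputable def G_vs3 : List Lev :=
  []
noncomputable def G_vs2 : List Lev :=
  G_v2 :: G_vs3
noncomputable def G_vs1 : List Lev :=
  G_v1 :: G_vs2
noncomputable def G_vs : List Lev :=
  G_v0 :: G_vs1

theorem zv0 : vecB (tabP 2).q 1 3 P V = true := by decide +kernel
theorem zv1 : Nat.beq (lenL ms) (lenL ns0) = true := by decide +kernel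
theorem zv2 : allL ((tabP 2).actB 1 3 P V) (zp Net.nil ms ns0) = true := by decide +kernel
theorem zv3 : (tabP 2).basB 3 P V [0, 1, 3] [[1, 0, 0], [0, 1, 0], [0, 0, 1]] = true := by decide +kernel
theorem zv4 : allL ((tabP 2).detB 3 1) ms = true := by decide +kernel
theorem zc5 : P.chainB ns D G_vs [[6], [8]] = true := by decide +kernel
theorem zm6 : leB D [] [[6], [8]] = true := by decide +kernel
theorem zk7 : allL (keepB P.n P.N) ns0 = true := by decide +kernel
theorem ze8 : extB ns0 ns 3 ws [] = true := by decide +kernel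
theorem zn9 : P.netsB ns (mkDefs ws 3) = true := by decide +kernel

section
variable {G X : Type*} [Group G] [MulAction G X] {e : ℕ → X} {gs : List G}

theorem keep0 : allL (keepB P.n P.N) ns0 = true := zk7

theorem len {k} (c : Ctx P e gs ns0 [] k) : gs.length = 3 := c.len ze8

theorem ctx0 {k} (c : Ctx P e gs ns0 [] k) : Ctx P e (ext gs ws) ns D chk0 :=
  c.ext rfl ze8 zn9

theorem ctx {k} (c : Ctx P e gs ns0 [] k) {H : Subgroup G} (hF : Faithful e P.n H) (hH : ∀ g ∈ gs, g ∈ H) :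
    Ctx P e (ext gs ws) ns D chk :=
  (ctx0 c).withB hF (mem_of_mem_ext hH _)

theorem hV : vecB (tabP 2).q 1 3 P V = true := zv0
theorem hact : allL ((tabP 2).actB 1 3 P V) (zp Net.nil ms ns0) = true := zv2
theorem hinv : allL ((tabP 2).invB 3) ms = true := actB_invB hact
theorem base {F : Type*} [Field F] {el : ℕ → F} (h : FC (tabP 2) el) : Ctx P (vecOf el (Fin.val : Fin 3 → ℕ) (tabP 2).q P.N V) (List.map (glF el (Fin.val : Fin 3 → ℕ)) ms) ns0 [] chk0 :=
  ctx_mat h (ix_fin 3) hP hV zv1 hact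
theorem faith {F : Type*} [Field F] {el : ℕ → F} (h : FC (tabP 2) el) : Faithful (vecOf el (Fin.val : Fin 3 → ℕ) (tabP 2).q P.N V) P.n (⊤ : Subgroup (GL (Fin 3) F)) :=
  faithful_vecOf h (ix_fin 3) hP hV zv3
theorem c1 {F : Type*} [Field F] {el : ℕ → F} (h : FC (tabP 2) el) : Ctx P (vecOf el (Fin.val : Fin 3 → ℕ) (tabP 2).q P.N V) (ext (List.map (glF el (Fin.val : Fin 3 → ℕ)) ms) ws) ns D chk :=
  ctx (base h) (faith h) fun _ _ => trivial

theorem G_c : P.chainB ns D G_vs [[6], [8]] = true :=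
  zc5

theorem G_o : prodL G_vs 1 = 168 := by decide +kernel

theorem G_lb (c : Ctx P e gs ns D chk) :
    LB (subW gs [[6], [8]]) 168 :=
  c.lb G_c G_o

theorem Z_lb (c : Ctx P e gs ns D chk) :
    LB (subW gs []) 1 :=
  LB.one _

theorem hZ (c : Ctx P e gs ns D chk) :
    (subW gs []) ≤ (subW gs [[6], [8]]) ∧ Rels gs (comR [] [[6], [8]]) :=
  ⟨(c.le zm6), Rels.nil _⟩

end
end CL.Std.L32.M

namespace CL.Std.L32
open CL.PG

def P : Par := ⟨7, 8, 3, 2⟩
theorem hP : P.Ok := by decide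
noncomputable def a0 : Net := (.cons 4 (nat_lit 0x3)
 (.cons 1 (nat_lit 0x11)
 .nil))
noncomputable def a1 : Net := (.cons 4 (nat_lit 0x2)
 (.cons 2 (nat_lit 0x3)
 (.cons 1 (nat_lit 0x14)
 (.cons 4 (nat_lit 0x4)
 .nil))))
noncomputable def a2 : Net := (.cons 4 (nat_lit 0x2)
 (.cons 1 (nat_lit 0x14)
 (.cons 4 (nat_lit 0x2)
 .nil)))
noncomputable def a3 : Net := (.cons 4 (nat_lit 0x8)
 (.cons 2 (nat_lit 0x12)
 (.cons 1 (nat_lit 0x44)
 (.cons 2 (nat_lit 0x22)
 (.cons 4 (nat_lit 0x8)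
 .nil)))))
noncomputable def a4 : Net := (.cons 4 (nat_lit 0x8)
 (.cons 2 (nat_lit 0x30)
 (.cons 1 (nat_lit 0x50)
 (.cons 4 (nat_lit 0x8)
 .nil))))
noncomputable def a5 : Net := (.cons 4 (nat_lit 0x8)
 (.cons 1 (nat_lit 0x50)
 (.cons 4 (nat_lit 0x8)
 .nil)))
noncomputable def ns0 : List Net := [a0, a1]
noncomputable def ws : List (List ℕ) :=
  [W (nat_lit 0x100100c020100100c02),
  W (nat_lit 0x80401004),
  W (nat_lit 0x200601808),
  W (nat_lit 0x60200601c06)]
noncomputable def ns : List Net := [a0, a1, a2, a3, a4, a5]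
noncomputable def D : List (ℕ × List ℕ) := app [] (mkDefs ws 2)
noncomputable def chk : List (List ℕ × List ℕ) → Bool := P.relsB ns
noncomputable def G_v0 : Lev :=
  ⟨0, 7, sg (W (nat_lit 0x40300c01)), [[4], [6]], 0, 2⟩
noncomputable def G_v1 : Lev :=
  ⟨1, 6, sg (W (nat_lit 0x1c0501c05)), [[8], [10]], 2, 2⟩
noncomputable def G_v2 : Lev :=
  ⟨3, 4, sg (W (nat_lit 0x2c09)), [], 4, 0⟩
noncomputable def G_vs3 : List Lev :=
  []
noncomputable def G_vs2 : List Lev :=
  G_v2 :: G_vs3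
noncomputable def G_vs1 : List Lev :=
  G_v1 :: G_vs2
noncomputable def G_vs : List Lev :=
  G_v0 :: G_vs1
noncomputable def zE1 : Net :=
  .nil
noncomputable def zK2 : Lk :=
  ⟨zE1, 1, 2, 1⟩

theorem zc0 : P.chainB ns D G_vs [[0], [2]] = true := by decide +kernel
theorem zl3 : zK2.relB CL.Std.L32.M.P CL.Std.L32.P CL.Std.L32.M.ns [[6], [8]] [[0], [2]] = true := by decide +kernel
theorem zl4 : allL (zK2.pl CL.Std.L32.M.P CL.Std.L32.P CL.Std.L32.M.ns CL.Std.L32.ns 0) (zp [] [[6], [8]] [[0], [2]]) = true := by decide +kernel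
theorem zk5 : allL (keepB P.n P.N) ns0 = true := by decide +kernel
theorem ze6 : extB ns0 ns 2 ws [] = true := by decide +kernel
theorem zn7 : P.netsB ns (mkDefs ws 2) = true := by decide +kernel

section
variable {G X : Type*} [Group G] [MulAction G X] {e : ℕ → X} {gs : List G}

theorem keep0 : allL (keepB P.n P.N) ns0 = true := zk5

theorem len {k} (c : Ctx P e gs ns0 [] k) : gs.length = 2 := c.len ze6

theorem ctx0 {k} (c : Ctx P e gs ns0 [] k) : Ctx P e (ext gs ws) ns D chk0 :=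
  c.ext rfl ze6 zn7

theorem ctx {k} (c : Ctx P e gs ns0 [] k) {H : Subgroup G} (hF : Faithful e P.n H) (hH : ∀ g ∈ gs, g ∈ H) :
    Ctx P e (ext gs ws) ns D chk :=
  (ctx0 c).withB hF (mem_of_mem_ext hH _)

instance instNe : NeZero P.n := ⟨by decide⟩
noncomputable def gs0 : List (Equiv.Perm (Fin P.n)) := permsOf P.n P.N ns0
noncomputable def gs1 : List (Equiv.Perm (Fin P.n)) := ext gs0 ws
theorem c1 : Ctx P (eF P.n) gs1 ns D chk :=
  ctx (ctx_permsOf hP keep0) (faithful_eF _) fun _ _ => trivial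

theorem G_c : P.chainB ns D G_vs [[0], [2]] = true :=
  zc0

theorem G_o : prodL G_vs 1 = 168 := by decide +kernel

theorem G_lb (c : Ctx P e gs ns D chk) :
    LB (subW gs [[0], [2]]) 168 :=
  c.lb G_c G_o

theorem rel {Γ Y : Type*} [Group Γ] [MulAction Γ Y] {e' : ℕ → Y} {cs : List Γ} {D₁ D₂ : List (ℕ × List ℕ)}
    {k₁ k₂ : List (List ℕ × List ℕ) → Bool} (c : Ctx CL.Std.L32.M.P e gs CL.Std.L32.M.ns D₁ k₁) (c' : Ctx CL.Std.L32.P e' cs CL.Std.L32.ns D₂ k₂)
    (hF : Faithful e' CL.Std.L32.P.n (subW cs [[0], [2]])) :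
    RelLe gs [[6], [8]] cs [[0], [2]] :=
  c.relLe (K := zK2) c' hF zl3 (fun (t : ℕ) (ht : t < 1) => match t, ht with
    | 0, _ => zl4
    | t + 1, h => absurd h (by omega))

theorem hom {F : Type*} [Field F] [Fintype F] (hF : Fintype.card F = 2) :
    ∃ f : Matrix.SpecialLinearGroup (Fin 3) F →* Equiv.Perm (Fin P.n), f.range = (subW gs1 [[0], [2]]) ∧ f.ker = Subgroup.center _ ∧ Nat.card (subW gs1 [[0], [2]]) = 168 := by
  obtain ⟨el, h⟩ := Tab.exists_fc (tabP 2) (by decide +kernel) F hF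
  have hc : Nat.card (Matrix.SpecialLinearGroup (Fin 3) F) = 168 := card_sl hF 3 (by decide +kernel)
  have hK := subW_eq_range (l := [[6], [8]]) Matrix.SpecialLinearGroup.toGL Matrix.SpecialLinearGroup.toGL_injective hc (by norm_num)
    (subW_le_of_forall (mem_of_mem_ext (forall_mem_SL h (ix_fin 3) M.hinv M.zv4) _) _) (M.G_lb (M.c1 h))
  have : Finite (Matrix.SpecialLinearGroup (Fin 3) F) := Nat.finite_of_card_ne_zero (by rw [hc]; norm_num)
  exact cquot_of_card (RelLe.cquot0 (l := [[6], [8]]) (lZ := []) (a := 1) (b := 168) (rel (M.c1 h) c1 ((faithful_eF _).mono le_top)) (by decide)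
    Matrix.SpecialLinearGroup.toGL Matrix.SpecialLinearGroup.toGL_injective hc (by norm_num) hK (M.hZ (M.c1 h)).1 (M.hZ (M.c1 h)).2 (M.Z_lb (M.c1 h)) (G_lb c1)) (card_psl hF 2 (by decide +kernel))
theorem iso {F : Type*} [Field F] [Fintype F] (hF : Fintype.card F = 2) :
    Nonempty ((subW gs1 [[0], [2]]) ≃* Matrix.SpecialLinearGroup (Fin 3) F ⧸ Subgroup.center (Matrix.SpecialLinearGroup (Fin 3) F)) := cquot_equiv (hom hF)
theorem card : Nat.card (subW gs1 [[0], [2]]) = 168 := by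
  obtain ⟨F, _, _, hF⟩ := exists_field 2 1 (by norm_num)
  replace hF : Fintype.card F = 2 := hF
  exact (hom hF).choose_spec.2.2
theorem ub : UB (subW gs1 [[0], [2]]) 168 := UB.of_card card (by norm_num)

theorem simple : IsSimpleGroup (subW gs1 [[0], [2]]) := by
  obtain ⟨F, _, _, hF⟩ := exists_field 2 1 (by norm_num)
  replace hF : Fintype.card F = 2 := hF
  obtain ⟨el, h⟩ := Tab.exists_fc (tabP 2) (by decide +kernel) F hF
  have : IsSimpleGroup (Matrix.SpecialLinearGroup (Fin 3) F ⧸ Subgroup.center (Matrix.SpecialLinearGroup (Fin 3) F)) := SLn.isSimpleGroup_PSL_fin (F := F) 3 (by norm_num) (by rw [hF]; norm_num)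
  exact (iso hF).some.isSimpleGroup

end
end CL.Std.L32

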