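/-
The class count of `LeechClasses` for a lattice given by a Gram matrix.
-/
import Cfsg.Agent.Spor.LeechClasses

set_option autoImplicit false

namespace CL.Spor.Leech

open Cfsg Finset Matrix

/-- The bilinear form of a Gram matrix. -/
def gramForm (B : Matrix (Fin 24) (Fin 24) ℤ) : (Fin 24 → ℤ) →+ (Fin 24 → ℤ) →+ ℤ :=
  AddMonoidHom.mk' (fun x => AddMonoidHom.mk' (fun y => x ⬝ᵥ (B *ᵥ y))
    fun y z => by rw [Matrix.mulVec_add, dotProduct_add]) fun x y => AddMonoidHom.ext fun z =>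
      add_dotProduct x y (B *ᵥ z)

theorem gramForm_apply (B : Matrix (Fin 24) (Fin 24) ℤ) (x y : Fin 24 → ℤ) :
    gramForm B x y = x ⬝ᵥ (B *ᵥ y) := rfl

theorem gramForm_symm {B : Matrix (Fin 24) (Fin 24) ℤ} (hsymm : B.IsSymm) (x y : Fin 24 → ℤ) :
    gramForm B x y = gramForm B y x := by
  rw [gramForm_apply, gramForm_apply, Matrix.dotProduct_mulVec, ← Matrix.mulVec_transpose, hsymm.eq,
    dotProduct_comm]

theorem gram_min {B : Matrix (Fin 24) (Fin 24) ℤ}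
    (hpos : ∀ x : Fin 24 → ℤ, x ≠ 0 → 0 < x ⬝ᵥ (B *ᵥ x)) (heven : ∀ x : Fin 24 → ℤ, (2 : ℤ) ∣ x ⬝ᵥ (B *ᵥ x))
    (h2 : ∀ x : Fin 24 → ℤ, x ⬝ᵥ (B *ᵥ x) ≠ 2) (x : Fin 24 → ℤ) (hx : x ≠ 0) : 4 * 1 ≤ gramForm B x x := by
  have h1 := hpos x hx
  have h3 := heven x
  have h4 := h2 x
  rw [gramForm_apply]; omega

theorem two_dvd_iff (v : Fin 24 → ℤ) : (∀ i, (2 : ℤ) ∣ v i) ↔ ∃ z, v = 2 • z := by
  constructor
  · intro h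
    choose z hz using h
    exact ⟨z, by funext i; simp [hz i]⟩
  · rintro ⟨z, rfl⟩ i
    exact ⟨z i, by simp⟩

theorem gram_classes {B : Matrix (Fin 24) (Fin 24) ℤ} (hsymm : B.IsSymm)
    (hpos : ∀ x : Fin 24 → ℤ, x ≠ 0 → 0 < x ⬝ᵥ (B *ᵥ x)) (heven : ∀ x : Fin 24 → ℤ, (2 : ℤ) ∣ x ⬝ᵥ (B *ᵥ x))
    (h2 : ∀ x : Fin 24 → ℤ, x ⬝ᵥ (B *ᵥ x) ≠ 2)
    (h4 : {x : Fin 24 → ℤ | x ⬝ᵥ (B *ᵥ x) = 4}.ncard = 196560)
    (h6 : {x : Fin 24 → ℤ | x ⬝ᵥ (B *ᵥ x) = 6}.ncard = 16773120)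
    (h8 : {x : Fin 24 → ℤ | x ⬝ᵥ (B *ᵥ x) = 8}.ncard = 398034000) :
    (∀ x, ∃ y, gramForm B y y ≤ 8 ∧ ∃ z, x - y = 2 • z) ∧
    ∀ x, gramForm B x x = 8 → {y | gramForm B y y = 8 ∧ ∃ z, x - y = 2 • z}.ncard = 48 :=
  classes_abs (gramForm B) 1 (by simp) (by rw [AddSubgroup.index_range_nsmul]; simp) (by norm_num)
    (gramForm_symm hsymm) (gram_min hpos heven h2) h4 h6 h8

end CL.Spor.Leech
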