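/-
Uniqueness of the Leech lattice from its numbers of short vectors (Conway): the coordinates with respect to a cross.
-/
import Cfsg.Agent.Spor.LeechGram
import Cfsg.Agent.S0375
import Cfsg.Agent.S1567
import Cfsg.Agent.S0394
import Cfsg.Agent.Comp.Theta

set_option autoImplicit false

namespace CL.Spor.LeechU

open Cfsg Finset Matrix CL.Spor.Leech

/-- A lattice in cross coordinates. -/
structure Fr (L : AddSubgroup (Fin 24 → ℤ)) : Prop where
  dot : ∀ x ∈ L, ∀ y ∈ L, (8 : ℤ) ∣ ∑ i, x i * y i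
  nrm : ∀ x ∈ L, (16 : ℤ) ∣ ∑ i, x i ^ 2
  n16 : ∀ x ∈ L, ∑ i, x i ^ 2 ≠ 16
  four : ∀ z : Fin 24 → ℤ, (∑ i, z i) % 2 = 0 → (fun i => 4 * z i) ∈ L

variable {L : AddSubgroup (Fin 24 → ℤ)}

theorem Fr.par (h : Fr L) {x : Fin 24 → ℤ} (hx : x ∈ L) (i j : Fin 24) : x i % 2 = x j % 2 := by
  have h1 := h.four (Pi.single i 1 - Pi.single j 1) (by simp [Finset.sum_sub_distrib])
  have h2 := h.dot x hx _ h1
  have h3 : ∑ k, x k * (4 * (Pi.single i 1 - Pi.single j 1 : Fin 24 → ℤ) k) = 4 * x i - 4 * x j := by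
    have : ∀ k, x k * (4 * (Pi.single i 1 - Pi.single j 1 : Fin 24 → ℤ) k) =
        4 * (x k * (Pi.single i 1 : Fin 24 → ℤ) k) - 4 * (x k * (Pi.single j 1 : Fin 24 → ℤ) k) := by
      intro k; simp only [Pi.sub_apply]; ring
    simp only [this, Finset.sum_sub_distrib, ← Finset.mul_sum]
    simp [Pi.single_apply]
  rw [h3] at h2
  omega

/-- A vector of `L` can be changed by `4z` in any way, up to one correction at a chosen place. -/
theorem Fr.reduce (h : Fr L) {x : Fin 24 → ℤ} (hx : x ∈ L) (z : Fin 24 → ℤ) (p : Fin 24) :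
    (fun i => x i - 4 * z i) ∈ L ∨ (fun i => x i - 4 * z i - 4 * (Pi.single p 1 : Fin 24 → ℤ) i) ∈ L := by
  by_cases hz : (∑ i, z i) % 2 = 0
  · left
    exact L.sub_mem hx (h.four z hz)
  · right
    have h1 := h.four (z + Pi.single p 1) (by
      simp only [Pi.add_apply, Finset.sum_add_distrib, Finset.sum_pi_single', Finset.mem_univ, if_true]
      omega)
    have h2 := L.sub_mem hx h1
    convert h2 using 1
    funext i; simp only [Pi.sub_apply, Pi.add_apply]; ring

theorem Fr.not_single (h : Fr L) (p : Fin 24) (c : ℤ) (hc : c ^ 2 = 16) : (Pi.single p c : Fin 24 → ℤ) ∉ L := by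
  intro hx
  apply h.n16 _ hx
  rw [Finset.sum_eq_single p (fun i _ hi => by simp [hi]) (by simp)]
  simpa using hc

/-- The code of the lattice. -/
def code (L : AddSubgroup (Fin 24 → ℤ)) : Submodule (ZMod 2) (Fin 24 → ZMod 2) where
  carrier := {w | ∃ y : Fin 24 → ℤ, (fun i => 2 * y i) ∈ L ∧ w = fun i => (y i : ZMod 2)}
  add_mem' := by
    rintro _ _ ⟨y, hy, rfl⟩ ⟨y', hy', rfl⟩
    refine ⟨y + y', ?_, ?_⟩
    · convert L.add_mem hy hy' using 1
      funext i; simp only [Pi.add_apply]; ring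
    · funext i; simp
  zero_mem' := ⟨0, by convert L.zero_mem using 1; funext i; simp, by funext i; simp⟩
  smul_mem' := by
    rintro c _ ⟨y, hy, rfl⟩
    rcases zmod2_cases c with rfl | rfl
    · exact ⟨0, by convert L.zero_mem using 1; funext i; simp, by funext i; simp⟩
    · exact ⟨y, hy, by simp⟩

theorem mem_code {w : Fin 24 → ZMod 2} :
    w ∈ code L ↔ ∃ y : Fin 24 → ℤ, (fun i => 2 * y i) ∈ L ∧ w = fun i => (y i : ZMod 2) := Iff.rfl

/-- The odd places of an integer vector. -/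
def oddS (y : Fin 24 → ℤ) : Finset (Fin 24) := univ.filter fun i => y i % 2 = 1

theorem hamm_eq (y : Fin 24 → ℤ) : hammingNorm (fun i => (y i : ZMod 2)) = (oddS y).card := by
  unfold hammingNorm oddS
  congr 1
  ext i
  simp only [mem_filter, mem_univ, true_and, cast_ne_zero_iff]

theorem card_oddS (y : Fin 24 → ℤ) : ((oddS y).card : ℤ) = ∑ i, y i % 2 := by
  unfold oddS
  rw [Finset.card_filter]
  push_cast
  refine Finset.sum_congr rfl fun i _ => ?_
  split_ifs with h <;> omega

theorem sq_mod4 (a : ℤ) : (4 : ℤ) ∣ a ^ 2 - a % 2 := by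
  have h : a = 2 * (a / 2) + a % 2 := by omega
  rcases Int.emod_two_eq_zero_or_one a with e | e
  · rw [e] at h ⊢
    exact ⟨(a / 2) ^ 2, by rw [h]; simp; ring⟩
  · rw [e] at h ⊢
    refine ⟨(a / 2) ^ 2 + a / 2, ?_⟩
    generalize a / 2 = t at h
    rw [h]; ring

theorem Fr.four_dvd (h : Fr L) {y : Fin 24 → ℤ} (hy : (fun i => 2 * y i) ∈ L) : 4 ∣ (oddS y).card := by
  have h1 := h.nrm _ hy
  have h2 : ∑ i, (2 * y i) ^ 2 = 4 * ∑ i, y i ^ 2 := by
    rw [Finset.mul_sum]; exact Finset.sum_congr rfl fun i _ => by ring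
  have h3 : (4 : ℤ) ∣ ∑ i, (y i ^ 2 - y i % 2) := Finset.dvd_sum fun i _ => sq_mod4 _
  rw [Finset.sum_sub_distrib, ← card_oddS] at h3
  rw [h2] at h1
  have : (4 : ℤ) ∣ ((oddS y).card : ℤ) := by omega
  exact_mod_cast this

theorem Fr.ne_four (h : Fr L) {y : Fin 24 → ℤ} (hy : (fun i => 2 * y i) ∈ L) : (oddS y).card ≠ 4 := by
  intro h4
  obtain ⟨p, hp⟩ : (oddS y).Nonempty := Finset.card_pos.1 (by omega)
  have hp' : y p % 2 = 1 := (mem_filter.1 hp).2
  have hc := card_oddS y
  rw [h4] at hc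
  rcases h.reduce hy (fun i => y i / 2) p with e | e
  · apply h.n16 _ e
    have : ∀ i, (2 * y i - 4 * (y i / 2)) ^ 2 = 4 * (y i % 2) := by
      intro i
      rcases Int.emod_two_eq_zero_or_one (y i) with e | e
      · have : 2 * y i - 4 * (y i / 2) = 0 := by omega
        rw [this, e]; norm_num
      · have : 2 * y i - 4 * (y i / 2) = 2 := by omega
        rw [this, e]; norm_num
    simp only [this, ← Finset.mul_sum, ← hc]; norm_num
  · apply h.n16 _ e
    have : ∀ i, (2 * y i - 4 * (y i / 2) - 4 * (Pi.single p 1 : Fin 24 → ℤ) i) ^ 2 = 4 * (y i % 2) := by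
      intro i
      by_cases hi : i = p
      · subst hi
        have : 2 * y i - 4 * (y i / 2) = 2 := by omega
        rw [this, hp']; simp
      · rw [Pi.single_eq_of_ne hi]
        rcases Int.emod_two_eq_zero_or_one (y i) with e | e
        · have : 2 * y i - 4 * (y i / 2) = 0 := by omega
          rw [this, e]; norm_num
        · have : 2 * y i - 4 * (y i / 2) = 2 := by omega
          rw [this, e]; norm_num
    simp only [this, ← Finset.mul_sum, ← hc]; norm_num

theorem Fr.orth (h : Fr L) : ∀ v ∈ code L, ∀ w ∈ code L, ∑ i, v i * w i = 0 := by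
  rintro _ ⟨y, hy, rfl⟩ _ ⟨y', hy', rfl⟩
  have h1 := h.dot _ hy _ hy'
  have h2 : ∑ i, (2 * y i) * (2 * y' i) = 4 * ∑ i, y i * y' i := by
    rw [Finset.mul_sum]; exact Finset.sum_congr rfl fun i _ => by ring
  rw [h2] at h1
  have h3 : ((∑ i, y i * y' i : ℤ) : ZMod 2) = 0 := (cast_eq_zero_iff _).2 (by omega)
  simpa using h3

theorem Fr.finrank_le (h : Fr L) : Module.finrank (ZMod 2) (code L) ≤ 12 := by
  let B : LinearMap.BilinForm (ZMod 2) (Fin 24 → ZMod 2) := Matrix.toBilin' 1
  have hB : B.Nondegenerate := LinearMap.BilinForm.nondegenerate_toBilin'_of_det_ne_zero' 1 (by simp)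
  have h1 := LinearMap.BilinForm.finrank_orthogonal hB (code L)
  have h2 : code L ≤ B.orthogonal (code L) := by
    intro v hv w hw
    have := h.orth w hw v hv
    show B w v = 0
    simpa [B, Matrix.toBilin'_apply', dotProduct] using this
  have h3 := Submodule.finrank_mono h2
  simp only [Module.finrank_fintype_fun_eq_card, Fintype.card_fin] at h1
  omega

/-- Fibre bound: vectors with entries `±c` on `S`, zero off `S`, determined by their entries on `T`. -/
theorem card_fib_le (M : Finset (Fin 24 → ℤ)) (T : Finset (Fin 24)) (c : ℤ)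
    (hc : ∀ x ∈ M, ∀ i ∈ T, x i = c ∨ x i = -c)
    (hdet : ∀ x ∈ M, ∀ y ∈ M, (∀ i ∈ T, x i = y i) → x = y) : M.card ≤ 2 ^ T.card := by
  rw [← Finset.card_powerset]
  refine Finset.card_le_card_of_injOn (fun x => T.filter fun i => x i = c)
    (fun x _ => mem_coe.2 (mem_powerset.2 (filter_subset _ _))) (fun x hx y hy e => hdet x hx y hy fun i hi => ?_)
  have e' : x i = c ↔ y i = c := by
    have := congrArg (fun s => i ∈ s) e
    simpa [hi] using this
  rcases hc x hx i hi with e1 | e1 <;> rcases hc y hy i hi with e2 | e2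
  · rw [e1, e2]
  · rw [e'.1 e1, e1]
  · rw [e'.2 e2, e2]
  · rw [e1, e2]

theorem sq_le_sum (y : Fin 24 → ℤ) (i : Fin 24) : y i ^ 2 ≤ ∑ j, y j ^ 2 :=
  Finset.single_le_sum (f := fun j => y j ^ 2) (fun _ _ => sq_nonneg _) (mem_univ i)

/-- If the sum of squares is the number of odd places, the entries are `±1` and `0`. -/
theorem shape (y : Fin 24 → ℤ) (h : ∑ i, y i ^ 2 ≤ (oddS y).card) (i : Fin 24) :
    (i ∈ oddS y → y i = 1 ∨ y i = -1) ∧ (i ∉ oddS y → y i = 0) := by
  have hn : ∀ j, 0 ≤ y j ^ 2 - y j % 2 := by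
    intro j
    rcases Int.emod_two_eq_zero_or_one (y j) with e | e
    · rw [e]; simpa using sq_nonneg (y j)
    · rw [e]
      have : y j ≠ 0 := by omega
      have := sq_pos_of_ne_zero this
      omega
  have h1 : ∑ j, (y j ^ 2 - y j % 2) = 0 := by
    apply le_antisymm
    · rw [Finset.sum_sub_distrib, ← card_oddS]; omega
    · exact Finset.sum_nonneg fun j _ => hn j
  have h2 := (Finset.sum_eq_zero_iff_of_nonneg fun j _ => hn j).1 h1 i (mem_univ i)
  simp only [oddS, mem_filter, mem_univ, true_and]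
  refine ⟨fun e => ?_, fun e => ?_⟩
  · rw [e] at h2
    have : (y i - 1) * (y i + 1) = 0 := by linarith
    rcases mul_eq_zero.1 this with e | e <;> omega
  · have : y i % 2 = 0 := by omega
    rw [this] at h2
    exact pow_eq_zero_iff (two_ne_zero) |>.1 (by linarith)

theorem card_oddS_le (y : Fin 24 → ℤ) : ((oddS y).card : ℤ) ≤ ∑ i, y i ^ 2 := by
  rw [card_oddS]
  refine Finset.sum_le_sum fun j _ => ?_
  rcases Int.emod_two_eq_zero_or_one (y j) with e | e
  · rw [e]; exact sq_nonneg _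
  · rw [e]
    have : y j ≠ 0 := by omega
    have := sq_pos_of_ne_zero this
    omega

/-- The support of an integer vector. -/
def supp (x : Fin 24 → ℤ) : Finset (Fin 24) := univ.filter fun i => x i ≠ 0

theorem shape' {c : ℤ} (hc : c ≠ 0) {x z : Fin 24 → ℤ} (hx : ∀ i, x i = c * z i)
    (h : ∑ i, z i ^ 2 ≤ (oddS z).card) : supp x = oddS z ∧ ∀ i ∈ supp x, x i = c ∨ x i = -c := by
  have h1 : supp x = oddS z := by
    ext i
    obtain ⟨h2, h3⟩ := shape z h i
    simp only [supp, mem_filter, mem_univ, true_and, hx i]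
    constructor
    · intro e
      by_contra e'
      exact e (by rw [h3 e', mul_zero])
    · intro e
      rcases h2 e with e | e <;> rw [e] <;> simpa using hc
  refine ⟨h1, fun i hi => ?_⟩
  rw [h1] at hi
  rcases (shape z h i).1 hi with e | e <;> rw [hx i, e] <;> simp

theorem eq_of_supp {x y : Fin 24 → ℤ} (h : supp x = supp y) (h' : ∀ i ∈ supp x, x i = y i) : x = y := by
  funext i
  by_cases hi : i ∈ supp x
  · exact h' i hi
  · have hi' := hi
    rw [h] at hi'
    simp only [supp, mem_filter, mem_univ, true_and, not_not] at hi hi'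
    rw [hi, hi']

theorem sum_sq_mul (c : ℤ) {x z : Fin 24 → ℤ} (hx : ∀ i, x i = c * z i) :
    ∑ i, x i ^ 2 = c ^ 2 * ∑ i, z i ^ 2 := by
  rw [Finset.mul_sum]; exact Finset.sum_congr rfl fun i _ => by rw [hx i]; ring

/-- Vectors `4z` of squared length 32. -/
theorem count_A (M : Finset (Fin 24 → ℤ)) (hM : ∀ x ∈ M, ∑ i, x i ^ 2 = 32 ∧ ∀ i, x i % 4 = 0) :
    M.card ≤ 1104 := by
  classical
  have key : ∀ x ∈ M, (supp x).card = 2 ∧ ∀ i ∈ supp x, x i = 4 ∨ x i = -4 := by
    intro x hx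
    obtain ⟨h1, h2⟩ := hM x hx
    obtain ⟨z, h3⟩ : ∃ z : Fin 24 → ℤ, ∀ i, x i = 4 * z i := 
      ⟨fun i => x i / 4, fun i => by have := h2 i; dsimp only; omega⟩
    rw [sum_sq_mul 4 h3] at h1
    have h4 : (4 : ℤ) ∣ ∑ i, (z i ^ 2 - z i % 2) := Finset.dvd_sum fun i _ => sq_mod4 _
    rw [Finset.sum_sub_distrib, ← card_oddS] at h4
    have h5 := card_oddS_le z
    have h6 : (oddS z).card = 2 := by omega
    obtain ⟨h7, h8⟩ := shape' (by norm_num) h3 (by omega)
    exact ⟨h7 ▸ h6, h8⟩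
  have h1 := Finset.card_le_mul_card_image_of_maps_to (f := supp) (s := M) (t := powersetCard 2 univ)
    (fun x hx => by simp [mem_powersetCard, (key x hx).1]) 4 (fun S hS => by
      have hS2 : S.card = 2 := (mem_powersetCard.1 hS).2
      have := card_fib_le (M.filter fun x => supp x = S) S 4
        (fun x hx i hi => (key x (mem_filter.1 hx).1).2 i ((mem_filter.1 hx).2 ▸ hi))
        (fun x hx y hy e => eq_of_supp ((mem_filter.1 hx).2.trans (mem_filter.1 hy).2.symm)
          fun i hi => e i ((mem_filter.1 hx).2 ▸ hi))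
      rwa [hS2] at this)
  rw [card_powersetCard, card_univ, Fintype.card_fin] at h1
  exact h1

/-- Packing bound for the weight 8 words. -/
theorem Fr.octads_le (h : Fr L) (O : Finset (Finset (Fin 24)))
    (hO : ∀ S ∈ O, S.card = 8 ∧ ∃ y : Fin 24 → ℤ, (fun i => 2 * y i) ∈ L ∧ oddS y = S) : O.card ≤ 759 := by
  classical
  have h1 : (O.biUnion fun S => powersetCard 5 S).card = O.card * 56 := by
    rw [Finset.card_biUnion, Finset.sum_const_nat]
    · intro S hS
      rw [card_powersetCard, (hO S hS).1]; rfl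
    · intro S hS T hT hST
      rw [Function.onFun, Finset.disjoint_left]
      intro U hU hU'
      obtain ⟨hS8, y, hy, rfl⟩ := hO S hS
      obtain ⟨hT8, y', hy', rfl⟩ := hO T hT
      have hs : (fun i => 2 * (y + y') i) ∈ L := by
        convert L.add_mem hy hy' using 1
        funext i; simp only [Pi.add_apply]; ring
      have e1 : oddS (y + y') = (oddS y \ oddS y') ∪ (oddS y' \ oddS y) := by
        ext i
        simp only [oddS, mem_filter, mem_univ, true_and, mem_union, mem_sdiff, Pi.add_apply]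
        omega
      have e2 : (oddS (y + y')).card = (oddS y \ oddS y').card + (oddS y' \ oddS y).card := by
        rw [e1, card_union_of_disjoint disjoint_sdiff_sdiff]
      have e3 := Finset.card_sdiff_add_card_inter (oddS y) (oddS y')
      have e4 := Finset.card_sdiff_add_card_inter (oddS y') (oddS y)
      rw [inter_comm] at e4
      have e5 : 5 ≤ (oddS y ∩ oddS y').card := by
        rw [← (mem_powersetCard.1 hU).2]
        exact card_le_card (subset_inter (mem_powersetCard.1 hU).1 (mem_powersetCard.1 hU').1)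
      have e6 := h.four_dvd hs
      have e7 := h.ne_four hs
      have e8 : (oddS y \ oddS y').card = 0 := by omega
      apply hST
      exact Finset.eq_of_subset_of_card_le (sdiff_eq_empty_iff_subset.1 (card_eq_zero.1 e8)) (by omega)
  have h2 : (O.biUnion fun S => powersetCard 5 S) ⊆ powersetCard 5 univ := by
    intro U hU
    obtain ⟨S, -, hS⟩ := mem_biUnion.1 hU
    exact mem_powersetCard.2 ⟨subset_univ _, (mem_powersetCard.1 hS).2⟩
  have h3 := card_le_card h2
  rw [h1, card_powersetCard, card_univ, Fintype.card_fin] at h3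
  have : Nat.choose 24 5 = 42504 := by decide +kernel
  omega

/-- Vectors `2y` of squared length 32 with `y` not even. -/
theorem Fr.count_B (h : Fr L) (M : Finset (Fin 24 → ℤ))
    (hM : ∀ x ∈ M, x ∈ L ∧ ∑ i, x i ^ 2 = 32 ∧ (∀ i, x i % 2 = 0) ∧ ¬ ∀ i, x i % 4 = 0) :
    M.card ≤ 128 * 759 := by
  classical
  have key : ∀ x ∈ M, ((supp x).card = 8 ∧ ∃ y : Fin 24 → ℤ, (fun i => 2 * y i) ∈ L ∧ oddS y = supp x) ∧
      ∀ i ∈ supp x, x i = 2 ∨ x i = -2 := by
    intro x hx
    obtain ⟨h0, h1, h2, h2'⟩ := hM x hx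
    obtain ⟨z, h3⟩ : ∃ z : Fin 24 → ℤ, ∀ i, x i = 2 * z i := 
      ⟨fun i => x i / 2, fun i => by have := h2 i; dsimp only; omega⟩
    rw [sum_sq_mul 2 h3] at h1
    have hz : (fun i => 2 * z i) ∈ L := by rw [← funext h3]; exact h0
    have h4 := h.four_dvd hz
    have h4' := h.ne_four hz
    have h5 := card_oddS_le z
    have h5' : (oddS z).card ≠ 0 := by
      intro e
      apply h2'
      intro i
      have : i ∉ oddS z := by rw [card_eq_zero.1 e]; simp
      simp only [oddS, mem_filter, mem_univ, true_and] at this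
      rw [h3 i]; omega
    have h6 : (oddS z).card = 8 := by omega
    obtain ⟨h7, h8⟩ := shape' (by norm_num) h3 (by omega)
    exact ⟨⟨h7 ▸ h6, z, hz, h7.symm⟩, h8⟩
  have h1 := Finset.card_le_mul_card_image (f := supp) M 128 (fun S hS => by
      obtain ⟨x0, hx0, rfl⟩ := mem_image.1 hS
      have hS8 := (key x0 hx0).1.1
      obtain ⟨p, hp⟩ : (supp x0).Nonempty := card_pos.1 (by omega)
      have := card_fib_le (M.filter fun x => supp x = supp x0) ((supp x0).erase p) 2
        (fun x hx i hi => (key x (mem_filter.1 hx).1).2 i ((mem_filter.1 hx).2 ▸ mem_of_mem_erase hi))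
        (fun x hx y hy e => by
          obtain ⟨hx1, hx2⟩ := mem_filter.1 hx
          obtain ⟨hy1, hy2⟩ := mem_filter.1 hy
          have hp' : x p = y p := by
            by_contra hne
            have hd : x - y = Pi.single p (x p - y p) := by
              funext i
              by_cases hi : i = p
              · subst hi; simp
              · rw [Pi.single_eq_of_ne hi, Pi.sub_apply, sub_eq_zero]
                by_cases hi' : i ∈ supp x0
                · exact e i (mem_erase.2 ⟨hi, hi'⟩)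
                · have a1 : i ∉ supp x := hx2 ▸ hi'
                  have a2 : i ∉ supp y := hy2 ▸ hi'
                  simp only [supp, mem_filter, mem_univ, true_and, not_not] at a1 a2
                  rw [a1, a2]
            refine h.not_single p (x p - y p) ?_ (hd ▸ L.sub_mem (hM x hx1).1 (hM y hy1).1)
            rcases (key x hx1).2 p (hx2 ▸ hp) with a | a <;> rcases (key y hy1).2 p (hy2 ▸ hp) with b | b <;>
              simp_all
          refine eq_of_supp (hx2.trans hy2.symm) fun i hi => ?_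
          by_cases hip : i = p
          · rw [hip, hp']
          · exact e i (mem_erase.2 ⟨hip, hx2 ▸ hi⟩))
      rwa [card_erase_of_mem hp, hS8] at this)
  have h2 := h.octads_le (M.image supp) (fun S hS => by
    obtain ⟨x0, hx0, rfl⟩ := mem_image.1 hS
    exact (key x0 hx0).1)
  omega

theorem odd_shape {x : Fin 24 → ℤ} (h1 : ∑ i, x i ^ 2 = 32) (h2 : ∀ i, x i % 2 = 1) :
    ∃ p, (x p = 3 ∨ x p = -3) ∧ ∀ i, i ≠ p → x i = 1 ∨ x i = -1 := by
  have hn : ∀ i, 0 ≤ x i ^ 2 - 1 := fun i => by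
    have : x i ≠ 0 := by have := h2 i; omega
    have := sq_pos_of_ne_zero this
    omega
  have hs : ∑ i, (x i ^ 2 - 1) = 8 := by rw [Finset.sum_sub_distrib, h1]; simp
  obtain ⟨p, hp⟩ : ∃ p, x p ^ 2 - 1 ≠ 0 := by
    by_contra hc
    push Not at hc
    simp [hc] at hs
  have h8 : 8 ≤ x p ^ 2 - 1 := by
    have := h2 p
    by_contra hc
    have a1 : x p < 3 := by nlinarith
    have a2 : -3 < x p := by nlinarith
    have : x p = 1 ∨ x p = -1 := by omega
    rcases this with e | e <;> simp [e] at hp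
  rw [← Finset.add_sum_erase _ _ (mem_univ p)] at hs
  have hr := Finset.sum_nonneg (s := univ.erase p) (fun i _ => hn i)
  have hr0 : ∑ i ∈ univ.erase p, (x i ^ 2 - 1) = 0 := by omega
  refine ⟨p, ?_, fun i hi => ?_⟩
  · have : (x p - 3) * (x p + 3) = 0 := by linarith
    rcases mul_eq_zero.1 this with e | e <;> omega
  · have := (Finset.sum_eq_zero_iff_of_nonneg fun i _ => hn i).1 hr0 i (by simp [hi])
    have : (x i - 1) * (x i + 1) = 0 := by linarith
    rcases mul_eq_zero.1 this with e | e <;> omega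

/-- Odd vectors of squared length 32. -/
theorem count_O (M : Finset (Fin 24 → ℤ))
    (hM : ∀ x ∈ M, x ∈ L ∧ ∑ i, x i ^ 2 = 32 ∧ ∀ i, x i % 2 = 1) : M.card ≤ 24 * Nat.card (code L) := by
  classical
  rcases M.eq_empty_or_nonempty with rfl | ⟨u, hu⟩
  · simp
  have hmem : ∀ x : M, (fun i => (((x.1 i - u i) / 2 : ℤ) : ZMod 2)) ∈ code L := by
    intro x
    refine ⟨fun i => (x.1 i - u i) / 2, ?_, rfl⟩
    convert L.sub_mem (hM x x.2).1 (hM u hu).1 using 1
    funext i
    have := (hM x x.2).2.2 i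
    have := (hM u hu).2.2 i
    simp only [Pi.sub_apply]; omega
  choose p hp using fun x : M => odd_shape (hM x x.2).2.1 (hM x x.2).2.2
  have hinj : Function.Injective (fun x : M => (p x, (⟨_, hmem x⟩ : code L))) := by
    intro x y e
    simp only [Prod.mk.injEq, Subtype.mk.injEq] at e
    apply Subtype.ext
    funext i
    have e1 : ((x.1 i - u i) / 2) % 2 = ((y.1 i - u i) / 2) % 2 := by
      have := congrFun e.2 i
      exact (ZMod.intCast_eq_intCast_iff' _ _ 2).1 this
    have e2 := (hM u hu).2.2 i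
    by_cases hi : i = p x
    · have a := (hp x).1
      have b := (hp y).1
      rw [← e.1, ← hi] at b
      rw [← hi] at a
      omega
    · have a := (hp x).2 i hi
      have b := (hp y).2 i (e.1 ▸ hi)
      omega
  have := Nat.card_le_card_of_injective _ hinj
  simpa using this

theorem Fr.big (h : Fr L) (hc : {x | x ∈ L ∧ ∑ i, x i ^ 2 = 32}.ncard = 196560) :
    Module.finrank (ZMod 2) (code L) = 12 ∧ ∃ u ∈ L, ∀ i, u i % 2 = 1 := by
  classical
  have hf : {x | x ∈ L ∧ ∑ i, x i ^ 2 = 32}.Finite := Set.finite_of_ncard_ne_zero (by omega)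
  rw [Set.ncard_eq_toFinset_card _ hf] at hc
  set M := hf.toFinset with hM
  have hM' : ∀ x ∈ M, x ∈ L ∧ ∑ i, x i ^ 2 = 32 := fun x hx => by simpa [hM] using hx
  have s1 := Finset.card_filter_add_card_filter_not (s := M) (fun x => ∀ i, x i % 4 = 0)
  have s2 := Finset.card_filter_add_card_filter_not (s := M.filter fun x => ¬ ∀ i, x i % 4 = 0)
    (fun x => ∀ i, x i % 2 = 0)
  have a1 := count_A (M.filter fun x => ∀ i, x i % 4 = 0)
    (fun x hx => ⟨(hM' x (mem_filter.1 hx).1).2, (mem_filter.1 hx).2⟩)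
  have a2 := h.count_B ((M.filter fun x => ¬ ∀ i, x i % 4 = 0).filter fun x => ∀ i, x i % 2 = 0)
    (fun x hx => by
      simp only [mem_filter] at hx
      exact ⟨(hM' x hx.1.1).1, (hM' x hx.1.1).2, hx.2, hx.1.2⟩)
  have hodd : ∀ x ∈ (M.filter fun x => ¬ ∀ i, x i % 4 = 0).filter fun x => ¬ ∀ i, x i % 2 = 0,
      x ∈ L ∧ ∑ i, x i ^ 2 = 32 ∧ ∀ i, x i % 2 = 1 := fun x hx => by
    simp only [mem_filter, not_forall] at hx
    obtain ⟨j, hj⟩ := hx.2
    refine ⟨(hM' x hx.1.1).1, (hM' x hx.1.1).2, fun i => ?_⟩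
    have := h.par (hM' x hx.1.1).1 i j
    omega
  have a3 := count_O _ hodd
  refine ⟨le_antisymm h.finrank_le ?_, ?_⟩
  · have a4 : Nat.card (code L) = 2 ^ Module.finrank (ZMod 2) (code L) := by
      rw [Module.natCard_eq_pow_finrank (K := ZMod 2)]; simp
    by_contra hlt
    have : 2 ^ Module.finrank (ZMod 2) (code L) ≤ 2 ^ 11 := Nat.pow_le_pow_right (by norm_num) (by omega)
    omega
  · obtain ⟨u, hu⟩ : ((M.filter fun x => ¬ ∀ i, x i % 4 = 0).filter fun x => ¬ ∀ i, x i % 2 = 0).Nonempty :=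
      card_pos.1 (by omega)
    exact ⟨u, (hodd u hu).1, (hodd u hu).2.2⟩

/-- A lattice in cross coordinates with 196560 short vectors is the Leech lattice, after a signed permutation. -/
theorem Fr.iso (h : Fr L) (hc : {x | x ∈ L ∧ ∑ i, x i ^ 2 = 32}.ncard = 196560) :
    ∃ φ : (Fin 24 → ℤ) →+ (GolayPt → ℤ), Function.Injective φ ∧ (∀ x, sqNorm (φ x) = ∑ i, x i ^ 2) ∧
      L.map φ = leechLattice := by
  classical
  obtain ⟨hdim, u, hu, hu1⟩ := h.big hc
  obtain ⟨e, he⟩ := Cfsg.Agent.S0375.result (code L) hdim h.orth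
    (by rintro _ ⟨y, hy, rfl⟩; rw [hamm_eq]; exact h.four_dvd hy)
    (by rintro _ ⟨y, hy, rfl⟩; rw [hamm_eq]; exact h.ne_four hy)
  obtain ⟨ε, k, hε, hk⟩ : ∃ ε k : Fin 24 → ℤ, (∀ i, ε i = 1 ∨ ε i = -1) ∧ ∀ i, ε i * u i = 1 + 4 * k i := by
    refine ⟨fun i => if u i % 4 = 1 then 1 else -1, fun i => if u i % 4 = 1 then u i / 4 else (-u i) / 4,
      fun i => ?_, fun i => ?_⟩
    · dsimp only; split_ifs <;> simp
    · have := hu1 i
      dsimp only; split_ifs <;> omega
  have hε2 : ∀ i, ε i * ε i = 1 := fun i => by rcases hε i with a | a <;> simp [a]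
  let φ : (Fin 24 → ℤ) →+ (GolayPt → ℤ) :=
    AddMonoidHom.mk' (fun x p => ε (e.symm p) * x (e.symm p)) (fun x y => by funext p; simp [mul_add])
  have hφ : ∀ x p, φ x p = ε (e.symm p) * x (e.symm p) := fun _ _ => rfl
  have hinj : Function.Injective φ := by
    rw [injective_iff_map_eq_zero]
    intro x hx
    funext i
    have := congrFun hx (e i)
    rw [hφ, e.symm_apply_apply] at this
    rcases hε i with a | a <;> simpa [a] using this
  have hn : ∀ x, sqNorm (φ x) = ∑ i, x i ^ 2 := by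
    intro x
    unfold sqNorm
    rw [← e.sum_comp]
    refine Finset.sum_congr rfl fun i _ => ?_
    rw [hφ, e.symm_apply_apply, mul_pow, sq (ε i), hε2, one_mul]
  have hev : ∀ y : Fin 24 → ℤ, (fun i => 2 * y i) ∈ L → φ (fun i => 2 * y i) ∈ leechLattice := by
    intro y hy
    have : φ (fun i => 2 * y i) = fun p => 2 * (ε (e.symm p) * y (e.symm p)) := by
      funext p; rw [hφ]; ring
    rw [this, two_mul_mem_iff (fun p => ε (e.symm p) * y (e.symm p))]
    constructor
    · rw [he]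
      refine ⟨y, hy, ?_⟩
      funext i
      simp only [red, e.symm_apply_apply]
      rcases hε i with a | a
      · simp [a]
      · simp only [a, neg_mul, one_mul, Int.cast_neg]; exact ZMod.neg_eq_self_mod_two _
    · rw [← e.sum_comp]
      simp only [e.symm_apply_apply]
      have h1 := h.dot _ hy _ hu
      have h2 : ∀ i, 2 * y i * u i = 2 * (ε i * y i) + 8 * (ε i * y i * k i) := by
        intro i
        have : 2 * y i * u i = 2 * (ε i * y i) * (ε i * u i) := by
          linear_combination (-2 * y i * u i) * hε2 i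
        rw [this, hk i]; ring
      simp only [h2, Finset.sum_add_distrib, ← Finset.mul_sum] at h1
      omega
  have hφu : φ u ∈ leechLattice := by
    have : φ u = fun p => 1 + 2 * (2 * k (e.symm p)) := by
      funext p; rw [hφ, hk]; ring
    rw [this, one_add_two_mul_mem_iff (fun p => 2 * k (e.symm p)), red_two_mul (fun p => k (e.symm p))]
    refine ⟨Submodule.zero_mem _, ?_⟩
    rw [← e.sum_comp]
    simp only [e.symm_apply_apply]
    have h1 := h.nrm _ hu
    have h2 : ∀ i, u i ^ 2 = 1 + 8 * k i + 16 * k i ^ 2 := by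
      intro i
      have : u i ^ 2 = (ε i * u i) ^ 2 := by linear_combination (-u i ^ 2) * hε2 i
      rw [this, hk i]; ring
    simp only [h2, Finset.sum_add_distrib, ← Finset.mul_sum, Finset.sum_const, card_univ, Fintype.card_fin,
      nsmul_eq_mul] at h1 ⊢
    omega
  have hle : L.map φ ≤ leechLattice := by
    rintro _ ⟨x, hx, rfl⟩
    rcases Int.emod_two_eq_zero_or_one (x 0) with a | a
    · have : x = fun i => 2 * (x i / 2) := by
        funext i; have := h.par hx i 0; omega
      rw [this]; exact hev (fun i => x i / 2) (this ▸ hx)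
    · have h1 : x - u = fun i => 2 * ((x i - u i) / 2) := by
        funext i; have := h.par hx i 0; have := hu1 i; simp only [Pi.sub_apply]; omega
      have h2 := hev (fun i => (x i - u i) / 2) (h1 ▸ L.sub_mem hx hu)
      rw [← h1, map_sub] at h2
      simpa using leechLattice.add_mem h2 hφu
  refine ⟨φ, hinj, hn, le_antisymm hle ?_⟩
  rw [← Cfsg.Agent.S1567.result, AddSubgroup.closure_le]
  have h1 : φ '' {x | x ∈ L ∧ ∑ i, x i ^ 2 = 32} = {x | x ∈ leechLattice ∧ sqNorm x = 32} := by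
    apply Set.eq_of_subset_of_ncard_le
    · rintro _ ⟨x, hx, rfl⟩
      exact ⟨hle ⟨x, hx.1, rfl⟩, by rw [hn, hx.2]⟩
    · rw [Set.ncard_image_of_injective _ hinj, hc, Cfsg.Agent.S0394.result]
    · exact Set.finite_of_ncard_ne_zero (by rw [Cfsg.Agent.S0394.result]; norm_num)
  rw [← h1]
  rintro _ ⟨x, hx, rfl⟩
  exact ⟨x, hx.1, rfl⟩

/-- A set of 48 vectors, any two equal, opposite or orthogonal, contains 24 orthogonal ones. -/
theorem exists_frame {M : Type*} [AddCommGroup M] (b : M →+ M →+ ℤ) (hsymm : ∀ x y, b x y = b y x) (F : Finset M)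
    (hF : F.card = 48) (h : ∀ x ∈ F, ∀ y ∈ F, x = y ∨ x = -y ∨ b x y = 0) :
    ∃ f : Fin 24 → M, (∀ i, f i ∈ F) ∧ ∀ i j, i ≠ j → b (f i) (f j) = 0 := by
  classical
  obtain ⟨T, hT, hmax⟩ := Finset.exists_max_image
    (F.powerset.filter fun T => ∀ x ∈ T, ∀ y ∈ T, x ≠ y → b x y = 0) Finset.card ⟨∅, by simp⟩
  simp only [mem_filter, mem_powerset] at hT hmax
  have h2 : F ⊆ T ∪ T.image (fun x => -x) := by
    intro y hy
    by_contra hy'
    simp only [mem_union, mem_image, not_or, not_exists, not_and] at hy'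
    have horth : ∀ x ∈ T, b y x = 0 := fun x hx => by
      rcases h y hy x (hT.1 hx) with e | e | e
      · exact absurd (e ▸ hx) hy'.1
      · exact absurd e.symm (hy'.2 x hx)
      · exact e
    have := hmax (insert y T) (by
      refine ⟨Finset.insert_subset hy hT.1, fun u hu v hv huv => ?_⟩
      rcases mem_insert.1 hu with hu | hu <;> rcases mem_insert.1 hv with hv | hv
      · exact absurd (hu.trans hv.symm) huv
      · rw [hu]; exact horth v hv
      · rw [hsymm, hv]; exact horth u hu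
      · exact hT.2 u hu v hv huv)
    rw [Finset.card_insert_of_notMem hy'.1] at this
    omega
  have h3 := (Finset.card_le_card h2).trans (Finset.card_union_le _ _)
  have h4 : (T.image (fun x => -x)).card ≤ T.card := Finset.card_image_le
  obtain ⟨T', hT', hc⟩ := Finset.exists_subset_card_eq (s := T) (n := 24) (by omega)
  let e := (T'.equivFinOfCardEq hc).symm
  exact ⟨fun i => e i, fun i => hT.1 (hT' (e i).2), fun i j hij =>
    hT.2 _ (hT' (e i).2) _ (hT' (e j).2) fun a => hij (e.injective (Subtype.ext a))⟩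

/-- Conway's characterisation of the Leech lattice by its numbers of short vectors. -/
theorem leech_of_counts (B : Matrix (Fin 24) (Fin 24) ℤ) (hsymm : B.IsSymm)
    (hpos : ∀ x : Fin 24 → ℤ, x ≠ 0 → 0 < x ⬝ᵥ (B *ᵥ x)) (heven : ∀ x : Fin 24 → ℤ, (2 : ℤ) ∣ x ⬝ᵥ (B *ᵥ x))
    (h2 : ∀ x : Fin 24 → ℤ, x ⬝ᵥ (B *ᵥ x) ≠ 2)
    (h4 : {x : Fin 24 → ℤ | x ⬝ᵥ (B *ᵥ x) = 4}.ncard = 196560)
    (h6 : {x : Fin 24 → ℤ | x ⬝ᵥ (B *ᵥ x) = 6}.ncard = 16773120)
    (h8 : {x : Fin 24 → ℤ | x ⬝ᵥ (B *ᵥ x) = 8}.ncard = 398034000) :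
    ∃ f : (Fin 24 → ℤ) ≃+ leechLattice, ∀ x : Fin 24 → ℤ,
      sqNorm ((f x : leechLattice) : GolayPt → ℤ) = 8 * (x ⬝ᵥ (B *ᵥ x)) := by
  classical
  obtain ⟨x0, hx0⟩ : {x : Fin 24 → ℤ | x ⬝ᵥ (B *ᵥ x) = 8}.Nonempty := Set.nonempty_of_ncard_ne_zero (by omega)
  have hc := (gram_classes hsymm hpos heven h2 h4 h6 h8).2 x0 hx0
  have hf : {y | gramForm B y y = 8 ∧ ∃ z, x0 - y = 2 • z}.Finite := Set.finite_of_ncard_ne_zero (by omega)
  rw [Set.ncard_eq_toFinset_card _ hf] at hc
  have hcong : ∀ x ∈ hf.toFinset, ∀ y ∈ hf.toFinset, ∃ z, x - y = 2 • z := by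
    intro x hx y hy
    obtain ⟨-, z, hz⟩ := hf.mem_toFinset.1 hx
    obtain ⟨-, w, hw⟩ := hf.mem_toFinset.1 hy
    exact ⟨w - z, by rw [smul_sub, ← hz, ← hw]; abel⟩
  obtain ⟨f, hfF, hfo⟩ := exists_frame (gramForm B) (gramForm_symm hsymm) hf.toFinset hc (fun x hx y hy => by
    obtain ⟨z, hz⟩ := hcong x hx y hy
    rcases short_congr_abs (gramForm B) 1 (gramForm_symm hsymm) (gram_min hpos heven h2)
      (by rw [(hf.mem_toFinset.1 hx).1]; norm_num) (by rw [(hf.mem_toFinset.1 hy).1]; norm_num) hz with e | e | e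
    exacts [Or.inl e, Or.inr (Or.inl e), Or.inr (Or.inr e.2.2)])
  have hf8 : ∀ i, gramForm B (f i) (f i) = 8 := fun i => (hf.mem_toFinset.1 (hfF i)).1
  -- the matrix of the frame
  let P : Matrix (Fin 24) (Fin 24) ℤ := Matrix.of f
  have hP : P * B * Pᵀ = (8 : ℤ) • (1 : Matrix (Fin 24) (Fin 24) ℤ) := by
    ext i j
    have : (P * B * Pᵀ) i j = gramForm B (f i) (f j) := by
      rw [gramForm_apply, Matrix.mul_assoc, Matrix.mul_apply]
      rfl
    rw [this]
    by_cases hij : i = j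
    · subst hij; simp [hf8]
    · simp [hfo i j hij, Matrix.one_apply_ne hij]
  have hP' : Pᵀ * (P * B) = (8 : ℤ) • (1 : Matrix (Fin 24) (Fin 24) ℤ) := by
    let c := Int.castRingHom ℚ
    have h1 : ((1 / 8 : ℚ) • (P * B).map c) * Pᵀ.map c = 1 := by
      rw [Matrix.smul_mul, ← Matrix.map_mul, hP]
      ext i j
      simp only [Matrix.smul_apply, Matrix.map_apply, c, eq_intCast, smul_eq_mul]
      by_cases hij : i = j
      · subst hij; simp only [Matrix.one_apply_eq]; norm_num
      · simp only [Matrix.one_apply_ne hij]; norm_num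
    have h2 := mul_eq_one_comm.1 h1
    rw [Matrix.mul_smul, ← Matrix.map_mul] at h2
    ext i j
    have h3 := congrFun (congrFun h2 i) j
    simp only [Matrix.smul_apply, Matrix.map_apply, c, eq_intCast, smul_eq_mul] at h3
    have h4 : (((Pᵀ * (P * B)) i j : ℤ) : ℚ) = 8 * (1 : Matrix (Fin 24) (Fin 24) ℚ) i j := by
      rw [← h3]; ring
    by_cases hij : i = j
    · subst hij
      simp only [Matrix.one_apply_eq, mul_one] at h4
      simp only [Matrix.smul_apply, Matrix.one_apply_eq, smul_eq_mul, mul_one]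
      exact_mod_cast h4
    · simp only [Matrix.one_apply_ne hij, mul_zero] at h4
      simp only [Matrix.smul_apply, Matrix.one_apply_ne hij, smul_eq_mul, mul_zero]
      exact_mod_cast h4
  let ψ : (Fin 24 → ℤ) →+ (Fin 24 → ℤ) := AddMonoidHom.mk' (fun x => (P * B) *ᵥ x) (Matrix.mulVec_add _)
  have hψ : ∀ x, ψ x = (P * B) *ᵥ x := fun _ => rfl
  have hψi : ∀ x i, ψ x i = gramForm B (f i) x := fun x i => by
    rw [hψ, ← Matrix.mulVec_mulVec]; rfl
  have hdot : ∀ x y, ∑ i, ψ x i * ψ y i = 8 * (x ⬝ᵥ (B *ᵥ y)) := by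
    intro x y
    change ((P * B) *ᵥ x) ⬝ᵥ ((P * B) *ᵥ y) = _
    rw [← Matrix.vecMul_transpose, ← Matrix.dotProduct_mulVec, Matrix.mulVec_mulVec, Matrix.transpose_mul,
      hsymm.eq, Matrix.mul_assoc, hP', Matrix.mul_smul, Matrix.mul_one, Matrix.smul_mulVec, dotProduct_smul,
      smul_eq_mul]
  have hsq : ∀ x, ∑ i, ψ x i ^ 2 = 8 * (x ⬝ᵥ (B *ᵥ x)) := fun x => by
    rw [← hdot]; exact Finset.sum_congr rfl fun i _ => sq _
  have hψinj : Function.Injective ψ := by
    rw [injective_iff_map_eq_zero]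
    intro x hx
    by_contra hne
    have := hpos x hne
    have h3 := hsq x
    rw [hx] at h3
    simp at h3
    omega
  have hψf : ∀ j, ψ (f j) = Pi.single j 8 := fun j => by
    funext i
    rw [hψi]
    by_cases hij : i = j
    · subst hij; simp [hf8]
    · simp [hfo i j hij, hij]
  have hFr : Fr ψ.range := by
    refine ⟨?_, ?_, ?_, ?_⟩
    · rintro _ ⟨x, rfl⟩ _ ⟨y, rfl⟩
      rw [hdot]; exact Dvd.intro _ rfl
    · rintro _ ⟨x, rfl⟩
      have := heven x
      rw [hsq]; omega
    · rintro _ ⟨x, rfl⟩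
      have := h2 x
      rw [hsq]; omega
    · intro z hz
      have hd : ∀ i, (Pi.single i 4 - Pi.single 0 4 : Fin 24 → ℤ) ∈ ψ.range := by
        intro i
        obtain ⟨w, hw⟩ := hcong _ (hfF i) _ (hfF 0)
        refine ⟨w, ?_⟩
        have h3 := congrArg ψ hw
        rw [map_sub, hψf, hψf, map_nsmul] at h3
        funext j
        have h5 := congrFun h3 j
        simp only [Pi.sub_apply, Pi.smul_apply, Pi.single_apply, nsmul_eq_mul] at h5 ⊢
        split_ifs at h5 ⊢ <;> push_cast at h5 <;> omega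
      have h8 : (Pi.single 0 8 : Fin 24 → ℤ) ∈ ψ.range := ⟨f 0, hψf 0⟩
      have h9 := ψ.range.add_mem (ψ.range.sum_mem (t := univ) fun i _ => ψ.range.zsmul_mem (hd i) (z i))
        (ψ.range.zsmul_mem h8 ((∑ i, z i) / 2))
      convert h9 using 1
      funext j
      simp only [Pi.add_apply, Finset.sum_apply, Pi.smul_apply, Pi.sub_apply, Pi.single_apply, smul_eq_mul,
        mul_sub, Finset.sum_sub_distrib, mul_ite, mul_zero, Finset.sum_ite_eq, mem_univ, if_true]
      split_ifs with hj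
      · rw [← Finset.sum_mul]; omega
      · simp; ring
  have hcnt : {x | x ∈ ψ.range ∧ ∑ i, x i ^ 2 = 32}.ncard = 196560 := by
    rw [← h4, ← Set.ncard_image_of_injective {x : Fin 24 → ℤ | x ⬝ᵥ (B *ᵥ x) = 4} hψinj]
    congr 1
    ext x
    constructor
    · rintro ⟨⟨y, rfl⟩, hy⟩
      rw [hsq] at hy
      exact ⟨y, by simp only [Set.mem_ofPred_eq]; omega, rfl⟩
    · rintro ⟨y, hy, rfl⟩
      refine ⟨⟨y, rfl⟩, ?_⟩
      simp only [Set.mem_ofPred_eq] at hy
      rw [hsq, hy]; norm_num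
  obtain ⟨φ, hφi, hφn, hφL⟩ := hFr.iso hcnt
  let g : (Fin 24 → ℤ) →+ leechLattice := (φ.comp ψ).codRestrict leechLattice
    (fun x => hφL ▸ ⟨ψ x, ⟨x, rfl⟩, rfl⟩)
  have hg : Function.Bijective g := by
    constructor
    · intro x y e
      exact hψinj (hφi (congrArg Subtype.val e))
    · rintro ⟨v, hv⟩
      rw [← hφL] at hv
      obtain ⟨_, ⟨x, rfl⟩, rfl⟩ := hv
      exact ⟨x, rfl⟩
  exact ⟨AddEquiv.ofBijective g hg, fun x => (hφn (ψ x)).trans (hsq x)⟩

/-- An integer matrix with a non-negative quadratic form has non-negative determinant. -/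
theorem det_nonneg_of_nonneg {n : Type*} [Fintype n] [DecidableEq n] (B : Matrix n n ℤ) (hsymm : B.IsSymm)
    (hpos : ∀ x : n → ℤ, 0 ≤ x ⬝ᵥ (B *ᵥ x)) : 0 ≤ B.det := by
  have hq : ∀ x : n → ℚ, 0 ≤ x ⬝ᵥ (B.map (Int.castRingHom ℚ) *ᵥ x) := by
    intro x
    obtain ⟨⟨d, hd⟩, hx⟩ := IsLocalization.exist_integer_multiples_of_finite (nonZeroDivisors ℤ) x
    choose y hy using hx
    have hd0 : (d : ℚ) ≠ 0 := by exact_mod_cast nonZeroDivisors.ne_zero hd
    have hy' : ∀ i, x i = (y i : ℚ) / d := by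
      intro i
      have := hy i
      simp only [eq_intCast, zsmul_eq_mul] at this
      rw [this]; field_simp
    have h1 : x ⬝ᵥ (B.map (Int.castRingHom ℚ) *ᵥ x) = ((y ⬝ᵥ (B *ᵥ y) : ℤ) : ℚ) / d ^ 2 := by
      simp only [dotProduct, Matrix.mulVec, hy', Matrix.map_apply, eq_intCast, Int.cast_sum, Int.cast_mul,
        Finset.sum_div, Finset.mul_sum]
      refine Finset.sum_congr rfl fun i _ => Finset.sum_congr rfl fun j _ => ?_
      field_simp
    rw [h1]
    exact div_nonneg (by exact_mod_cast hpos y) (sq_nonneg _)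
  have hr : ∀ x : n → ℝ, 0 ≤ x ⬝ᵥ (B.map (Int.castRingHom ℝ) *ᵥ x) := by
    have hd : DenseRange (Pi.map (fun (_ : n) (q : ℚ) => (q : ℝ))) := DenseRange.piMap fun _ => Rat.denseRange_cast
    intro x
    refine hd.induction_on x (isClosed_le continuous_const (by fun_prop)) fun q => ?_
    have h1 : (Pi.map (fun (_ : n) (q : ℚ) => (q : ℝ)) q) ⬝ᵥ (B.map (Int.castRingHom ℝ) *ᵥ
        (Pi.map (fun (_ : n) (q : ℚ) => (q : ℝ)) q)) = ((q ⬝ᵥ (B.map (Int.castRingHom ℚ) *ᵥ q) : ℚ) : ℝ) := by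
      simp [dotProduct, Matrix.mulVec]
    rw [h1]
    exact_mod_cast hq q
  have hps : (B.map (Int.castRingHom ℝ)).PosSemidef := by
    rw [Matrix.posSemidef_iff_dotProduct_mulVec]
    refine ⟨?_, fun x => by simpa using hr x⟩
    ext i j
    simpa using congrArg (fun z : ℤ => (z : ℝ)) (hsymm.apply i j)
  have h2 := hps.det_nonneg
  have h3 : (B.map (Int.castRingHom ℝ)).det = ((B.det : ℤ) : ℝ) := ((Int.castRingHom ℝ).map_det B).symm
  rw [h3] at h2
  exact_mod_cast h2

theorem dot_of_sqNorm {M : Type*} [AddCommGroup M] (b : M →+ M →+ ℤ) (hsymm : ∀ x y, b x y = b y x)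
    (f : M →+ leechLattice) (hf : ∀ x, sqNorm ((f x : leechLattice) : GolayPt → ℤ) = 8 * b x x) (x y : M) :
    dotInt ((f x : leechLattice) : GolayPt → ℤ) (f y : leechLattice) = 8 * b x y := by
  have h1 := hf (x + y)
  have h2 : sqNorm ((f (x + y) : leechLattice) : GolayPt → ℤ) = sqNorm ((f x : leechLattice) : GolayPt → ℤ) +
      2 * dotInt ((f x : leechLattice) : GolayPt → ℤ) (f y : leechLattice) +
      sqNorm ((f y : leechLattice) : GolayPt → ℤ) := by
    simp only [map_add, AddSubgroup.coe_add, sqNorm, dotInt, Pi.add_apply, Finset.mul_sum, ← Finset.sum_add_distrib]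
    exact Finset.sum_congr rfl fun i _ => by ring
  rw [h2, hf, hf] at h1
  simp only [map_add, AddMonoidHom.add_apply, hsymm y x] at h1
  omega

/-- **Uniqueness of the Leech lattice**: a free abelian group of rank 24 with a positive even unimodular form without
roots is isometric to the Leech lattice. -/
theorem leech_unique {M : Type*} [AddCommGroup M] [Module.Free ℤ M] [Module.Finite ℤ M]
    (hr : Module.finrank ℤ M = 24) (b : M →+ M →+ ℤ) (hsymm : ∀ x y, b x y = b y x)
    (hpos : ∀ x, x ≠ 0 → 0 < b x x) (heven : ∀ x, (2 : ℤ) ∣ b x x) (h2 : ∀ x, b x x ≠ 2)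
    (huni : ∀ φ : M →+ ℤ, ∃ x, ∀ y, b x y = φ y) :
    ∃ f : M ≃+ leechLattice, (∀ x, sqNorm ((f x : leechLattice) : GolayPt → ℤ) = 8 * b x x) ∧
      ∀ x y, dotInt ((f x : leechLattice) : GolayPt → ℤ) (f y : leechLattice) = 8 * b x y := by
  classical
  let e := Module.finBasisOfFinrankEq ℤ M hr
  let B : Matrix (Fin 24) (Fin 24) ℤ := Matrix.of fun i j => b (e i) (e j)
  have hB : ∀ x y : Fin 24 → ℤ, x ⬝ᵥ (B *ᵥ y) = b (e.equivFun.symm x) (e.equivFun.symm y) := by
    intro x y
    simp only [Module.Basis.equivFun_symm_apply, map_sum, map_zsmul, AddMonoidHom.finsetSum_apply,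
      AddMonoidHom.smul_apply, smul_eq_mul, dotProduct, Matrix.mulVec, B, Matrix.of_apply, Finset.mul_sum]
    rw [Finset.sum_comm]
    exact Finset.sum_congr rfl fun i _ => Finset.sum_congr rfl fun j _ => by ring
  have hs : B.IsSymm := by ext i j; exact hsymm _ _
  have hp : ∀ x : Fin 24 → ℤ, x ≠ 0 → 0 < x ⬝ᵥ (B *ᵥ x) := fun x hx => by
    rw [hB]; exact hpos _ (fun a => hx (e.equivFun.symm.map_eq_zero_iff.1 a))
  have hdet : B.det = 1 := by
    have h0 := det_nonneg_of_nonneg B hs (fun x => by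
      by_cases hx : x = 0
      · simp [hx]
      · exact (hp x hx).le)
    choose d hd using fun i : Fin 24 => huni (e.coord i).toAddMonoidHom
    have h1 : (Matrix.of fun i j => e.repr (d i) j) * B = 1 := by
      ext i j
      have h3 := hd i (e j)
      conv_lhs at h3 => rw [← e.sum_repr (d i)]
      simp only [map_sum, map_zsmul, AddMonoidHom.finsetSum_apply, AddMonoidHom.smul_apply, smul_eq_mul,
        LinearMap.toAddMonoidHom_coe, Module.Basis.coord_apply, Module.Basis.repr_self] at h3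
      rw [Matrix.mul_apply]
      simp only [Matrix.of_apply, B]
      rw [h3, Finsupp.single_apply, Matrix.one_apply]
      simp only [eq_comm]
    have h4 := congrArg Matrix.det h1
    rw [Matrix.det_mul, Matrix.det_one, mul_comm] at h4
    exact Int.eq_one_of_mul_eq_one_right h0 h4
  have he : ∀ x : Fin 24 → ℤ, (2 : ℤ) ∣ x ⬝ᵥ (B *ᵥ x) := fun x => by rw [hB]; exact heven _
  have h2' : ∀ x : Fin 24 → ℤ, x ⬝ᵥ (B *ᵥ x) ≠ 2 := fun x => by rw [hB]; exact h2 _
  obtain ⟨c4, c6, c8⟩ := CL.Comp.Th.leech_theta B hs hp he hdet h2'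
  obtain ⟨f, hf⟩ := leech_of_counts B hs hp he h2' c4 c6 c8
  have hn : ∀ x, sqNorm (((e.equivFun.toAddEquiv.trans f) x : leechLattice) : GolayPt → ℤ) = 8 * b x x := by
    intro x
    rw [AddEquiv.trans_apply, hf, hB]
    simp
  exact ⟨e.equivFun.toAddEquiv.trans f, hn,
    dot_of_sqNorm b hsymm (e.equivFun.toAddEquiv.trans f).toAddMonoidHom hn⟩

end CL.Spor.LeechU
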