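/-
Subgroups of `M24`, `M23` and `M22` of some given orders.
-/
import Cfsg.Agent.Spor.M24Sub
import Cfsg.Agent.S1565

set_option autoImplicit false

namespace CL.Spor

open Cfsg MulAction
open scoped Pointwise

/-- The elements fixing a set and each point of another set. -/
abbrev St (A F : ℕ) : Subgroup M24 := stabilizer M24 (ofMask A) ⊓ fixS (ofMask F)

theorem card_St_le {A F n : ℕ} (lv : List (ℕ × ℕ × ℕ × List (ℕ × ℕ × ℕ))) (h : Nat.ble (ordUB [A] lv F) n = true) :
    Nat.card (St A F) ≤ n :=
  (card_le_ordUB (H := St A F) lv (fun g hg B hB => by rw [List.mem_singleton.1 hB]; exact hg.1)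
    fun g hg => mem_fixS.1 hg.2).trans (Nat.le_of_ble_eq_true h)

theorem good_St {A F : ℕ} {S : List ℕ} (h : allL (inSt A F) S = true) : ∀ P ∈ S, Good (St A F) P :=
  fun P hP => good_of_inSt ((allL_iff _ _).1 h P hP)

theorem ub_6 : Nat.card (St 6 8388608) ≤ 40320 :=
  card_St_le [(0, 16777209, 16777209, []), (3, 16777209, 16777209, []), (1, 6, 6, [(6, 6, 2)]), (4, 8241104, 8241104, []), (5, 8536111, 8536111, [(12656663, 8663097, 13), (12656663, 9543722, 16), (12656663, 12656663, 22), (9543722, 5325835, 20), (9543722, 9543722, 15), (13938692, 3416079, 18), (3416079, 3416079, 21), (1413139, 1413139, 12), (7438406, 7438406, 6), (14919680, 2422785, 11), (14919680, 14919680, 17), (9347075, 9347075, 19), (1302533, 1302533, 14), (14254209, 14254209, 7), (4038912, 4038912, 8), (8077824, 8077824, 9), (7767041, 7767041, 10)])] (by decide +kernel)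

theorem ub_oct : Nat.card (St 8536111 8388608) ≤ 40320 :=
  card_St_le [(4, 8241104, 8241104, []), (6, 8241104, 8241104, []), (0, 8536111, 8536111, []), (1, 8536111, 8536111, [(8524371, 8536111, 17)]), (2, 8536111, 8536111, [(9830549, 9578566, 20), (9830549, 459847, 18), (9830549, 9830549, 7), (459847, 10305542, 16), (459847, 459847, 10), (10305542, 4063314, 19), (10305542, 10305542, 14), (4063314, 4063314, 21), (11731203, 11731203, 8), (13062145, 11163650, 12), (13062145, 13062145, 22), (6053905, 6053905, 13), (9347075, 9347075, 15), (11100169, 11100169, 3), (11952160, 11952160, 5), (8077824, 8077824, 9), (14919680, 14919680, 11)])] (by decide +kernel)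

theorem ub_7 : Nat.card (St 7 8388608) ≤ 5760 :=
  card_St_le [(3, 16777208, 16777208, []), (0, 7, 7, []), (1, 7, 7, [(7, 7, 2)]), (4, 8241104, 8241104, []), (5, 8536111, 8536111, [(12656663, 8663097, 13), (12656663, 9543722, 16), (12656663, 12656663, 22), (9543722, 5325835, 20), (9543722, 9543722, 15), (13938692, 3416079, 18), (3416079, 3416079, 21), (1413139, 1413139, 12), (7438406, 7438406, 6), (14919680, 2422785, 11), (14919680, 14919680, 17), (9347075, 9347075, 19), (1302533, 1302533, 14), (14254209, 14254209, 7), (4038912, 4038912, 8), (8077824, 8077824, 9), (7767041, 7767041, 10)])] (by decide +kernel)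

theorem ub_18 : Nat.card (St 8241110 8388608) ≤ 1920 :=
  card_St_le [(0, 8536105, 8536105, []), (3, 8536105, 8536105, []), (5, 8536105, 8536105, []), (14, 8536105, 8536105, [(8536105, 8536105, 17)]), (4, 8241104, 8241104, [(8546577, 4415544, 13), (8546577, 8414120, 8), (8546577, 8546577, 11), (9055272, 4900873, 19), (9055272, 9055272, 10), (4900873, 632881, 15), (4900873, 4900873, 22), (632881, 632881, 16), (14919680, 14919680, 21), (2422785, 4845570, 12), (13062145, 13062145, 18), (9347075, 9347075, 1), (6053905, 6053905, 20), (1302533, 1302533, 2), (15515712, 15515712, 6), (14254209, 14254209, 7), (8077824, 8077824, 9)])] (by decide +kernel)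

theorem ub_hex : Nat.card (St 147502 8388608) ≤ 5760 :=
  card_St_le [(1, 147502, 147502, []), (2, 147502, 147502, []), (3, 147502, 147502, []), (5, 147502, 147502, [(8536111, 16629713, 0)]), (4, 8241104, 8241104, [(12656663, 8663097, 13), (12656663, 9543722, 16), (12656663, 12656663, 22), (9543722, 5325835, 20), (9543722, 9543722, 15), (13938692, 3416079, 18), (3416079, 3416079, 21), (1413139, 1413139, 12), (7438406, 7438406, 6), (14919680, 2422785, 11), (14919680, 14919680, 17), (9347075, 9347075, 19), (1302533, 1302533, 14), (14254209, 14254209, 7), (4038912, 4038912, 8), (8077824, 8077824, 9), (7767041, 7767041, 10)])] (by decide +kernel)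

theorem ub_4 : Nat.card (St 147496 8388608) ≤ 1152 :=
  card_St_le [(3, 147496, 147496, []), (5, 147496, 147496, []), (14, 147496, 147496, [(147496, 147496, 17)]), (4, 8241104, 8241104, []), (0, 8536111, 8536111, [(8546577, 4415544, 13), (8546577, 2269481, 8), (8546577, 8546577, 11), (9055272, 4900873, 19), (9055272, 9055272, 10), (4900873, 632881, 15), (4900873, 4900873, 22), (632881, 632881, 16), (14919680, 14919680, 21), (2422785, 4845570, 12), (13062145, 13062145, 18), (9347075, 9347075, 1), (6053905, 6053905, 20), (1302533, 1302533, 2), (15515712, 15515712, 6), (14254209, 14254209, 7), (8077824, 8077824, 9)])] (by decide +kernel)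

theorem ub_5 : Nat.card (St 147497 8388608) ≤ 1920 :=
  card_St_le [(0, 147497, 147497, []), (3, 147497, 147497, []), (5, 147497, 147497, []), (14, 147497, 147497, [(147497, 147497, 17)]), (4, 8241104, 8241104, [(8546577, 4415544, 13), (8546577, 8414120, 8), (8546577, 8546577, 11), (9055272, 4900873, 19), (9055272, 9055272, 10), (4900873, 632881, 15), (4900873, 4900873, 22), (632881, 632881, 16), (14919680, 14919680, 21), (2422785, 4845570, 12), (13062145, 13062145, 18), (9347075, 9347075, 1), (6053905, 6053905, 20), (1302533, 1302533, 2), (15515712, 15515712, 6), (14254209, 14254209, 7), (8077824, 8077824, 9)])] (by decide +kernel)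

theorem ub_20 : Nat.card (St 8388600 8388608) ≤ 5760 :=
  card_St_le [(3, 8388600, 8388600, []), (0, 8388615, 8388615, []), (1, 8388615, 8388615, [(8388615, 8388615, 2)]), (4, 8241104, 8241104, []), (5, 8536111, 8536111, [(12656663, 8663097, 13), (12656663, 9543722, 16), (12656663, 12656663, 22), (9543722, 5325835, 20), (9543722, 9543722, 15), (13938692, 3416079, 18), (3416079, 3416079, 21), (1413139, 1413139, 12), (7438406, 7438406, 6), (14919680, 2422785, 11), (14919680, 14919680, 17), (9347075, 9347075, 19), (1302533, 1302533, 14), (14254209, 14254209, 7), (4038912, 4038912, 8), (8077824, 8077824, 9), (7767041, 7767041, 10)])] (by decide +kernel)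

theorem chain_norm_conj {X R : ℕ} {x r : M24} (hX : Rep X x) (hR : Rep R r) {n : ℕ}
    (hn : Nat.card (Subgroup.normalizer (Subgroup.zpowers r : Set M24)) = n) {lvK lv : List (ℕ × List ℕ)}
    (hK : SChain (Subgroup.zpowers x) lvK) (C : ℕ) (h1 : (inM24 C && Nat.beq (pconj C R) X) = true)
    (h2 : allL inM24 (levelEls lv) = true)
    (h3 : allL (fun P => allL (fun Q => sift lvK (pconj P Q)) [X]) (levelEls lv) = true)
    (h4 : (transOK lv && Nat.beq (lenProd lv) n) = true) :
    SChain (Subgroup.normalizer (Subgroup.zpowers x : Set M24)) lv := by
  rw [Bool.and_eq_true, Nat.beq_eq] at h1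
  have e : m24 C * r * (m24 C)⁻¹ = x := ((rep_m24 h1.1).isConj_eq hR hX).2 h1.2
  refine sChain_of_card (good_normalizer_all (good_top_of_all h2) (good_zpowers hX) (gen_singleton hX).symm hK.1 h3) ?_ h4
  rw [← hn, ← card_map_conj (Subgroup.normalizer (Subgroup.zpowers r : Set M24)) (m24 C),
    Subgroup.map_normalizer_eq_of_bijective _ (MulAut.conj _).bijective, MonoidHom.map_zpowers]
  exact (congrArg (fun y => Nat.card (Subgroup.normalizer (Subgroup.zpowers y : Set M24))) e).ge

@[irreducible] def a11 : ℕ := 983435072843990828779021698901151808
theorem rep_a11 : Rep a11 (m24 a11) := rep_m24 (by decide +kernel)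
theorem chain_a11 : SChain (Subgroup.zpowers (m24 a11)) [(1, powL a11 11)] := sChain_zpowers rep_a11 1 11 (by decide +kernel)
theorem card_a11 : Nat.card (Subgroup.zpowers (m24 a11)) = 11 := chain_a11.card_eq.trans (by decide +kernel)
theorem sylIn_a11 : Fus.SylIn 11 (Subgroup.zpowers (m24 a11)) ⊤ :=
  sylIn_of_card (k := 1) (m := 22256640) (by norm_num) le_top card_a11 card_top_M24 (by norm_num)
theorem a11_le : Subgroup.zpowers (m24 a11) ≤ stabilizer M24 (gPt 23) ⊓ stabilizer M24 (gPt 0) :=
  chain_a11.eq_gen ▸ gen_le (good_inf_all (good_pt_all chain_a11.1 (by norm_num) (by decide +kernel))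
    (good_pt_all chain_a11.1 (by norm_num) (by decide +kernel)))
def levNa11 : List (ℕ × List ℕ) := [(23, [984818244535754528103549039458486304, 5284887985811987964643649897584247]), (1, [984818244535754528103549039458486304, 983435072843990828779021698901151808, 980668730378935070469623699575545984, 980623620615494437327650338233436416, 974380510768821363662145534143076928, 975074981857073328387818560804173312, 974192857846616903476708535734645952, 962588790636320930210487642771108256, 964881566828850631422085576588168480, 962184327967037872470836877598166400, 968831900483021157457398538231481440]), (2, [984818244535754528103549039458486304, 970459361523271695787015306425278496, 968955966875123533138286166201145376, 978076899444677511050001024522036256, 965300289861748889990672440075108384])]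
theorem chainNa11 : SChain (Subgroup.normalizer (Subgroup.zpowers (m24 a11) : Set M24)) levNa11 :=
  chain_norm_conj rep_a11 rep_r11 card_N11 chain_a11 943822049905979992888591145339436661 (by decide +kernel) (by decide +kernel) (by decide +kernel) (by decide +kernel)

@[irreducible] def a7 : ℕ := 966596744091264273637025140603194432
theorem rep_a7 : Rep a7 (m24 a7) := rep_m24 (by decide +kernel)
theorem chain_a7 : SChain (Subgroup.zpowers (m24 a7)) [(1, powL a7 7)] := sChain_zpowers rep_a7 1 7 (by decide +kernel)
theorem card_a7 : Nat.card (Subgroup.zpowers (m24 a7)) = 7 := chain_a7.card_eq.trans (by decide +kernel)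
theorem sylIn_a7 : Fus.SylIn 7 (Subgroup.zpowers (m24 a7)) ⊤ :=
  sylIn_of_card (k := 1) (m := 34974720) (by norm_num) le_top card_a7 card_top_M24 (by norm_num)
theorem a7_le : Subgroup.zpowers (m24 a7) ≤ stabilizer M24 (gPt 23) ⊓ stabilizer M24 (gPt 0) :=
  chain_a7.eq_gen ▸ gen_le (good_inf_all (good_pt_all chain_a7.1 (by norm_num) (by decide +kernel))
    (good_pt_all chain_a7.1 (by norm_num) (by decide +kernel)))
def levNa7 : List (ℕ × List ℕ) := [(23, [984818244535754528103549039458486304, 6595825432419853237726151470305815, 189624725798799235081654164439346903]), (0, [984818244535754528103549039458486304, 979447793353008167593109249170124900]), (1, [984818244535754528103549039458486304, 966596744091264273637025140603194432, 970252686255831620108038812545207392, 975593152266735138432930450608927328, 978320264606590172467986863967249792, 966344537136332137959077940078151968, 984774870559864406274618604679955872]), (2, [984818244535754528103549039458486304, 970399585714193774510844046869924896, 978038614910490292259601111025004576])]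
theorem chainNa7 : SChain (Subgroup.normalizer (Subgroup.zpowers (m24 a7) : Set M24)) levNa7 :=
  chain_norm_conj rep_a7 rep_r7 card_N7 chain_a7 63209028663277482319414205073476706 (by decide +kernel) (by decide +kernel) (by decide +kernel) (by decide +kernel)

@[irreducible] def a5 : ℕ := 977864963184960973661438897150854272
theorem rep_a5 : Rep a5 (m24 a5) := rep_m24 (by decide +kernel)
theorem chain_a5 : SChain (Subgroup.zpowers (m24 a5)) [(1, powL a5 5)] := sChain_zpowers rep_a5 1 5 (by decide +kernel)
theorem card_a5 : Nat.card (Subgroup.zpowers (m24 a5)) = 5 := chain_a5.card_eq.trans (by decide +kernel)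
theorem sylIn_a5 : Fus.SylIn 5 (Subgroup.zpowers (m24 a5)) ⊤ :=
  sylIn_of_card (k := 1) (m := 48964608) (by norm_num) le_top card_a5 card_top_M24 (by norm_num)
theorem a5_le : Subgroup.zpowers (m24 a5) ≤ stabilizer M24 (gPt 23) ⊓ stabilizer M24 (gPt 0) :=
  chain_a5.eq_gen ▸ gen_le (good_inf_all (good_pt_all chain_a5.1 (by norm_num) (by decide +kernel))
    (good_pt_all chain_a5.1 (by norm_num) (by decide +kernel)))
def levNa5 : List (ℕ × List ℕ) := [(23, [984818244535754528103549039458486304, 649633314296629252857477569367258371, 146098481217704242979507798087310671, 8581459838395112119327171447076131]), (0, [984818244535754528103549039458486304, 977620627050392840609451085247126863, 984004400463187162086834820161713539]), (1, [984818244535754528103549039458486304, 977881343727247884959580225012865152, 980431958256420744118384923348797632, 969952412052033243847481939299780672, 973897415006763473283957367504343616]), (2, [984818244535754528103549039458486304, 984799016615329826603595760505294880, 984444188461805708752323088099022880, 984447756380300809835322717071984672])]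
theorem chainNa5 : SChain (Subgroup.normalizer (Subgroup.zpowers (m24 a5) : Set M24)) levNa5 :=
  chain_norm_conj rep_a5 rep_r5 card_N5 chain_a5 52751596260635681492662055472285892 (by decide +kernel) (by decide +kernel) (by decide +kernel) (by decide +kernel)

theorem cardN11 : Nat.card (⊤ ⊓ Subgroup.normalizer (Subgroup.zpowers (m24 a11) : Set M24) : Subgroup M24) = 110 := by
  rw [top_inf_eq]; exact chainNa11.card_eq.trans (by decide +kernel)
theorem cardN11' : Nat.card (stabilizer M24 (gPt 23) ⊓ Subgroup.normalizer (Subgroup.zpowers (m24 a11) : Set M24) : Subgroup M24) = 55 := by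
  rw [inf_comm]; exact chainNa11.tail.1.card_eq.trans (by decide +kernel)
theorem cardN7 : Nat.card (stabilizer M24 (gPt 23) ⊓ stabilizer M24 (gPt 0) ⊓
    Subgroup.normalizer (Subgroup.zpowers (m24 a7) : Set M24) : Subgroup M24) = 21 := by
  rw [inf_comm, ← inf_assoc]; exact chainNa7.tail.1.tail.1.card_eq.trans (by decide +kernel)
theorem cardN5 : Nat.card (stabilizer M24 (gPt 23) ⊓ stabilizer M24 (gPt 0) ⊓
    Subgroup.normalizer (Subgroup.zpowers (m24 a5) : Set M24) : Subgroup M24) = 20 := by
  rw [inf_comm, ← inf_assoc]; exact chainNa5.tail.1.tail.1.card_eq.trans (by decide +kernel)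

theorem St_oct {H : Subgroup M24} (h1 : H ≤ fixS (ofMask 8388608)) (h2 : H ≤ stabilizer M24 (ofMask 147503)) :
    H ≤ St 8536111 8388608 := fun g hg => by
  refine ⟨?_, h1 hg⟩
  change g • ofMask (8388608 ||| 147503) = ofMask (8388608 ||| 147503)
  rw [ofMask_or, Finset.smul_finset_union, smul_eq_of_fix (mem_fixS.1 (h1 hg)), mem_stabilizer_iff.1 (h2 hg)]

theorem over_Q2 {H : Subgroup M24} (h1 : H ≤ fixS (ofMask 8388608)) (hQ : Q2 ≤ H)
    (hn : Nat.card H = 40320 ∨ Nat.card H = 13440) : H ≤ St 6 8388608 ∨ H ≤ St 8536111 8388608 := by
  have hS : ∀ P ∈ levelEls levQ2, Good H P := fun P hP => (chainQ2.1 P hP).mono hQ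
  have key : ∃ m ∈ [6, 8241110, 147502, 7, 147503], H ≤ stabilizer M24 (ofMask m) := by
    rcases hn with hn | hn
    · obtain ⟨m, h, h', -⟩ := orbit_cases hS h1 hn [0, 1, 3, 4, 23] 1 [6, 8241110, 147502, 7, 147503] (by decide +kernel)
      exact ⟨m, h, h'⟩
    · obtain ⟨m, h, h', -⟩ := orbit_cases hS h1 hn [0, 1, 3, 4, 23] 1 [6, 8241110, 147502, 7, 147503] (by decide +kernel)
      exact ⟨m, h, h'⟩
  obtain ⟨m, hm, h⟩ := key
  have h2 := Subgroup.card_le_of_le (le_inf h h1)
  simp only [List.mem_cons, List.not_mem_nil, or_false] at hm
  rcases hm with rfl | rfl | rfl | rfl | rfl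
  · exact .inl (le_inf h h1)
  · have := h2.trans ub_18; omega
  · have := h2.trans ub_hex; omega
  · have := h2.trans ub_7; omega
  · exact .inr (St_oct h1 h)

theorem over_P2 {H : Subgroup M24} (hP : P2 ≤ H) {n : ℕ} (hn : Nat.card H = n) :
    H ≤ stabilizer M24 oct0 ∨ n = 24 * Nat.card (H ⊓ fixS (ofMask 8388608) : Subgroup M24) := by
  obtain ⟨m, hm, h, e⟩ := orbit_cases (F := 0) (fun P hP' => (chainP2.1 P hP').mono hP) (by rw [ofMask_zero, fixS_empty]; exact le_top)
    (n := 0 + n) (hn.trans (Nat.zero_add n).symm) [0, 4] 23 [8536111, 16777215] (by
      have : ∀ m ∈ subU ([0, 4].map (orbMask (levelEls levP2))), (or (not (Nat.testBit m 23))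
        (anyL (fun x => Nat.beq m x) [8536111, 16777215])) = true := (allL_iff _ _).1 (by decide +kernel)
      rw [candOK, Bool.and_eq_true, allL_iff]
      refine ⟨by decide +kernel, fun m hm => ?_⟩
      have := this m hm
      simp only [Bool.or_eq_true] at this ⊢
      tauto)
  simp only [List.mem_cons, List.not_mem_nil, or_false] at hm
  rcases hm with rfl | rfl
  · exact .inl h
  · rw [fixS_23]; exact .inr ((Nat.zero_add n).symm.trans e)

theorem Q2_le_inf {H : Subgroup M24} (hP : P2 ≤ H) : Q2 ≤ H ⊓ fixS (ofMask 8388608) :=
  fixS_23 ▸ inf_le_inf_right _ hP

theorem good_pair {H K : Subgroup M24} (hP : P2 ≤ H) (hK : K ≤ H) {a b : ℕ} (ha : ∀ P ∈ [a], Good K P)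
    (hb : (allL inM24 [b] && allL (sift levP2) [b]) = true) : ∀ P ∈ [a, b], Good H P := by
  rw [Bool.and_eq_true] at hb
  exact good_append (fun P h => (ha P h).mono hK) fun P h => (chainP2.good_of_sift (good_top_of_all hb.1) hb.2 P h).mono hP

theorem good_seven {L K : Subgroup M24} (h : L ≤ K) (hc : Nat.card K ≤ 6 * Nat.card L) {S : List ℕ}
    (hS : ∀ P ∈ S, Good K P) (h7 : allL (fun P => Nat.beq (ppow P 7) pone) S = true) : ∀ P ∈ S, Good L P := fun P hP =>
  ⟨m24 P, mem_of_pow_seven h hc (hS P hP).m24_mem
    ((((hS P hP).rep.pow 7).eq_one_iff).2 (Nat.eq_of_beq_eq_true ((allL_iff _ _).1 h7 P hP))), (hS P hP).rep⟩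

theorem over_P2_759 {H : Subgroup M24} (hP : P2 ≤ H) (hn : Nat.card H = 322560) : H = stabilizer M24 oct0 := by
  rcases over_P2 hP hn with h | h
  · exact Subgroup.eq_of_le_of_card_ge h (by rw [card_stabilizer_octad oct0_mem, hn])
  have h1 : Nat.card (H ⊓ fixS (ofMask 8388608) : Subgroup M24) = 13440 := by omega
  rcases over_Q2 inf_le_right (Q2_le_inf hP) (.inr h1) with h2 | h2
  · have := le_card_of_slp (n := 20160) (good_seven h2 (ub_6.trans (by omega)) (S := [962257811969930338004685602888976433, 973035215259060075341907401758804020])
      (good_St (by decide +kernel)) (by decide +kernel))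
      [(0, 1, 974298686833201985298474993643292719), (0, 1, 965292603959589903855822434414495792), (0, 3, 978221135455793082929558724214425641), (0, 4, 979283546799368188040433456274442272), (5, 5, 963758002341366452354632957747660837), (0, 6, 976179228166664016379135380747028527), (0, 7, 978285477582005990516324951876962357), (0, 7, 973799500897398911134080934444435501), (0, 9, 975309541861974457047851936507234336), (5, 0, 980619233671533196146290070457157664), (0, 1, 984571083690492356440829421758875680), (0, 7, 969836898326968551397880902883313696), (8, 8, 962388001675358616435832059857569824), (0, 4, 976531636853126291160407323722221600), (3, 5, 959613217312235873663386480775956512), (0, 11, 965182136118044136288996283387283488), (0, 7, 969830681108561779838654476697831456), (0, 13, 967812279691448225500382947153381408)]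
        [962257811969930338004685602888976433, 973035215259060075341907401758804020, 979283546799368188040433456274442272, 975309541861974457047851936507234336, 969836898326968551397880902883313696, 976531636853126291160407323722221600, 967812279691448225500382947153381408]
        [0, 3, 4, 5, 6] (by decide +kernel)
    omega
  · have := le_card_of_slp (n := 40320) (good_seven h2 (ub_oct.trans (by omega)) (S := [981966149414964887907465544977252449, 979544452178810762245346184523200674])
      (good_St (by decide +kernel)) (by decide +kernel))
      [(0, 1, 979653309235931022774922631010781728), (2, 1, 981607236659075854012549513493973541), (0, 3, 970410985247715344227280564258912258), (0, 3, 975346028712660580592452217730074656), (5, 5, 970093053647150170415919071397676142), (0, 5, 981717251313878624681943641151289347), (0, 6, 964073178975941929602733787869941280), (7, 7, 968899127338971058294853698314601635), (0, 9, 979567345536112701088273430428582337), (0, 10, 966262062460988972130881079710160416), (8, 10, 975028209785077255766907853773739121), (0, 11, 967730146747011152604897511963935747), (0, 12, 971253977841411475207086392033610784),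 (12, 6, 966516802679650841501311430516881440), (0, 1, 971828115858035635643548061566863392), (1, 11, 970160443960850306871160323324327968), (0, 3, 979037747421335847153138073498388512), (4, 4, 981998475272035293830191518998640672), (0, 5, 966404300625427221750207074743272480), (0, 5, 971333881845163596802180201211004960), (16, 3, 965225113279737155758354497310656544), (0, 4, 972606645568131968584696805283956768)]
        [981966149414964887907465544977252449, 979544452178810762245346184523200674, 979653309235931022774922631010781728, 975346028712660580592452217730074656, 964073178975941929602733787869941280, 966262062460988972130881079710160416, 971253977841411475207086392033610784, 966516802679650841501311430516881440, 971828115858035635643548061566863392, 979037747421335847153138073498388512, 971333881845163596802180201211004960, 972606645568131968584696805283956768]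
        [0, 1, 2, 3, 4, 5] (by decide +kernel)
    omega

theorem over_P2_1771 {H : Subgroup M24} (hP : P2 ≤ H) (hn : Nat.card H = 138240) : H = stabilizer M24 sext0 := by
  rcases over_P2 hP hn with h | h
  · have := Subgroup.card_dvd_of_le h
    rw [card_stabilizer_octad oct0_mem, hn] at this
    omega
  have h1 : Nat.card (H ⊓ fixS (ofMask 8388608) : Subgroup M24) = 5760 := by omega
  obtain ⟨m, hm, h, -⟩ := orbit_cases (fun P hP' => (chainQ2.1 P hP').mono (Q2_le_inf hP)) inf_le_right h1
    [0, 1, 3, 4, 23] 3 [147496, 8388600, 147502, 147497] (by decide +kernel)
  have h2 := Subgroup.card_le_of_le (le_inf h inf_le_right)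
  simp only [List.mem_cons, List.not_mem_nil, or_false] at hm
  rcases hm with rfl | rfl | rfl | rfl
  · have := h2.trans ub_4; omega
  · have h3 := Subgroup.eq_of_le_of_card_ge (le_inf h inf_le_right) (ub_20.trans h1.ge)
    have h4 := good_pair hP (h3.ge.trans inf_le_left) (a := 980196302658675622524320760542298146) (b := 221215812299535299998102244743166499)
      (good_St (by decide +kernel)) (by decide +kernel)
    have h5 := eq_gen_of_slp (n := 138240) (H := stabilizer M24 sext0) (good_sext_all h4 (by norm_num) (by decide +kernel))
      [(1, 0, 229406834817858000485038137791483438), (0, 2, 483800277812422444927893398036334984), (0, 3, 609408230920565917872793700628022373), (0, 3, 594991564352745387193512985684382833), (0, 5, 980862765684671143662247426873819201), (2, 6, 332556236551127408831248840909075019), (0, 6, 357539008665747184323009317398031948), (0, 7, 354925871825649772429536161974760011), (0, 9, 964684788639593486470643623842285569), (0, 0, 974027552735757545258125379239413792), (10, 5, 978369099248378556739873975554082817), (0, 2, 973093386122642432831531753268447264), (3, 7, 959690475476070164982856307354174528), (0, 0,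 979058103183442685619600711486015520), (4, 2, 962694832558750323383766292752435232), (0, 3, 973893318293474567736540135736150048), (0, 6, 976448692869377735270425038196672544), (7, 3, 965225113279737155758354497310656544), (4, 6, 970499966350631336865513127433832480), (2, 1, 983141956895601025126892051911247904), (0, 1, 972679049849814778609582601333213216), (0, 4, 976531636853126291160407323722221600)]
        [980196302658675622524320760542298146, 221215812299535299998102244743166499, 980862765684671143662247426873819201, 964684788639593486470643623842285569, 974027552735757545258125379239413792, 973093386122642432831531753268447264, 959690475476070164982856307354174528, 979058103183442685619600711486015520, 976448692869377735270425038196672544, 965225113279737155758354497310656544, 970499966350631336865513127433832480, 976531636853126291160407323722221600]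
        [23, 0, 1, 3, 4, 5] (card_stabilizer_sextet sext0_mem).le (by decide +kernel)
    exact (Subgroup.eq_of_le_of_card_ge (h5.le.trans (gen_le h4)) (by rw [card_stabilizer_sextet sext0_mem, hn])).symm
  · have h3 := Subgroup.eq_of_le_of_card_ge (le_inf h inf_le_right) (ub_hex.trans h1.ge)
    have := le_card_of_slp (n := 322560) (good_pair hP (h3.ge.trans inf_le_left) (a := 979126256772108209690064994888107104) (b := 715569206917002157421454726061362350)
      (good_St (by decide +kernel)) (by decide +kernel))
      [(1, 0, 719799406518983998740569845972239374), (0, 1, 729789327187323483397886850920089774), (0, 3, 972713452191777507385423952437772323), (0, 0, 966401807935761536341201894275877934), (0, 1, 971699324288527620069579569452038178), (0, 5, 975224784337671801465066018381534210), (0, 6, 980304106082620445900118325184171042), (0, 4, 967395599751671306805005400863606816), (2, 5, 979285057245789452003089727968806913), (0, 9, 967335643833265943273148513112832545), (0, 7, 973078081139264576849423002938476064), (0, 11, 963630561447024878406367447089711200), (12, 0, 984284436888203423625955901997270048), (0, 5, 972434291699668814096336427006641184),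 (0, 1, 973097544133737556033136933927848992), (0, 2, 973003211755040060292010399638262816), (0, 3, 972606645568131968584696805283956768), (2, 9, 975594682009894295465223200571952160), (0, 10, 963644068263732193282700064487574560), (0, 6, 963555700281881902419801103277790240), (0, 7, 963582593757073591850928955785840672), (13, 13, 976448692869377735270425038196672544)]
        [979126256772108209690064994888107104, 715569206917002157421454726061362350, 972713452191777507385423952437772323, 967395599751671306805005400863606816, 963630561447024878406367447089711200, 984284436888203423625955901997270048, 972606645568131968584696805283956768, 963582593757073591850928955785840672, 976448692869377735270425038196672544]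
        [23, 0, 1, 2, 3, 4, 5] (by decide +kernel)
    omega
  · have := h2.trans ub_5; omega

theorem over_P2_253 {H : Subgroup M24} (hP : P2 ≤ H) : Nat.card H ≠ 967680 := fun hn => by
  rcases over_P2 hP hn with h | h
  · have := Subgroup.card_le_of_le h
    rw [card_stabilizer_octad oct0_mem, hn] at this
    omega
  have h1 : Nat.card (H ⊓ fixS (ofMask 8388608) : Subgroup M24) = 40320 := by omega
  rcases over_Q2 inf_le_right (Q2_le_inf hP) (.inl h1) with h2 | h2
  · have h3 := Subgroup.eq_of_le_of_card_ge h2 (ub_6.trans h1.ge)
    have := le_card_of_slp (n := 244823040) (good_pair hP (h3.ge.trans inf_le_left) (a := 964814521930036162608549189769364557) (b := 234404270443047347878920213199111619)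
      (good_St (by decide +kernel)) (by decide +kernel))
      [(1, 0, 223524850209711205834933183399049775), (0, 2, 553656033496213421935589912444700007), (0, 2, 551118057575871235336606848917842985), (0, 4, 918597959647822122806966649821906532), (0, 4, 944358228715419304203524955559775796), (0, 5, 932567455218132059176303453091841640), (0, 6, 926873538983272141660754496290737700), (0, 8, 963910703868176177569310612631622677), (8, 8, 975566927790438144946403184871671850), (0, 9, 960722543430447394230161524690420800), (2, 2, 958039736719219403953771969151454898), (0, 3, 961883833777215416782380989983964737), (0, 4, 980915266709283679625909308187806752), (4, 5, 966421523289691287726558898993650001), (0, 14, 981348271159346308560154781283625685), (0, 7, 976322257209081134536048733563800224), (6, 3, 973694015914713777934182308963734592), (0, 7, 983998074281752343943170086404197024), (0, 2, 970238405563536022653365339441055776), (0, 6, 961145825252721285677847270792969248), (1, 0, 966560977174777932082385959921598496), (0, 1, 981526896042973767608074223456986144), (0, 2, 975068548025863410866712995732655136), (0, 10, 973774316258447925177807059762126880),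 (0, 4, 984194634442532612801072814331922464), (5, 5, 966557443005880285252337780345481248), (0, 6, 959736576597707222525832407350912032), (0, 14, 983108804893908589807710068552273952), (0, 8, 979240109814758495705890876078437408), (0, 9, 974992129703708925382840134133254176), (17, 10, 961147286810191002876095791984351264), (0, 18, 976735111440455029792004746203318304), (0, 12, 967981227661963326174726925323971616), (0, 13, 972434396324192732631305563421548576), (0, 14, 963871381879465904783683688082999328), (0, 10, 963313736839227806612930635008051232), (0, 6, 972606645568131968584696805283956768), (2, 7, 971333881845163596802180201211004960), (0, 3, 981486291386073065208737723235010592), (0, 9, 961365507626256404119956257276790816), (2, 15, 971791454878762184743182613770111008), (0, 6, 969237027325823941075897414264686624), (0, 7, 965128854020860192151391391390468128)]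
        [964814521930036162608549189769364557, 234404270443047347878920213199111619, 963910703868176177569310612631622677, 960722543430447394230161524690420800, 980915266709283679625909308187806752, 976322257209081134536048733563800224, 961145825252721285677847270792969248, 984194634442532612801072814331922464, 974992129703708925382840134133254176, 963871381879465904783683688082999328, 972606645568131968584696805283956768, 961365507626256404119956257276790816, 965128854020860192151391391390468128]
        [23, 0, 1, 2, 3, 4, 5] (by decide +kernel)
    omega
  · have h3 := Subgroup.eq_of_le_of_card_ge h2 (ub_oct.trans h1.ge)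
    have h4 := good_pair hP (h3.ge.trans inf_le_left) (a := 964885738211351677617629659269216800) (b := 589833200680982352157514398158263409)
      (good_St (by decide +kernel)) (by decide +kernel)
    have h5 := eq_gen_of_slp (n := 322560) (H := stabilizer M24 oct0) (good_stab_all h4 (by decide +kernel))
      [(1, 0, 605808338947868750027020046446986321), (0, 2, 222219911611655536326372544892853344), (0, 2, 227919958856928967467825843551701024), (0, 4, 980508100678452157610383799867324529), (5, 5, 52556323675771135332958975820235490), (0, 6, 138137796073010370712652715083744709), (0, 6, 130140007772135382223507439385795589), (0, 7, 153790353283325895506200518893519941), (0, 9, 969835836275923404559759536342284289), (0, 0, 965128854020860192151391391390468128), (6, 6, 977016533358072114387825040480535714), (0, 7, 961040526693067075060910033018063886), (0, 3, 982952267179933167494704454949180864), (13, 0, 968617695868401403720502470235032640), (0, 1, 963668791045541435123739018104715296), (2, 15, 978927507516271034787926526209231904), (1, 0, 969031744592795158581315727665579040), (0, 2, 981839107154296541457056855351561248), (0, 8, 982816618043557495249096294758026272),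 (0, 4, 970075068886824735502948315867678752), (3, 4, 967377750353484103996129943569404960), (0, 6, 966429808446933003731480209331357728), (2, 0, 972606645568131968584696805283956768), (3, 13, 981685826122343578567604990824187936), (0, 4, 980224387687010295957922729495201824)]
        [964885738211351677617629659269216800, 589833200680982352157514398158263409, 980508100678452157610383799867324529, 969835836275923404559759536342284289, 965128854020860192151391391390468128, 982952267179933167494704454949180864, 963668791045541435123739018104715296, 978927507516271034787926526209231904, 970075068886824735502948315867678752, 966429808446933003731480209331357728, 972606645568131968584696805283956768, 980224387687010295957922729495201824]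
        [23, 0, 1, 2, 3, 4, 5] (card_stabilizer_octad oct0_mem).le (by decide +kernel)
    rcases (h5.le.trans (gen_le h4)).eq_or_lt with h6 | h6
    · rw [← h6, card_stabilizer_octad oct0_mem] at hn; omega
    · rw [(Cfsg.Agent.S1565.result oct0 oct0_mem).2 H h6, card_top_M24] at hn; omega

theorem smul_small_syn {g : M24} {s : Finset GolayPt} (h : g • s = s) (h3 : pc24 (ldr (syn s)) ≤ 3) :
    g • small (syn s) = small (syn s) := by
  obtain ⟨P, hP⟩ := exists_rep g
  rw [hP.smul_small (syn_lt s) h3, ← hP.syn_smul, h]

theorem no_36960 {H : Subgroup M24} (h : H ≤ stabilizer M24 (gPt 23) ⊓ stabilizer M24 (gPt 0)) : Nat.card H ≠ 36960 := fun hn => by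
  obtain ⟨y, hy, h1⟩ := exists_conj_ge (by norm_num) (sylIn_a7.mono a7_le le_top) h (by rw [card_a7, hn]; norm_num)
  obtain ⟨k, n, hk, h2, h3, -⟩ := normalizer_count (by norm_num) (sylIn_a7.mono h1 le_top) (map_conj_le_of_mem h hy) cardN7
  rw [card_map_conj, hn] at h3
  have := Nat.le_of_dvd (by norm_num) hk
  interval_cases k <;> omega

theorem over_a11_276 {H : Subgroup M24} (hP : Subgroup.zpowers (m24 a11) ≤ H) (hn : Nat.card H = 887040) :
    H = stabilizer M24 duad0 := by
  obtain ⟨k, n, hk, h2, h3, h4⟩ := normalizer_count (by norm_num) (sylIn_a11.mono hP le_top) le_top cardN11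
  have hk' : k = 110 := by
    rw [hn] at h3
    have : k ∈ Nat.divisors 110 := Nat.mem_divisors.2 ⟨hk, by norm_num⟩
    rw [show Nat.divisors 110 = {1, 2, 5, 10, 11, 22, 55, 110} by decide +kernel] at this
    simp only [Finset.mem_insert, Finset.mem_singleton] at this
    rcases this with rfl | rfl | rfl | rfl | rfl | rfl | rfl | rfl <;> omega
  have h5 := h4 hk'
  rw [top_inf_eq] at h5
  obtain ⟨m, hm, h, e⟩ := orbit_cases (F := 0) (fun P hP' => (chainNa11.1 P hP').mono h5)
    (by rw [ofMask_zero, fixS_empty]; exact le_top) hn [0, 1] 23 [8388609, 16777215] (by decide +kernel)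
  simp only [List.mem_cons, List.not_mem_nil, or_false] at hm
  rcases hm with rfl | rfl
  · exact Subgroup.eq_of_le_of_card_ge h (by rw [hn]; exact (card_stabilizer_duad duad0_card).le)
  have h1 : Nat.card (H ⊓ stabilizer M24 (gPt 23) : Subgroup M24) = 36960 := by
    rw [show pc24 16777215 = 24 by decide +kernel] at e; omega
  obtain ⟨m, hm, h, -⟩ := orbit_cases (F := 8388608) (fun P hP' => (chainNa11.tail.1.1 P hP').mono (inf_le_inf_right _ h5))
    (fixS_23 ▸ inf_le_right) h1 [0, 1, 5, 23] 0 [1, 8047777, 340831] (by decide +kernel)
  simp only [List.mem_cons, List.not_mem_nil, or_false] at hm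
  rcases hm with rfl | rfl | rfl
  · exact absurd h1 (no_36960 (le_inf inf_le_right (stab_of_singleton (k := 0) (by norm_num) h)))
  · refine absurd h1 (no_36960 (le_inf inf_le_right fun g hg => ?_))
    have h6 := smul_small_syn (mem_stabilizer_iff.1 (h hg)) (by rw [syn_ofMask (by norm_num)]; decide +kernel)
    rw [syn_ofMask (by norm_num), show small (synd 8047777) = {gPt 0, gPt 23} by decide +kernel] at h6
    have h7 : g • gPt 0 ∈ ({gPt 0, gPt 23} : Finset GolayPt) := h6 ▸ Finset.smul_mem_smul_finset (by simp)
    rcases Finset.mem_insert.1 h7 with h7 | h7
    · exact h7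
    · exact absurd (smul_left_cancel g ((Finset.mem_singleton.1 h7).trans (mem_stabilizer_iff.1 hg.2).symm)) (by decide +kernel)
  · have := (chain23.card_le_of_stab inf_le_right h [340831, 340830, 340828, 584, 4112, 32]).trans (show _ ≤ 7920 by decide +kernel)
    omega

theorem sub_M22 {H : Subgroup M24} (h : H ≤ stabilizer M24 (gPt 23) ⊓ stabilizer M24 (gPt 0)) :
    Nat.card H ≠ 7920 ∧ Nat.card H ≠ 2112 := by
  have key : ∀ c, 11 ∣ c → Nat.card H = c → ∃ K ≤ stabilizer M24 (gPt 23) ⊓ stabilizer M24 (gPt 0), Nat.card K = c ∧
      ∃ k n, k ∣ 55 ∧ n % 11 = 1 ∧ c = n * k ∧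
        (k = 55 → stabilizer M24 (gPt 23) ⊓ Subgroup.normalizer (Subgroup.zpowers (m24 a11) : Set M24) ≤ K) := fun c hc hn => by
    obtain ⟨y, hy, h1⟩ := exists_conj_ge (by norm_num) (sylIn_a11.mono a11_le le_top) h (by rwa [card_a11, hn])
    obtain ⟨k, n, hk, h2, h3, h4⟩ := normalizer_count (by norm_num) (sylIn_a11.mono h1 le_top)
      ((map_conj_le_of_mem h hy).trans inf_le_left) cardN11'
    rw [card_map_conj, hn] at h3
    exact ⟨_, map_conj_le_of_mem h hy, by rw [card_map_conj, hn], k, n, hk, h2, h3, h4⟩
  have dv : ∀ k, k ∣ 55 → k = 1 ∨ k = 5 ∨ k = 11 ∨ k = 55 := fun k hk => by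
    have : k ∈ Nat.divisors 55 := Nat.mem_divisors.2 ⟨hk, by norm_num⟩
    rw [show Nat.divisors 55 = {1, 5, 11, 55} by decide +kernel] at this
    simpa using this
  refine ⟨fun hn => ?_, fun hn => ?_⟩
  · obtain ⟨K, hK, hc, k, n, hk, h2, h3, h4⟩ := key _ (by norm_num) hn
    have h5 := h4 (by rcases dv k hk with rfl | rfl | rfl | rfl <;> omega)
    rw [inf_comm] at h5
    have hS := chainNa11.tail.1.good_of_sift (S := [a11, a5]) (good_top_of_all (by decide +kernel)) (by decide +kernel)
    obtain ⟨k, n, hk, h2, h3, h4⟩ := normalizer_count (by norm_num)
      (sylIn_a5.mono (Subgroup.zpowers_le.2 (h5 (hS a5 (by simp)).m24_mem)) le_top) hK cardN5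
    have h6 := h4 (by
      rw [hc] at h3
      have := Nat.le_of_dvd (by norm_num) hk
      interval_cases k <;> omega)
    rw [inf_comm, ← inf_assoc] at h6
    have h7 := chainNa5.tail.1.tail.1.good_of_sift (S := [984444188461805708752323088099022880]) (good_top_of_all (by decide +kernel)) (by decide +kernel)
    have := le_card_of_slp (n := 443520) (X := [a11, 984444188461805708752323088099022880]) (H := K)
      (good_append (l₁ := [a11]) (fun P hP => (hS P (by rw [List.mem_singleton.1 hP]; simp)).mono h5) fun P hP => (h7 P hP).mono h6)
      [(0, 0, 980668730378935070469623699575545984), (0, 2, 980135649404406003459348780073550976), (0, 2, 958884373347878545652810198355020832), (4, 0, 964074482839787215476152709744835616), (0, 5, 963915553344195102005679169071123488), (0, 2, 959545204291699025767465660346274848), (0, 3, 962015509120179020562612422050914336), (0, 4, 965995967454161196873229362941626400), (4, 5, 975102918140080418925876463475839008), (0, 6, 981957021145729309089504955599206432), (0, 11, 981767123067380396272513201450593312), (0, 8, 970499966350631336865513127433832480), (2, 9, 974373695726266355177454727884842016), (0,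 14, 973850004901741047217770226592942112), (6, 2, 973075829485615036635516230514739232), (0, 1, 980474875703647333030717197542492192), (0, 8, 974106719443607937645605150940334112), (0, 3, 967738580936480664927891663448279072), (10, 4, 980196299889904938888484792109991968), (0, 5, 978970367660464688568536472612964384), (0, 12, 961365507626256404119956257276790816), (3, 9, 970452748381697609285226999098476576), (0, 1, 979037747421335847153138073498388512), (0, 5, 972606645568131968584696805283956768)]
        [983435072843990828779021698901151808, 984444188461805708752323088099022880, 958884373347878545652810198355020832, 965995967454161196873229362941626400, 970499966350631336865513127433832480, 973850004901741047217770226592942112, 967738580936480664927891663448279072, 961365507626256404119956257276790816, 972606645568131968584696805283956768]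
        [1, 2, 3, 4, 5] (by decide +kernel)
    omega
  · obtain ⟨K, -, -, k, n, hk, h2, h3, -⟩ := key _ (by norm_num) hn
    rcases dv k hk with rfl | rfl | rfl | rfl <;> omega

end CL.Spor
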