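/-
Invariant subspaces of the permutation module of `M24` over the field with two elements.
-/
import Cfsg.Agent.Spor.M24More

set_option autoImplicit false

namespace CL.Spor
open Cfsg MulAction
open scoped Pointwise

theorem wordOf_smul (σ : Equiv.Perm GolayPt) (s : Finset GolayPt) : wordOf (σ • s) = fun p => wordOf s (σ.symm p) := by
  funext p
  simp only [wordOf, ← Finset.inv_smul_mem_iff]
  rfl

variable {W : Submodule (ZMod 2) (GolayPt → ZMod 2)}

theorem inv_smul_mem (hW : ∀ σ ∈ M24, ∀ w ∈ W, (fun p => w (σ.symm p)) ∈ W) (g : M24) {s : Finset GolayPt}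
    (hs : wordOf s ∈ W) : wordOf (g • s) ∈ W := (wordOf_smul g s).symm ▸ hW g g.2 _ hs

theorem inv_symmDiff_mem {s t : Finset GolayPt} (hs : wordOf s ∈ W) (ht : wordOf t ∈ W) : wordOf (symmDiff s t) ∈ W :=
  wordOf_symmDiff s t ▸ add_mem hs ht

/-- An invariant subspace with a codeword other than `0` and `1` contains the code. -/
theorem golayCode_le_of_mem (hW : ∀ σ ∈ M24, ∀ w ∈ W, (fun p => w (σ.symm p)) ∈ W) {s : Finset GolayPt} (hs : s ∈ GC)
    (h : wordOf s ∈ W) (h0 : s ≠ ∅) (h1 : s ≠ Finset.univ) : golayCode ≤ W := by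
  have oct : ∀ o ∈ octads, wordOf o ∈ W → golayCode ≤ W := fun o ho h w hw => by
    rw [← wordOf_support₂ w]
    refine GC_induction_octads (P := fun s => wordOf s ∈ W) (wordOf_empty ▸ zero_mem W) (fun _ _ => inv_symmDiff_mem)
      (fun o' ho' => ?_) _ (mem_golayCode_iff.1 hw)
    obtain ⟨g, rfl⟩ := exists_smul_eq_of_base (M24_octad_trans0 ho) (M24_octad_trans0 ho')
    exact inv_smul_mem hW g h
  rcases GC_card hs with c | c | c | c | c
  · exact absurd (Finset.card_eq_zero.1 c) h0
  · exact oct s (mem_octads.2 ⟨hs, c⟩) h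
  · obtain ⟨g, e⟩ := M24_dodecad_trans0 (mem_dodecads.2 ⟨hs, c⟩)
    obtain ⟨k, e'⟩ := exists_smul_eq_of_base (M24_dodecad_trans0 (mem_dodecads.2 ⟨hs, c⟩))
      (M24_dodecad_trans0 ((ofMask_mem_dodecads (m := 11472927) (by norm_num)).2 (by decide +kernel)))
    refine oct _ ?_ (inv_symmDiff_mem (inv_smul_mem hW g h) (inv_smul_mem hW k h))
    rw [e, e', dod0, ← ofMask_xor, ofMask_mem_octads (by decide +kernel)]; decide +kernel
  · have hc : sᶜ ∈ octads := mem_octads.2 ⟨GC_compl hs, by rw [Finset.card_compl, c, card_golayPt]⟩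
    obtain ⟨g, e⟩ := M24_octad_trans0 hc
    obtain ⟨k, e'⟩ := exists_smul_eq_of_base (M24_octad_trans0 hc)
      (M24_octad_trans0 ((ofMask_mem_octads (m := 5279) (by norm_num)).2 (by decide +kernel)))
    refine oct _ ?_ (inv_symmDiff_mem (inv_smul_mem hW g h) (inv_smul_mem hW k h))
    rw [← compl_symmDiff_compl, ← smul_finset_compl', ← smul_finset_compl', e, e', oct0, ← ofMask_xor,
      ofMask_mem_octads (by decide +kernel)]; decide +kernel
  · exact absurd (Finset.eq_univ_of_card _ (c.trans card_golayPt.symm)) h1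

theorem eq_span_one_or (hW : ∀ σ ∈ M24, ∀ w ∈ W, (fun p => w (σ.symm p)) ∈ W) (hle : W ≤ golayCode) :
    W ≤ Submodule.span (ZMod 2) {fun _ => (1 : ZMod 2)} ∨ W = golayCode := by
  refine or_iff_not_imp_right.2 fun h w hw => ?_
  rw [← wordOf_support₂ w] at hw ⊢
  by_cases h0 : support₂ w = ∅
  · rw [h0, wordOf_empty]; exact zero_mem _
  by_cases h1 : support₂ w = Finset.univ
  · rw [h1, wordOf_univ]; exact Submodule.mem_span_singleton_self _
  exact absurd (le_antisymm hle (golayCode_le_of_mem hW (mem_GC_iff_wordOf.2 (hle hw)) hw h0 h1)) h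

/-- An invariant subspace outside the code contains the words of even weight. -/
theorem even_mem_of_not_le (hW : ∀ σ ∈ M24, ∀ w ∈ W, (fun p => w (σ.symm p)) ∈ W) (h : ¬ W ≤ golayCode)
    {w : GolayPt → ZMod 2} (hw : ∑ p, w p = 0) : w ∈ W := by
  obtain ⟨u, hu, hu'⟩ := SetLike.not_le_iff_exists.1 h
  rw [← wordOf_support₂ u] at hu
  rw [mem_golayCode_iff] at hu'
  generalize support₂ u = s at hu hu'
  obtain ⟨v, v4, hc⟩ := exists_coset_leader s
  obtain ⟨c, rfl⟩ : ∃ c, s = symmDiff c v := ⟨symmDiff s v, by simp⟩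
  rw [symmDiff_symmDiff_cancel_right] at hc
  obtain ⟨p, hp⟩ : v.Nonempty := Finset.nonempty_iff_ne_empty.2 (by rintro rfl; exact hu' (GC_symmDiff hc GC_empty))
  have h1 : ∀ g : M24, wordOf (symmDiff c (g • c)) ∈ W := by
    by_cases c0 : c = ∅
    · intro g; rw [c0, Finset.smul_finset_empty, symmDiff_self]; exact wordOf_empty ▸ zero_mem W
    by_cases c1 : c = Finset.univ
    · intro g; rw [c1, Finset.smul_finset_univ, symmDiff_self]; exact wordOf_empty ▸ zero_mem W
    have a1 : 8 ≤ c.card := not_lt.1 fun h => c0 (GC_eq_empty_of_card_lt hc h)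
    have a2 : 8 ≤ cᶜ.card := not_lt.1 fun h => c1 (by simpa using GC_eq_empty_of_card_lt (GC_compl hc) h)
    obtain ⟨a, ha, ha'⟩ := Finset.exists_mem_notMem_of_card_lt_card (s := v) (t := c) (by omega)
    obtain ⟨b, hb, hb'⟩ := Finset.exists_mem_notMem_of_card_lt_card (s := v) (t := cᶜ) (by omega)
    obtain ⟨g, hg, e⟩ := M24_exists_fix_smul v4 ha' hb'
    have a3 := inv_symmDiff_mem hu (inv_smul_mem hW g hu)
    rw [show g • symmDiff c v = symmDiff (g • c) (g • v) from smul_symmDiff g c v, smul_eq_of_fix (mem_fixS.1 hg),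
      symmDiff_comm (g • c), symmDiff_symmDiff_cancel_mid] at a3
    have a4 := golayCode_le_of_mem hW (GC_symmDiff hc ((smul_mem_GC_iff g).2 hc)) a3 (fun h => by
      have : b ∈ c := symmDiff_eq_bot.1 h ▸ e ▸ Finset.smul_mem_smul_finset ha
      exact Finset.mem_compl.1 hb this) (fun h => by
      have := Finset.eq_univ_iff_forall.1 h p
      rw [Finset.mem_symmDiff, ← Finset.inv_smul_mem_iff, mem_fixS.1 (inv_mem hg) p hp] at this
      tauto)
    exact fun g => a4 (mem_GC_iff_wordOf.1 (GC_symmDiff hc ((smul_mem_GC_iff g).2 hc)))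
  obtain ⟨q, -, hq⟩ := Finset.exists_mem_notMem_of_card_lt_card (s := v) (t := Finset.univ)
    (by rw [Finset.card_univ, card_golayPt]; omega)
  obtain ⟨g, hg⟩ := M24_exists_smul_finset (s := v) (t := insert q (v.erase p)) (by omega) (by
    rw [Finset.card_insert_of_notMem (by simp [hq]), Finset.card_erase_add_one hp])
  have h2 : wordOf {p, q} ∈ W := by
    have a3 := inv_symmDiff_mem (h1 g) (inv_symmDiff_mem hu (inv_smul_mem hW g hu))
    rw [show g • symmDiff c v = symmDiff (g • c) (g • v) from smul_symmDiff g c v, hg, symmDiff_symmDiff_symmDiff_comm c v,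
      symmDiff_symmDiff_cancel_left] at a3
    refine Eq.subst (motive := fun s => wordOf s ∈ W) ?_ a3
    ext x
    simp only [Finset.mem_symmDiff, Finset.mem_insert, Finset.mem_erase, Finset.mem_singleton]
    by_cases x = p <;> by_cases x = q <;> simp_all
  have h3 : ∀ a, Pi.single a 1 + Pi.single p 1 ∈ W := fun a => by
    by_cases h : a = p
    · rw [h, CharTwo.add_self_eq_zero]; exact zero_mem W
    obtain ⟨k, e1, e2⟩ := M24_trans2 (p := p) (q := q) (by rintro rfl; exact hq hp) h
    have := inv_smul_mem hW k h2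
    rw [Finset.smul_finset_insert, Finset.smul_finset_singleton, e1, e2] at this
    refine Eq.subst (motive := (· ∈ W)) (funext fun x => ?_) this
    simp only [wordOf, Finset.mem_insert, Finset.mem_singleton, Pi.add_apply, Pi.single_apply]
    by_cases x = a <;> by_cases x = p <;> simp_all
  have h4 : w = ∑ a, w a • (Pi.single a 1 + Pi.single p 1 : GolayPt → ZMod 2) := by
    simp only [smul_add, Finset.sum_add_distrib, ← Finset.sum_smul, hw, zero_smul, add_zero]
    exact pi_eq_sum_univ' w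
  rw [h4]
  exact Submodule.sum_mem _ fun a _ => W.smul_mem _ (h3 a)

end CL.Spor
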