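/-
A 2-(16,4,3) design with block intersections at most 2 and without triangles is unique (search certificate).
-/
import Cfsg.Agent.Spor.DesignSearchSt

set_option autoImplicit false
set_option linter.unusedSectionVars false
set_option maxRecDepth 100000

namespace CL.Spor.Des
open Cfsg Finset

variable {α β : Type*} [Fintype α] [DecidableEq α] [Fintype β] [DecidableEq β]

/-- The local design of a strongly regular graph with parameters (77,16,0,4). -/
structure Phi16 (B : Set (Finset α)) : Prop where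
  card4 : ∀ b ∈ B, b.card = 4
  ncard60 : B.ncard = 60
  pair3 : ∀ s : Finset α, s.card = 2 → 3 ≤ {b | b ∈ B ∧ s ⊆ b}.ncard
  inter2 : ∀ b ∈ B, ∀ c ∈ B, b ≠ c → (b ∩ c).card ≤ 2
  notri : ∀ b ∈ B, ∀ c ∈ B, ∀ d ∈ B, (b ∩ c).card = 2 → (d ∩ c).card = 2 → (b ∩ d).card = 2 →
    (b ∩ c ∩ d).card ≠ 1

theorem ncard_sysMap_sep (e : α ≃ β) (B : Set (Finset α)) (P : Finset β → Prop) :
    {c | c ∈ sysMap e B ∧ P c}.ncard = {b | b ∈ B ∧ P (b.image e)}.ncard := by
  rw [← Set.ncard_image_of_injective {b | b ∈ B ∧ P (b.image e)} (image_injective e.injective)]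
  congr 1
  ext c
  constructor
  · rintro ⟨⟨b, hb, rfl⟩, h⟩; exact ⟨b, ⟨hb, h⟩, rfl⟩
  · rintro ⟨b, ⟨hb, h⟩, rfl⟩; exact ⟨⟨b, hb, rfl⟩, h⟩

theorem Phi16.sysMap {B : Set (Finset α)} (h : Phi16 B) (e : α ≃ β) : Phi16 (sysMap e B) where
  card4 := by rintro _ ⟨b, hb, rfl⟩; rw [card_image_equiv]; exact h.card4 b hb
  ncard60 := by rw [Des.sysMap, Set.ncard_image_of_injective _ (image_injective e.injective), h.ncard60]
  pair3 s hs := by
    rw [ncard_sysMap_sep]
    have := h.pair3 (s.image e.symm) (by rw [card_image_equiv, hs])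
    simpa only [image_subset_iff_symm, Equiv.symm_symm] using this
  inter2 := by
    rintro _ ⟨b, hb, rfl⟩ _ ⟨c, hc, rfl⟩ hbc
    rw [← image_inter _ _ e.injective, card_image_equiv]
    exact h.inter2 b hb c hc fun h => hbc (h ▸ rfl)
  notri := by
    rintro _ ⟨b, hb, rfl⟩ _ ⟨c, hc, rfl⟩ _ ⟨d, hd, rfl⟩
    simp only [← image_inter _ _ e.injective, card_image_equiv]
    exact h.notri b hb c hc d hd

/-- Disjoint blocks with fewer than four blocks disjoint from both. -/
def Rel16 (B : Set (Finset α)) (b c : Finset α) : Prop :=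
  Disjoint b c ∧ {d | d ∈ B ∧ Disjoint b d ∧ Disjoint c d}.ncard < 4

theorem rel16_sysMap (e : α ≃ β) (B : Set (Finset α)) (b c : Finset α) :
    Rel16 (sysMap e B) (b.image e) (c.image e) ↔ Rel16 B b c := by
  simp only [Rel16, ncard_sysMap_sep, disjoint_image e.injective]

/-- `List.filter`, by the recursor. -/
def filL (f : ℕ → Bool) (l : List ℕ) : List ℕ :=
  List.rec (motive := fun _ => List ℕ) [] (fun a _ ih => cond (f a) (a :: ih) ih) l

theorem filL_eq (f : ℕ → Bool) (l : List ℕ) : filL f l = l.filter f := by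
  induction l with
  | nil => rfl
  | cons a l ih =>
    have : filL f (a :: l) = cond (f a) (a :: filL f l) (filL f l) := rfl
    rw [this, ih, List.filter_cons]; cases f a <;> simp

/-- `s` is a pair in fewer than three listed blocks. -/
def dem16 (P : List ℕ) (s : ℕ) : Bool :=
  and (Nat.beq (pc24 s) 2) (Nat.blt (cntL (fun b => Nat.beq (Nat.land b s) s) P) 3)

/-- Compatibility of a candidate with the listed blocks. -/
def cmp16 (P : List ℕ) (c : ℕ) : Bool :=
  and (allL (fun b => Nat.ble (pc24 (Nat.land b c)) 2) P)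
    (allL (fun b => allL (fun d => not (and (Nat.beq (pc24 (Nat.land (Nat.land b c) (Nat.land d c))) 1)
        (Nat.beq (pc24 (Nat.land (Nat.land b d) 65535)) 2)))
      (filL (fun b => Nat.beq (pc24 (Nat.land b c)) 2) P)) (filL (fun b => Nat.beq (pc24 (Nat.land b c)) 2) P))

theorem ncard_sysOf_sep {v : ℕ} {Std : List ℕ} (h1 : Std.Nodup) (h2 : ∀ m ∈ Std, m < 2 ^ v)
    (P : Finset (Fin v) → Prop) (f : ℕ → Bool) (h : ∀ m ∈ Std, f m = true ↔ P (fs v m)) :
    {d | d ∈ sysOf v Std ∧ P d}.ncard = cntL f Std := by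
  rw [cntL_eq, List.countP_eq_length_filter, ← ncard_sysOf (v := v) (h1.filter f)
    fun m hm => h2 m (List.mem_of_mem_filter hm)]
  congr 1
  ext d
  simp only [sysOf, Set.mem_ofPred_eq, List.mem_filter]
  constructor
  · rintro ⟨⟨m, hm, rfl⟩, h'⟩; exact ⟨m, ⟨hm, (h m hm).2 h'⟩, rfl⟩
  · rintro ⟨m, ⟨hm, h'⟩, rfl⟩; exact ⟨⟨m, hm, rfl⟩, (h m hm).1 h'⟩

theorem searchHyp16 {Std : List ℕ} (h1 : Std.Nodup) (h2 : ∀ m ∈ Std, m < 2 ^ 16) (h3 : Std.length = 60) :
    SearchHyp 16 0 4 Std dem16 (stFrb 3) cmp16 Phi16 where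
  hv := by norm_num
  inv τ B _ hB := hB.sysMap τ
  fin B hB hS := by
    symm
    apply Set.eq_of_subset_of_ncard_le _ _ (Set.toFinite _)
    · rintro _ ⟨m, hm, rfl⟩; exact hS m hm
    · rw [ncard_sysOf h1 h2, hB.ncard60, h3]
  hdem B P s hB _ hs hd := by
    simp only [dem16, Bool.and_eq_true, Nat.blt_eq, cntL_eq] at hd
    have hst : (fs 16 s).card = 2 := by rw [card_fs (by norm_num) hs]; exact Nat.eq_of_beq_eq_true hd.1
    have h4 := hB.pair3 _ hst
    by_contra hn
    push Not at hn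
    have : {b | b ∈ B ∧ fs 16 s ⊆ b} ⊆
        ((P.filter fun b => Nat.beq (Nat.land b s) s).map (fs 16)).toFinset := by
      rintro c ⟨hc, hsc⟩
      by_contra hc'
      refine hn c hc hsc (fun m hm e => hc' ?_) (hB.card4 c hc)
      rw [← e, fs_subset_iff hs] at hsc
      simp only [List.coe_toFinset, List.mem_map, List.mem_filter, Set.mem_ofPred_eq]
      exact ⟨m, ⟨hm, by rw [show Nat.land m s = s from hsc]; exact Nat.beq_refl s⟩, e⟩
    have h5 := Set.ncard_le_ncard this (Set.toFinite _)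
    rw [Set.ncard_coe_finset] at h5
    have h6 := List.toFinset_card_le ((P.filter fun b => Nat.beq (Nat.land b s) s).map (fs 16))
    rw [List.length_map, ← List.countP_eq_length_filter] at h6
    omega
  hcmp B P s c hB hP hs hc hd hcB hsc hcP := by
    have hcard : ∀ b, pc24 (Nat.land b c) = (fs 16 b ∩ fs 16 c).card := fun b => by
      rw [← fs_and, card_fs (by norm_num) (Nat.and_lt_two_pow _ hc)]; rfl
    constructor
    · simp only [cmp16, Bool.and_eq_true, allL_iff, Nat.ble_eq, filL_eq, List.mem_filter, hcard,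
        Bool.not_eq_true', Bool.and_eq_false_iff]
      refine ⟨fun b hb => hB.inter2 _ (hP b hb) _ hcB (hcP b hb), fun b hb d hd => ?_⟩
      by_contra hn
      simp only [not_or, Bool.not_eq_false] at hn
      have e1 : pc24 ((b &&& c) &&& (d &&& c)) = 1 := Nat.eq_of_beq_eq_true hn.1
      have e2 : pc24 ((b &&& d) &&& 65535) = 2 := Nat.eq_of_beq_eq_true hn.2
      have e3 : fs 16 65535 = univ := by decide +kernel
      rw [← card_fs (v := 16) (by norm_num) (Nat.and_lt_two_pow _ (Nat.and_lt_two_pow _ hc))] at e1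
      rw [← card_fs (v := 16) (by norm_num) (Nat.and_lt_two_pow _ (by norm_num))] at e2
      rw [fs_and, fs_and, fs_and] at e1
      rw [fs_and, fs_and, e3, inter_univ] at e2
      refine hB.notri _ (hP b hb.1) _ hcB _ (hP d hd.1) (Nat.eq_of_beq_eq_true hb.2)
        (Nat.eq_of_beq_eq_true hd.2) e2 ?_
      rw [← e1]; congr 1; ext; simp; tauto
    · intro i hi his hif
      obtain ⟨b, hb, h4, h5⟩ := testBit_stFrb (mem_fs.1 hif)
      rw [← card_fs (v := 16) (by norm_num) (Nat.and_lt_two_pow _ hs), fs_and] at h4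
      have h6 := hB.inter2 _ (hP b hb) _ hcB (hcP b hb)
      have h7 : insert i (fs 16 b ∩ fs 16 s) ⊆ fs 16 b ∩ fs 16 c :=
        insert_subset (mem_inter.2 ⟨mem_fs.2 h5, hi⟩) (inter_subset_inter_left hsc)
      have := card_le_card h7
      rw [card_insert_of_notMem fun h => his (mem_inter.1 h).2] at this
      omega

def d16_std : List ℕ := [15, 51, 60, 195, 204, 240, 773, 778, 1632, 1680, 2400, 2448, 3077, 3082, 3840, 4369, 4386, 4628, 4648, 5192, 5252, 6210, 6273, 8472, 8484, 8722, 8737, 9281, 9346, 10308, 10376, 12294, 12297, 16712, 16772, 16962, 17025, 17425, 17442, 18452, 18472, 21760, 23040, 24656, 24736, 33089, 33154, 33348, 33416, 33816, 33828, 34834, 34849, 36944, 37024, 42240, 43520, 49158, 49161, 61440]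
def d16_c0 : Cert := (.node 264 [] (.br 16712 (.node 72 [] (.br 5192 (.node 4104 [] (.br 4648 (.node 40 [] (.br 18472 (.node 520 [] (.br 33416 (.node 136 [] (.br 10376 (.node 4112 [] (.br 36944 (.node 80 [] (.br 24656 (.node 288 [] (.br 2400 (.node 96 [] (.br 1632 (.node 4128 [] (.br 37024 (.node 160 [] (.br 24736 (.done 0x7b9ac5a928398a418820) .nil)) .nil)) .nil)) .nil)) .nil)) .nil)) .nil)) .nil)) .nil)) .nil)) .nil)) .nil))
def d16_c1 : Cert := (.node 20 [] (.sym 4628 0x6b1ee4a16a398a418820 18452 (.br 18452 (.node 20 [] (.br 4628 (.node 516 [] (.br 33348 (.node 68 [] (.br 10308 (.node 4100 [] (.br 5252 (.node 132 [] (.br 16772 (.node 260 [] (.br 8484 (.node 36 [] (.br 33828 (.node 528 [] (.br 1680 (.node 144 [] (.br 2448 (.node 272 [] (.br 8472 (.node 24 [] (.br 33816 d16_c0 .nil)) .nil)) .nil)) .nil)) .nil)) .nil)) .nil)) .nil)) .nil)) .nil)) .nil)) .nil)))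
def d16_c2 : Cert := (.node 18 [] (.sym 8722 0x6b1ee4a16a398a418820 34834 (.sym 10258 0x6b1ee4a16a398a418820 33298 (.br 33298 (.node 18 [] (.br 10258 (.node 514 [] (.br 4674 (.node 516 [] .nil) .nil)) .nil)) (.br 34834 (.node 18 [] (.br 8722 (.node 514 [] (.br 16962 (.node 66 [] (.br 6210 (.node 4098 [] (.br 4386 (.node 34 [] (.br 17442 (.node 258 [] (.br 33154 (.node 130 [] (.br 9346 (.node 4352 [] (.br 21760 (.node 1280 [] (.br 42240 (.node 8704 [] (.br 43520 (.node 2560 [] (.br 23040 d16_c1 .nil)) .nil)) .nil)) .nil)) .nil)) .nil)) .nil)) .nil)) .nil)) .nil)) .nil)) .nil)))))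
def d16_c3 : Cert := (.node 12 [164,296,362,428,494] (.br 60 (.node 17 [230,296,362,428,494] (.sym 4369 0x6b1ee4a16a398a418820 17425 (.sym 5137 0x6b1ee5a928398a418820 17425 (.sym 16657 0x7b9ac4a16a398a418820 17425 (.br 17425 (.node 17 [230,296,428] (.br 4369 (.node 257 [230] (.br 33089 (.node 4097 [] (.br 6273 (.node 65 [] (.br 9281 (.node 129 [] (.br 17025 (.node 513 [] (.br 8737 (.node 33 [] (.br 34849 (.node 48 [] (.br 240 (.node 768 [] (.br 3840 (.node 12288 [] (.br 61440 d16_c2 .nil)) .nil)) .nil)) .nil)) .nil)) .nil)) .nil)) .nil)) .nil)) .nil)) .nil))))) .nil))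
def d16_c4 : Cert := (.node 48 [] .nil)
def d16_c5 : Cert := (.node 48 [] .nil)
def d16_c6 : Cert := (.node 12 [296,362,428,494] (.br 172 (.node 17 [296,362,428,494] (.sym 4369 0x6b1ee4a16a398a418820 17425 (.sym 5137 0x6b1ee5a928398a418820 17425 (.sym 16657 0x7b9ac4a16a398a418820 17425 (.br 17425 (.node 17 [296,428] (.br 4369 (.node 257 [] (.br 33089 (.node 4097 [] (.br 6273 (.node 65 [] (.br 9281 (.node 129 [] (.br 17025 (.node 513 [] (.br 8737 (.node 33 [] (.br 34849 (.node 768 [] (.br 3840 (.node 12288 [] (.br 61440 (.node 48 [] (.br 240 d16_c5 .nil)) .nil)) .nil)) .nil)) .nil)) .nil)) .nil)) .nil)) (.br 33153 (.node 4097 [] (.br 6209 (.node 65 [] (.br 16961 (.node 129 [] (.br 9345 (.node 513 [] (.br 8737 (.node 33 [] (.br 34849 (.node 768 [] (.br 3840 (.node 12288 [] (.br 61440 (.node 48 [] (.br 240 d16_c4 .nil)) .nil)) .nil)) .nil)) .nil)) .nil)) .nil)) .nil)) .nil))) .nil)) .nil))))) .nil))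
def d16_c7 : Cert := (.node 768 [] .nil)
def d16_c8 : Cert := (.node 768 [] .nil)
def d16_c9 : Cert := (.node 12 [164,428,494] (.br 60 (.node 257 [164,230,428,494] (.sym 4369 0x6b1ee5a928290e618820 16705 (.sym 4417 0x6b1ee5a928398a418820 16705 (.sym 16657 0x7b9ac5a928290e618820 16705 (.br 16705 (.node 257 [164,428] (.br 4369 (.node 17 [] (.br 33809 (.node 4097 [] (.br 6273 (.node 65 [] (.br 9281 (.node 129 [] (.br 33409 (.node 513 [] (.br 8737 (.node 33 [] (.br 18465 (.node 48 [] (.br 240 (.node 12288 [] (.br 61440 (.node 768 [] (.br 3840 d16_c8 .nil)) .nil)) .nil)) .nil)) .nil)) .nil)) .nil)) .nil)) (.br 34833 (.node 4097 [] (.br 5249 (.node 65 [] (.br 10305 (.node 129 [] (.br 33409 (.node 513 [] (.br 8737 (.node 33 [] (.br 17441 (.node 48 [] (.br 240 (.node 12288 [] (.br 61440 (.node 768 [] (.br 3840 d16_c7 .nil)) .nil)) .nil)) .nil)) .nil)) .nil)) .nil)) .nil)) .nil))) .nil)) .nil))))) .nil))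
def d16_c10 : Cert := (.node 12 [428,494] (.br 172 (.node 17 [428,494] (.sym 4369 0x6b1ee4254b398a418820 18449 (.sym 4625 0x6b1ee4a16a398a418820 18449 (.sym 5137 0x6b1ee52d09398a418820 18449 (.sym 6161 0x6b1ee5a928398a418820 18449 (.sym 16657 0x7b9ac4254b398a418820 18449 (.sym 16913 0x7b9ac4a16a398a418820 18449 (.sym 17425 0x7b9ac52d09398a418820 18449 (.br 18449 (.node 17 [428] (.br 4369 (.node 257 [] (.br 33089 (.node 4097 [] (.br 5249 (.node 65 [] (.br 10305 (.node 129 [] (.br 17025 (.node 513 [] (.br 8737 (.node 33 [] (.br 33825 (.node 12288 [] (.br 61440 (.node 48 [] (.br 240 (.node 48 [] .nil) .nil)) .nil)) .nil)) .nil)) .nil)) .nil)) .nil)) (.br 33153 (.node 4097 [] (.br 5185 (.node 65 [] (.br 16961 (.node 129 [] (.br 10369 (.node 513 [] (.br 8737 (.node 33 [] (.br 33825 (.node 12288 [] (.br 61440 (.node 48 [] (.br 240 (.node 48 [] .nil) .nil)) .nil)) .nil)) .nil)) .nil)) .nil)) .nil)) .nil))) (.br 4625 (.node 513 [] (.br 33345 (.node 4097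 [] (.br 5249 (.node 65 [] (.br 10305 (.node 129 [] (.br 16769 (.node 257 [] (.br 8481 (.node 33 [] (.br 33825 (.node 12288 [] (.br 61440 (.node 48 [] (.br 240 (.node 48 [] .nil) .nil)) .nil)) .nil)) .nil)) .nil)) .nil)) .nil)) (.br 33409 (.node 4097 [] (.br 5185 (.node 65 [] (.br 16705 (.node 129 [] (.br 10369 (.node 257 [] (.br 8481 (.node 33 [] (.br 33825 (.node 12288 [] (.br 61440 (.node 48 [] (.br 240 (.node 48 [] .nil) .nil)) .nil)) .nil)) .nil)) .nil)) .nil)) .nil)) .nil))) .nil))) .nil))))))))) .nil))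
def d16_c11 : Cert := (.node 12288 [] .nil)
def d16_c12 : Cert := (.node 12288 [] .nil)
def d16_c13 : Cert := (.node 12 [164,296,362] (.br 60 (.node 4097 [164,230,296,362] (.sym 4369 0x7b9ac4a16a290e618820 5185 (.sym 4417 0x7b9ac4a16a398a418820 5185 (.sym 5137 0x7b9ac5a928290e618820 5185 (.br 5185 (.node 4097 [164,296] (.br 4369 (.node 17 [] (.br 18449 (.node 257 [] (.br 33153 (.node 65 [] (.br 16961 (.node 129 [] (.br 10369 (.node 513 [] (.br 8737 (.node 33 [] (.br 33825 (.node 48 [] (.br 240 (.node 768 [] (.br 3840 (.node 12288 [] (.br 61440 d16_c12 .nil)) .nil)) .nil)) .nil)) .nil)) .nil)) .nil)) .nil)) (.br 34833 (.node 257 [] (.br 16769 (.node 65 [] (.br 33345 (.node 129 [] (.br 10369 (.node 513 [] (.br 8737 (.node 33 [] (.br 17441 (.node 48 [] (.br 240 (.node 768 [] (.br 3840 (.node 12288 [] (.br 61440 d16_c11 .nil)) .nil)) .nil)) .nil)) .nil)) .nil)) .nil)) .nil)) .nil))) .nil)) .nil))))) .nil))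
def d16_c14 : Cert := (.node 12 [296,362] (.br 172 (.node 17 [296,362] (.sym 4369 0x635cf4a16a398a418820 33809 (.sym 5137 0x635cf5a928398a418820 33809 (.sym 8465 0x6b1ee4a16a398a418820 33809 (.sym 9233 0x6b1ee5a928398a418820 33809 (.sym 16657 0x73d8d4a16a398a418820 33809 (.sym 17425 0x73d8d5a928398a418820 33809 (.sym 33041 0x7b9ac4a16a398a418820 33809 (.br 33809 (.node 17 [296] (.br 4369 (.node 257 [] (.br 16705 (.node 4097 [] (.br 6273 (.node 65 [] (.br 9281 (.node 129 [] (.br 33409 (.node 513 [] (.br 8737 (.node 33 [] (.br 18465 (.node 768 [] (.br 3840 (.node 48 [] (.br 240 (.node 48 [] .nil) .nil)) .nil)) .nil)) .nil)) .nil)) .nil)) .nil)) (.br 16769 (.node 4097 [] (.br 6209 (.node 65 [] (.br 33345 (.node 129 [] (.br 9345 (.node 513 [] (.br 8737 (.node 33 [] (.br 18465 (.node 768 [] (.br 3840 (.node 48 [] (.br 240 (.node 48 [] .nil) .nil)) .nil)) .nil)) .nil)) .nil)) .nil)) .nil)) .nil))) (.br 8465 (.node 257 [] (.br 16705 (.node 8193 [] (.br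 10369 (.node 65 [] (.br 5185 (.node 129 [] (.br 33409 (.node 513 [] (.br 4641 (.node 33 [] (.br 18465 (.node 768 [] (.br 3840 (.node 48 [] (.br 240 (.node 48 [] .nil) .nil)) .nil)) .nil)) .nil)) .nil)) .nil)) .nil)) (.br 16769 (.node 8193 [] (.br 10305 (.node 65 [] (.br 33345 (.node 129 [] (.br 5249 (.node 513 [] (.br 4641 (.node 33 [] (.br 18465 (.node 768 [] (.br 3840 (.node 48 [] (.br 240 (.node 48 [] .nil) .nil)) .nil)) .nil)) .nil)) .nil)) .nil)) .nil)) .nil))) .nil))) .nil))))))))) .nil))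
def d16_c15 : Cert := (.node 12 [164] (.br 60 (.node 257 [164,230] (.sym 4369 0x635cf5a928290e618820 33089 (.sym 4417 0x635cf5a928398a418820 33089 (.sym 8465 0x6b1ee5a928290e618820 33089 (.sym 8513 0x6b1ee5a928398a418820 33089 (.sym 16657 0x73d8d5a928290e618820 33089 (.sym 16705 0x73d8d5a928398a418820 33089 (.sym 33041 0x7b9ac5a928290e618820 33089 (.br 33089 (.node 257 [164] (.br 4369 (.node 17 [] (.br 17425 (.node 4097 [] (.br 6273 (.node 65 [] (.br 9281 (.node 129 [] (.br 17025 (.node 513 [] (.br 8737 (.node 33 [] (.br 34849 (.node 48 [] (.br 240 (.node 768 [] (.br 3840 (.node 768 [] .nil) .nil)) .nil)) .nil)) .nil)) .nil)) .nil)) .nil)) (.br 18449 (.node 4097 [] (.br 5249 (.node 65 [] (.br 10305 (.node 129 [] (.br 17025 (.node 513 [] (.br 8737 (.node 33 [] (.br 33825 (.node 48 [] (.br 240 (.node 768 [] (.br 3840 (.node 768 [] .nil) .nil)) .nil)) .nil)) .nil)) .nil)) .nil)) .nil)) .nil))) (.br 8465 (.node 17 [] (.br 17425 (.node 8193 [] (.br 10369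 (.node 65 [] (.br 5185 (.node 129 [] (.br 17025 (.node 513 [] (.br 4641 (.node 33 [] (.br 34849 (.node 48 [] (.br 240 (.node 768 [] (.br 3840 (.node 768 [] .nil) .nil)) .nil)) .nil)) .nil)) .nil)) .nil)) .nil)) (.br 18449 (.node 8193 [] (.br 9345 (.node 65 [] (.br 6209 (.node 129 [] (.br 17025 (.node 513 [] (.br 4641 (.node 33 [] (.br 33825 (.node 48 [] (.br 240 (.node 768 [] (.br 3840 (.node 768 [] .nil) .nil)) .nil)) .nil)) .nil)) .nil)) .nil)) .nil)) .nil))) .nil))) .nil))))))))) .nil))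
def d16_c16 : Cert := (.node 17 [] (.sym 4369 0x635cf4254b398a418820 34833 (.sym 4625 0x635cf4a16a398a418820 34833 (.sym 5137 0x635cf52d09398a418820 34833 (.sym 6161 0x635cf5a928398a418820 34833 (.sym 8465 0x6b1ee4254b398a418820 34833 (.sym 8721 0x6b1ee4a16a398a418820 34833 (.sym 9233 0x6b1ee52d09398a418820 34833 (.sym 10257 0x6b1ee5a928398a418820 34833 (.sym 16657 0x73d8d4254b398a418820 34833 (.sym 16913 0x73d8d4a16a398a418820 34833 (.sym 17425 0x73d8d52d09398a418820 34833 (.sym 18449 0x73d8d5a928398a418820 34833 (.sym 33041 0x7b9ac4254b398a418820 34833 (.sym 33297 0x7b9ac4a16a398a418820 34833 (.sym 33809 0x7b9ac52d09398a418820 34833 (.br 34833 (.node 17 [] (.sym 4625 0x5a9287b9ac398a410c20 8465 (.br 4369 (.node 257 [] (.br 16705 (.node 4097 [] (.br 5249 (.node 65 [] (.br 10305 (.node 129 [] (.br 33409 (.node 513 [] (.br 8737 (.node 33 [] (.br 17441 (.node 48 [] (.br 240 (.node 48 [] .nil) .nil)) .nil)) .nil)) .nil)) .nil)) .nil)) (.br 16769 (.node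 4097 [] (.br 5185 (.node 65 [] (.br 33345 (.node 129 [] (.br 10369 (.node 513 [] (.br 8737 (.node 33 [] (.br 17441 (.node 48 [] (.br 240 (.node 48 [] .nil) .nil)) .nil)) .nil)) .nil)) .nil)) .nil)) .nil))) (.br 8465 (.node 257 [] (.br 16705 (.node 8193 [] (.br 9345 (.node 65 [] (.br 6209 (.node 129 [] (.br 33409 (.node 513 [] (.br 4641 (.node 33 [] (.br 17441 (.node 48 [] (.br 240 (.node 48 [] .nil) .nil)) .nil)) .nil)) .nil)) .nil)) .nil)) (.br 16769 (.node 8193 [] (.br 9281 (.node 65 [] (.br 33345 (.node 129 [] (.br 6273 (.node 513 [] (.br 4641 (.node 33 [] (.br 17441 (.node 48 [] (.br 240 (.node 48 [] .nil) .nil)) .nil)) .nil)) .nil)) .nil)) .nil)) .nil))) (.br 8721 (.node 513 [] (.br 16961 (.node 8193 [] (.br 9345 (.node 65 [] (.br 6209 (.node 129 [] (.br 33153 (.node 257 [] (.br 4385 (.node 33 [] (.br 17441 (.node 48 [] (.br 240 (.node 48 [] .nil) .nil)) .nil)) .nil)) .nil)) .nil)) .nil)) (.br 17025 (.node 8193 [] (.br 9281 (.node 65 [] (.br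 33089 (.node 129 [] (.br 6273 (.node 257 [] (.br 4385 (.node 33 [] (.br 17441 (.node 48 [] (.br 240 (.node 48 [] .nil) .nil)) .nil)) .nil)) .nil)) .nil)) .nil)) .nil))) .nil))))) .nil)))))))))))))))))
def d16_c17 : Cert := (.node 12 [] (.br 172 d16_c16 .nil))
def d16_c18 : Cert := (.node 3 [98,131,164,197,230,263,296,329,362,395,428,461,494] (.br 15 (.node 3 [164,197,230,263,296,329,362,395,428,461,494] (.br 51 (.node 3 [230,263,296,329,362,395,428,461,494] (.br 195 (.node 5 [164,230,296,329,362,395,428,461,494] (.br 773 (.node 5 [164,230,362,395,428,461,494] (.br 3077 (.node 9 [164,230,296,362,428,461,494] (.br 12297 (.node 9 [164,230,296,362,494] (.br 49161 (.node 6 [164,230,296,362,428,494] (.sym 12294 0x6b1ee5a928398a418820 49158 (.br 20486 (.node 6 [164,230,296,362] (.br 40966 (.node 10 [164,230,296,362] (.sym 778 0x7b9ac4a16a398a418820 3082 (.br 1290 (.node 10 [164,230] (.br 2570 (.node 12 [164,230] (.sym 60 0x7b9ac5a928290e618820 204 (.br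 92 d16_c17 (.br 204 d16_c15 .nil)))) .nil)) (.br 3082 (.node 10 [164,230,296] (.br 778 (.node 12 [164,230,296,362] (.sym 60 0x7b9ac5a928290e618820 204 (.br 92 d16_c14 (.br 204 d16_c13 .nil)))) .nil)) .nil)))) .nil)) (.br 49158 (.node 6 [164,230,296,362,428] (.br 12294 (.node 10 [164,230,296,362,428,494] (.sym 778 0x7b9ac4a16a398a418820 3082 (.br 1290 (.node 10 [164,230,428,494] (.br 2570 (.node 12 [164,230,428,494] (.sym 60 0x7b9ac5a928290e618820 204 (.br 92 d16_c10 (.br 204 d16_c9 .nil)))) .nil)) (.br 3082 (.node 10 [164,230,296,428,494] (.br 778 (.node 12 [164,230,296,362,428,494] (.sym 60 0x7b9ac5a928290e618820 204 (.br 92 d16_c6 (.br 204 d16_c3 .nil)))) .nil)) .nil)))) .nil)) .nil)))) .nil)) .nil)) .nil)) .nil)) .nil)) .nil)) .nil))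
def d16_cert : Cert := d16_c18

theorem d16_check : (d16_cert.top && chk 16 0 4 d16_std dem16 (stFrb 3) cmp16 d16_cert []) = true := by
  decide +kernel

theorem d16_nodup : d16_std.Nodup := by decide +kernel
theorem d16_lt : ∀ m ∈ d16_std, m < 2 ^ 16 := by decide +kernel

theorem exists_iso_std16 (hα : Fintype.card α = 16) {B : Set (Finset α)} (hB : Phi16 B) :
    ∃ e : α ≃ Fin 16, sysMap e B = sysOf 16 d16_std := by
  obtain ⟨τ, -, h⟩ := search_sound (searchHyp16 d16_nodup d16_lt (by decide +kernel)) _ d16_check _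
    (hB.sysMap (Fintype.equivFinOfCardEq hα))
  exact ⟨_, (sysMap_trans _ _ _).symm.trans h⟩

theorem fs_disjoint_iff {v a b : ℕ} (hb : b < 2 ^ v) :
    Nat.beq (Nat.land a b) 0 = true ↔ Disjoint (fs v a) (fs v b) := by
  rw [disjoint_iff_inter_eq_empty, ← fs_and, Nat.beq_eq]
  constructor
  · intro h; rw [show a &&& b = 0 from h]; ext; simp [mem_fs]
  · intro h
    exact fs_inj (a := a &&& b) (Nat.and_lt_two_pow _ hb) (Nat.two_pow_pos v) (by rw [h]; ext; simp [mem_fs])

theorem d16_rel : allL (fun b => Nat.beq (cntL (fun c => and (Nat.beq (Nat.land b c) 0)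
    (Nat.blt (cntL (fun d => and (Nat.beq (Nat.land b d) 0) (Nat.beq (Nat.land c d) 0)) d16_std) 4))
      d16_std) 12) d16_std = true := by decide +kernel

theorem Phi16.ncard_rel (hα : Fintype.card α = 16) {B : Set (Finset α)} (hB : Phi16 B) {b : Finset α}
    (hb : b ∈ B) : {c | c ∈ B ∧ Rel16 B b c}.ncard = 12 := by
  obtain ⟨e, he⟩ := exists_iso_std16 hα hB
  obtain ⟨m, hm, hmb⟩ : b.image e ∈ sysOf 16 d16_std := he ▸ image_mem_sysMap.2 hb
  have := ncard_sysMap_sep e B (Rel16 (Des.sysMap e B) (b.image e))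
  simp only [rel16_sysMap] at this
  rw [← this, he, ← hmb, ncard_sysOf_sep d16_nodup d16_lt]
  · exact Nat.eq_of_beq_eq_true ((allL_iff _ _).1 d16_rel m hm)
  · intro c hc
    rw [Bool.and_eq_true, fs_disjoint_iff (d16_lt c hc), Nat.blt_eq, Rel16, ncard_sysOf_sep d16_nodup d16_lt]
    intro d hd
    rw [Bool.and_eq_true, fs_disjoint_iff (d16_lt d hd), fs_disjoint_iff (d16_lt d hd)]

end CL.Spor.Des
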