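/-
Uniqueness of the strongly regular graph with parameters (77,16,0,4).
-/
import Cfsg.Agent.Spor.DesignHS
import Cfsg.Agent.Spor.DesignD16

set_option autoImplicit false
set_option linter.unusedSectionVars false

namespace CL.Spor.Des
open Cfsg Finset

variable {V : Type*} [Fintype V] [DecidableEq V] {G : SimpleGraph V} [DecidableRel G.Adj]

local notation "N" => SimpleGraph.neighborFinset G

theorem s77_union_three (h : G.IsSRGWith 77 16 0 4) {a b c : V} (hab : a ≠ b) (hac : a ≠ c) (hbc : b ≠ c)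
    (h3 : 3 ≤ (N a ∩ N b ∩ N c).card) : 39 ≤ (N a ∪ N b ∪ N c).card := by
  obtain ⟨z, hz⟩ : (N a ∩ N b ∩ N c).Nonempty := card_pos.1 (by omega)
  simp only [mem_inter, SimpleGraph.mem_neighborFinset] at hz
  have e1 := srg_nonadj h hab fun h' => srg_no_triangle h hz.1.1.symm hz.1.2.symm h'
  have e2 := srg_nonadj h hac fun h' => srg_no_triangle h hz.1.1.symm hz.2.symm h'
  have e3 := srg_nonadj h hbc fun h' => srg_no_triangle h hz.1.2.symm hz.2.symm h'
  have f1 := card_union_add_card_inter (N a) (N b)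
  have f2 := card_union_add_card_inter (N a ∪ N b) (N c)
  have f3 := card_union_add_card_inter (N a ∩ N c) (N b ∩ N c)
  rw [union_inter_distrib_right] at f2
  have f4 : N a ∩ N c ∩ (N b ∩ N c) = N a ∩ N b ∩ N c := by
    ext; simp only [mem_inter]; tauto
  rw [f4] at f3
  have := srg_deg h a; have := srg_deg h b; have := srg_deg h c
  omega

/-- There is no complete bipartite subgraph on three plus three vertices. -/
theorem s77_three (h : G.IsSRGWith 77 16 0 4) {a b c : V} (hab : a ≠ b) (hac : a ≠ c) (hbc : b ≠ c) :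
    (N a ∩ N b ∩ N c).card ≤ 2 := by
  by_contra hn
  obtain ⟨x, y, z, hx, hy, hz, hxy, hxz, hyz⟩ := two_lt_card_iff.1 (not_le.1 hn)
  have h1 := s77_union_three h hab hac hbc (by omega)
  simp only [mem_inter, SimpleGraph.mem_neighborFinset] at hx hy hz
  have h2 := s77_union_three h hxy hxz hyz (by
    have : ({a, b, c} : Finset V) ⊆ N x ∩ N y ∩ N z := by
      intro u hu
      simp only [mem_insert, mem_singleton] at hu
      rcases hu with rfl | rfl | rfl <;>
        simp [hx.1.1.symm, hx.1.2.symm, hx.2.symm, hy.1.1.symm, hy.1.2.symm, hy.2.symm, hz.1.1.symm,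
          hz.1.2.symm, hz.2.symm]
    have := card_le_card this
    rwa [card_eq_three.2 ⟨a, b, c, hab, hac, hbc, rfl⟩] at this)
  have h3 := card_le_univ ((N a ∪ N b ∪ N c) ∪ (N x ∪ N y ∪ N z))
  rw [card_union_of_disjoint, h.card] at h3
  · omega
  rw [disjoint_left]
  intro u hu hu'
  simp only [mem_union, SimpleGraph.mem_neighborFinset] at hu hu'
  rcases hu with (hu | hu) | hu <;> rcases hu' with (hu' | hu') | hu' <;>
    first
    | exact srg_no_triangle h hu hx.1.1 hu'.symm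
    | exact srg_no_triangle h hu hy.1.1 hu'.symm
    | exact srg_no_triangle h hu hz.1.1 hu'.symm
    | exact srg_no_triangle h hu hx.1.2 hu'.symm
    | exact srg_no_triangle h hu hy.1.2 hu'.symm
    | exact srg_no_triangle h hu hz.1.2 hu'.symm
    | exact srg_no_triangle h hu hx.2 hu'.symm
    | exact srg_no_triangle h hu hy.2 hu'.symm
    | exact srg_no_triangle h hu hz.2 hu'.symm

/-- The generalized quadrangle axiom at an edge `x y`. -/
theorem s77_gq (h : G.IsSRGWith 77 16 0 4) {x y u w u₁ u₂ w₁ w₂ : V} (hxy : G.Adj x y) (hxu : G.Adj x u)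
    (huy : u ≠ y) (hyw : G.Adj y w) (hwx : w ≠ x) (hwu : ¬ G.Adj w u)
    (a1 : G.Adj x u₁) (a2 : u₁ ≠ y) (a3 : G.Adj w u₁) (a4 : G.Adj w₁ u₁) (a5 : G.Adj y w₁) (a6 : G.Adj u w₁)
    (a7 : w₁ ≠ x)
    (b1 : G.Adj x u₂) (b2 : u₂ ≠ y) (b3 : G.Adj w u₂) (b4 : G.Adj w₂ u₂) (b5 : G.Adj y w₂) (b6 : G.Adj u w₂)
    (b7 : w₂ ≠ x) : u₁ = u₂ := by
  have tri := fun {a b c : V} => srg_no_triangle h (u := a) (v := b) (w := c)
  have hyu : ¬ G.Adj y u := fun h' => tri hxy hxu h'
  set W := (N y ∩ N u).erase x with hW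
  have mW : ∀ v, v ∈ W ↔ v ≠ x ∧ G.Adj y v ∧ G.Adj u v := by simp [hW]
  have cW : W.card = 3 := by
    rw [hW, card_erase_of_mem (by simp [hxy.symm, hxu.symm]), srg_nonadj h huy.symm hyu]
  set C := (N x).filter fun v => v ≠ y ∧ v ≠ u ∧ ∃ t ∈ W, G.Adj t v with hC
  have mC : ∀ v, v ∈ C ↔ G.Adj x v ∧ v ≠ y ∧ v ≠ u ∧ ∃ t ∈ W, G.Adj t v := by simp [hC]
  have hWC : ∀ t ∈ W, (N t ∩ C).card = 2 := by
    intro t ht
    obtain ⟨t1, t2, t3⟩ := (mW t).1 ht
    have : N t ∩ C = ((N t ∩ N x).erase y).erase u := by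
      ext v
      simp only [mem_inter, SimpleGraph.mem_neighborFinset, mC, mem_erase]
      exact ⟨fun h => ⟨h.2.2.2.1, h.2.2.1, h.1, h.2.1⟩, fun h => ⟨h.2.2.1, h.2.2.2, h.2.1, h.1, t, ht, h.2.2.1⟩⟩
    rw [this, card_erase_of_mem (by simp [huy, t3.symm, hxu]), card_erase_of_mem (by simp [t2.symm, hxy]),
      srg_nonadj h t1 fun h' => tri hxy h'.symm t2]
  have hCW : ∀ v ∈ C, (N v ∩ W).card = 1 := by
    intro v hv
    obtain ⟨v1, v2, v3, t, ht, v4⟩ := (mC v).1 hv
    have h1 := s77_three h v2 v3 huy.symm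
    have : N v ∩ W = (N v ∩ N y ∩ N u).erase x := by ext; simp [mW]; tauto
    have h2 : (N v ∩ W).Nonempty := ⟨t, mem_inter.2 ⟨by simpa using v4.symm, ht⟩⟩
    have h3 := card_pos.2 h2
    rw [this, card_erase_of_mem (by simp [v1.symm, hxy.symm, hxu.symm])] at h3 ⊢
    omega
  have cC : C.card = 6 := by
    have := Finset.card_mul_eq_card_mul (s := C) (t := W) (fun v t => G.Adj v t) (m := 1) (n := 2)
      (fun v hv => by rw [← hCW v hv]; congr 1; ext; simp [and_comm])
      (fun t ht => by rw [← hWC t ht]; congr 1; ext; simp [and_comm, G.adj_comm t])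
    omega
  have hsum : ∀ v, ∑ z ∈ N v, (3 * indZ {u} z + indZ C z + 2 * indZ W z + 4 * indZ {x} z + 3 * indZ {y} z) =
      3 * (if G.Adj v u then 1 else 0) + (N v ∩ C).card + 2 * (N v ∩ W).card +
        4 * (if G.Adj v x then 1 else 0) + 3 * (if G.Adj v y then 1 else 0) := by
    intro v
    simp only [sum_add_distrib, ← mul_sum, sum_indZ_single]
    simp only [sum_indZ]
  have hxC : x ∉ C := by simp [mC]
  have hyC : y ∉ C := by simp [mC]
  have huC : u ∉ C := by simp [mC]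
  have hxW : x ∉ W := by simp [mW]
  have hyW : y ∉ W := by simp [mW]
  have huW : u ∉ W := by simp [mW]
  have nC : ∀ v, G.Adj x v → N v ∩ C = ∅ := fun v hv => by
    ext z
    simp only [mem_inter, SimpleGraph.mem_neighborFinset, mC, notMem_empty, iff_false]
    exact fun h' => tri hv h'.2.1 h'.1
  have nW : ∀ v, G.Adj y v → N v ∩ W = ∅ := fun v hv => by
    ext z
    simp only [mem_inter, SimpleGraph.mem_neighborFinset, mW, notMem_empty, iff_false]
    exact fun h' => tri hv h'.2.2.1 h'.1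
  have key := srg_eigen h rfl
    (fun z => 3 * indZ {u} z + indZ C z + 2 * indZ W z + 4 * indZ {x} z + 3 * indZ {y} z) 22 4 (by
      simp only [sum_add_distrib, ← mul_sum, sum_indZ, univ_inter, cC, cW, card_singleton]; norm_num)
    (by norm_num) (by norm_num) (fun v hv => by
      rw [hsum]
      by_cases h1 : v = u
      · subst h1
        have : N v ∩ W = W := inter_eq_right.2 fun z hz => by simpa using ((mW z).1 hz).2.2
        rw [this, cW, nC v hxu]
        simp [indZ, huC, huW, hxu.symm, hxu.ne', huy, G.adj_comm v y, hyu]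
      by_cases h2 : v = x
      · subst h2
        have : N v ∩ C = C := inter_eq_right.2 (filter_subset _ _)
        rw [this, cC, nW v hxy.symm]
        simp [indZ, hxC, hxW, hxu, hxy, hxu.ne, hxy.ne]
      by_cases h3 : v = y
      · subst h3
        have : N v ∩ W = W := inter_eq_right.2 fun z hz => by simpa using ((mW z).1 hz).2.1
        rw [this, cW, nC v hxy]
        simp [indZ, hyC, hyW, hyu, hxy.symm, h1, h2]
      by_cases h4 : v ∈ C
      · obtain ⟨v1, v2, v3, -⟩ := (mC v).1 h4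
        have h5 : v ∉ W := fun h' => tri hxy v1 ((mW v).1 h').2.1
        rw [hCW v h4, nC v v1, if_neg fun h' => tri v1 hxu h', if_neg fun h' => tri v1 hxy h']
        simp [indZ, h1, h2, h3, h4, h5, v1.symm]
      have h5 : v ∈ W := by
        by_contra h5; simp [indZ, h1, h2, h3, h4, h5] at hv
      obtain ⟨v1, v2, v3⟩ := (mW v).1 h5
      rw [hWC v h5, nW v v2, if_neg fun h' : G.Adj v x => tri hxy h'.symm v2]
      simp [indZ, h1, h2, h3, h4, h5, v2.symm, v3.symm]) w
  have w1 : w ≠ u := fun e => hyu (e ▸ hyw)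
  have w2 : ¬ G.Adj w x := fun h' => tri hxy h'.symm hyw
  have w3 : w ∉ C := fun h' => w2 ((mC w).1 h').1.symm
  have w4 : w ∉ W := fun h' => hwu ((mW w).1 h').2.2.symm
  rw [hsum, nW w hyw] at key
  simp only [indZ, mem_singleton, w1, w2, w3, w4, hwx, hyw.ne', hwu, hyw.symm, if_true, if_false,
    card_empty] at key
  have key' : (N w ∩ C).card = 1 := by omega
  obtain ⟨z, hz⟩ := card_eq_one.1 key'
  have m1 : u₁ ∈ N w ∩ C := mem_inter.2 ⟨by simpa using a3,
    (mC _).2 ⟨a1, a2, fun e => hwu (e ▸ a3), w₁, (mW _).2 ⟨a7, a5, a6⟩, a4⟩⟩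
  have m2 : u₂ ∈ N w ∩ C := mem_inter.2 ⟨by simpa using b3,
    (mC _).2 ⟨b1, b2, fun e => hwu (e ▸ b3), w₂, (mW _).2 ⟨b7, b5, b6⟩, b4⟩⟩
  rw [hz, mem_singleton] at m1 m2
  rw [m1, m2]

theorem s77_inter (h : G.IsSRGWith 77 16 0 4) {o z w : V} (hz : z ∈ farSet G o) (hw : w ∈ farSet G o)
    (hzw : z ≠ w) : (nbBlock G o z ∩ nbBlock G o w).card ≤ 2 := by
  rw [card_nbBlock_inter, ← inter_assoc]
  exact s77_three h (mem_farSet.1 hw).1 hzw.symm (mem_farSet.1 hz).1.symm

theorem s77_card (h : G.IsSRGWith 77 16 0 4) {o z : V} (hz : z ∈ farSet G o) : (nbBlock G o z).card = 4 := by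
  rw [card_nbBlock, srg_nonadj h (mem_farSet.1 hz).1.symm (mem_farSet.1 hz).2]

theorem s77_inj (h : G.IsSRGWith 77 16 0 4) (o : V) :
    ∀ z ∈ farSet G o, ∀ w ∈ farSet G o, nbBlock G o z = nbBlock G o w → z = w := by
  intro z hz w hw e
  by_contra hne
  have := s77_inter h hz hw hne
  rw [← e, inter_self, s77_card h hz] at this; omega

theorem ncard_nbDesign_sep {o : V}
    (hinj : ∀ z ∈ farSet G o, ∀ w ∈ farSet G o, nbBlock G o z = nbBlock G o w → z = w)
    (P : Finset (G.neighborSet o) → Prop) (T : Finset V)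
    (hT : ∀ z, z ∈ T ↔ z ∈ farSet G o ∧ P (nbBlock G o z)) : {b | b ∈ nbDesign G o ∧ P b}.ncard = T.card := by
  rw [← Set.ncard_coe_finset, ← Set.InjOn.ncard_image (f := nbBlock G o)
    (fun z hz w hw => hinj z ((hT z).1 hz).1 w ((hT w).1 hw).1)]
  congr 1
  ext b
  constructor
  · rintro ⟨⟨z, h1, h2, rfl⟩, h3⟩; exact ⟨z, (hT z).2 ⟨mem_farSet.2 ⟨h1, h2⟩, h3⟩, rfl⟩
  · rintro ⟨z, hz, rfl⟩
    obtain ⟨h1, h2⟩ := (hT z).1 hz
    exact ⟨⟨z, (mem_farSet.1 h1).1, (mem_farSet.1 h1).2, rfl⟩, h2⟩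

theorem s77_phi (h : G.IsSRGWith 77 16 0 4) (o : V) : Phi16 (nbDesign G o) where
  card4 := by rintro _ ⟨z, h1, h2, rfl⟩; exact s77_card h (mem_farSet.2 ⟨h1, h2⟩)
  ncard60 := by
    have := ncard_nbDesign_sep (s77_inj h o) (fun _ => True) (farSet G o) (by simp)
    have h2 := card_farSet h o
    simp only [and_true, Set.ofPred_mem_eq] at this
    omega
  pair3 s hs := by
    obtain ⟨a, b, hab, rfl⟩ := card_eq_two.1 hs
    have ha : G.Adj o a := a.2
    have hb : G.Adj o b := b.2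
    rw [ncard_nbDesign_sep (s77_inj h o) _ ((N a ∩ N b).erase o), card_erase_of_mem (by simp [ha.symm, hb.symm]),
      srg_nonadj h (fun e => hab (Subtype.ext e)) (srg_no_triangle h ha hb)]
    intro z
    simp only [mem_erase, mem_inter, SimpleGraph.mem_neighborFinset, mem_farSet, insert_subset_iff,
      singleton_subset_iff, mem_nbBlock, G.adj_comm z]
    exact ⟨fun h' => ⟨⟨h'.1, fun h'' => srg_no_triangle h ha h'' h'.2.1⟩, h'.2⟩, fun h' => ⟨h'.1.1, h'.2⟩⟩
  inter2 := by
    rintro _ ⟨z, h1, h2, rfl⟩ _ ⟨w, h3, h4, rfl⟩ hne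
    exact s77_inter h (mem_farSet.2 ⟨h1, h2⟩) (mem_farSet.2 ⟨h3, h4⟩) fun e => hne (e ▸ rfl)
  notri := by
    rintro _ ⟨b, b1, b2, rfl⟩ _ ⟨c, c1, c2, rfl⟩ _ ⟨d, d1, d2, rfl⟩ hbc hdc hbd h1
    obtain ⟨y, hy⟩ := card_eq_one.1 h1
    have hy' : ∀ p, p ∈ nbBlock G o b ∩ nbBlock G o c ∩ nbBlock G o d ↔ p = y := by simp [hy]
    have hy0 := (hy' y).2 rfl
    simp only [mem_inter, mem_nbBlock] at hy' hy0
    obtain ⟨u, hu, huy⟩ := exists_mem_ne (s := nbBlock G o b ∩ nbBlock G o d) (by omega) y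
    obtain ⟨u₁, hu₁, hu₁y⟩ := exists_mem_ne (s := nbBlock G o b ∩ nbBlock G o c) (by omega) y
    obtain ⟨u₂, hu₂, hu₂y⟩ := exists_mem_ne (s := nbBlock G o d ∩ nbBlock G o c) (by omega) y
    simp only [mem_inter, mem_nbBlock] at hu hu₁ hu₂
    have := s77_gq h (x := o) (y := y) (u := u) (w := c) (u₁ := u₁) (u₂ := u₂) (w₁ := b) (w₂ := d)
      y.2 u.2 (fun e => huy (Subtype.ext e)) hy0.1.2.symm c1 (fun h' => huy ((hy' u).1 ⟨⟨hu.1, h'⟩, hu.2⟩))
      u₁.2 (fun e => hu₁y (Subtype.ext e)) hu₁.2 hu₁.1 hy0.1.1.symm hu.1.symm b1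
      u₂.2 (fun e => hu₂y (Subtype.ext e)) hu₂.2 hu₂.1 hy0.2.symm hu.2.symm d1
    exact hu₁y ((hy' u₁).1 ⟨hu₁, this ▸ hu₂.1⟩)

theorem s77_adj_iff (h : G.IsSRGWith 77 16 0 4) {o z w : V} (hz : z ∈ farSet G o) (hw : w ∈ farSet G o) :
    G.Adj z w ↔ Rel16 (nbDesign G o) (nbBlock G o z) (nbBlock G o w) := by
  have hdisj : ∀ {a b : V}, G.Adj a b → Disjoint (nbBlock G o a) (nbBlock G o b) := fun hab => by
    rw [disjoint_left]; intro p h1 h2
    rw [mem_nbBlock] at h1 h2
    exact srg_no_triangle h hab h1 h2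
  have h1 : ∀ w ∈ farSet G o, Rel16 (nbDesign G o) (nbBlock G o z) (nbBlock G o w) → G.Adj z w := by
    intro w hw hr
    by_contra hn
    have hne : z ≠ w := by
      rintro rfl
      have := hr.1
      rw [disjoint_self_iff_empty, ← card_eq_zero, s77_card h hz] at this; omega
    have h4 := srg_nonadj h hne hn
    have h5 := hr.2
    classical
    rw [ncard_nbDesign_sep (s77_inj h o) _ ((farSet G o).filter fun d =>
      Disjoint (nbBlock G o z) (nbBlock G o d) ∧ Disjoint (nbBlock G o w) (nbBlock G o d)) (by simp)] at h5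
    suffices h6 : N z ∩ N w ⊆ (farSet G o).filter fun d =>
        Disjoint (nbBlock G o z) (nbBlock G o d) ∧ Disjoint (nbBlock G o w) (nbBlock G o d) by
      have := card_le_card h6; omega
    intro d hd
    simp only [mem_inter, SimpleGraph.mem_neighborFinset] at hd
    refine mem_filter.2 ⟨mem_farSet.2 ⟨?_, fun h' => ?_⟩, hdisj hd.1, hdisj hd.2⟩
    · rintro rfl; exact (mem_farSet.1 hz).2 hd.1.symm
    · exact disjoint_left.1 hr.1 (mem_nbBlock (p := ⟨d, h'⟩).2 hd.1) (mem_nbBlock.2 hd.2)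
  refine ⟨fun hadj => ?_, h1 w hw⟩
  classical
  have h2 := (s77_phi h o).ncard_rel (card_nbSet h o)
    (b := nbBlock G o z) ⟨z, (mem_farSet.1 hz).1, (mem_farSet.1 hz).2, rfl⟩
  rw [ncard_nbDesign_sep (s77_inj h o) _ ((farSet G o).filter fun d =>
    Rel16 (nbDesign G o) (nbBlock G o z) (nbBlock G o d)) (by simp)] at h2
  have h3 : ((farSet G o).filter fun d => Rel16 (nbDesign G o) (nbBlock G o z) (nbBlock G o d)) =
      N z \ N o := by
    apply eq_of_subset_of_card_le
    · intro d hd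
      rw [mem_filter] at hd
      simp [h1 d hd.1 hd.2, (mem_farSet.1 hd.1).2]
    · have := card_sdiff_add_card_inter (N z) (N o)
      rw [srg_deg h, srg_nonadj h (mem_farSet.1 hz).1 fun h' => (mem_farSet.1 hz).2 h'.symm] at this
      omega
  have : w ∈ N z \ N o := by simp [hadj, (mem_farSet.1 hw).2]
  rw [← h3] at this
  exact (mem_filter.1 this).2

/-- The adjacency relation recovered from the local design. -/
def rel77 {α : Type*} [DecidableEq α] (B : Set (Finset α)) : Option (α ⊕ B) → Option (α ⊕ B) → Prop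
  | none, none => False
  | none, some (.inl _) => True
  | none, some (.inr _) => False
  | some (.inl _), none => True
  | some (.inl _), some (.inl _) => False
  | some (.inl a), some (.inr b) => a ∈ (b : Finset α)
  | some (.inr _), none => False
  | some (.inr b), some (.inl a) => a ∈ (b : Finset α)
  | some (.inr b), some (.inr c) => Rel16 B b c

theorem s77_label (h : G.IsSRGWith 77 16 0 4) (o v w : V) :
    rel77 (nbDesign G o) (nbLabel G o v) (nbLabel G o w) ↔ G.Adj v w := by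
  by_cases h1 : v = o
  · subst h1
    rw [nbLabel_self]
    by_cases h3 : w = v
    · subst h3; simp [nbLabel_self, rel77]
    by_cases h4 : G.Adj v w
    · simp [nbLabel_adj h4, rel77, h4]
    · simp [nbLabel_far h3 h4, rel77, h4]
  by_cases h2 : G.Adj o v
  · rw [nbLabel_adj h2]
    by_cases h3 : w = o
    · subst h3; simp [nbLabel_self, rel77, h2.symm]
    by_cases h4 : G.Adj o w
    · rw [nbLabel_adj h4]; exact ⟨fun h => h.elim, fun h' => (srg_no_triangle h h2 h4 h').elim⟩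
    · rw [nbLabel_far h3 h4]; exact mem_nbBlock.trans (G.adj_comm _ _)
  · rw [nbLabel_far h1 h2]
    by_cases h3 : w = o
    · subst h3; simp [nbLabel_self, rel77, G.adj_comm v, h2]
    by_cases h4 : G.Adj o w
    · rw [nbLabel_adj h4]; exact mem_nbBlock
    · rw [nbLabel_far h3 h4]
      exact (s77_adj_iff h (mem_farSet.2 ⟨h1, h2⟩) (mem_farSet.2 ⟨h3, h4⟩)).symm

theorem rel77_map {α β : Type*} [Fintype α] [DecidableEq α] [Fintype β] [DecidableEq β]
    {B : Set (Finset α)} {B' : Set (Finset β)} (e : α ≃ β) (he : sysMap e B = B') (v w : Option (α ⊕ B)) :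
    rel77 B' (pbIso e he v) (pbIso e he w) ↔ rel77 B v w := by
  subst he
  rcases v with _ | a | b <;> rcases w with _ | a' | b'
  all_goals first
    | exact Iff.rfl
    | exact e.injective.mem_finset_image
    | exact rel16_sysMap e B _ _

theorem s77_unique {W : Type*} [Fintype W] [DecidableEq W] {H : SimpleGraph W} [DecidableRel H.Adj]
    (hG : G.IsSRGWith 77 16 0 4) (hH : H.IsSRGWith 77 16 0 4) (o : V) (o' : W) :
    ∃ f : G ≃g H, f o = o' := by
  obtain ⟨e, he⟩ := exists_iso_std16 (card_nbSet hG o) (s77_phi hG o)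
  obtain ⟨e', he'⟩ := exists_iso_std16 (card_nbSet hH o') (s77_phi hH o')
  have hee : sysMap (e.trans e'.symm) (nbDesign G o) = nbDesign H o' := by
    rw [← sysMap_trans, he, ← he', sysMap_symm_sysMap]
  let f := Equiv.ofBijective _ (nbLabel_bijective o (s77_inj hG o))
  let g := Equiv.ofBijective _ (nbLabel_bijective o' (s77_inj hH o'))
  refine ⟨⟨(f.trans (pbIso _ hee).toEquiv).trans g.symm, fun {v w} => ?_⟩, ?_⟩
  · rw [← s77_label hH o', ← s77_label hG o, ← rel77_map _ hee]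
    have : ∀ x, nbLabel H o' (g.symm x) = x := fun x => g.apply_symm_apply x
    simp only [Equiv.trans_apply, this]; rfl
  · show g.symm (pbIso _ hee (nbLabel G o o)) = o'
    rw [nbLabel_self, pbIso_none, ← nbLabel_self (G := H) o']; exact g.symm_apply_apply o'

end CL.Spor.Des
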