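import Cfsg.Agent.Spor.J1pUb
import Cfsg.Agent.Spor.PMJ1p

/-! A presentation of the first Janko group: order and simplicity. -/

set_option autoImplicit false

namespace CL.J1pP
open CL.TC CL.PG CL.PP CL.Pr CL.Pr.J1p MulAction

theorem model : PModel gens edges extra 266 2 PM.J1p.ns PM.J1p.ws :=
  ⟨fun x => by cases x <;> decide, by decide, rfl, PM.J1p.ok, rels_sub PM.J1p.rel (by decide +kernel),
    ext_of_rels (getD_lift _ _) (rels_sub PM.J1p.rel (by decide +kernel)), rfl, PM.J1p.defs, PM.J1p.relD⟩

/-- the action on 266 points -/
noncomputable instance act : MulAction J1p (Fin 266) := model.act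

/-- the quotient map -/
abbrev mk : FreeGroup Gen →* J1p := pmk edges extra
/-- the alphabet -/
abbrev gs : List J1p := pgs gens edges extra PM.J1p.ws
/-- the point stabiliser -/
abbrev H : Subgroup J1p := subL mk subA

theorem hR : ∀ r ∈ RL, mk r = 1 := coxList_mk _ _

theorem good : Good (eF 266) 266 266 gs PM.J1p.ns := model.good

theorem top : subL mk (wds gens) = ⊤ := subL_gens model.all _ _

theorem exact : Exact (eF 266) 266 266 gs PM.J1p.ns 1 PM.J1p.levs (gensW 2) :=
  exact_fin (N := 266) PM.J1p.Pok rfl rfl good model.hD PM.J1p.chain (LB.one _) (by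
    rw [model.top, ← top]; exact cardA hR)

theorem card : Nat.card J1p = 175560 := by
  have := exact.card
  rwa [model.top, Subgroup.card_top] at this

instance finite : Finite J1p := Nat.finite_of_card_ne_zero (by rw [card]; norm_num)

instance trans : IsPretransitive J1p (Fin 266) :=
  pretransitive_of_lev PM.J1p.Pok rfl rfl good model.hD PM.J1p.lev0 model.top rfl

instance faithful : FaithfulSMul J1p (Fin 266) := faithfulSMul_of (model.top ▸ exact.faithful)

theorem H_eq : subW gs PM.J1p.v0.nx = H := model.subW_eq (by decide +kernel)

theorem stab : H = stabilizer J1p (eF 266 0) := by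
  have := exact.stab
  rw [model.top, top_inf_eq, H_eq] at this
  exact this.symm

theorem card_H : Nat.card H = 660 := by
  have := exact.tail.card
  rwa [H_eq] at this

theorem index_H : H.index = 266 := by
  rw [index_eq_of_stab stab, Nat.card_eq_fintype_card, Fintype.card_fin]

theorem ncard_sub {o : SubO} (ho : o ∈ PM.J1p.subs) : orbit H (eF 266 o.pt) = mset (eF 266) 266 (o.m 266 PM.J1p.ns) ∧
    (orbit H (eF 266 o.pt)).ncard = o.sz :=
  H_eq ▸ SubO.orbit_eq good model.hD (by norm_num) (PM.J1p.subsok o ho)

/-- words leading to the base points -/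
abbrev us : List (FreeGroup Gen) := [1, a * b * a, a]

theorem base : Base H (us.map mk) := by
  have := base_of_exact good exact model.top (by norm_num) stab.le PM.J1p.base
  rwa [show PM.J1p.us = us.map (toPG gens.idxOf) by decide +kernel, List.map_map,
    show wordG gs ∘ toPG gens.idxOf = mk from funext model.word] at this

/-- the letters of the coset table -/
abbrev LB0 : List (Gen × Bool) := [(.a, true), (.b, true), (.b, false)]

/-- the relation checker -/
noncomputable def relOK (x : FreeGroup Gen) : Bool := baseOK J1pA.cert [.a] LB0 us x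

theorem eq_one {x : FreeGroup Gen} (hx : relOK x = true) : mk x = 1 :=
  eq_one_of_base (KL := []) J1pA.valid hR rfl (by decide +kernel) base hx

/-- membership in the point stabiliser -/
theorem mem_H {x : FreeGroup Gen} (hx : walkOK J1pA.cert [.a] LB0 x = true) : mk x ∈ H :=
  J1pA.valid.mem_subL (KL := []) hR rfl (by decide +kernel) hx

instance prim : IsPreprimitive J1p (Fin 266) :=
  isPreprimitive_of_subO' good model.hD (by norm_num) (H_eq.trans stab).le PM.J1p.subsok PM.J1p.cov
    (index_ne_two (pmk_surjective _ _) (fun _ => eq_one) model.all [([(b, 3)], .b), ([(a * b, 7)], .a)]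
      (by decide +kernel)) (by decide +kernel)

theorem simple : IsSimpleGroup J1p := by
  have : Nontrivial J1p := Finite.one_lt_card_iff_nontrivial.1 (by rw [card]; norm_num)
  refine isSimpleGroup_of_gens (pmk_surjective _ _) fun K hK hb => ?_
  have hx : mk (b * a) ∈ K := mem_normal_of_coprime (eF 266 0) hb (p := 7)
    (by rw [← map_pow]; exact eq_one (by decide +kernel)) (by rw [← stab, card_H]; norm_num)
  have ha : mk a ∈ K := mem_step 3 2 hx (eq_one (by decide +kernel)) (eq_one (by decide +kernel)) (by norm_num)
  exact fun y => mem_of_steps (fun _ => eq_one) [(a, .b, 7, 3)] [.a] (by simpa using ha) (by decide +kernel) y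
    (model.all y)

end CL.J1pP
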