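import Cfsg.Agent.Spor.ONModel
import Cfsg.Agent.Spor.J1pModel
import Cfsg.Agent.Spor.M11pModel

/-! Subgroups J₁ and M₁₁ of the presented O'Nan group. -/

set_option autoImplicit false
set_option Elab.async false

namespace CL.ONP
open CL.TC CL.PG CL.PP Cfsg.Spor Cfsg.Spor.ON MulAction

/-- standard generators of a subgroup `J₁` -/
def wJ : Pr.J1p.Gen → FreeGroup Gen
  | .a => d
  | .b => c * d * b * c * e * d * g * a * c * d * e * c * a * g⁻¹ * d * e * c * b * d * c

/-- standard generators of a subgroup `M₁₁` -/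
def wM : Pr.M11p.Gen → FreeGroup Gen
  | .a => d
  | .b => e * g * g * c * f * b * e * d * e * a * c * g⁻¹ * g⁻¹ * d * b * c * b * d * a * g * e * c * d * c * d * e *
    g⁻¹ * a * d * b * c * b * d * g * g * c * a * e * d * e * b * f * c * g⁻¹ * g⁻¹ * e

/-- the embedding of `J₁` -/
noncomputable def homJ : Pr.J1p →* ON := phom (fun x => mk (wJ x)) fun r hr => by
  rw [lift_words]
  exact eq_one (List.all_eq_true.1
    (by decide +kernel : J1pP.RL.all (fun r => relOK (FreeGroup.lift wJ r)) = true) r hr)

/-- the embedding of `M₁₁` -/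
noncomputable def homM : Pr.M11p →* ON := phom (fun x => mk (wM x)) fun r hr => by
  rw [lift_words]
  exact eq_one (List.all_eq_true.1
    (by decide +kernel : M11pP.RL.all (fun r => relOK (FreeGroup.lift wM r)) = true) r hr)

theorem d_ne : mk d ≠ 1 := fun h => by
  have := ne_of_ptW good (u := toPG gens.idxOf d) (w := toPG gens.idxOf 1) (a := 1) (p := 4) (q := 1) (by norm_num)
    (by norm_num) (by norm_num) (by norm_num) (by decide +kernel) (by decide +kernel)
  rw [model.word, model.word, h, map_one] at this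
  exact this rfl

theorem exists_J1 : ∃ K : Subgroup ON, IsSimpleGroup K ∧ Nat.card K = 175560 := by
  have := J1pP.simple
  have h := range_simple homJ (x := J1pP.mk Pr.J1p.a) (by rw [homJ, phom_mk, FreeGroup.lift_apply_of]; exact d_ne)
  exact ⟨_, h.1, h.2.trans J1pP.card⟩

theorem exists_M11 : ∃ K : Subgroup ON, IsSimpleGroup K ∧ Nat.card K = 7920 := by
  have := M11pP.simple
  have h := range_simple homM (x := M11pP.mk Pr.M11p.a) (by rw [homM, phom_mk, FreeGroup.lift_apply_of]; exact d_ne)
  exact ⟨_, h.1, h.2.trans M11pP.card⟩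

end CL.ONP
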