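/-
An invariant finite set of vectors with integral inner products gives an integral matrix representation.
-/
import Cfsg.Agent.Base

set_option autoImplicit false

namespace CL.MS

theorem exists_int_rep {C V : Type*} [Group C] [AddCommGroup V] [Module ℝ V] (ρ : C →* (V ≃ₗ[ℝ] V))
    (bil : LinearMap.BilinForm ℝ V) (hsy : ∀ u v, bil u v = bil v u) (hpos : ∀ v, v ≠ 0 → 0 < bil v v)
    (hinv : ∀ g u v, bil (ρ g u) (ρ g v) = bil u v) {A : Set V} (hA : A.Finite) (hAg : ∀ g, ∀ a ∈ A, ρ g a ∈ A)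
    (hint : ∀ a ∈ A, ∀ b ∈ A, ∃ k : ℤ, 256 * bil a b = k) (U : Submodule ℝ V) [Module.Finite ℝ U] (hU : ∀ a ∈ A, a ∈ U)
    (h0 : ∃ a ∈ A, a ≠ 0) :
    ∃ (n : ℕ) (σ : C →* Matrix (Fin n) (Fin n) ℤ) (Γ : Matrix (Fin n) (Fin n) ℤ), n ≤ Module.finrank ℝ U ∧ Γ ≠ 0 ∧
      Γ.transpose = Γ ∧ (∀ g, (σ g).transpose * Γ * σ g = Γ) ∧ ∀ g, σ g = 1 ↔ ∀ a ∈ A, ρ g a = a := by
  classical
  set L := Submodule.span ℤ A with hL
  have : Module.Finite ℤ L := Module.Finite.span_of_finite ℤ hA
  have : IsAddTorsionFree V := IsAddTorsionFree.of_isTorsionFree ℝ V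
  set n := Module.finrank ℤ L
  let b : Module.Basis (Fin n) ℤ L := Module.finBasis ℤ L
  have hm : ∀ g, ∀ x ∈ L, ((ρ g).toLinearMap.restrictScalars ℤ) x ∈ L := fun g x hx =>
    (Submodule.span_le (p := L.comap ((ρ g).toLinearMap.restrictScalars ℤ))).2
      (fun a ha => Submodule.subset_span (hAg g a ha)) hx
  let r : C →* Module.End ℤ L :=
    { toFun := fun g => ((ρ g).toLinearMap.restrictScalars ℤ).restrict (hm g)
      map_one' := by ext x; simp
      map_mul' := fun g h => by ext x; simp }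
  have hr : ∀ g (x : L), (r g x : V) = ρ g x := fun _ _ => rfl
  have hi : ∀ u v : L, ∃ k : ℤ, (k : ℝ) = 256 * bil u v := by
    rintro ⟨u, hu⟩ ⟨v, hv⟩
    change ∃ k : ℤ, (k : ℝ) = 256 * bil u v
    induction hu using Submodule.span_induction with
    | zero => exact ⟨0, by simp⟩
    | add x y _ _ h1 h2 =>
      obtain ⟨k, h1⟩ := h1; obtain ⟨l, h2⟩ := h2
      exact ⟨k + l, by simp [h1, h2, mul_add]⟩
    | smul c x _ h1 =>
      obtain ⟨k, h1⟩ := h1
      exact ⟨c * k, by simp [h1]; ring⟩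
    | mem a ha =>
      induction hv using Submodule.span_induction with
      | zero => exact ⟨0, by simp⟩
      | add x y _ _ h1 h2 =>
        obtain ⟨k, h1⟩ := h1; obtain ⟨l, h2⟩ := h2
        exact ⟨k + l, by simp [h1, h2, mul_add]⟩
      | smul c x _ h1 =>
        obtain ⟨k, h1⟩ := h1
        exact ⟨c * k, by simp [h1]; ring⟩
      | mem a' ha' => exact (hint a ha a' ha').imp fun _ h => h.symm
  choose β hβ using hi
  let Γ : Matrix (Fin n) (Fin n) ℤ := Matrix.of fun i j => β (b i) (b j)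
  have hΓ : ∀ i j, (Γ i j : ℝ) = 256 * bil (b i) (b j) := fun i j => hβ _ _
  have hx : ∀ x : L, (x : V) = ∑ i, (b.repr x i : ℝ) • (b i : V) := fun x => by
    conv_lhs => rw [← b.sum_repr x]
    simp only [Int.cast_smul_eq_zsmul, AddSubmonoidClass.coe_finsetSum, SetLike.val_smul]
  have hb : ∀ c d : Fin n → ℝ, 256 * bil (∑ i, c i • (b i : V)) (∑ j, d j • (b j : V)) =
      ∑ i, ∑ j, c i * (Γ i j : ℝ) * d j := fun c d => by
    simp only [map_sum, LinearMap.sum_apply, map_smul, LinearMap.smul_apply, smul_eq_mul, Finset.mul_sum, hΓ]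
    rw [Finset.sum_comm]
    exact Finset.sum_congr rfl fun i _ => Finset.sum_congr rfl fun j _ => by ring
  have hdet : Γ.det ≠ 0 := fun h => by
    obtain ⟨c, hc, e⟩ := Matrix.exists_mulVec_eq_zero_iff.2 h
    have h1 : ((b.equivFun.symm c : L) : V) ≠ 0 := fun h1 => hc (b.equivFun.symm.map_eq_zero_iff.1 (Subtype.ext h1))
    have h2 := hpos _ h1
    have h3 := hb (fun i => c i) fun i => c i
    have h4 : ((b.equivFun.symm c : L) : V) = ∑ i, (c i : ℝ) • (b i : V) := by simp [Int.cast_smul_eq_zsmul]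
    have h5 : ∀ i, ∑ j, (c i : ℝ) * (Γ i j : ℝ) * c j = 0 := fun i => by
      have := congrArg (Int.cast : ℤ → ℝ) (congrFun e i)
      simp only [Matrix.mulVec, dotProduct, Int.cast_sum, Int.cast_mul, Pi.zero_apply, Int.cast_zero] at this
      simp only [mul_assoc, ← Finset.mul_sum, this, mul_zero]
    rw [← h4] at h3
    simp only [h5, Finset.sum_const_zero] at h3
    linarith
  refine ⟨n, (LinearMap.toMatrixAlgEquiv b).toMonoidHom.comp r, Γ, ?_, ?_, ?_, fun g => ?_, fun g => ?_⟩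
  · have hLU : ∀ x : L, (x : V) ∈ U := fun x =>
      (Submodule.span_le (p := U.restrictScalars ℤ)).2 hU x.2
    have : LinearIndependent ℝ fun i => (⟨b i, hLU _⟩ : U) := by
      refine LinearIndependent.of_comp U.subtype (Fintype.linearIndependent_iff.2 fun c hc => ?_)
      have h1 : (Γ.map (Int.cast : ℤ → ℝ)).det ≠ 0 := by
        rw [← Int.cast_det]; exact Int.cast_ne_zero.2 hdet
      refine congrFun (Matrix.eq_zero_of_mulVec_eq_zero h1 (funext fun i => ?_))
      have h2 := hb (Pi.single i 1) c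
      rw [show ∑ j, c j • (b j : V) = 0 from hc] at h2
      simpa [Pi.single_apply, Matrix.mulVec, dotProduct] using h2.symm
    simpa using this.fintype_card_le_finrank
  · rintro h
    obtain ⟨a, ha, ha0⟩ := h0
    have h1 := hb (fun i => b.repr ⟨a, Submodule.subset_span ha⟩ i) fun i => b.repr ⟨a, Submodule.subset_span ha⟩ i
    rw [← hx, h] at h1
    have := hpos a ha0
    simp at h1
    linarith
  · ext i j
    exact Int.cast_injective (α := ℝ) (by rw [Matrix.transpose_apply, hΓ, hΓ, hsy])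
  · ext i j
    refine Int.cast_injective (α := ℝ) ?_
    rw [hΓ, ← hinv g, ← hr, ← hr, hx, hx (r g _), hb, Finset.sum_comm]
    simp [Matrix.mul_apply, LinearMap.toMatrixAlgEquiv_apply, Finset.sum_mul]
  · rw [MonoidHom.comp_apply]
    change LinearMap.toMatrixAlgEquiv b (r g) = 1 ↔ _
    rw [map_eq_one_iff _ (LinearMap.toMatrixAlgEquiv b).injective]
    refine ⟨fun h a ha => ?_, fun h => LinearMap.ext fun x => Subtype.ext ?_⟩
    · rw [← hr g ⟨a, Submodule.subset_span ha⟩, h]; rfl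
    · exact LinearMap.eqOn_span (f := (ρ g).toLinearMap.restrictScalars ℤ) (g := LinearMap.id) h x.2

end CL.MS
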