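/-
An integral representation of a simple group of dimension at most `2 m + 1` with an invariant symmetric form gives an
embedding in `GL(2 m, 2)`.
-/
import Cfsg.Agent.Base

set_option autoImplicit false

namespace CL.MS

open Matrix

/-- Reduction modulo 2. -/
abbrev red2 (n : ℕ) : Matrix (Fin n) (Fin n) ℤ →+* Matrix (Fin n) (Fin n) (ZMod 2) :=
  (Int.castRingHom (ZMod 2)).mapMatrix

theorem red2_two_smul {n : ℕ} (N : Matrix (Fin n) (Fin n) ℤ) : red2 n ((2 : ℤ) • N) = 0 := by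
  ext i j
  change ((2 * N i j : ℤ) : ZMod 2) = 0
  exact (ZMod.intCast_zmod_eq_zero_iff_dvd _ 2).2 (dvd_mul_right _ _)

theorem l2_desc {n : ℕ} {X : Matrix (Fin n) (Fin n) ℤ} (hX : X ≠ 0) :
    ∃ (k : ℕ) (N : Matrix (Fin n) (Fin n) ℤ), X = (2 ^ k : ℤ) • N ∧ red2 n N ≠ 0 := by
  by_contra hc
  push Not at hc
  have h1 : ∀ k : ℕ, ∃ N, X = (2 ^ k : ℤ) • N := fun k => by
    induction k with
    | zero => exact ⟨X, by simp⟩
    | succ k ih =>
      obtain ⟨N, hN⟩ := ih
      have h2 : ∀ i j, (2 : ℤ) ∣ N i j := fun i j =>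
        (ZMod.intCast_zmod_eq_zero_iff_dvd _ 2).1 (congrFun (congrFun (hc k N hN) i) j)
      choose N' hN' using h2
      refine ⟨Matrix.of N', ?_⟩
      rw [hN]
      ext i j
      simp only [Matrix.smul_apply, smul_eq_mul, hN', Matrix.of_apply]; ring
  apply hX
  ext i j
  obtain ⟨N, hN⟩ := h1 (X i j).natAbs
  refine Int.eq_zero_of_abs_lt_dvd (m := 2 ^ (X i j).natAbs) ⟨N i j, congrFun (congrFun hN i) j⟩ ?_
  rw [Int.abs_eq_natAbs]
  exact_mod_cast Nat.lt_two_pow_self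

/-- Minkowski's lemma for elements of odd order. -/
theorem l2_mink {n p : ℕ} {A : Matrix (Fin n) (Fin n) ℤ} (hA : A ≠ 1) (hp : Odd p) (h : A ^ p = 1) :
    red2 n A ≠ 1 := by
  intro e
  obtain ⟨k, N, h1, h2⟩ := l2_desc (sub_ne_zero.2 hA)
  rcases k with _ | k
  · rw [pow_zero, one_smul] at h1
    exact h2 (by rw [← h1, map_sub, e, map_one, sub_self])
  have h3 : A = 1 + (2 ^ (k + 1) : ℤ) • N := by rw [← h1]; abel
  have h4 : ∀ j : ℕ, ∃ M : Matrix (Fin n) (Fin n) ℤ, A ^ j = 1 + (2 ^ (k + 1) : ℤ) • ((j : ℤ) • N + (2 : ℤ) • M) := by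
    intro j
    induction j with
    | zero => exact ⟨0, by simp⟩
    | succ j ih =>
      obtain ⟨M, hM⟩ := ih
      refine ⟨M + (2 ^ k : ℤ) • (((j : ℤ) • N + (2 : ℤ) • M) * N), ?_⟩
      rw [pow_succ, hM]
      conv_lhs => rw [h3]
      generalize hY : (j : ℤ) • N + (2 : ℤ) • M = Y
      simp only [add_mul, mul_add, one_mul, mul_one, smul_mul_assoc, mul_smul_comm]
      generalize Y * N = Z
      rw [← hY]
      push_cast
      module
  obtain ⟨M, hM⟩ := h4 p
  rw [h, left_eq_add, smul_eq_zero_iff_right (by positivity)] at hM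
  obtain ⟨q, rfl⟩ := hp
  have h5 : N = (2 : ℤ) • (-(q : ℤ) • N - M) := by
    push_cast at hM
    linear_combination (norm := module) hM
  exact h2 (by rw [h5, red2_two_smul])

theorem l2_pad {B W : Type*} [Group B] [IsSimpleGroup B] [AddCommGroup W] [Module (ZMod 2) W]
    [Module.Finite (ZMod 2) W] {d : ℕ} (hd : Module.finrank (ZMod 2) W ≤ d) (ψ : B →* Module.End (ZMod 2) W) {g0 : B}
    (hg : ψ g0 ≠ 1) : ∃ φ : B →* GL (Fin d) (ZMod 2), Function.Injective φ := by
  let U := W × (Fin (d - Module.finrank (ZMod 2) W) → ZMod 2)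
  have hU : Module.finrank (ZMod 2) U = d := by
    rw [Module.finrank_prod, Module.finrank_fin_fun]; omega
  let χ : B →* Module.End (ZMod 2) U :=
    { toFun g := (ψ g).prodMap LinearMap.id
      map_one' := by rw [map_one]; rfl
      map_mul' g k := by rw [map_mul]; rfl }
  let e := (LinearMap.toMatrixAlgEquiv (Module.finBasisOfFinrankEq (ZMod 2) U hU)).toMulEquiv
  refine ⟨(e.toMonoidHom.comp χ).toHomUnits, (MonoidHom.ker_eq_bot_iff _).1
    ((IsSimpleGroup.eq_bot_or_eq_top_of_normal _ inferInstance).resolve_right fun h => hg ?_)⟩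
  have h1 : e (χ g0) = 1 := congrArg Units.val (h.ge (Subgroup.mem_top g0))
  have h2 : χ g0 = 1 := e.map_eq_one_iff.1 h1
  exact LinearMap.ext fun w => congrArg Prod.fst (LinearMap.congr_fun h2 (w, 0))

theorem l2_sub {B V : Type*} [Group B] [IsSimpleGroup B] [AddCommGroup V] [Module (ZMod 2) V]
    [Module.Finite (ZMod 2) V] {d : ℕ} (hd : Module.finrank (ZMod 2) V = d + 1) (ρ : B →* Module.End (ZMod 2) V)
    {g0 : B} (hg : ρ g0 ≠ 1) (ho : Odd (orderOf g0)) (W : Submodule (ZMod 2) V) (hW : ∀ g, ∀ v ∈ W, ρ g v ∈ W)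
    (h1 : W ≠ ⊤) (h2 : W ≠ ⊥ ∨ ∀ v, ρ g0 v - v ∈ W) : ∃ φ : B →* GL (Fin d) (ZMod 2), Function.Injective φ := by
  let α : B →* Module.End (ZMod 2) W :=
    { toFun g := (ρ g).restrict (hW g)
      map_one' := LinearMap.ext fun v => Subtype.ext (by rw [LinearMap.coe_restrict_apply, map_one]; rfl)
      map_mul' g k := LinearMap.ext fun v => Subtype.ext (by rw [LinearMap.coe_restrict_apply, map_mul]; rfl) }
  let β : B →* Module.End (ZMod 2) (V ⧸ W) :=
    { toFun g := W.mapQ W (ρ g) (hW g)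
      map_one' := Submodule.linearMap_qext _ (LinearMap.ext fun v =>
        show W.mkQ (ρ 1 v) = W.mkQ v by rw [map_one]; rfl)
      map_mul' g k := Submodule.linearMap_qext _ (LinearMap.ext fun v =>
        show W.mkQ (ρ (g * k) v) = W.mkQ (ρ g (ρ k v)) by rw [map_mul]; rfl) }
  by_cases ha : α g0 = 1
  · have h3 : ¬ ∀ v, ρ g0 v - v ∈ W := fun h => hg (by
      have h4 : ρ (g0 ^ 2) = 1 := LinearMap.ext fun v => by
        have h5 : ρ g0 (ρ g0 v - v) = ρ g0 v - v := congrArg Subtype.val (LinearMap.congr_fun ha ⟨_, h v⟩)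
        have h6 : ∀ w : V, w + w = 0 := fun w => by
          rw [← two_smul (ZMod 2), show (2 : ZMod 2) = 0 from rfl, zero_smul]
        rw [map_sub, sub_eq_iff_eq_add, sub_add_eq_add_sub, h6, zero_sub, neg_eq_of_add_eq_zero_right (h6 v)] at h5
        rw [pow_two, map_mul]; exact h5
      obtain ⟨q, hq⟩ := ho
      have := pow_orderOf_eq_one g0
      rw [hq, pow_succ, pow_mul] at this
      rw [← map_one ρ, ← this, map_mul, map_pow, h4, one_pow, one_mul])
    refine l2_pad ?_ β (g0 := g0) fun e => h3 fun v => ?_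
    · have h4 := W.finrank_quotient_add_finrank
      have h5 : Module.finrank (ZMod 2) W ≠ 0 := fun e => h2.resolve_right h3 (Submodule.finrank_eq_zero.1 e)
      omega
    · exact (Submodule.Quotient.eq W).1 (LinearMap.congr_fun e (Submodule.Quotient.mk v))
  · refine l2_pad ?_ α ha
    have := Submodule.finrank_lt h1
    omega

theorem l2_det {n : ℕ} (hn : Odd n) {Γ : Matrix (Fin n) (Fin n) ℤ} (hs : Γᵀ = Γ) (hd : ∀ i, red2 n Γ i i = 0) :
    (red2 n Γ).det = 0 := by
  let A : Matrix (Fin n) (Fin n) ℤ := Matrix.of fun i j => if i < j then Γ i j else if j < i then -Γ i j else 0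
  have h1 : Aᵀ = -A := by
    ext i j
    have : Γ j i = Γ i j := congrFun (congrFun hs i) j
    simp only [A, transpose_apply, Matrix.neg_apply, Matrix.of_apply, this]
    rcases lt_trichotomy i j with h | h | h
    · simp [h, h.not_gt]
    · simp [h]
    · simp [h, h.not_gt]
  have h2 : A.det = 0 := by
    have := det_transpose A
    rw [h1, det_neg, Fintype.card_fin, hn.neg_one_pow] at this
    omega
  have h3 : red2 n A = red2 n Γ := by
    ext i j
    change (((if i < j then Γ i j else if j < i then -Γ i j else 0 : ℤ) : ℤ) : ZMod 2) = (Γ i j : ZMod 2)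
    rcases lt_trichotomy i j with h | h | h
    · rw [if_pos h]
    · subst h; rw [if_neg (lt_irrefl _), if_neg (lt_irrefl _)]; exact (hd i).symm
    · rw [if_neg h.not_gt, if_pos h, Int.cast_neg, ZMod.neg_eq_self_mod_two]
  rw [← h3, ← RingHom.map_det, h2, map_zero]

theorem l2_quad {n : ℕ} {b : Matrix (Fin n) (Fin n) (ZMod 2)} (hs : bᵀ = b) (x y : Fin n → ZMod 2) :
    (x + y) ⬝ᵥ b *ᵥ (x + y) = x ⬝ᵥ b *ᵥ x + y ⬝ᵥ b *ᵥ y := by
  have h1 : y ⬝ᵥ b *ᵥ x = x ⬝ᵥ b *ᵥ y := by rw [dotProduct_mulVec, ← mulVec_transpose, hs, dotProduct_comm]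
  rw [mulVec_add, add_dotProduct, dotProduct_add, dotProduct_add, h1]
  linear_combination CharTwo.add_self_eq_zero (x ⬝ᵥ b *ᵥ y)

theorem exists_GL2 {B : Type*} [Group B] [IsSimpleGroup B] {n m : ℕ} (hn : n ≤ 2 * m + 1)
    (σ : B →* Matrix (Fin n) (Fin n) ℤ) (Γ : Matrix (Fin n) (Fin n) ℤ) (hΓ : Γ ≠ 0) (hs : Γ.transpose = Γ)
    (hi : ∀ g, (σ g).transpose * Γ * σ g = Γ) (h1 : ∃ g, σ g ≠ 1) {g0 : B} (hg : g0 ≠ 1) (ho : Odd (orderOf g0)) :
    ∃ φ : B →* GL (Fin (2 * m)) (ZMod 2), Function.Injective φ := by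
  have h2 : σ g0 ≠ 1 := fun e => by
    obtain ⟨g, h1⟩ := h1
    rcases IsSimpleGroup.eq_bot_or_eq_top_of_normal σ.toHomUnits.ker inferInstance with h | h
    · exact hg (Subgroup.mem_bot.1 (h.le (Units.ext e)))
    · exact h1 (congrArg Units.val (h.ge (Subgroup.mem_top g)))
  have h3 := l2_mink h2 ho (by rw [← map_pow, pow_orderOf_eq_one, map_one])
  let ρ : B →* Module.End (ZMod 2) (Fin n → ZMod 2) :=
    (Matrix.toLinAlgEquiv' (R := ZMod 2) (n := Fin n)).toMulEquiv.toMonoidHom.comp ((red2 n).toMonoidHom.comp σ)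
  have hρ : ∀ g v, ρ g v = red2 n (σ g) *ᵥ v := fun g v => Matrix.toLinAlgEquiv'_apply _ _
  have h4 : ρ g0 ≠ 1 := fun e => h3 ((Matrix.toLinAlgEquiv' (R := ZMod 2) (n := Fin n)).toMulEquiv.map_eq_one_iff.1 e)
  have hr : Module.finrank (ZMod 2) (Fin n → ZMod 2) = n := Module.finrank_fin_fun _
  rcases hn.lt_or_eq with hn | hn
  · exact l2_pad (by omega) ρ h4
  obtain ⟨k, N, e, hN⟩ := l2_desc hΓ
  have c : ∀ {X Y : Matrix (Fin n) (Fin n) ℤ}, (2 ^ k : ℤ) • X = (2 ^ k : ℤ) • Y → X = Y := fun h =>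
    smul_right_injective _ (by positivity) h
  have s1 : Nᵀ = N := c (by rw [← transpose_smul, ← e, hs])
  have s2 : (red2 n N)ᵀ = red2 n N := by
    conv_rhs => rw [← s1]
    rfl
  have i1 : ∀ g, (red2 n (σ g))ᵀ * red2 n N * red2 n (σ g) = red2 n N := fun g => by
    have : (σ g)ᵀ * N * σ g = N := c (by rw [← smul_mul_assoc, ← mul_smul_comm, ← e, hi])
    conv_rhs => rw [← this, map_mul, map_mul]
    rfl
  generalize hb : red2 n N = b at *
  by_cases hd : ∀ i, b i i = 0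
  · refine l2_sub (hr.trans hn) ρ h4 ho (LinearMap.ker b.mulVecLin) (fun g v hv => ?_) (fun h => hN ?_) (.inl fun h => ?_)
    · have h5 : b * red2 n (σ g) = (red2 n (σ g⁻¹))ᵀ * b := by
        conv_lhs => rw [← i1 g⁻¹, Matrix.mul_assoc, ← map_mul, ← map_mul, inv_mul_cancel, map_one, map_one,
          Matrix.mul_one]
      rw [LinearMap.mem_ker, mulVecLin_apply] at hv ⊢
      rw [hρ, mulVec_mulVec, h5, ← mulVec_mulVec, hv, mulVec_zero]
    · ext i j
      have := congrFun (h.ge (Submodule.mem_top (x := Pi.single j 1)) :) i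
      simpa using this
    · obtain ⟨v, v1, v2⟩ := Matrix.exists_mulVec_eq_zero_iff.2 (l2_det (hn ▸ odd_two_mul_add_one m) s1 (hb ▸ hd))
      exact v1 ((Submodule.mem_bot _).1 (h.le (show v ∈ LinearMap.ker b.mulVecLin from hb ▸ v2)))
  · push Not at hd
    obtain ⟨i, hd⟩ := hd
    let f : (Fin n → ZMod 2) →ₗ[ZMod 2] ZMod 2 :=
      { toFun x := x ⬝ᵥ b *ᵥ x
        map_add' := l2_quad s2
        map_smul' c x := by
          rw [mulVec_smul, smul_dotProduct, dotProduct_smul, smul_smul, RingHom.id_apply,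
            show c * c = c by revert c; decide] }
    have hf : ∀ g x, f (ρ g x) = f x := fun g x => by
      change ρ g x ⬝ᵥ b *ᵥ ρ g x = x ⬝ᵥ b *ᵥ x
      conv_rhs => rw [← i1 g, Matrix.mul_assoc, ← mulVec_mulVec, dotProduct_mulVec, vecMul_transpose, ← mulVec_mulVec]
      rw [hρ]
    refine l2_sub (hr.trans hn) ρ h4 ho (LinearMap.ker f) (fun g v hv => (hf g v).trans hv) (fun h => hd ?_)
      (.inr fun v => by rw [LinearMap.mem_ker, map_sub, hf, sub_self])
    have : Pi.single i 1 ⬝ᵥ b *ᵥ Pi.single i 1 = 0 := h.ge (Submodule.mem_top (x := Pi.single i 1))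
    simpa using this

end CL.MS
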