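/-
The Baby Monster in `GL(4370, 2)`.
-/
import Cfsg.Agent.Spor.MjFin
import Cfsg.Agent.Spor.MsLat1
import Cfsg.Agent.Spor.MsLat2

set_option autoImplicit false
set_option linter.unusedSectionVars false

namespace CL.MS

open Cfsg Cfsg.Spor CL.Spor.Leech CL.Spor.Mon CL.Gr CL.Even CL.Grp Subgroup CL.Mj

theorem rank_neg {V : Type*} [AddCommGroup V] [Module ℝ V] [Module.Finite ℝ V] {σ T : V →ₗ[ℝ] V}
    (σσ : ∀ v, σ (σ v) = (2⁻¹ : ℝ) • (v + T v)) (σT : ∀ v, σ (T v) = σ v) (t1 : Module.finrank ℝ V = 196884)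
    (t2 : LinearMap.trace ℝ V T = 4372) (t3 : LinearMap.trace ℝ V σ = 91886) :
    Module.finrank ℝ (LinearMap.ker (σ + LinearMap.id)) = 4371 := by
  have h1 : LinearMap.IsProj (LinearMap.ker (σ + LinearMap.id))
      ((4⁻¹ : ℝ) • (LinearMap.id + T) - (2⁻¹ : ℝ) • σ) := by
    refine ⟨fun v => ?_, fun v hv => ?_⟩
    · simp only [LinearMap.mem_ker, LinearMap.sub_apply, LinearMap.smul_apply, LinearMap.add_apply, LinearMap.id_apply,
        map_sub, map_smul, map_add, σσ, σT]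
      module
    · have h2 : σ v = -v := eq_neg_of_add_eq_zero_left hv
      have h3 := σσ v
      rw [h2, map_neg, h2, neg_neg] at h3
      simp only [LinearMap.sub_apply, LinearMap.smul_apply, LinearMap.add_apply, LinearMap.id_apply, h2]
      linear_combination (norm := module) (-2⁻¹ : ℝ) • h3
  have h2 := h1.trace
  simp only [map_sub, map_smul, map_add, t2, t3, LinearMap.trace_id, t1, smul_eq_mul] at h2
  exact Nat.cast_injective (R := ℝ) (by rw [← h2]; norm_num)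

theorem isB_GL {B : Type*} [Group B] (hB : IsB B) {n : ℕ} (φ : B →* GL (Fin n) (ZMod 2)) (hφ : Function.Injective φ) :
    ∃ (F : Type) (_ : Field F) (_ : Fintype F), CharP F 2 ∧ ∃ H : Subgroup (GL (Fin n) F), IsB H :=
  have := hB.1
  ⟨ZMod 2, inferInstance, inferInstance, inferInstance, φ.range, (MonoidHom.ofInjective hφ).symm.isSimpleGroup,
    (Nat.card_congr (MonoidHom.ofInjective hφ).toEquiv).symm.trans hB.2⟩

section
variable [Theta] {H : Type} [Group H] [Finite H] {δ : Chat ℝ →* H} {τ : H} {ρ : H →* (VV ≃ₗ[ℝ] VV)}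
  {π : centralizer ({zH δ} : Set H) →* Co1}

theorem exists_GL4370 (h : CS δ τ ρ π) : ∃ φ : BQ (sH δ) →* GL (Fin 4370) (ZMod 2), Function.Injective φ := by
  have := h.simpleB
  rw [show 4370 = 2 * 2185 from rfl]
  let f : H → VV := fun t => axH ρ t - axH ρ (t * sH δ)
  have hf : ∀ {g t}, g * sH δ = sH δ * g → t ∈ Df (sH δ) → ρ g (f t) = f (g * t * g⁻¹) := fun {g t} hg ht => by
    simp only [f]
    rw [map_sub, ← h.axc g (mem_Df.1 ht).1, ← h.axc g (mem_Df.1 ht).2.2, ← conj_mul, hg, mul_inv_cancel_right]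
  have h0 : f (s1H δ) ≠ 0 := fun e =>
    h.gd.s_ne_one (left_eq_mul.1 (h.ax.ax_inj h.gd.T_s1 h.gd.T_s1s (sub_eq_zero.1 e)))
  obtain ⟨n, σ, Γ, k1, k2, k3, k4, k5⟩ := exists_int_rep (ρ.comp (centralizer ({sH δ} : Set H)).subtype) bil bil_symm
    bil_pos (fun g => h.rbil g) ((Df (sH δ)).finite_toSet.image f)
    (by rintro g _ ⟨t, ht, rfl⟩
        exact ⟨_, Df_cent (mem_centralizer_singleton_iff.1 g.2) ht, (hf (mem_centralizer_singleton_iff.1 g.2) ht).symm⟩)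
    (by
      have k : ∀ {t t'}, IsConj (sH δ) t → IsConj (sH δ) t' → ∃ k : ℤ, 256 * bil (axH ρ t) (axH ρ t') = k :=
        fun ht ht' => by
          have := lam_mem amb (h.isAx ht) (h.isAx ht')
          simp only [Set.mem_insert_iff, Set.mem_singleton_iff] at this
          rcases this with e | e | e | e | e | e | e | e <;> rw [e]
          exacts [⟨256, by norm_num⟩, ⟨32, by norm_num⟩, ⟨0, by norm_num⟩, ⟨13, by norm_num⟩, ⟨4, by norm_num⟩,
            ⟨8, by norm_num⟩, ⟨6, by norm_num⟩, ⟨5, by norm_num⟩]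
      rintro _ ⟨t, ht, rfl⟩ _ ⟨t', ht', rfl⟩
      obtain ⟨a, ha⟩ := k (mem_Df.1 ht).1 (mem_Df.1 ht').1
      obtain ⟨b, hb⟩ := k (mem_Df.1 ht).1 (mem_Df.1 ht').2.2
      obtain ⟨c, hc⟩ := k (mem_Df.1 ht).2.2 (mem_Df.1 ht').1
      obtain ⟨d, hd⟩ := k (mem_Df.1 ht).2.2 (mem_Df.1 ht').2.2
      refine ⟨a - b - c + d, ?_⟩
      simp only [f, map_sub, LinearMap.sub_apply]
      push_cast
      linarith)
    (LinearMap.ker (Mj.sg UM 0 + LinearMap.id))
    (by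
      rintro _ ⟨t, ht, rfl⟩
      obtain ⟨g, hg, rfl⟩ := h.ma.Df_trans ht
      rw [← hf hg h.gd.s1_mem, LinearMap.mem_ker, LinearMap.add_apply, LinearMap.id_apply, ← h.r_sg hg, ← map_add]
      simp only [f]
      rw [map_sub, h.sg_a1, h.sg_a2, sub_add_sub_cancel, sub_self, map_zero])
    ⟨_, ⟨_, h.gd.s1_mem, rfl⟩, h0⟩
  rw [rank_neg (T := (tq UM 0).toLinearMap) (h.sg UM 0).2.1 (h.sg UM 0).2.2.1 h.tv.1 (h.tv.2.1 UM 0)
    (h.tv.2.2.1 UM 0)] at k1
  have k6 : ∀ x ∈ (zpowers (sH δ)).subgroupOf (centralizer ({sH δ} : Set H)), σ x = 1 := fun x hx => by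
    refine (k5 x).2 ?_
    rintro _ ⟨t, ht, rfl⟩
    refine (hf (mem_centralizer_singleton_iff.1 x.2) ht).trans (congrArg f ?_)
    obtain ⟨k, hk⟩ := mem_zpowers_iff.1 (mem_subgroupOf.1 hx)
    rw [← hk, ((show Commute t (sH δ) from (mem_Df.1 ht).2.1).zpow_right k).symm.eq, mul_inv_cancel_right]
  obtain ⟨g0, hg⟩ := exists_prime_orderOf_dvd_card' (G := BQ (sH δ)) 3 (by rw [h.isB.2]; norm_num)
  obtain ⟨g, e1, e2⟩ := h.ma.Df_trans (Df_mul h.gd.ss h.gd.s1_mem)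
  refine exists_GL2 k1 (QuotientGroup.lift _ σ k6) Γ k2 k3 (fun g => ?_)
    ⟨QuotientGroup.mk ⟨g, mem_centralizer_singleton_iff.2 e1⟩, fun e => h0 ?_⟩ (g0 := g0)
    (fun e => by simp [e] at hg) (by rw [hg]; decide)
  · obtain ⟨g, rfl⟩ := QuotientGroup.mk_surjective g
    exact k4 g
  · have k7 := (hf e1 h.gd.s1_mem).symm.trans ((k5 _).1 e _ ⟨_, h.gd.s1_mem, rfl⟩)
    simp only [f] at k7 ⊢
    rw [e2, mul_assoc, h.gd.ss, mul_one] at k7
    linear_combination (norm := module) (-2⁻¹ : ℝ) • k7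

end

theorem s0465 : ∃ (F : Type) (_ : Field F) (_ : Fintype F), CharP F 2 ∧ ∃ H : Subgroup (GL (Fin 4370) F), IsB H := by
  obtain ⟨_⟩ := theta_exists
  obtain ⟨H, _, _, δ, τ, ρ, π, h⟩ := exists_monster
  obtain ⟨φ, hφ⟩ := exists_GL4370 h
  exact isB_GL h.isB φ hφ

end CL.MS
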