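/- stabiliser chain t (generated by tools/mx) -/
import Cfsg.Agent.Spor.CodeChtD
import Cfsg.Agent.Spor.CodeChtC0

set_option autoImplicit false
set_option maxRecDepth 100000

namespace CL.Mx.Code

open CL.Mx

variable {G : Type*} [Group G] {ρ : Act2 G 12}

theorem tout0 (h : ρ.model.AllIn ⊤ tS0) : ρ.model.AllIn (ρ.model.gen tS0) (tB0 ++ tS1) :=
  Model.slp_mem h.gen tslp0

theorem tok1 (h : ρ.model.AllIn ⊤ tS0) : ρ.model.AllIn ⊤ tS1 :=
  ((tout0 h).right.mono le_top)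

theorem tout1 (h : ρ.model.AllIn ⊤ tS1) : ρ.model.AllIn (ρ.model.gen tS1) (tB1 ++ tS2) :=
  Model.slp_mem h.gen tslp1

theorem tok2 (h : ρ.model.AllIn ⊤ tS0) : ρ.model.AllIn ⊤ tS2 :=
  ((tout1 ((tout0 h).right.mono le_top)).right.mono le_top)

theorem tout2 (h : ρ.model.AllIn ⊤ tS2) : ρ.model.AllIn (ρ.model.gen tS2) (tB2 ++ tS3) :=
  Model.slp_mem h.gen tslp2

theorem tok3 (h : ρ.model.AllIn ⊤ tS0) : ρ.model.AllIn ⊤ tS3 :=
  ((tout2 ((tout1 ((tout0 h).right.mono le_top)).right.mono le_top)).right.mono le_top)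

theorem tout3 (h : ρ.model.AllIn ⊤ tS3) : ρ.model.AllIn (ρ.model.gen tS3) (tB3 ++ tS4) :=
  Model.slp_mem h.gen tslp3

theorem tok4 (h : ρ.model.AllIn ⊤ tS0) : ρ.model.AllIn ⊤ tS4 :=
  ((tout3 ((tout2 ((tout1 ((tout0 h).right.mono le_top)).right.mono le_top)).right.mono le_top)).right.mono le_top)

theorem tout4 (h : ρ.model.AllIn ⊤ tS4) : ρ.model.AllIn (ρ.model.gen tS4) (tB4 ++ tS5) :=
  Model.slp_mem h.gen tslp4

theorem tok5 (h : ρ.model.AllIn ⊤ tS0) : ρ.model.AllIn ⊤ tS5 :=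
  ((tout4 ((tout3 ((tout2 ((tout1 ((tout0 h).right.mono le_top)).right.mono le_top)).right.mono le_top)).right.mono le_top)).right.mono le_top)

theorem tok0 (h : ρ.model.AllIn ⊤ tS0) : ρ.model.AllIn ⊤ tS0 := h

theorem tinA4 (_h : ρ.model.AllIn ⊤ tS0) : ρ.model.AllIn (ρ.model.gen tS5) tA4 :=
  Model.allIn_nil _

theorem tlevel4 (hF : ρ.model.Faith 12 tw) (h : ρ.model.AllIn ⊤ tS0) :
    ρ.model.Level (ρ.model.gen tS4) (ρ.model.gen tS5) (ρ.model.tr tB4 tF4) 2 (ρ.model.decW tv4 0) := by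
  have hS := tok4 h
  have hB := (tout4 hS).left
  have hA := tinA4 h
  refine Model.level_of_cert (tout4 hS).right hB tpl4 ?_ tfix4 tkeys4
  refine List.forall_mem_cons.2 ⟨?_, List.forall_mem_cons.2 ⟨?_, List.forall_mem_nil _⟩⟩
  · exact Model.Schr.step hF hB hA (hS _ (List.Mem.head _)).1 tpl4 (Model.schr_zero _ _ _ _ _) tsch4_0_0
  · exact Model.Schr.step hF hB hA (hS _ (List.Mem.tail _ (List.Mem.head _))).1 tpl4 (Model.schr_zero _ _ _ _ _) tsch4_1_0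

theorem tinA3 (h : ρ.model.AllIn ⊤ tS0) : ρ.model.AllIn (ρ.model.gen tS4) tA3 :=
  ((tinA4 h).mono (tout4 (tok4 h)).right.gen_le).append (tout4 (tok4 h)).left

theorem tlevel3 (hF : ρ.model.Faith 12 tw) (h : ρ.model.AllIn ⊤ tS0) :
    ρ.model.Level (ρ.model.gen tS3) (ρ.model.gen tS4) (ρ.model.tr tB3 tF3) 3 (ρ.model.decW tv3 0) := by
  have hS := tok3 h
  have hB := (tout3 hS).left
  have hA := tinA3 h
  refine Model.level_of_cert (tout3 hS).right hB tpl3 ?_ tfix3 tkeys3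
  refine List.forall_mem_cons.2 ⟨?_, List.forall_mem_cons.2 ⟨?_, List.forall_mem_nil _⟩⟩
  · exact Model.Schr.step hF hB hA (hS _ (List.Mem.head _)).1 tpl3 (Model.schr_zero _ _ _ _ _) tsch3_0_0
  · exact Model.Schr.step hF hB hA (hS _ (List.Mem.tail _ (List.Mem.head _))).1 tpl3 (Model.schr_zero _ _ _ _ _) tsch3_1_0

theorem tinA2 (h : ρ.model.AllIn ⊤ tS0) : ρ.model.AllIn (ρ.model.gen tS3) tA2 :=
  ((tinA3 h).mono (tout3 (tok3 h)).right.gen_le).append (tout3 (tok3 h)).left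

theorem tlevel2 (hF : ρ.model.Faith 12 tw) (h : ρ.model.AllIn ⊤ tS0) :
    ρ.model.Level (ρ.model.gen tS2) (ρ.model.gen tS3) (ρ.model.tr tB2 tF2) 4 (ρ.model.decW tv2 0) := by
  have hS := tok2 h
  have hB := (tout2 hS).left
  have hA := tinA2 h
  refine Model.level_of_cert (tout2 hS).right hB tpl2 ?_ tfix2 tkeys2
  refine List.forall_mem_cons.2 ⟨?_, List.forall_mem_cons.2 ⟨?_, List.forall_mem_nil _⟩⟩
  · exact Model.Schr.step hF hB hA (hS _ (List.Mem.head _)).1 tpl2 (Model.schr_zero _ _ _ _ _) tsch2_0_0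
  · exact Model.Schr.step hF hB hA (hS _ (List.Mem.tail _ (List.Mem.head _))).1 tpl2 (Model.schr_zero _ _ _ _ _) tsch2_1_0

theorem tinA1 (h : ρ.model.AllIn ⊤ tS0) : ρ.model.AllIn (ρ.model.gen tS2) tA1 :=
  ((tinA2 h).mono (tout2 (tok2 h)).right.gen_le).append (tout2 (tok2 h)).left

theorem tlevel1 (hF : ρ.model.Faith 12 tw) (h : ρ.model.AllIn ⊤ tS0) :
    ρ.model.Level (ρ.model.gen tS1) (ρ.model.gen tS2) (ρ.model.tr tB1 tF1) 5 (ρ.model.decW tv1 0) := by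
  have hS := tok1 h
  have hB := (tout1 hS).left
  have hA := tinA1 h
  refine Model.level_of_cert (tout1 hS).right hB tpl1 ?_ tfix1 tkeys1
  refine List.forall_mem_cons.2 ⟨?_, List.forall_mem_cons.2 ⟨?_, List.forall_mem_nil _⟩⟩
  · exact Model.Schr.step hF hB hA (hS _ (List.Mem.head _)).1 tpl1 (Model.schr_zero _ _ _ _ _) tsch1_0_0
  · exact Model.Schr.step hF hB hA (hS _ (List.Mem.tail _ (List.Mem.head _))).1 tpl1 (Model.schr_zero _ _ _ _ _) tsch1_1_0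

theorem tinA0 (h : ρ.model.AllIn ⊤ tS0) : ρ.model.AllIn (ρ.model.gen tS1) tA0 :=
  ((tinA1 h).mono (tout1 (tok1 h)).right.gen_le).append (tout1 (tok1 h)).left

theorem tlevel0 (hF : ρ.model.Faith 12 tw) (h : ρ.model.AllIn ⊤ tS0) :
    ρ.model.Level (ρ.model.gen tS0) (ρ.model.gen tS1) (ρ.model.tr tB0 tF0) 792 (ρ.model.decW tv0 0) := by
  have hS := tok0 h
  have hB := (tout0 hS).left
  have hA := tinA0 h
  refine Model.level_of_cert (tout0 hS).right hB tpl0 ?_ tfix0 tkeys0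
  refine List.forall_mem_cons.2 ⟨?_, List.forall_mem_cons.2 ⟨?_, List.forall_mem_nil _⟩⟩
  · exact Model.Schr.step hF hB hA (hS _ (List.Mem.head _)).1 tpl0 (Model.schr_zero _ _ _ _ _) tsch0_0_0
  · exact Model.Schr.step hF hB hA (hS _ (List.Mem.tail _ (List.Mem.head _))).1 tpl0 (Model.schr_zero _ _ _ _ _) tsch0_1_0

theorem tcard4 (hF : ρ.model.Faith 12 tw) (h : ρ.model.AllIn ⊤ tS0) :
    Nat.card (ρ.model.gen tS4) = 2 := by
  rw [(tlevel4 hF h).card, show ρ.model.gen tS5 = ⊥ from Model.gen_nil, Subgroup.card_bot]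

theorem tcard3 (hF : ρ.model.Faith 12 tw) (h : ρ.model.AllIn ⊤ tS0) :
    Nat.card (ρ.model.gen tS3) = 6 := by
  rw [(tlevel3 hF h).card, tcard4 hF h]

theorem tcard2 (hF : ρ.model.Faith 12 tw) (h : ρ.model.AllIn ⊤ tS0) :
    Nat.card (ρ.model.gen tS2) = 24 := by
  rw [(tlevel2 hF h).card, tcard3 hF h]

theorem tcard1 (hF : ρ.model.Faith 12 tw) (h : ρ.model.AllIn ⊤ tS0) :
    Nat.card (ρ.model.gen tS1) = 120 := by
  rw [(tlevel1 hF h).card, tcard2 hF h]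

theorem tcard0 (hF : ρ.model.Faith 12 tw) (h : ρ.model.AllIn ⊤ tS0) :
    Nat.card (ρ.model.gen tS0) = 95040 := by
  rw [(tlevel0 hF h).card, tcard1 hF h]


end CL.Mx.Code
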