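/-
SIMD engine, part 8: permutation groups as groups of permutation matrices over `ZMod 2`; monomial automorphisms
of codes; Steiner systems by counting.
-/
import Cfsg.Agent.Spor.MxMore
import Cfsg.Prelude.Def_SporadicCombinatorics

set_option autoImplicit false

namespace CL.Mx

open Matrix Cfsg

section perm

variable {G : Type*} [Group G] {α : Type*} [MulAction G α] [FaithfulSMul G α] {n : ℕ}

variable (G) in
/-- a faithful permutation action, seen on the functions to `ZMod 2` -/
def permAct2 (e : α ≃ Fin n) : Act2 G n where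
  act g v i := v (e (g⁻¹ • e.symm i))
  act_one v := by simp
  act_mul g h v := by simp [mul_smul]
  faithful g h := by
    rw [← inv_eq_one]
    apply eq_of_smul_eq_smul (α := α)
    intro a
    have := congrFun (h (Pi.single (e a) 1)) (e a)
    rw [Pi.single_eq_same, Equiv.symm_apply_apply, Pi.single_apply] at this
    by_contra h1
    rw [if_neg (fun h2 => h1 (by rw [one_smul]; exact e.injective h2))] at this
    exact zero_ne_one this

theorem permAct2_faith (e : α ≃ Fin n) : (permAct2 G e).model.Faith n (one2 n) :=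
  Act2.faith_one _ fun _ _ _ => rfl

theorem permAct2_rep (e : α ≃ Fin n) {g : G} {b : ℕ}
    (h : ∀ i j : α, b.testBit (e i * n + e j) = true ↔ i = g • j) : (permAct2 G e).Rep b g := by
  intro v
  funext i
  obtain ⟨i, rfl⟩ := e.surjective i
  show v (e (g⁻¹ • e.symm (e i))) = ∑ j, dec2 n b (e i) j * v j
  rw [Finset.sum_eq_single (e (g⁻¹ • i)), e.symm_apply_apply]
  · show _ = b2 _ * _
    rw [(h i _).mpr (by simp)]; simp
  · intro j _ hj
    obtain ⟨j, rfl⟩ := e.surjective j
    show b2 _ * _ = 0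
    have : b.testBit (e i * n + e j) = false := by
      rw [Bool.eq_false_iff]
      intro h1
      exact hj (by rw [(h i j).mp h1]; simp)
    rw [this]; simp
  · simp

theorem permAct2_single [DecidableEq α] (e : α ≃ Fin n) (g : G) (a : α) :
    (permAct2 G e).act g (Pi.single (e a) 1) = Pi.single (e (g • a)) 1 := by
  funext i
  obtain ⟨i, rfl⟩ := e.surjective i
  show (Pi.single (e a) 1 : Fin n → ZMod 2) (e (g⁻¹ • e.symm (e i))) = _
  simp only [Pi.single_apply, Equiv.symm_apply_apply, e.apply_eq_iff_eq, inv_smul_eq_iff]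

end perm

section monomial

variable {α F : Type*} [Field F]

theorem monomialMap_comp (σ τ : Equiv.Perm α) (c d : α → Fˣ) (x : α → F) :
    monomialMap σ c (monomialMap τ d x) = monomialMap (σ * τ) (fun i => c i * d (σ.symm i)) x := by
  funext i
  simp [monomialMap, mul_assoc, Equiv.Perm.mul_def]

theorem monomialMap_one (x : α → F) : monomialMap 1 1 x = x := by
  funext i; exact one_mul _

theorem monomialMap_surj [Finite α] [Finite F] {C : Set (α → F)} {σ : Equiv.Perm α} {c : α → Fˣ}
    (h : ∀ x ∈ C, monomialMap σ c x ∈ C) {x : α → F} (hx : x ∈ C) : ∃ y ∈ C, monomialMap σ c y = x := by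
  have hi : Function.Injective (monomialMap σ c) := by
    intro x y e
    funext i
    simpa [monomialMap] using congrFun e (σ i)
  exact ((Set.toFinite C).injOn_iff_bijOn_of_mapsTo h |>.mp hi.injOn).surjOn hx

/-- the permutation parts of the monomial automorphisms of a code -/
def permPart [Finite α] [Finite F] (C : Set (α → F)) : Subgroup (Equiv.Perm α) where
  carrier := {σ | ∃ c : α → Fˣ, ∀ x ∈ C, monomialMap σ c x ∈ C}
  one_mem' := ⟨1, fun x hx => by rwa [monomialMap_one]⟩
  mul_mem' := by
    rintro σ τ ⟨c, hc⟩ ⟨d, hd⟩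
    exact ⟨_, fun x hx => monomialMap_comp σ τ c d x ▸ hc _ (hd x hx)⟩
  inv_mem' := by
    rintro σ ⟨c, hc⟩
    refine ⟨fun i => (c (σ i))⁻¹, fun x hx => ?_⟩
    obtain ⟨y, hy, rfl⟩ := monomialMap_surj hc hx
    convert hy using 1
    funext i
    simp [monomialMap, Equiv.Perm.inv_def]

theorem card_monomial [Finite α] [Finite F] (C : Set (α → F)) :
    Nat.card {f : Equiv.Perm α × (α → Fˣ) // ∀ x ∈ C, monomialMap f.1 f.2 x ∈ C} =
      Nat.card (permPart C) * Nat.card {c : α → Fˣ // ∀ x ∈ C, monomialMap 1 c x ∈ C} := by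
  choose c hc using fun σ : permPart C => σ.2
  rw [← Nat.card_prod]
  symm
  refine Nat.card_eq_of_bijective (fun p => ⟨(p.1.1, p.2.1 * c p.1), fun x hx => ?_⟩) ⟨?_, ?_⟩
  · have := p.2.2 _ (hc p.1 x hx)
    rwa [monomialMap_comp, one_mul] at this
  · rintro ⟨σ, d⟩ ⟨τ, d'⟩ e
    obtain ⟨e1, e2⟩ := Prod.ext_iff.mp (congrArg Subtype.val e)
    obtain rfl : σ = τ := Subtype.ext e1
    rw [show d = d' from Subtype.ext (mul_right_cancel e2)]
  · rintro ⟨⟨σ, d⟩, h⟩
    refine ⟨(⟨σ, d, h⟩, ⟨d * (c ⟨σ, d, h⟩)⁻¹, fun x hx => ?_⟩), Subtype.ext (by simp)⟩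
    obtain ⟨y, hy, rfl⟩ := monomialMap_surj (hc ⟨σ, d, h⟩) hx
    convert h y hy using 1
    funext i
    simp [monomialMap, mul_assoc, show ∀ i, (Equiv.symm (1 : Equiv.Perm α)) i = i from fun _ => rfl]

/-- the diagonal automorphisms of a linear code, if they are scalar -/
theorem card_diag [Nonempty α] (C : Submodule F (α → F))
    (h : ∀ c : α → Fˣ, (∀ x ∈ C, monomialMap 1 c x ∈ C) → ∀ i j, c i = c j) :
    Nat.card {c : α → Fˣ // ∀ x ∈ C, monomialMap 1 c x ∈ C} = Nat.card Fˣ := by
  obtain ⟨a⟩ := ‹Nonempty α›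
  exact Nat.card_congr ⟨fun c => c.1 a, fun u => ⟨fun _ => u, fun x hx => C.smul_mem (u : F) hx⟩,
    fun c => Subtype.ext (funext fun i => h c.1 c.2 a i), fun _ => rfl⟩

end monomial

/-- blocks of size `k` meeting in fewer than `t` points form a Steiner system if there are enough of them -/
theorem steiner_of_count {α : Type*} [Fintype α] [DecidableEq α] {t k : ℕ} {B : Set (Finset α)}
    (hk : ∀ b ∈ B, b.card = k) (ht : ∀ b ∈ B, ∀ c ∈ B, t ≤ (b ∩ c).card → b = c)
    (hc : B.ncard * k.choose t = (Fintype.card α).choose t) : IsSteinerSystem t k B := by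
  classical
  refine ⟨hk, fun s hs => ?_⟩
  have hu : ∀ b ∈ B, ∀ c ∈ B, ∀ s : Finset α, s.card = t → s ⊆ b → s ⊆ c → b = c := fun b hb c hc s hs h1 h2 =>
    ht b hb c hc (hs ▸ Finset.card_le_card (Finset.subset_inter h1 h2))
  have h1 : (B.toFinset.biUnion (Finset.powersetCard t)) = Finset.powersetCard t Finset.univ := by
    apply Finset.eq_of_subset_of_card_le
    · intro u hu
      obtain ⟨b, _, h⟩ := Finset.mem_biUnion.mp hu
      exact Finset.mem_powersetCard.mpr ⟨Finset.subset_univ _, (Finset.mem_powersetCard.mp h).2⟩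
    · rw [Finset.card_biUnion, Finset.card_powersetCard, Finset.card_univ, ← hc,
        Finset.sum_congr rfl (g := fun _ => k.choose t), Finset.sum_const, smul_eq_mul, Set.ncard_eq_toFinset_card']
      · intro b hb
        rw [Finset.card_powersetCard, hk b (Set.mem_toFinset.mp hb)]
      · intro b hb c hc hbc
        rw [Function.onFun, Finset.disjoint_left]
        intro u h1 h2
        rw [Finset.mem_powersetCard] at h1 h2
        exact hbc (hu b (by simpa using hb) c (by simpa using hc) u h1.2 h1.1 h2.1)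
  have h2 : s ∈ B.toFinset.biUnion (Finset.powersetCard t) := by
    rw [h1]; exact Finset.mem_powersetCard.mpr ⟨Finset.subset_univ _, hs⟩
  obtain ⟨b, hb, h⟩ := Finset.mem_biUnion.mp h2
  have hb' := Set.mem_toFinset.mp hb
  have h3 := (Finset.mem_powersetCard.mp h).1
  exact ⟨b, ⟨hb', h3⟩, fun c hc => hu c hc.1 b hb' s hs hc.2 h3⟩

end CL.Mx
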