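/-
The ternary Golay code of length 12: systematic encoding, weights, hexads, monomial automorphisms.
-/
import Cfsg.Agent.Spor.MxPerm
import Cfsg.Agent.Spor.CodeCht

set_option autoImplicit false
set_option maxRecDepth 100000

namespace CL.Mx.Code

open Cfsg CL.Mx

/-- numbering of the positions -/
def e12 : ArrayPt ≃ Fin 12 where
  toFun p := ⟨3 * p.1.val + p.2.val, by revert p; decide⟩
  invFun i := (⟨(i : ℕ) / 3, by omega⟩, ((i : ℕ) % 3 : ℕ))
  left_inv := by decide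
  right_inv := by decide

/-- systematic generator matrix -/
def tg (k : Fin 6) (p : ArrayPt) : ZMod 3 :=
  ![![1, 0, 0, 0, 0, 1, 0, 0, 1, 1, 1, 2], ![0, 1, 0, 0, 0, 1, 0, 2, 2, 2, 0, 2],
    ![0, 0, 1, 0, 0, 1, 0, 1, 0, 2, 1, 1], ![0, 0, 0, 1, 0, 2, 0, 2, 1, 2, 1, 0],
    ![0, 0, 0, 0, 1, 2, 0, 1, 2, 0, 1, 2], ![0, 0, 0, 0, 0, 0, 1, 1, 1, 2, 2, 2]] k (e12 p)

/-- the information set -/
def tinfo (k : Fin 6) : ArrayPt := ![(0, 0), (0, 1), (0, 2), (1, 0), (1, 1), (2, 0)] k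

def tenc (a : Fin 6 → ZMod 3) : ArrayPt → ZMod 3 := fun p => ∑ k, a k * tg k p

theorem mem_tgc_iff (x : ArrayPt → ZMod 3) : x ∈ ternaryGolayCode ↔ ∃ s : ZMod 3,
    (∀ i : Fin 4, ∑ r : ZMod 3, x (i, r) = -s) ∧ ∀ a b : ZMod 3,
      ∑ i : Fin 4, x (i, a * ![0, 1, 1, 1] i + b * ![1, 0, 1, 2] i) = s := by
  refine exists_congr fun s => and_congr_right fun _ => ⟨fun h a b => ?_, fun h t ht => ?_⟩
  · exact h (a • ![0, 1, 1, 1] + b • ![1, 0, 1, 2]) (Submodule.mem_span_pair.mpr ⟨a, b, rfl⟩)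
  · obtain ⟨a, b, rfl⟩ := Submodule.mem_span_pair.mp ht
    exact h a b

theorem tg_mem (k : Fin 6) : tg k ∈ ternaryGolayCode := by
  rw [mem_tgc_iff]; revert k; decide +kernel

theorem tenc_eq (a : Fin 6 → ZMod 3) : tenc a = ∑ k, a k • tg k := by
  funext p; simp [tenc]

theorem tenc_mem (a : Fin 6 → ZMod 3) : tenc a ∈ ternaryGolayCode := by
  rw [tenc_eq]; exact Submodule.sum_mem _ fun k _ => Submodule.smul_mem _ _ (tg_mem k)

theorem tg_info : ∀ k l, tg k (tinfo l) = if k = l then 1 else 0 := by decide +kernel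

theorem tenc_info (a : Fin 6 → ZMod 3) (l : Fin 6) : tenc a (tinfo l) = a l := by
  simp [tenc, tg_info]

theorem vanish_aux : ∀ a b c d e f : ZMod 3, (∃ s : ZMod 3,
    (∀ i : Fin 4, ∑ r : ZMod 3, ![0, 0, 0, 0, 0, a, 0, b, c, d, e, f] (e12 (i, r)) = -s) ∧ ∀ u v : ZMod 3,
      ∑ i : Fin 4, ![0, 0, 0, 0, 0, a, 0, b, c, d, e, f]
        (e12 (i, u * ![0, 1, 1, 1] i + v * ![1, 0, 1, 2] i)) = s) →
    a = 0 ∧ b = 0 ∧ c = 0 ∧ d = 0 ∧ e = 0 ∧ f = 0 := by decide +kernel

theorem eq_zero_of_info {x : ArrayPt → ZMod 3} (hx : x ∈ ternaryGolayCode) (h : ∀ k, x (tinfo k) = 0) :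
    x = 0 := by
  have e : x = fun p => ![0, 0, 0, 0, 0, x (1, 2), 0, x (2, 1), x (2, 2), x (3, 0), x (3, 1), x (3, 2)]
      (e12 p) := by
    funext p
    obtain ⟨i, rfl⟩ := e12.symm.surjective p
    rw [e12.apply_symm_apply]
    fin_cases i
    exacts [h 0, h 1, h 2, h 3, h 4, rfl, h 5, rfl, rfl, rfl, rfl, rfl]
  have := (mem_tgc_iff _).mp (e ▸ hx)
  obtain ⟨h1, h2, h3, h4, h5, h6⟩ := vanish_aux _ _ _ _ _ _ this
  rw [e, h1, h2, h3, h4, h5, h6]
  decide

theorem eq_tenc {x : ArrayPt → ZMod 3} (hx : x ∈ ternaryGolayCode) : x = tenc fun k => x (tinfo k) :=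
  sub_eq_zero.mp (eq_zero_of_info (sub_mem hx (tenc_mem _)) fun k => by simp [tenc_info])

theorem tenc_inj : Function.Injective tenc := fun a b h => funext fun k => by
  rw [← tenc_info a, h, tenc_info]

theorem ncard_tgc (P : (ArrayPt → ZMod 3) → Prop) [DecidablePred P] :
    {x | x ∈ ternaryGolayCode ∧ P x}.ncard = (Finset.univ.filter fun a => P (tenc a)).card := by
  rw [← Set.ncard_coe_finset, ← Set.ncard_image_of_injective _ tenc_inj]
  congr 1
  ext x
  constructor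
  · rintro ⟨h1, h2⟩
    exact ⟨_, by simpa [← eq_tenc h1] using h2, (eq_tenc h1).symm⟩
  · rintro ⟨a, ha, rfl⟩
    exact ⟨tenc_mem a, by simpa using ha⟩

theorem card_tgc : Nat.card ternaryGolayCode = 729 := by
  rw [← Nat.card_eq_of_bijective (fun a => (⟨tenc a, tenc_mem a⟩ : ternaryGolayCode))
    ⟨fun a b h => tenc_inj (congrArg Subtype.val h), fun x => ⟨fun k => x.1 (tinfo k), Subtype.ext (eq_tenc x.2).symm⟩⟩]
  simp

theorem wt_aux : ∀ a : Fin 6 → ZMod 3, a ≠ 0 → (ternarySupport (tenc a)).card = 6 ∨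
    (ternarySupport (tenc a)).card = 9 ∨ (ternarySupport (tenc a)).card = 12 := by decide +kernel

theorem wt_tgc {x : ArrayPt → ZMod 3} (hx : x ∈ ternaryGolayCode) (h : x ≠ 0) :
    (ternarySupport x).card = 6 ∨ (ternarySupport x).card = 9 ∨ (ternarySupport x).card = 12 := by
  rw [eq_tenc hx]
  refine wt_aux _ fun h0 => h (eq_zero_of_info hx (congrFun h0))

theorem ncard_wt6 : {x | x ∈ ternaryGolayCode ∧ (ternarySupport x).card = 6}.ncard = 264 := by
  rw [ncard_tgc]; decide +kernel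

theorem ncard_wt9 : {x | x ∈ ternaryGolayCode ∧ (ternarySupport x).card = 9}.ncard = 440 := by
  rw [ncard_tgc]; decide +kernel

theorem ncard_wt12 : {x | x ∈ ternaryGolayCode ∧ (ternarySupport x).card = 12}.ncard = 24 := by
  rw [ncard_tgc]; decide +kernel

theorem tg_orth : ∀ k l, ∑ p, tg k p * tg l p = 0 := by decide +kernel

theorem tgc_orth {x y : ArrayPt → ZMod 3} (hx : x ∈ ternaryGolayCode) (hy : y ∈ ternaryGolayCode) :
    ∑ p, x p * y p = 0 := by
  rw [eq_tenc hx, eq_tenc hy, tenc_eq, tenc_eq]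
  show (∑ k, _ • tg k) ⬝ᵥ (∑ k, _ • tg k) = 0
  simp only [sum_dotProduct, dotProduct_sum, smul_dotProduct, dotProduct_smul]
  simp only [dotProduct, tg_orth, smul_zero, Finset.sum_const_zero]

theorem wt_add_wt_sub (x y : ArrayPt → ZMod 3) : (ternarySupport (x + y)).card + (ternarySupport (x - y)).card +
    3 * (ternarySupport x ∩ ternarySupport y).card =
      2 * (ternarySupport x).card + 2 * (ternarySupport y).card := by
  simp only [ternarySupport, ← Finset.filter_and, Finset.card_filter, Finset.mul_sum, ← Finset.sum_add_distrib]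
  refine Finset.sum_congr rfl fun p _ => ?_
  rw [Pi.add_apply, Pi.sub_apply]
  generalize x p = a
  generalize y p = b
  revert a b; decide

theorem eq_or_neg {x y : ArrayPt → ZMod 3} (hx : x ∈ ternaryGolayCode) (hy : y ∈ ternaryGolayCode)
    (h1 : (ternarySupport x).card = 6) (h2 : (ternarySupport y).card = 6)
    (h : 5 ≤ (ternarySupport x ∩ ternarySupport y).card) : y = x ∨ y = -x := by
  have := wt_add_wt_sub x y
  by_contra hc
  push Not at hc
  have h3 := wt_tgc (add_mem hx hy) fun e => hc.2 (eq_neg_of_add_eq_zero_right e)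
  have h4 := wt_tgc (sub_mem hx hy) fun e => hc.1 (sub_eq_zero.mp e).symm
  omega

theorem supp_neg (x : ArrayPt → ZMod 3) : ternarySupport (-x) = ternarySupport x := by
  simp [ternarySupport]

/-- the hexads -/
def hexads : Set (Finset ArrayPt) := {h | ∃ x ∈ ternaryGolayCode, ternarySupport x = h ∧ h.card = 6}

theorem ncard_hexads : hexads.ncard = 132 := by
  classical
  let W := {x | x ∈ ternaryGolayCode ∧ (ternarySupport x).card = 6}.toFinset
  have hW : W.card = 264 := by rw [← ncard_wt6, Set.ncard_eq_toFinset_card']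
  have e : hexads = ↑(W.image ternarySupport) := by
    ext h
    simp only [hexads, W, Finset.coe_image, Set.coe_toFinset, Set.mem_image, Set.mem_ofPred_eq]
    exact ⟨fun ⟨x, h1, h2, h3⟩ => ⟨x, ⟨h1, h2 ▸ h3⟩, h2⟩, fun ⟨x, h1, h2⟩ => ⟨x, h1.1, h2, h2 ▸ h1.2⟩⟩
  have h2 : ∀ b ∈ W.image ternarySupport, (W.filter fun x => ternarySupport x = b).card = 2 := by
    intro b hb
    obtain ⟨x, hx, rfl⟩ := Finset.mem_image.mp hb
    rw [Set.mem_toFinset] at hx
    rw [Finset.card_eq_two]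
    refine ⟨x, -x, fun e => ?_, ?_⟩
    · have : x = 0 := funext fun p => (by decide : ∀ a : ZMod 3, a = -a → a = 0) _ (congrFun e p)
      have h6 := hx.2
      rw [this] at h6
      exact absurd h6 (by decide)
    · ext y
      simp only [W, Finset.mem_filter, Set.mem_toFinset, Finset.mem_insert, Finset.mem_singleton,
        Set.mem_ofPred_eq]
      constructor
      · rintro ⟨h1, h2⟩
        exact eq_or_neg hx.1 h1.1 hx.2 h1.2 (by rw [h2, Finset.inter_self, hx.2]; norm_num)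
      · rintro (rfl | rfl)
        · exact ⟨hx, rfl⟩
        · exact ⟨⟨neg_mem hx.1, by rw [supp_neg, hx.2]⟩, supp_neg x⟩
  rw [Finset.card_eq_sum_card_image ternarySupport, Finset.sum_congr rfl h2, Finset.sum_const,
    smul_eq_mul] at hW
  rw [e, Set.ncard_coe_finset]
  omega

theorem steiner_hexads : IsSteinerSystem 5 6 hexads := by
  refine steiner_of_count (fun b ⟨_, _, _, h⟩ => h) ?_ (by rw [ncard_hexads]; rfl)
  rintro _ ⟨x, hx, rfl, h1⟩ _ ⟨y, hy, rfl, h2⟩ h
  rcases eq_or_neg hx hy h1 h2 h with rfl | rfl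
  · rfl
  · exact (supp_neg x).symm

theorem diag_tgc (c : ArrayPt → (ZMod 3)ˣ) (h : ∀ x ∈ ternaryGolayCode, monomialMap 1 c x ∈ ternaryGolayCode)
    (p q : ArrayPt) : c p = c q := by
  have h1 : ∀ k p, tg k p ≠ 0 → c p = c (tinfo k) := by
    intro k p hp
    have := congrFun (eq_tenc (h _ (tg_mem k))) p
    change (c p : ZMod 3) * tg k p = ∑ l, ((c (tinfo l) : ZMod 3) * tg k (tinfo l)) * tg l p at this
    simp only [tg_info, mul_ite, mul_one, mul_zero, ite_mul, zero_mul, Finset.sum_ite_eq, Finset.mem_univ,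
      if_true] at this
    exact Units.ext (mul_right_cancel₀ hp this)
  have h2 : ∀ p, c p = c (tinfo 0) := by
    intro p
    obtain ⟨k, hk⟩ := (by decide +kernel : ∀ p, ∃ k, tg k p ≠ 0) p
    obtain ⟨q, h3, h4⟩ := (by decide +kernel : ∀ k, ∃ q, tg 0 q ≠ 0 ∧ tg k q ≠ 0) k
    rw [h1 k p hk, ← h1 k q h4, h1 0 q h3]
  rw [h2 p, h2 q]

theorem pres_of_rows {σ : Equiv.Perm ArrayPt} {c : ArrayPt → (ZMod 3)ˣ}
    (h : ∀ k, monomialMap σ c (tg k) ∈ ternaryGolayCode) :
    ∀ x ∈ ternaryGolayCode, monomialMap σ c x ∈ ternaryGolayCode := by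
  intro x hx
  have : monomialMap σ c x = ∑ k, x (tinfo k) • monomialMap σ c (tg k) := by
    funext p
    conv_lhs => rw [eq_tenc hx]
    simp [monomialMap, tenc, Finset.mul_sum, mul_left_comm]
  rw [this]
  exact Submodule.sum_mem _ fun k _ => Submodule.smul_mem _ _ (h k)

theorem supp_monomial (σ : Equiv.Perm ArrayPt) (c : ArrayPt → (ZMod 3)ˣ) (x : ArrayPt → ZMod 3) :
    ternarySupport (monomialMap σ c x) = (ternarySupport x).image σ := by
  ext p
  obtain ⟨p, rfl⟩ := σ.surjective p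
  simp [ternarySupport, monomialMap]

open scoped Pointwise in
theorem permPart_le : permPart (ternaryGolayCode : Set (ArrayPt → ZMod 3)) ≤ setSystemAut hexads := by
  rintro σ ⟨c, hc⟩
  rw [MulAction.mem_stabilizer_iff]
  refine Set.eq_of_subset_of_ncard_le ?_ (by rw [Set.ncard_smul_set]) (Set.toFinite _)
  rintro _ ⟨_, ⟨x, hx, rfl, h⟩, rfl⟩
  refine ⟨_, hc x hx, supp_monomial σ c x, ?_⟩
  show ((ternarySupport x).image σ).card = 6
  rw [Finset.card_image_of_injective _ σ.injective, h]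

def tσ1 : Equiv.Perm ArrayPt := e12.symm.permCongr
  ⟨![9, 4, 5, 8, 0, 7, 2, 6, 1, 11, 3, 10], ![4, 8, 6, 10, 1, 2, 7, 5, 3, 0, 11, 9], by decide, by decide⟩

def tσ2 : Equiv.Perm ArrayPt := e12.symm.permCongr
  ⟨![7, 3, 0, 2, 1, 11, 5, 4, 10, 6, 9, 8], ![2, 4, 3, 1, 7, 6, 9, 0, 11, 10, 8, 5], by decide, by decide⟩

theorem tσ1_mem : tσ1 ∈ permPart (ternaryGolayCode : Set (ArrayPt → ZMod 3)) :=
  ⟨fun p => ![1, -1, -1, -1, 1, 1, 1, -1, -1, -1, 1, 1] (e12 p), pres_of_rows fun k => by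
    rw [mem_tgc_iff]; revert k; decide +kernel⟩

theorem tσ2_mem : tσ2 ∈ permPart (ternaryGolayCode : Set (ArrayPt → ZMod 3)) :=
  ⟨fun p => ![1, 1, -1, 1, 1, -1, 1, 1, -1, -1, -1, -1] (e12 p), pres_of_rows fun k => by
    rw [mem_tgc_iff]; revert k; decide +kernel⟩

theorem le_card_permPart : 95040 ≤ Nat.card (permPart (ternaryGolayCode : Set (ArrayPt → ZMod 3))) := by
  have h : (permAct2 (Equiv.Perm ArrayPt) e12).model.AllIn
      (permPart (ternaryGolayCode : Set (ArrayPt → ZMod 3))) tS0 :=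
    List.forall_mem_cons.2 ⟨(permAct2_rep e12 (by decide +kernel)).in tσ1_mem,
      List.forall_mem_cons.2 ⟨(permAct2_rep e12 (by decide +kernel)).in tσ2_mem, List.forall_mem_nil _⟩⟩
  rw [← tcard0 (permAct2_faith e12) (h.mono le_top)]
  exact Subgroup.card_le_of_le h.gen_le

end CL.Mx.Code
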