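/- Schreier checks h (generated by tools/mx) -/
import Cfsg.Agent.Spor.CodeChhD

set_option autoImplicit false
set_option maxRecDepth 100000

namespace CL.Mx.Code

open CL.Mx

noncomputable def hN0_0 : List (ℕ × ℕ) :=
 [(16, 0xe380),
 (8, 0xe4007c),
 (4, 0x804020e),
 (1, 0x5010450),
 (2, 0x1211220),
 (4, 0x806060e),
 (8, 0x670060),
 (16, 0xe380)]

noncomputable def hE0_0 : List ℕ :=
 [0xb6017,
 0x67abf,
 0x412b6,
 0x1088,
 0xdcd62]

theorem hsch0_0_0 : (ops2 6).schreier 6 hw hB0 hF0 hA0 (0x810202044) hN0_0 hE0_0 0 20 = true := by decide +kernel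

noncomputable def hN0_1 : List (ℕ × ℕ) :=
 [(16, 0xfc00),
 (8, 0x2000b0),
 (4, 0xc000800),
 (2, 0x20000200),
 (1, 0x10040101),
 (2, 0x30030003),
 (4, 0x20b04),
 (8, 0x2c00b3),
 (16, 0xfc00)]

noncomputable def hE0_1 : List ℕ :=
 [0x90de4,
 0x24115,
 0x4015,
 0x80642,
 0x431b5]

theorem hsch0_1_0 : (ops2 6).schreier 6 hw hB0 hF0 hA0 (0x408102801) hN0_1 hE0_1 0 20 = true := by decide +kernel

noncomputable def hN1_0 : List (ℕ × ℕ) :=
 []

noncomputable def hE1_0 : List ℕ :=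
 [0x2,
 0x7,
 0x5]

theorem hsch1_0_0 : (ops2 6).schreier 6 hw hB1 hF1 hA1 (0x408804081) hN1_0 hE1_0 0 3 = true := by decide +kernel

noncomputable def hN1_1 : List (ℕ × ℕ) :=
 [(2, 0x1)]

noncomputable def hE1_1 : List ℕ :=
 [0x7,
 0,
 0]

theorem hsch1_1_0 : (ops2 6).schreier 6 hw hB1 hF1 hA1 (0x420201084) hN1_1 hE1_1 0 3 = true := by decide +kernel

noncomputable def hN1_2 : List (ℕ × ℕ) :=
 [(1, 0x1)]

noncomputable def hE1_2 : List ℕ :=
 [0x5,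
 0x7,
 0x6]

theorem hsch1_2_0 : (ops2 6).schreier 6 hw hB1 hF1 hA1 (0x808402101) hN1_2 hE1_2 0 3 = true := by decide +kernel

noncomputable def hN2_0 : List (ℕ × ℕ) :=
 [(2, 0x2),
 (1, 0x4),
 (2, 0x2)]

noncomputable def hE2_0 : List ℕ :=
 [0x7]

theorem hsch2_0_0 : (ops2 6).schreier 6 hw hB2 hF2 hA2 (0x808402101) hN2_0 hE2_0 0 3 = true := by decide +kernel

noncomputable def hN2_1 : List (ℕ × ℕ) :=
 [(1, 0x1),
 (2, 0x1)]

noncomputable def hE2_1 : List ℕ :=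
 [0x3]

theorem hsch2_1_0 : (ops2 6).schreier 6 hw hB2 hF2 hA2 (0x408804081) hN2_1 hE2_1 0 3 = true := by decide +kernel

noncomputable def hN3_0 : List (ℕ × ℕ) :=
 [(1, 0x1)]

noncomputable def hE3_0 : List ℕ :=
 []

theorem hsch3_0_0 : (ops2 6).schreier 6 hw hB3 hF3 hA3 (0x420202101) hN3_0 hE3_0 0 2 = true := by decide +kernel

noncomputable def hN3_1 : List (ℕ × ℕ) :=
 [(1, 0x1)]

noncomputable def hE3_1 : List ℕ :=
 []

theorem hsch3_1_0 : (ops2 6).schreier 6 hw hB3 hF3 hA3 (0x420202101) hN3_1 hE3_1 0 2 = true := by decide +kernel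


end CL.Mx.Code
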