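/- stabiliser chain h (generated by tools/mx) -/
import Cfsg.Agent.Spor.CodeChhD
import Cfsg.Agent.Spor.CodeChhC0

set_option autoImplicit false
set_option maxRecDepth 100000

namespace CL.Mx.Code

open CL.Mx

variable {G : Type*} [Group G] {ρ : Act2 G 6}

theorem hout0 (h : ρ.model.AllIn ⊤ hS0) : ρ.model.AllIn (ρ.model.gen hS0) (hB0 ++ hS1) :=
  Model.slp_mem h.gen hslp0

theorem hok1 (h : ρ.model.AllIn ⊤ hS0) : ρ.model.AllIn ⊤ hS1 :=
  ((hout0 h).right.mono le_top)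

theorem hout1 (h : ρ.model.AllIn ⊤ hS1) : ρ.model.AllIn (ρ.model.gen hS1) (hB1 ++ hS2) :=
  Model.slp_mem h.gen hslp1

theorem hok2 (h : ρ.model.AllIn ⊤ hS0) : ρ.model.AllIn ⊤ hS2 :=
  ((hout1 ((hout0 h).right.mono le_top)).right.mono le_top)

theorem hout2 (h : ρ.model.AllIn ⊤ hS2) : ρ.model.AllIn (ρ.model.gen hS2) (hB2 ++ hS3) :=
  Model.slp_mem h.gen hslp2

theorem hok3 (h : ρ.model.AllIn ⊤ hS0) : ρ.model.AllIn ⊤ hS3 :=
  ((hout2 ((hout1 ((hout0 h).right.mono le_top)).right.mono le_top)).right.mono le_top)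

theorem hout3 (h : ρ.model.AllIn ⊤ hS3) : ρ.model.AllIn (ρ.model.gen hS3) (hB3 ++ hS4) :=
  Model.slp_mem h.gen hslp3

theorem hok4 (h : ρ.model.AllIn ⊤ hS0) : ρ.model.AllIn ⊤ hS4 :=
  ((hout3 ((hout2 ((hout1 ((hout0 h).right.mono le_top)).right.mono le_top)).right.mono le_top)).right.mono le_top)

theorem hok0 (h : ρ.model.AllIn ⊤ hS0) : ρ.model.AllIn ⊤ hS0 := h

theorem hinA3 (_h : ρ.model.AllIn ⊤ hS0) : ρ.model.AllIn (ρ.model.gen hS4) hA3 :=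
  Model.allIn_nil _

theorem hlevel3 (hF : ρ.model.Faith 6 hw) (h : ρ.model.AllIn ⊤ hS0) :
    ρ.model.Level (ρ.model.gen hS3) (ρ.model.gen hS4) (ρ.model.tr hB3 hF3) 2 (ρ.model.decW hv3 0) := by
  have hS := hok3 h
  have hB := (hout3 hS).left
  have hA := hinA3 h
  refine Model.level_of_cert (hout3 hS).right hB hpl3 ?_ hfix3 hkeys3
  refine List.forall_mem_cons.2 ⟨?_, List.forall_mem_cons.2 ⟨?_, List.forall_mem_nil _⟩⟩
  · exact Model.Schr.step hF hB hA (hS _ (List.Mem.head _)).1 hpl3 (Model.schr_zero _ _ _ _ _) hsch3_0_0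
  · exact Model.Schr.step hF hB hA (hS _ (List.Mem.tail _ (List.Mem.head _))).1 hpl3 (Model.schr_zero _ _ _ _ _) hsch3_1_0

theorem hinA2 (h : ρ.model.AllIn ⊤ hS0) : ρ.model.AllIn (ρ.model.gen hS3) hA2 :=
  ((hinA3 h).mono (hout3 (hok3 h)).right.gen_le).append (hout3 (hok3 h)).left

theorem hlevel2 (hF : ρ.model.Faith 6 hw) (h : ρ.model.AllIn ⊤ hS0) :
    ρ.model.Level (ρ.model.gen hS2) (ρ.model.gen hS3) (ρ.model.tr hB2 hF2) 3 (ρ.model.decW hv2 0) := by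
  have hS := hok2 h
  have hB := (hout2 hS).left
  have hA := hinA2 h
  refine Model.level_of_cert (hout2 hS).right hB hpl2 ?_ hfix2 hkeys2
  refine List.forall_mem_cons.2 ⟨?_, List.forall_mem_cons.2 ⟨?_, List.forall_mem_nil _⟩⟩
  · exact Model.Schr.step hF hB hA (hS _ (List.Mem.head _)).1 hpl2 (Model.schr_zero _ _ _ _ _) hsch2_0_0
  · exact Model.Schr.step hF hB hA (hS _ (List.Mem.tail _ (List.Mem.head _))).1 hpl2 (Model.schr_zero _ _ _ _ _) hsch2_1_0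

theorem hinA1 (h : ρ.model.AllIn ⊤ hS0) : ρ.model.AllIn (ρ.model.gen hS2) hA1 :=
  ((hinA2 h).mono (hout2 (hok2 h)).right.gen_le).append (hout2 (hok2 h)).left

theorem hlevel1 (hF : ρ.model.Faith 6 hw) (h : ρ.model.AllIn ⊤ hS0) :
    ρ.model.Level (ρ.model.gen hS1) (ρ.model.gen hS2) (ρ.model.tr hB1 hF1) 3 (ρ.model.decW hv1 0) := by
  have hS := hok1 h
  have hB := (hout1 hS).left
  have hA := hinA1 h
  refine Model.level_of_cert (hout1 hS).right hB hpl1 ?_ hfix1 hkeys1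
  refine List.forall_mem_cons.2 ⟨?_, List.forall_mem_cons.2 ⟨?_, List.forall_mem_cons.2 ⟨?_, List.forall_mem_nil _⟩⟩⟩
  · exact Model.Schr.step hF hB hA (hS _ (List.Mem.head _)).1 hpl1 (Model.schr_zero _ _ _ _ _) hsch1_0_0
  · exact Model.Schr.step hF hB hA (hS _ (List.Mem.tail _ (List.Mem.head _))).1 hpl1 (Model.schr_zero _ _ _ _ _) hsch1_1_0
  · exact Model.Schr.step hF hB hA (hS _ (List.Mem.tail _ (List.Mem.tail _ (List.Mem.head _)))).1 hpl1 (Model.schr_zero _ _ _ _ _) hsch1_2_0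

theorem hinA0 (h : ρ.model.AllIn ⊤ hS0) : ρ.model.AllIn (ρ.model.gen hS1) hA0 :=
  ((hinA1 h).mono (hout1 (hok1 h)).right.gen_le).append (hout1 (hok1 h)).left

theorem hlevel0 (hF : ρ.model.Faith 6 hw) (h : ρ.model.AllIn ⊤ hS0) :
    ρ.model.Level (ρ.model.gen hS0) (ρ.model.gen hS1) (ρ.model.tr hB0 hF0) 20 (ρ.model.decW hv0 0) := by
  have hS := hok0 h
  have hB := (hout0 hS).left
  have hA := hinA0 h
  refine Model.level_of_cert (hout0 hS).right hB hpl0 ?_ hfix0 hkeys0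
  refine List.forall_mem_cons.2 ⟨?_, List.forall_mem_cons.2 ⟨?_, List.forall_mem_nil _⟩⟩
  · exact Model.Schr.step hF hB hA (hS _ (List.Mem.head _)).1 hpl0 (Model.schr_zero _ _ _ _ _) hsch0_0_0
  · exact Model.Schr.step hF hB hA (hS _ (List.Mem.tail _ (List.Mem.head _))).1 hpl0 (Model.schr_zero _ _ _ _ _) hsch0_1_0

theorem hcard3 (hF : ρ.model.Faith 6 hw) (h : ρ.model.AllIn ⊤ hS0) :
    Nat.card (ρ.model.gen hS3) = 2 := by
  rw [(hlevel3 hF h).card, show ρ.model.gen hS4 = ⊥ from Model.gen_nil, Subgroup.card_bot]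

theorem hcard2 (hF : ρ.model.Faith 6 hw) (h : ρ.model.AllIn ⊤ hS0) :
    Nat.card (ρ.model.gen hS2) = 6 := by
  rw [(hlevel2 hF h).card, hcard3 hF h]

theorem hcard1 (hF : ρ.model.Faith 6 hw) (h : ρ.model.AllIn ⊤ hS0) :
    Nat.card (ρ.model.gen hS1) = 18 := by
  rw [(hlevel1 hF h).card, hcard2 hF h]

theorem hcard0 (hF : ρ.model.Faith 6 hw) (h : ρ.model.AllIn ⊤ hS0) :
    Nat.card (ρ.model.gen hS0) = 360 := by
  rw [(hlevel0 hF h).card, hcard1 hF h]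


end CL.Mx.Code
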