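/-
The hexacode: systematic encoding, weights, monomial automorphisms.
-/
import Cfsg.Agent.Spor.MxPerm
import Cfsg.Agent.Spor.CodeChh

set_option autoImplicit false
set_option maxRecDepth 100000

namespace CL.Mx.Code

open Cfsg CL.Mx

/-- addition and multiplication of the codes `0, 1, ω, ω²` -/
def ad4 (a b : Fin 4) : Fin 4 := ![![0, 1, 2, 3], ![1, 0, 3, 2], ![2, 3, 0, 1], ![3, 2, 1, 0]] a b
def mu4 (a b : Fin 4) : Fin 4 := ![![0, 0, 0, 0], ![0, 1, 2, 3], ![0, 2, 3, 1], ![0, 3, 1, 2]] a b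

/-- the hexacode word with the first three entries `a, b, c` -/
def hwd (a b c : Fin 4) : Fin 6 → Fin 4 :=
  ![a, b, c, ad4 (ad4 a b) c, ad4 (ad4 (mu4 3 a) (mu4 2 b)) c, ad4 (ad4 (mu4 2 a) (mu4 3 b)) c]

variable {F : Type*} [Field F] (D : F4 F)

def en (a : Fin 4) : F := D.el (![0, 1, 0, 1] a) (![0, 0, 1, 1] a)

theorem en_ad4 (a b : Fin 4) : en D (ad4 a b) = en D a + en D b := by
  rw [en, en, en, ← D.el_add]; congr 1 <;> revert a b <;> decide

theorem en_mu4 (a b : Fin 4) : en D (mu4 a b) = en D a * en D b := by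
  rw [en, en, en, D.el_mul]; congr 1 <;> revert a b <;> decide

theorem en_inj : Function.Injective (en D) := fun a b h => by
  have := D.el_inj h
  clear h
  revert a b; decide

theorem en0 : en D 0 = 0 := D.el00
theorem en1 : en D 1 = 1 := D.el10
theorem en2 : en D 2 = D.ω := D.el01
theorem en3 : en D 3 = D.ω ^ 2 := D.el11.trans D.sq.symm

theorem en_surj (x : F) : ∃ a, en D a = x := by
  rcases D.cases x with rfl | rfl | rfl | rfl
  exacts [⟨0, en0 D⟩, ⟨1, en1 D⟩, ⟨2, en2 D⟩, ⟨3, D.el11⟩]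

theorem en_eq_zero {a : Fin 4} : en D a = 0 ↔ a = 0 := by rw [← en0 D, (en_inj D).eq_iff]

theorem mem_hex_iff (x : Fin 6 → F) :
    x ∈ hexacode F D.ω ↔ ∃ a b c : Fin 4, x = fun i => en D (hwd a b c i) := by
  have key : ∀ a b c : Fin 4, en D a • ![D.ω, D.ω ^ 2, D.ω ^ 2, D.ω, D.ω ^ 2, D.ω] +
      en D b • ![D.ω ^ 2, D.ω, D.ω, D.ω ^ 2, D.ω ^ 2, D.ω] + en D c • ![D.ω ^ 2, D.ω, D.ω ^ 2, D.ω, D.ω, D.ω ^ 2] =
      fun i => en D (ad4 (ad4 (mu4 a (![2, 3, 3, 2, 3, 2] i)) (mu4 b (![3, 2, 2, 3, 3, 2] i)))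
        (mu4 c (![3, 2, 3, 2, 2, 3] i))) := by
    intro a b c
    funext i
    rw [← en3, ← en2]
    simp only [en_ad4, en_mu4]
    fin_cases i <;> rfl
  rw [hexacode, Submodule.mem_span_triple]
  constructor
  · rintro ⟨a, b, c, rfl⟩
    obtain ⟨a, rfl⟩ := en_surj D a
    obtain ⟨b, rfl⟩ := en_surj D b
    obtain ⟨c, rfl⟩ := en_surj D c
    obtain ⟨a', b', c', h⟩ := (by decide +kernel : ∀ a b c : Fin 4, ∃ a' b' c' : Fin 4, ∀ i,
      ad4 (ad4 (mu4 a (![2, 3, 3, 2, 3, 2] i)) (mu4 b (![3, 2, 2, 3, 3, 2] i)))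
        (mu4 c (![3, 2, 3, 2, 2, 3] i)) = hwd a' b' c' i) a b c
    exact ⟨a', b', c', by simp only [key, h]⟩
  · rintro ⟨a', b', c', rfl⟩
    obtain ⟨a, b, c, h⟩ := (by decide +kernel : ∀ a' b' c' : Fin 4, ∃ a b c : Fin 4, ∀ i,
      ad4 (ad4 (mu4 a (![2, 3, 3, 2, 3, 2] i)) (mu4 b (![3, 2, 2, 3, 3, 2] i)))
        (mu4 c (![3, 2, 3, 2, 2, 3] i)) = hwd a' b' c' i) a' b' c'
    exact ⟨en D a, en D b, en D c, by simp only [key, h]⟩

theorem en_mem_iff (y : Fin 6 → Fin 4) :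
    (fun i => en D (y i)) ∈ hexacode F D.ω ↔ ∀ i, y i = hwd (y 0) (y 1) (y 2) i := by
  rw [mem_hex_iff]
  constructor
  · rintro ⟨a, b, c, h⟩
    obtain rfl : y = hwd a b c := funext fun i => en_inj D (congrFun h i)
    exact fun _ => rfl
  · exact fun h => ⟨_, _, _, funext fun i => congrArg _ (h i)⟩

theorem hw_inj : Function.Injective fun p : Fin 4 × Fin 4 × Fin 4 => fun i => en D (hwd p.1 p.2.1 p.2.2 i) :=
  fun _ _ h => Prod.ext (en_inj D (congrFun h 0)) (Prod.ext (en_inj D (congrFun h 1)) (en_inj D (congrFun h 2)))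

theorem card_hex : Nat.card (hexacode F D.ω) = 64 := by
  rw [← Nat.card_eq_of_bijective (fun p : Fin 4 × Fin 4 × Fin 4 =>
    (⟨fun i => en D (hwd p.1 p.2.1 p.2.2 i), (mem_hex_iff D _).mpr ⟨_, _, _, rfl⟩⟩ : hexacode F D.ω))
    ⟨fun a b h => hw_inj D (congrArg Subtype.val h), fun x => ?_⟩]
  · simp
  · obtain ⟨a, b, c, h⟩ := (mem_hex_iff D _).mp x.2
    exact ⟨(a, b, c), Subtype.ext h.symm⟩

variable [DecidableEq F]

theorem wt_en (y : Fin 6 → Fin 4) :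
    (Finset.univ.filter fun i => en D (y i) ≠ 0).card = (Finset.univ.filter fun i => y i ≠ 0).card := by
  simp only [ne_eq, en_eq_zero]

theorem wt_hex (x : Fin 6 → F) (hx : x ∈ hexacode F D.ω) (h : x ≠ 0) :
    (Finset.univ.filter fun i => x i ≠ 0).card = 4 ∨ (Finset.univ.filter fun i => x i ≠ 0).card = 6 := by
  obtain ⟨a, b, c, rfl⟩ := (mem_hex_iff D _).mp hx
  rw [wt_en]
  refine (by decide +kernel : ∀ a b c : Fin 4, (¬ ∀ i, hwd a b c i = 0) →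
    (Finset.univ.filter fun i => hwd a b c i ≠ 0).card = 4 ∨
    (Finset.univ.filter fun i => hwd a b c i ≠ 0).card = 6) a b c fun h0 => h (funext fun i => ?_)
  rw [h0, en0]; rfl

theorem ncard_hex (k n : ℕ) (h : (Finset.univ.filter fun p : Fin 4 × Fin 4 × Fin 4 =>
      (Finset.univ.filter fun i => hwd p.1 p.2.1 p.2.2 i ≠ 0).card = k).card = n) :
    {x : Fin 6 → F | x ∈ hexacode F D.ω ∧ (Finset.univ.filter fun i => x i ≠ 0).card = k}.ncard = n := by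
  rw [← h, ← Set.ncard_coe_finset, ← Set.ncard_image_of_injective _ (hw_inj D)]
  congr 1
  ext x
  constructor
  · rintro ⟨h1, h2⟩
    obtain ⟨a, b, c, rfl⟩ := (mem_hex_iff D _).mp h1
    exact ⟨(a, b, c), by simpa only [wt_en, Finset.coe_filter, Finset.mem_univ, true_and,
      Set.mem_ofPred_eq] using h2, rfl⟩
  · rintro ⟨p, hp, rfl⟩
    exact ⟨(mem_hex_iff D _).mpr ⟨_, _, _, rfl⟩,
      by simpa only [wt_en, Finset.coe_filter, Finset.mem_univ, true_and, Set.mem_ofPred_eq] using hp⟩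

omit [DecidableEq F]

theorem pres_iff (σ : Equiv.Perm (Fin 6)) (c : Fin 6 → Fˣ) (t : Fin 6 → Fin 4) (ht : ∀ i, en D (t i) = c i) :
    (∀ x ∈ hexacode F D.ω, monomialMap σ c x ∈ hexacode F D.ω) ↔ ∀ a b c : Fin 4, ∀ i,
      mu4 (t i) (hwd a b c (σ.symm i)) = hwd (mu4 (t 0) (hwd a b c (σ.symm 0)))
        (mu4 (t 1) (hwd a b c (σ.symm 1))) (mu4 (t 2) (hwd a b c (σ.symm 2))) i := by
  have key : ∀ y : Fin 6 → Fin 4, monomialMap σ c (fun i => en D (y i)) =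
      fun i => en D (mu4 (t i) (y (σ.symm i))) := fun y => funext fun i => by
    rw [en_mu4, ht]; rfl
  constructor
  · intro h a b c
    have := h _ ((mem_hex_iff D _).mpr ⟨a, b, c, rfl⟩)
    rwa [key, en_mem_iff] at this
  · intro h x hx
    obtain ⟨a, b, c, rfl⟩ := (mem_hex_iff D _).mp hx
    rw [key, en_mem_iff]
    exact h a b c

theorem exists_code (c : Fin 6 → Fˣ) : ∃ t0 t1 t2 t3 t4 t5 : Fin 4,
    (∀ i, en D (![t0, t1, t2, t3, t4, t5] i) = c i) ∧ ∀ i, ![t0, t1, t2, t3, t4, t5] i ≠ 0 := by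
  choose t ht using fun i => en_surj D (c i)
  have e : t = ![t 0, t 1, t 2, t 3, t 4, t 5] := by funext i; fin_cases i <;> rfl
  refine ⟨t 0, t 1, t 2, t 3, t 4, t 5, e ▸ ht, e ▸ fun i h => (c i).ne_zero ?_⟩
  rw [← ht, h, en0]

/-- the condition on one word and one position -/
def presAt (s : Fin 6 → Fin 6) (t : Fin 6 → Fin 4) (a b c : Fin 4) (i : Fin 6) : Prop :=
  mu4 (t i) (hwd a b c (s i)) = hwd (mu4 (t 0) (hwd a b c (s 0))) (mu4 (t 1) (hwd a b c (s 1)))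
    (mu4 (t 2) (hwd a b c (s 2))) i

instance (s : Fin 6 → Fin 6) (t : Fin 6 → Fin 4) (a b c : Fin 4) (i : Fin 6) :
    Decidable (presAt s t a b c i) := inferInstanceAs (Decidable (_ = _))

set_option synthInstance.maxSize 1000 in
theorem diag_aux : ∀ t0 t1 t2 t3 t4 t5 : Fin 4, presAt id ![t0, t1, t2, t3, t4, t5] 1 0 0 3 →
    presAt id ![t0, t1, t2, t3, t4, t5] 0 1 0 3 → presAt id ![t0, t1, t2, t3, t4, t5] 0 0 1 3 →
    presAt id ![t0, t1, t2, t3, t4, t5] 0 0 1 4 → presAt id ![t0, t1, t2, t3, t4, t5] 0 0 1 5 →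
    ∀ i, ![t0, t1, t2, t3, t4, t5] i = t0 := by decide +kernel

theorem swap_aux : ∀ t0 t1 t2 t3 t4 t5 : Fin 4, presAt ![1, 0, 2, 3, 4, 5] ![t0, t1, t2, t3, t4, t5] 1 0 0 3 →
    presAt ![1, 0, 2, 3, 4, 5] ![t0, t1, t2, t3, t4, t5] 0 0 1 3 →
    presAt ![1, 0, 2, 3, 4, 5] ![t0, t1, t2, t3, t4, t5] 0 0 1 4 →
    presAt ![1, 0, 2, 3, 4, 5] ![t0, t1, t2, t3, t4, t5] 1 0 0 4 → t3 = 0 := by decide +kernel

theorem diag_hex (c : Fin 6 → Fˣ) (h : ∀ x ∈ hexacode F D.ω, monomialMap 1 c x ∈ hexacode F D.ω) (i j : Fin 6) :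
    c i = c j := by
  obtain ⟨t0, t1, t2, t3, t4, t5, h1, -⟩ := exists_code D c
  rw [pres_iff D 1 c _ h1] at h
  have := diag_aux t0 t1 t2 t3 t4 t5 (h 1 0 0 3) (h 0 1 0 3) (h 0 0 1 3) (h 0 0 1 4) (h 0 0 1 5)
  apply Units.ext
  rw [← h1, ← h1, this, this]

def hσ1 : Equiv.Perm (Fin 6) := ⟨![1, 2, 0, 3, 4, 5], ![2, 0, 1, 3, 4, 5], by decide, by decide⟩
def hσ2 : Equiv.Perm (Fin 6) := ⟨![0, 2, 3, 4, 5, 1], ![0, 5, 1, 2, 3, 4], by decide, by decide⟩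

theorem permPart_hex [Finite F] :
    permPart (hexacode F D.ω : Set (Fin 6 → F)) = alternatingGroup (Fin 6) := by
  have hm : ∀ (σ : Equiv.Perm (Fin 6)) (t : Fin 6 → Fin 4), (∀ i, t i ≠ 0) → (∀ a b c i, presAt σ.symm t a b c i) →
      σ ∈ permPart (hexacode F D.ω : Set (Fin 6 → F)) := fun σ t h1 h2 =>
    ⟨fun i => Units.mk0 (en D (t i)) (by rw [ne_eq, en_eq_zero]; exact h1 i),
      (pres_iff D σ _ t fun _ => rfl).mpr h2⟩
  have h : (permAct2 (Equiv.Perm (Fin 6)) (Equiv.refl (Fin 6))).model.AllIn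
      (permPart (hexacode F D.ω : Set (Fin 6 → F))) hS0 :=
    List.forall_mem_cons.2 ⟨(permAct2_rep (Equiv.refl (Fin 6)) (g := hσ1) (by decide +kernel)).in
      (hm _ ![1, 1, 1, 1, 3, 2] (by decide) (by decide +kernel)),
      List.forall_mem_cons.2 ⟨(permAct2_rep (Equiv.refl (Fin 6)) (g := hσ2) (by decide +kernel)).in
        (hm _ ![1, 3, 2, 3, 1, 2] (by decide) (by decide +kernel)), List.forall_mem_nil _⟩⟩
  have h1 : 360 ≤ Nat.card (permPart (hexacode F D.ω : Set (Fin 6 → F))) := by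
    rw [← hcard0 (permAct2_faith _) (h.mono le_top)]
    exact Subgroup.card_le_of_le h.gen_le
  have h2 := (permPart (hexacode F D.ω : Set (Fin 6 → F))).card_mul_index
  rw [Nat.card_perm, Nat.card_fin, show Nat.factorial 6 = 720 from rfl] at h2
  have h3 : (permPart (hexacode F D.ω : Set (Fin 6 → F))).index ≠ 1 := by
    rw [ne_eq, Subgroup.index_eq_one]
    intro e
    obtain ⟨c, hc⟩ : Equiv.swap 0 1 ∈ permPart (hexacode F D.ω : Set (Fin 6 → F)) := e ▸ Subgroup.mem_top _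
    obtain ⟨t0, t1, t2, t3, t4, t5, h4, h5⟩ := exists_code D c
    have h6 := (pres_iff D _ c _ h4).mp hc
    rw [show ⇑(Equiv.swap (0 : Fin 6) 1).symm = ![1, 0, 2, 3, 4, 5] by decide] at h6
    exact h5 3 (swap_aux t0 t1 t2 t3 t4 t5 (h6 1 0 0 3) (h6 0 0 1 3) (h6 0 0 1 4) (h6 1 0 0 4))
  apply Equiv.Perm.eq_alternatingGroup_of_index_eq_two
  generalize (permPart (hexacode F D.ω : Set (Fin 6 → F))).index = k at h2 h3
  have : k < 3 := by
    by_contra h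
    nlinarith
  interval_cases k <;> simp_all

end CL.Mx.Code
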