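/-
The Schur multiplier of the Harada–Norton group: its presentation lifts through every central extension.
-/
import Cfsg.Agent.Spor.HNOut
import Cfsg.Agent.Spor.CentLift
import Cfsg.Agent.S2046

set_option autoImplicit false

namespace CL.HNN0

open CL.PG CL.TC CL.Lift Cfsg Cfsg.Spor Subgroup
open scoped commutatorElement

section model
variable {G X : Type*} [Group G] [MulAction G X] {e : ℕ → X} {gs : List G} (c : Ctx P e gs ns D chk)
  (hU : UB (subW gs L3) 177408000) (hT : subW gs L3 = ⊤)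
include c hU hT

theorem K2_mult : HasCyclicSchurMultiplier (subW gs L2) 1 := by
  obtain ⟨h1, π, h2, h3⟩ := quo c hU
  have := Spor.Leech.isHS_HS.1
  refine trivial_of_cover Cfsg.Agent.S2046.result (PG.isQuasisimple_of_simple Spor.Leech.isHS_HS.2 (by norm_num)).1
    (Schur.isStem_of_perfect (Subgroup.isPerfect_iff.2 (le_antisymm (commutator_le_self _) (K2_perf c hU hT))) h2
      fun q hq => mem_center_iff.2 fun g => Subtype.ext (cz c q (mem_subgroupOf.1 (h3 ▸ hq)) g (K2_le c g.2)).symm) ?_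
  rw [h3, Nat.card_congr (subgroupOfEquivOfLe h1).toEquiv, Q_card c]
  exact (Nat.card_zmod 2).le

omit hT in
theorem z_not_mem : wordG gs [4] ∉ subW gs L2 := fun h => by
  have := (ubK2 c hU).1
  have h1 := card_le_of_le (show subW gs L3 ≤ subW gs L2 from subW_le.2 (by
    simpa only [List.forall_mem_cons, List.not_mem_nil, false_imp_iff, implies_true, and_true] using
      ⟨mem_subW (by simp), mem_subW (by simp), h⟩))
  rw [cardN c hU, (K2_idx c hU).2] at h1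
  omega

end model

local notation "𝑥" => (PresentedGroup.of HN.Gen.x : HN)
local notation "𝑦" => (PresentedGroup.of HN.Gen.y : HN)
local notation "𝑧" => (PresentedGroup.of HN.Gen.z : HN)
local notation "𝑡" => (PresentedGroup.of HN.Gen.t : HN)

variable (hU : UbN0)
include hU

theorem exists_K2 : ∃ K : Subgroup HN, HasCyclicSchurMultiplier K 1 ∧ K ≤ ⁅K, K⁆ ∧ 𝑥 ∈ K ∧ 𝑦 ∈ K ∧ 𝑧 ∉ K ∧
    𝑧 ∈ normalizer (K : Set HN) := by
  obtain ⟨_, c⟩ := exists_ctx hU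
  refine ⟨(subW (ext gN ws) L2).map N0.subtype, Schur.HasSM.congr_left (K2_mult c (ub_gN hU) gN_top)
    (equivMapOfInjective _ _ N0.subtype_injective), map_commutator _ _ N0.subtype ▸ map_mono (K2_perf c (ub_gN hU) gN_top),
    ⟨_, mem_subW (w := [0]) (by simp), coe_x⟩, ⟨_, mem_subW (w := [2]) (by simp), coe_y⟩, 
    fun ⟨a, ha, e⟩ => z_not_mem c (ub_gN hU) (Subtype.ext (e.trans coe_z.symm) ▸ ha),
    le_normalizer_map _ ⟨_, K2_norm c (ub_gN hU) (mem_subW (w := [4]) (by simp)), coe_z⟩⟩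

variable (hD : DCE.Res N0 sz)
include hD

theorem mult : HasCyclicSchurMultiplier HN 1 := by
  have := finite_HN hU hD
  refine trivial_of_lifts rfl HNRep.ix (gs := HNRep.gs) (fun a => by cases a <;> rfl) 10 3 (by decide +kernel)
    fun Γ _ τ hs hc _ _ _ => ?_
  obtain ⟨K, hM, hp, hx, hy, hz, hn⟩ := exists_K2 hU
  obtain ⟨r1, r2, -, r4⟩ := rels hU hD
  have r5 : (𝑧 * (𝑡 * 𝑥 ^ 2 * 𝑡⁻¹)) ^ (2 * 1 + 1) = 1 := by
    simpa [Rels, PG.ext, HNRep.gs, letG, pow_succ, mul_assoc] using HNRep.rels_of (card_HN hU hD).2 (ws := [])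
      (R := [([4, 6, 0, 0, 7, 4, 6, 0, 0, 7, 4, 6, 0, 0, 7], [])]) (by decide +kernel)
  have hS := der_disj hs hc hM
  obtain ⟨X, hX, eX⟩ := exists_der hs hp hx
  obtain ⟨Y, hY, eY⟩ := exists_der hs hp hy
  have hC : (X ^ 2) ^ 2 = 1 := disjoint_def.1 hS (pow_mem (pow_mem hX 2) 2) (by
    rw [MonoidHom.mem_ker, map_pow, map_pow, eX, x4 hU])
  have hC' : (X ^ 2)⁻¹ = X ^ 2 := inv_eq_of_mul_eq_one_right ((pow_two _).symm.trans hC)
  obtain ⟨T, eT, hT⟩ : ∃ T, τ T = 𝑡 ∧ ⁅X ^ 2, T ^ 2⁆ = T := by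
    obtain ⟨T, eT⟩ := hs 𝑡
    have e : τ ⁅X ^ 2, T ^ 2⁆ = 𝑡 := by
      rw [map_commutatorElement, map_pow, map_pow, eX, eT, commutatorElement_def, ← conj_pow, r4, inv_pow, ← mul_inv_rev,
        inv_eq_iff_mul_eq_one, ← pow_add, ← pow_succ, t5]
    exact ⟨_, e, Schur.commElt_eq_of_map_eq hc rfl (by rw [map_pow, map_pow, e, eT])⟩
  have h1 : X ^ 2 * T * (X ^ 2)⁻¹ = T⁻¹ := by
    rw [← hT, commutatorElement_inv, commutatorElement_def, commutatorElement_def, hC']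
    simp only [← mul_assoc, ← pow_two (X ^ 2), hC, one_mul]
  have h2 : T ^ 5 = 1 := by
    rw [commutatorElement_def, ← conj_pow, h1, inv_pow, ← mul_inv_rev, inv_eq_iff_mul_eq_one] at hT
    rw [← hT]; group
  have h3 : X * T * X⁻¹ = T ^ 2 := eq_of_inv hc (g := X ^ 2) (n := 5) (by simp [eX, eT, r1])
    (by rw [show X ^ 2 * (X * T * X⁻¹) * (X ^ 2)⁻¹ = X * (X ^ 2 * T * (X ^ 2)⁻¹) * X⁻¹ by group, h1]; group)
    (by rw [← conj_pow, h1, inv_pow]) (by norm_num) (by rw [conj_pow, h2, mul_one, mul_inv_cancel])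
    (by rw [← pow_mul, mul_comm, pow_mul, h2, one_pow])
  have h4 : Commute T Y := commute_of_coprime hc (m := 5) (n := 6) (by rw [eT, eY]; exact r2.symm) (eT ▸ t5)
    (eY ▸ rel_of (r := HN.y ^ 6) (by simp [HN.extra])) (by norm_num)
  obtain ⟨Z, eZ, hZ⟩ := exists_of_isConj hs (b := T * X ^ 2 * T⁻¹) (u := 𝑧) (by
    simpa [eX, eT] using isConj_of_odd (rel_of (r := HN.z ^ 2) (by simp [HN.extra]))
      (by rw [conj_pow, x4 hU, mul_one, mul_inv_cancel]) r5) (n := 2) (by rw [conj_pow, hC, mul_one, mul_inv_cancel])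
  have h5 : Z * X ^ 2 * Z⁻¹ = X ^ 2 := sec_eq hS ((mem_normalizer_iff.1 (der_norm (eZ ▸ hn)) _).1 (pow_mem hX 2))
    (pow_mem hX 2) (by simp [eX, eZ, comm_c hU (coe_z ▸ Subtype.prop _ : 𝑧 ∈ N0)])
  have h6 : τ (Z * T) ^ 3 = 1 := by rw [map_mul, eZ, eT, zt3]
  have h7 := sq_of_inv hc (g := X ^ 2 * Z) (by
    rw [show X ^ 2 * Z * (Z * T) * (X ^ 2 * Z)⁻¹ = X ^ 2 * Z ^ 2 * T * (X ^ 2)⁻¹ * (X ^ 2 * Z⁻¹ * (X ^ 2)⁻¹) by
      rw [pow_two Z]; group, hZ, mul_one, h1, mul_inv_rev Z, mul_right_inj, mul_inv_eq_iff_eq_mul, eq_inv_mul_iff_mul_eq, ← mul_assoc, h5]) h6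
  have h8 : (Z * T) ^ 3 ∈ τ.ker := (map_pow τ _ 3).trans h6
  have eZ' : τ (Z * (Z * T) ^ 3) = 𝑧 := by rw [map_mul, h8, eZ, mul_one]
  refine ⟨_, sec_sup hS (der_norm (eZ' ▸ hn)) Nat.prime_two (by rw [(comm hc h8 Z).mul_pow, hZ, h7, mul_one]; exact one_mem _)
    fun a ha e => hz (eZ' ▸ e ▸ der_le ha), [X, Y, Z * (Z * T) ^ 3], [T], ?_, rfl, by simp [eX, eY, eZ', eT, HNRep.gs], ?_⟩
  · simpa only [List.forall_mem_cons, List.not_mem_nil, false_imp_iff, implies_true, and_true] using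
      ⟨mem_sup_left hX, mem_sup_left hY, mem_sup_right (mem_zpowers _)⟩
  · have h9 : X⁻¹ * T * X * T ^ 2 = 1 := by
      rw [show X⁻¹ * T * X * T ^ 2 = X⁻¹ * (T * (X * T * X⁻¹) ^ 2) * X by rw [conj_pow]; group, h3, ← pow_mul,
        ← pow_succ', h2, mul_one, inv_mul_cancel]
    have h10 : (Z * (Z * T) ^ 3 * T) ^ 3 = 1 := by rw [mul_pow_ker hc h8, ← pow_succ', pow_mul _ 2 2, h7, one_pow]
    simpa [HN.extra, HNRep.ix, h2, h9, h10, commutatorElement_def] using h4.inv_inv.commutator_eq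

end CL.HNN0
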