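/-
3-transpositions which are locally a line.
-/
import Cfsg.Agent.Spor.TT1
import Cfsg.Agent.Chev.CoxA
import Cfsg.Agent.Grp.Cores

set_option autoImplicit false
set_option linter.unusedVariables false
set_option linter.unusedSectionVars false

namespace CL.TT

open Cfsg Subgroup Equiv

variable {G : Type*} [Group G] {D : Set G} {a a' b c c' d d' e u u' v w x y : G}

/-- The members other than `d` commuting with `d`. -/
def Nb (D : Set G) (d : G) : Set G := {y | y ∈ D ∧ y ≠ d ∧ Commute d y}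

/-- A conjugation-invariant set of 3-transpositions which is locally `Sym(3)`. -/
structure Loc3 (D : Set G) : Prop where
  tt : IsThreeTranspositionSet D
  conj : ∀ g : G, ∀ d ∈ D, g * d * g⁻¹ ∈ D
  loc : ∀ d ∈ D, Nonempty (closure (Nb D d) ≃* Perm (Fin 3))

theorem nb_symm (hd : d ∈ D) (h : x ∈ Nb D d) : d ∈ Nb D x := ⟨hd, h.2.1.symm, h.2.2.symm⟩

theorem perm3_center (z : Perm (Fin 3)) (h : ∀ g, z * g = g * z) : z = 1 := by revert z; decide

namespace Loc3

variable (h : Loc3 D)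
include h

theorem nb_conj (g : G) (hx : x ∈ Nb D d) : g * x * g⁻¹ ∈ Nb D (g * d * g⁻¹) :=
  ⟨h.conj g x hx.1, fun e => hx.2.1 (by simpa using e), (commute_conj_iff g d x).2 hx.2.2⟩

theorem exists_emb (hd : d ∈ D) : ∃ f : G → Perm (Fin 3), (∀ x ∈ Nb D d, f x * f x = 1 ∧ f x ≠ 1) ∧
    (∀ x ∈ closure (Nb D d), ∀ y ∈ closure (Nb D d), f (x * y) = f x * f y) ∧
    ∀ x ∈ closure (Nb D d), ∀ y ∈ closure (Nb D d), f x = f y → x = y := by
  classical
  obtain ⟨φ⟩ := h.loc d hd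
  refine ⟨fun g => if hg : g ∈ closure (Nb D d) then φ ⟨g, hg⟩ else 1, fun x hx => ?_, fun x hx y hy => ?_,
    fun x hx y hy => ?_⟩
  · have hx' : x ∈ closure (Nb D d) := subset_closure hx
    simp only [dif_pos hx', ← map_mul, ne_eq, EmbeddingLike.map_eq_one_iff, Subtype.ext_iff]
    exact ⟨mul_self h.tt hx.1, ne_one h.tt hx.1⟩
  · simp only [dif_pos hx, dif_pos hy, dif_pos (mul_mem hx hy), ← map_mul]; rfl
  · simp only [dif_pos hx, dif_pos hy]
    exact fun e => congrArg Subtype.val (φ.injective e)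

theorem eq_of_comm (hd : d ∈ D) (hx : x ∈ Nb D d) (hy : y ∈ Nb D d) (hc : Commute x y) : x = y := by
  obtain ⟨f, h1, h2, h3⟩ := h.exists_emb hd
  have key : ∀ s t : Perm (Fin 3), s * s = 1 ∧ s ≠ 1 → t * t = 1 ∧ t ≠ 1 → s * t = t * s → s = t := by decide
  have hx' := subset_closure hx
  have hy' := subset_closure hy
  exact h3 x hx' y hy' (key _ _ (h1 x hx) (h1 y hy) (by rw [← h2 x hx' y hy', hc.eq, h2 y hy' x hx']))

theorem cases (hd : d ∈ D) (hx : x ∈ Nb D d) (hy : y ∈ Nb D d) (hxy : x ≠ y) (hw : w ∈ Nb D d) :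
    w = x ∨ w = y ∨ w = x * y * x := by
  obtain ⟨f, h1, h2, h3⟩ := h.exists_emb hd
  have key : ∀ s t r : Perm (Fin 3), s * s = 1 ∧ s ≠ 1 → t * t = 1 ∧ t ≠ 1 → r * r = 1 ∧ r ≠ 1 → s ≠ t →
      r = s ∨ r = t ∨ r = s * t * s := by set_option synthInstance.maxSize 1000 in decide
  have hx' := subset_closure hx
  have hy' := subset_closure hy
  have hw' := subset_closure hw
  refine (key _ _ _ (h1 x hx) (h1 y hy) (h1 w hw) fun e => hxy (h3 x hx' y hy' e)).imp (h3 w hw' x hx')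
    (Or.imp (h3 w hw' y hy') fun e => h3 w hw' _ (mul_mem (mul_mem hx' hy') hx') ?_)
  rw [e, h2 _ (mul_mem hx' hy') x hx', h2 x hx' y hy']

theorem mul_cases (hd : d ∈ D) (ha : a ∈ Nb D d) (ha' : a' ∈ Nb D d) (hc : c ∈ Nb D d) (hc' : c' ∈ Nb D d)
    (h4 : a ≠ a') (h5 : c ≠ c') : c * c' = a * a' ∨ c * c' = a' * a := by
  obtain ⟨f, h1, h2, h3⟩ := h.exists_emb hd
  have key : ∀ s t : Perm (Fin 3), s * s = 1 ∧ s ≠ 1 → t * t = 1 ∧ t ≠ 1 → s ≠ t → ∀ r q : Perm (Fin 3),
      r * r = 1 ∧ r ≠ 1 → q * q = 1 ∧ q ≠ 1 → r ≠ q → r * q = s * t ∨ r * q = t * s := by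
    set_option synthInstance.maxSize 1000 in decide
  have k1 := subset_closure ha
  have k2 := subset_closure ha'
  have k3 := subset_closure hc
  have k4 := subset_closure hc'
  refine (key _ _ (h1 a ha) (h1 a' ha') (fun e => h4 (h3 a k1 a' k2 e)) _ _ (h1 c hc) (h1 c' hc')
    fun e => h5 (h3 c k3 c' k4 e)).imp (fun e => h3 _ (mul_mem k3 k4) _ (mul_mem k1 k2) ?_)
      fun e => h3 _ (mul_mem k3 k4) _ (mul_mem k2 k1) ?_
  · rw [h2 c k3 c' k4, h2 a k1 a' k2, e]
  · rw [h2 c k3 c' k4, h2 a' k2 a k1, e]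

theorem exists_ne (hd : d ∈ D) (x : G) : ∃ y ∈ Nb D d, y ≠ x := by
  by_contra! h1
  obtain ⟨φ⟩ := h.loc d hd
  have h2 : ∀ s t : closure (Nb D d), Commute (s : G) t := fun s t =>
    commute_of_mem_closure (fun a ha => (commute_of_mem_closure (fun b hb => by rw [h1 a ha, h1 b hb]) t.2).symm) s.2
  have h3 : φ.symm (swap 0 1) * φ.symm (swap 1 2) = φ.symm (swap 1 2) * φ.symm (swap 0 1) := Subtype.ext (h2 _ _)
  rw [← map_mul, ← map_mul] at h3
  exact absurd (φ.symm.injective h3) (by decide)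

theorem string (hu : u ∈ D) (hv : v ∈ Nb D u) (ha : a ∈ D) (h1 : ¬ Commute a u) (h2 : ¬ Commute a v) :
    v * u * a * (v * u)⁻¹ ∈ Nb D a := by
  refine ⟨h.conj _ a ha, fun e => h2 (commute_of_commute_mul h.tt hv.1 hu ha hv.2.1 hv.2.2.symm
    (mul_inv_eq_iff_eq_mul.1 e).symm), ?_⟩
  have := string_commute' (mul_self h.tt hu) (mul_self h.tt ha) (mul_self h.tt hv.1) hv.2.2
    (braid h.tt hu ha fun e => h1 e.symm) (braid h.tt ha hv.1 h2)
  simpa only [mul_inv_rev, inv_eq h.tt hu, inv_eq h.tt hv.1, mul_assoc] using this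

theorem sym5 (hd : d ∈ D) (hx : x ∈ Nb D d) (hy : y ∈ Nb D d) (hb : b ∈ Nb D y) (hbx : ¬ Commute b x) :
    Nonempty (closure D ≃* Perm (Fin 5)) := by
  have hbd : b ≠ d := by rintro rfl; exact hbx hx.2.2
  have hxy : x ≠ y := by rintro rfl; exact hbx hb.2.2.symm
  have h1 : ¬ Commute d b := fun e => hbd (h.eq_of_comm hy.1 (nb_symm hd hy) hb e).symm
  have h2 : ¬ Commute x y := fun e => hxy (h.eq_of_comm hd hx hy e)
  have sq : ∀ {p q : G}, p ∈ D → q ∈ D → Commute p q → (p * q) ^ 2 = 1 := fun hp hq e => by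
    rw [e.mul_pow, pow_two, pow_two, mul_self h.tt hp, mul_self h.tt hq, one_mul]
  obtain ⟨cs, hcs⟩ := CL.Cox.exists_coxeterSystem_perm 4
  have hl : (CoxeterMatrix.A 4).IsLiftable ![d, b, x, y] := by
    intro i j
    fin_cases i <;> fin_cases j
    exacts [(pow_one _).trans (mul_self h.tt hd), cube h.tt hd hb.1 h1, sq hd hx.1 hx.2.2, sq hd hy.1 hy.2.2,
      cube h.tt hb.1 hd fun e => h1 e.symm, (pow_one _).trans (mul_self h.tt hb.1), cube h.tt hb.1 hx.1 hbx,
      sq hb.1 hy.1 hb.2.2.symm, sq hx.1 hd hx.2.2.symm, cube h.tt hx.1 hb.1 fun e => hbx e.symm,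
      (pow_one _).trans (mul_self h.tt hx.1), cube h.tt hx.1 hy.1 h2, sq hy.1 hd hy.2.2.symm, sq hy.1 hb.1 hb.2.2,
      cube h.tt hy.1 hx.1 fun e => h2 e.symm, (pow_one _).trans (mul_self h.tt hy.1)]
  set φ : Perm (Fin 5) →* G := cs.lift ⟨_, hl⟩
  have e0 : φ (swap 0 1) = d := (congrArg _ (hcs 0).symm).trans (cs.lift_apply_simple hl 0)
  have e1 : φ (swap 1 2) = b := (congrArg _ (hcs 1).symm).trans (cs.lift_apply_simple hl 1)
  have e2 : φ (swap 2 3) = x := (congrArg _ (hcs 2).symm).trans (cs.lift_apply_simple hl 2)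
  have e3 : φ (swap 3 4) = y := (congrArg _ (hcs 3).symm).trans (cs.lift_apply_simple hl 3)
  have hi : Function.Injective φ := by
    rw [← MonoidHom.ker_eq_bot_iff]
    by_contra h3
    have h4 := Perm.alternatingGroup_le_of_normal (N := φ.ker) (by simp) ((nontrivial_iff_ne_bot _).2 h3)
      (Perm.mem_alternatingGroup.2 (show Perm.sign (swap (0 : Fin 5) 1 * swap 2 3) = 1 by decide))
    rw [MonoidHom.mem_ker, map_mul, e0, e2, mul_eq_one_iff_eq_inv, inv_eq h.tt hx.1] at h4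
    exact hx.2.1 h4.symm
  have hD : ∀ e ∈ D, e ∈ φ.range := by
    intro e he
    by_contra h3
    have h4 : ∀ g, ¬ Commute e (φ g * d * (φ g)⁻¹) := fun g hc => h3 (by
      have h5 : Commute d ((φ g)⁻¹ * e * (φ g)⁻¹⁻¹) := by
        simpa [mul_assoc] using ((commute_conj_iff (φ g)⁻¹ _ _).2 hc).symm
      have h6 : (φ g)⁻¹ * e * (φ g)⁻¹⁻¹ ∈ φ.range := by
        by_cases h7 : (φ g)⁻¹ * e * (φ g)⁻¹⁻¹ = d
        · exact ⟨_, e0.trans h7.symm⟩
        rcases h.cases hd hx hy hxy ⟨h.conj _ e he, h7, h5⟩ with h8 | h8 | h8 <;> rw [h8]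
        exacts [⟨_, e2⟩, ⟨_, e3⟩, mul_mem (mul_mem ⟨_, e2⟩ ⟨_, e3⟩) ⟨_, e2⟩]
      simpa [mul_assoc] using mul_mem (mul_mem (φ.mem_range.2 ⟨g, rfl⟩) h6) (inv_mem (φ.mem_range.2 ⟨g, rfl⟩)))
    have h5 : ∀ g, φ (g * (swap 2 3 * swap 0 1) * g⁻¹) * e * (φ (g * (swap 2 3 * swap 0 1) * g⁻¹))⁻¹ ∈ Nb D e := by
      intro g
      have := h.string (h.conj (φ g) d hd) (h.nb_conj (φ g) hx) he (h4 g) (by
        have := h4 (g * (swap 0 2 * swap 1 3))
        rwa [← e0, ← map_inv, ← map_mul, ← map_mul, show g * (swap 0 2 * swap 1 3) * swap 0 1 *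
          (g * (swap 0 2 * swap 1 3))⁻¹ = g * swap 2 3 * g⁻¹ by
            rw [show swap (2 : Fin 5) 3 = swap 0 2 * swap 1 3 * swap 0 1 * (swap 0 2 * swap 1 3)⁻¹ by decide]; group,
          map_mul, map_mul, map_inv, e2] at this)
      rwa [conj_mul, ← e0, ← e2, ← map_mul, ← map_inv φ g, ← map_mul, ← map_mul] at this
    have k1 := h5 1
    have k2 := h5 (swap 1 2)
    have k3 := h5 (swap 1 3)
    rw [show swap (1 : Fin 5) 3 * (swap 2 3 * swap 0 1) * (swap 1 3)⁻¹ = 1 * (swap 2 3 * swap 0 1) * 1⁻¹ *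
      (swap 1 2 * (swap 2 3 * swap 0 1) * (swap 1 2)⁻¹) by decide, map_mul] at k3
    generalize φ (1 * (swap 2 3 * swap 0 1) * 1⁻¹) = p at *
    generalize φ (swap 1 2 * (swap 2 3 * swap 0 1) * (swap 1 2)⁻¹) = q at *
    have := h.eq_of_comm he k1 k3 (by simpa only [mul_inv_rev, mul_assoc] using (commute_conj_iff p _ _).2 k2.2.2)
    exact k2.2.1 (by simpa [mul_assoc] using congrArg (fun z => p⁻¹ * z * p) this.symm)
  have e : φ.range = closure D := by
    refine le_antisymm ?_ ((closure_le _).2 hD)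
    rw [MonoidHom.range_eq_map, ← cs.subgroup_closure_range_simple, MonoidHom.map_closure]
    refine closure_mono ?_
    rintro _ ⟨_, ⟨i, rfl⟩, rfl⟩
    rw [cs.lift_apply_simple hl i]
    fin_cases i
    exacts [hd, hb.1, hx.1, hy.1]
  exact ⟨(MulEquiv.subgroupCongr e.symm).trans (MonoidHom.ofInjective hi).symm⟩

section A

variable (hA : ∀ d ∈ D, ∀ x ∈ Nb D d, ∀ y ∈ Nb D d, ∀ b ∈ Nb D y, Commute b x)
include hA

theorem nb_cj (hv : v ∈ D) (hu : u ∈ Nb D v) (hu' : u' ∈ Nb D v) (hb : b ∈ D) (ha : a ∈ Nb D b) :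
    u * u' * a * (u * u')⁻¹ ∈ Nb D b := by
  have k : ∀ p ∈ Nb D v, Commute a p → a ≠ p → u * u' * a * (u * u')⁻¹ ∈ Nb D b := fun p hp h1 h2 => by
    have h3 : a ∈ Nb D p := ⟨ha.1, h2, h1.symm⟩
    rwa [((hA v hv u hu p hp a h3).mul_right (hA v hv u' hu' p hp a h3)).symm.eq, mul_inv_cancel_right]
  by_cases h1 : Commute a v
  · by_cases h2 : a = v
    · exact k u hu (h2 ▸ hu.2.2) (h2 ▸ hu.2.1.symm)
    have h3 : a ∈ Nb D v := ⟨ha.1, h2, h1.symm⟩
    have h4 := h.nb_conj (u * u') h3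
    rw [(hu.2.2.mul_right hu'.2.2).symm.eq, mul_inv_cancel_right] at h4
    refine ⟨h4.1, fun e => ?_, (hA a ha.1 b (nb_symm hb ha) v (nb_symm hv h3) _ h4).symm⟩
    exact ha.2.1 (h.eq_of_comm hv h3 (e ▸ h4) ha.2.2.symm)
  by_contra h2
  have h3 : ∀ p ∈ Nb D v, ¬ Commute a p := fun p hp e => h2 (k p hp e (by rintro rfl; exact h1 hp.2.2.symm))
  have h4 := h.string hu'.1 (nb_symm hv hu') ha.1 (h3 u' hu') h1
  have hvv : Commute (v * u') v := (Commute.refl v).mul_left hu'.2.2.symm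
  have h5 := h.string hv hu h4.1 (fun e => h1 ((commute_conj_left_iff hvv).1 e)) fun e =>
    h3 ((v * u')⁻¹ * u * (v * u')⁻¹⁻¹) (by
      simpa only [hvv.inv_left.eq, mul_inv_cancel_right] using h.nb_conj (v * u')⁻¹ hu) (by
      have := (commute_conj_iff (v * u')⁻¹ _ _).2 e
      rwa [show (v * u')⁻¹ * (v * u' * a * (v * u')⁻¹) * (v * u')⁻¹⁻¹ = a by group] at this)
  have e : u * v * (v * u' * a * (v * u')⁻¹) * (u * v)⁻¹ = u * u' * a * (u * u')⁻¹ := by
    simp only [mul_assoc, mul_inv_rev, inv_eq h.tt hv, mul_mul_self h.tt hv]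
  rw [e] at h5
  refine h2 ⟨h5.1, fun e => h5.2.1 ?_, (hA a ha.1 b (nb_symm hb ha) _ h4 _ h5).symm⟩
  rw [e] at h5 ⊢
  exact h.eq_of_comm ha.1 (nb_symm hb ha) h4 h5.2.2.symm

omit hA in
theorem cube' (hv : v ∈ D) (hu : u ∈ Nb D v) (hu' : u' ∈ Nb D v) : (u * u') ^ 3 = 1 := by
  by_cases h1 : Commute u u'
  · rw [h.eq_of_comm hv hu hu' h1, mul_self h.tt hu'.1, one_pow]
  · exact cube h.tt hu.1 hu'.1 h1

theorem comm_mul (hv : v ∈ D) (hu : u ∈ Nb D v) (hu' : u' ∈ Nb D v) (hb : b ∈ D) (ha : a ∈ Nb D b)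
    (ha' : a' ∈ Nb D b) : Commute (u * u') (a * a') := by
  by_cases h1 : a = a'
  · rw [h1, mul_self h.tt ha'.1]; exact Commute.one_right _
  have h2 := h.mul_cases hb ha ha' (h.nb_cj hA hv hu hu' hb ha) (h.nb_cj hA hv hu hu' hb ha') h1 (by simpa using h1)
  have h3 := h.cube' hv hu hu'
  generalize u * u' = t at *
  rw [conj_mul] at h2
  rcases h2 with h2 | h2
  · exact mul_inv_eq_iff_eq_mul.1 h2
  have h4 : a' * a = (a * a')⁻¹ := by rw [mul_inv_rev, inv_eq h.tt ha.1, inv_eq h.tt ha'.1]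
  rw [h4] at h2
  generalize a * a' = s at *
  have h5 : Commute (t * t) s := by
    refine mul_inv_eq_iff_eq_mul.1 ?_
    rw [show t * t * s * (t * t)⁻¹ = t * (t * s * t⁻¹) * t⁻¹ by group, h2, ← conj_inv, h2, inv_inv]
  simpa only [show t * t * (t * t) = t ^ 3 * t by simp only [pow_succ, pow_zero, one_mul, mul_assoc], h3, one_mul]
    using h5.mul_left h5

theorem mem_or [Finite G] (hO : ∀ d ∈ D, Nat.card (pCore 3 (centralizer ({d} : Set G))) = 3) (hd : d ∈ D)
    (hx : x ∈ Nb D d) (he : e ∈ D) : e ∈ Nb D d ∨ e ∈ Nb D x := by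
  by_contra! h0
  have hde : ¬ Commute d e := fun h1 => h0.1 ⟨he, by rintro rfl; exact h0.2 (nb_symm he hx), h1⟩
  have hxe : ¬ Commute x e := fun h1 => h0.2 ⟨he, by rintro rfl; exact h0.1 hx, h1⟩
  set T := {t : G | ∃ v ∈ D, ∃ u ∈ Nb D v, ∃ u' ∈ Nb D v, t = u * u'}
  have hT : ∀ g, ∀ t ∈ T, g * t * g⁻¹ ∈ T := by
    rintro g _ ⟨v, hv, u, hu, u', hu', rfl⟩
    exact ⟨_, h.conj g v hv, _, h.nb_conj g hu, _, h.nb_conj g hu', (conj_mul).symm⟩
  have hc : ∀ s ∈ closure T, ∀ t ∈ closure T, Commute s t := fun s hs t ht =>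
    commute_of_mem_closure (fun a ha => (commute_of_mem_closure (fun b hb => by
      obtain ⟨v, hv, u, hu, u', hu', rfl⟩ := ha
      obtain ⟨v', hv', p, hp, p', hp', rfl⟩ := hb
      exact h.comm_mul hA hv' hp hp' hv hu hu') ht).symm) hs
  have h3 : ∀ s ∈ closure T, s ^ 3 = 1 := fun s hs => by
    induction hs using closure_induction with
    | mem t ht => obtain ⟨v, hv, u, hu, u', hu', rfl⟩ := ht; exact h.cube' hv hu hu'
    | one => exact one_pow _
    | mul _ _ k1 k2 k3 k4 => rw [(hc _ k1 _ k2).mul_pow, k3, k4, one_mul]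
    | inv _ _ k => rw [inv_pow, k, inv_one]
  have hN : (closure T).Normal := ⟨fun n hn g => by
    induction hn using closure_induction with
    | mem t ht => exact subset_closure (hT g t ht)
    | one => simp
    | mul _ _ _ _ k1 k2 => rw [← conj_mul]; exact mul_mem k1 k2
    | inv _ _ k => rw [← conj_inv]; exact inv_mem k⟩
  have h4 : ∀ s ∈ closure T, Commute d s → x * s * x = s⁻¹ := fun s hs hds => by
    obtain ⟨y, hy, hyx⟩ := h.exists_ne hd x
    have k : (closure T).subgroupOf (centralizer {d}) ≤ pCore 3 _ :=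
      CL.Grp.le_pCore fun g => ⟨1, Subtype.ext (Subtype.ext (by simpa using h3 _ g.2))⟩
    have : Fact (Nat.Prime 3) := ⟨Nat.prime_three⟩
    obtain ⟨i, hi⟩ := mem_zpowers_of_prime_card (hO d hd)
      (g := ⟨⟨x * y, mem_centralizer_singleton_iff.2 (hx.2.2.mul_right hy.2.2).symm⟩,
        k (subset_closure ⟨d, hd, x, hx, y, hy, rfl⟩)⟩) (g' := ⟨⟨s, mem_centralizer_singleton_iff.2 hds.symm⟩, k hs⟩)
      fun e => hyx (by
        have : x * y = 1 := congrArg (fun z => ((z : pCore 3 (centralizer ({d} : Set G))) : G)) e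
        rw [eq_inv_of_mul_eq_one_right this, inv_eq h.tt hx.1])
    obtain rfl : (x * y) ^ i = s := congrArg (fun z => ((z : pCore 3 (centralizer ({d} : Set G))) : G)) hi
    nth_rewrite 3 [← inv_eq h.tt hx.1]
    rw [← conj_zpow, ← inv_zpow, mul_inv_rev, inv_eq h.tt hx.1, inv_eq h.tt hy.1, ← mul_assoc,
      mul_self h.tt hx.1, one_mul]
  obtain ⟨d', hd', hdd⟩ := h.exists_ne hx.1 d
  have hdx := nb_symm hd hx
  have ht : d * d' ∈ T := ⟨x, hx.1, d, hdx, d', hd', rfl⟩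
  have hd2 := mul_self h.tt hd
  have hx2 := mul_self h.tt hx.1
  have he2 := mul_self h.tt he
  have htd : d * (d * d') * d = (d * d')⁻¹ := by
    rw [mul_inv_rev, inv_eq h.tt hd, inv_eq h.tt hd'.1, mul_mul_self h.tt hd]
  have htx : Commute x (d * d') := hdx.2.2.mul_right hd'.2.2
  have ht1 : d * d' ≠ 1 := fun e => hdd (by rw [eq_inv_of_mul_eq_one_right e, inv_eq h.tt hd])
  have hw := hT e _ ht
  obtain ⟨c, hc1, hc2⟩ : ∃ c ∈ Nb D x, e * (d * d') * e⁻¹ * d * (e * (d * d') * e⁻¹)⁻¹ = c := by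
    obtain ⟨v, hv, u, hu, u', hu', e1⟩ := hw
    exact ⟨_, e1 ▸ h.nb_cj hA hv hu hu' hx.1 hdx, rfl⟩
  have b1 := braid h.tt hd he hde
  have b2 := braid h.tt hx.1 he hxe
  have t3 := h3 _ (subset_closure ht)
  rw [inv_eq h.tt he] at hw hc2
  generalize d * d' = t at *
  have k1 : d * x * (e * t * e) * (d * x) = (e * t * e)⁻¹ := by
    have w3 := h3 _ (subset_closure hw)
    have hw' := subset_closure (hT d _ hw)
    rw [inv_eq h.tt hd] at hw'
    have hww := hc _ (subset_closure hw) _ hw'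
    have j1 := h4 _ (mul_mem (subset_closure hw) hw') (by
      change d * _ = _ * d
      nth_rewrite 1 [hww.eq]
      simp only [mul_assoc, mul_mul_self h.tt hd, hd2, mul_one])
    generalize e * t * e = w at *
    have j2 : w * (d * w * d)⁻¹ = c * d := by rw [← hc2]; simp [mul_assoc, inv_eq h.tt hd]
    have j3 : d * x * (w * (d * w * d)) * (d * x) = (w * (d * w * d))⁻¹ := by
      rw [show d * x * (w * (d * w * d)) * (d * x) = d * (x * (w * (d * w * d)) * x) * d by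
        simp only [mul_assoc, hdx.2.2.eq], j1]
      nth_rewrite 2 [hww.eq]
      simp [mul_assoc, inv_eq h.tt hd, mul_mul_self h.tt hd]
    have j4 : d * x * (w * (d * w * d)⁻¹) * (d * x) = (w * (d * w * d)⁻¹)⁻¹ := by
      rw [j2, mul_inv_rev, inv_eq h.tt hd, inv_eq h.tt hc1.1]
      simp only [mul_assoc, hc1.2.2.left_comm, mul_mul_self h.tt hd, hx2, mul_one]
    have j5 : d * x * (d * x) = 1 := by
      nth_rewrite 1 [hx.2.2.eq]
      simp only [mul_assoc, mul_mul_self h.tt hd, hx2]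
    generalize d * w * d = w' at *
    generalize d * x = j at *
    have j6 : w = w * w' * (w * w'⁻¹) * (w * w' * (w * w'⁻¹)) := by
      rw [mul_assoc w w', hww.symm.left_comm, mul_inv_cancel, mul_one, ← mul_assoc, ← pow_three', w3, one_mul]
    have j7 : ∀ p q : G, j * (p * q) * j = j * p * j * (j * q * j) := fun p q => by
      simp only [mul_assoc]; rw [← mul_assoc j j, j5, one_mul]
    have j8 : Commute (w * w') (w * w'⁻¹) :=
      ((Commute.refl w).mul_right hww.inv_right).mul_left (hww.symm.mul_right (Commute.refl w').inv_right)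
    nth_rewrite 1 [j6]
    rw [j7, j7, j3, j4, ← mul_inv_rev, ← mul_inv_rev, ← j8.eq, ← j6]
  have k2 : e * d * x * e * t * (e * x * d * e) = t⁻¹ := by
    have := congrArg (fun z => e * z * e) k1
    simpa [mul_assoc, hx.2.2.eq, hx.2.2.left_comm, inv_eq h.tt he, mul_mul_self h.tt he, he2] using this
  have k3 : d * x * (e * d * x * e) = d * (e * d * x * e) * d := by
    calc d * x * (e * d * x * e) = d * (x * e * x) * d * e := by simp only [mul_assoc, hx.2.2.left_comm]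
      _ = d * e * x * (d * e * d) := by rw [b2, b1]; simp only [mul_assoc]
      _ = _ := by simp only [mul_assoc, hx.2.2.left_comm]
  have k4 : e * x * d * e * (x * d) = d * (e * x * d * e) * d := by
    have := congrArg (·⁻¹) k3
    simpa only [mul_inv_rev, inv_eq h.tt hd, inv_eq h.tt he, inv_eq h.tt hx.1, mul_assoc] using this
  have k5 : t = t⁻¹ := by
    calc t = d * x * (e * d * x * e * t * (e * x * d * e)) * (x * d) := by
          rw [k2, mul_assoc d x, htx.inv_right.eq, ← htd]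
          simp only [mul_assoc, mul_mul_self h.tt hx.1, mul_mul_self h.tt hd, hd2, mul_one]
      _ = d * x * (e * d * x * e) * t * (e * x * d * e * (x * d)) := by simp only [mul_assoc]
      _ = d * (e * d * x * e * (d * t * d) * (e * x * d * e)) * d := by rw [k3, k4]; simp only [mul_assoc]
      _ = d * (e * d * x * e * t * (e * x * d * e))⁻¹ * d := by
          rw [htd]; simp only [mul_inv_rev, inv_eq h.tt hd, inv_eq h.tt he, inv_eq h.tt hx.1, mul_assoc]
      _ = _ := by rw [k2, inv_inv, htd]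
  exact ht1 (by rw [pow_three] at t3; nth_rewrite 2 [k5] at t3; simpa using t3)

theorem prod [Finite G] (hO : ∀ d ∈ D, Nat.card (pCore 3 (centralizer ({d} : Set G))) = 3) (hd : d ∈ D) :
    Nonempty (closure D ≃* Perm (Fin 3) × Perm (Fin 3)) := by
  obtain ⟨x, hx, -⟩ := h.exists_ne hd 1
  obtain ⟨φ⟩ := h.loc d hd
  obtain ⟨ψ⟩ := h.loc x hx.1
  have hc : ∀ (s : closure (Nb D d)) (t : closure (Nb D x)), Commute (s : G) t := fun s t =>
    commute_of_mem_closure (fun a ha => (commute_of_mem_closure (fun b hb => hA d hd a ha x hx b hb) t.2).symm) s.2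
  set f := (closure (Nb D d)).subtype.noncommCoprod (closure (Nb D x)).subtype hc
  have hi : Function.Injective f := (injective_iff_map_eq_one f).2 fun p hp => by
    have h1 : (p.1 : G) = p.2⁻¹ := eq_inv_of_mul_eq_one_left hp
    have h2 : p.1 = 1 := φ.injective ((perm3_center _ fun g => by
      obtain ⟨g, rfl⟩ := φ.surjective g
      rw [← map_mul, ← map_mul]
      exact congrArg φ (Subtype.ext (by simpa only [coe_mul, h1, coe_inv] using (hc g p.2).inv_right.symm.eq))).trans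
        (map_one φ).symm)
    exact Prod.ext h2 (Subtype.ext (by simpa [h2] using h1.symm))
  have e : f.range = closure D := by
    refine le_antisymm ?_ ((closure_le _).2 fun e he => ?_)
    · rintro _ ⟨p, rfl⟩
      exact mul_mem (closure_mono (fun _ h => h.1) p.1.2) (closure_mono (fun _ h => h.1) p.2.2)
    · rcases h.mem_or hA hO hd hx he with h1 | h1
      exacts [⟨(⟨e, subset_closure h1⟩, 1), mul_one e⟩, ⟨(1, ⟨e, subset_closure h1⟩), one_mul e⟩]
  exact ⟨((MulEquiv.subgroupCongr e.symm).trans (MonoidHom.ofInjective hi).symm).trans (φ.prodCongr ψ)⟩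

end A

end Loc3

end CL.TT
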