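/-
Fischer spaces: the line system of a set of 3-transpositions, and the involutions of a Fischer space.
-/
import Cfsg.Agent.Spor.TT2

set_option autoImplicit false

open Cfsg Cfsg.LineSystem

namespace CL.FSp

/-! ### The two planes -/

/-- `M` is described by the operation `op` on an index type. -/
structure Plane {Y Y' : Type*} (M : Set (Set Y)) (P : Y' → Y) (op : Y' → Y' → Y') : Prop where
  bij : Function.Bijective P
  line : ∀ m, m ∈ M ↔ ∃ u v, op v u ≠ u ∧ m = {P u, P v, P (op v u)}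
  third : ∀ u v a b c, op v u ≠ u → a ≠ b → c ≠ a → c ≠ b → (a = u ∨ a = v ∨ a = op v u) →
    (b = u ∨ b = v ∨ b = op v u) → (c = u ∨ c = v ∨ c = op v u) → op a b = c
  ne : ∀ u v, op v u ≠ u → u ≠ v ∧ op v u ≠ v
  distrib : ∀ u v w, op w (op v u) = op (op w v) (op w u)
  invol : ∀ u v, op v (op v u) = u

/-- The six points of the dual affine plane. -/
def pt6 : Fin 6 → DualAffinePoint :=
  ![⟨{0, 1}, by decide⟩, ⟨{1, 2}, by decide⟩, ⟨{2, 3}, by decide⟩, ⟨{0, 2}, by decide⟩, ⟨{1, 3}, by decide⟩,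
    ⟨{0, 3}, by decide⟩]

/-- Conjugation of transpositions of four letters. -/
def op6 (v u : Fin 6) : Fin 6 :=
  ![![0, 3, 2, 1, 5, 4], ![3, 1, 4, 0, 2, 5], ![0, 4, 2, 5, 1, 3], ![1, 0, 5, 3, 4, 2], ![5, 2, 1, 3, 4, 0],
    ![4, 1, 3, 2, 0, 5]] v u

theorem plane6 : Plane dualAffinePlaneTwo pt6 op6 where
  bij := by decide
  line m := by
    have h1 : ∀ i : Fin 4, ∃ u v, op6 v u ≠ u ∧ ∀ s : DualAffinePoint,
      i ∉ s.val ↔ s = pt6 u ∨ s = pt6 v ∨ s = pt6 (op6 v u) := by decide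
    have h2 : ∀ u v, op6 v u ≠ u → ∃ i : Fin 4, ∀ s : DualAffinePoint,
      i ∉ s.val ↔ s = pt6 u ∨ s = pt6 v ∨ s = pt6 (op6 v u) := by decide
    constructor
    · rintro ⟨i, rfl⟩
      obtain ⟨u, v, h, e⟩ := h1 i
      exact ⟨u, v, h, Set.ext e⟩
    · rintro ⟨u, v, h, rfl⟩
      obtain ⟨i, e⟩ := h2 u v h
      exact ⟨i, (Set.ext e).symm⟩
  third u v a b c h h1 h2 h3 ha hb hc := by
    revert h
    rcases ha with rfl | rfl | rfl <;> rcases hb with rfl | rfl | rfl <;> rcases hc with rfl | rfl | rfl <;>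
      first | contradiction | (clear h1 h2 h3; decide +revert)
  ne := by decide
  distrib := by decide
  invol := by decide

theorem plane9 : Plane affinePlaneThree id fun v u : Fin 2 → ZMod 3 => -u - v where
  bij := Function.bijective_id
  line m := by
    have h1 : ∀ v w x : Fin 2 → ZMod 3, (∃ c : ZMod 3, x = v + c • w) ↔ x = v ∨ x = v + w ∨ x = -v - (v + w) := by
      decide
    constructor
    · rintro ⟨v, w, h, rfl⟩
      exact ⟨v, v + w, by revert v w; decide, Set.ext (h1 v w)⟩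
    · rintro ⟨u, v, h, rfl⟩
      refine ⟨u, v - u, by revert u v; decide, Set.ext fun x => ?_⟩
      rw [Set.mem_ofPred_eq, h1, add_sub_cancel]
      rfl
  third u v a b c h h1 h2 h3 ha hb hc := by
    revert h
    rcases ha with rfl | rfl | rfl <;> rcases hb with rfl | rfl | rfl <;> rcases hc with rfl | rfl | rfl <;>
      first | contradiction | (clear h1 h2 h3; decide +revert)
  ne := by decide
  distrib := by decide
  invol := by decide

/-! ### The involutions of a Fischer space -/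

section Space
variable {X : Type*} {L : Set (Set X)} {x y z : X} {l : Set X}

theorem isSubspace_span (S : Set X) : IsSubspace L (span L S) :=
  fun l hl x hx y hy hxy hxl hyl _ hz T hT => hT.2 l hl x (hx T hT) y (hy T hT) hxy hxl hyl hz

theorem subset_span (S : Set X) : S ⊆ span L S := fun _ hx _ hT => hT.1 hx

theorem span_subset {S T : Set X} (h : S ⊆ T) (hT : IsSubspace L T) : span L S ⊆ T := fun _ hx => hx T ⟨h, hT⟩

theorem lineMap_eq (hL : IsFischerSpace L) (hxy : x ≠ y) (hzx : z ≠ x) (hzy : z ≠ y) (h : ({x, y, z} : Set X) ∈ L) :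
    lineMap L x y = z := by
  have h0 : ∃ z : X, z ≠ x ∧ z ≠ y ∧ x ≠ y ∧ ({x, y, z} : Set X) ∈ L := ⟨z, hzx, hzy, hxy, h⟩
  rw [lineMap, dif_pos h0]
  obtain ⟨h1, h2, -, h3⟩ := h0.choose_spec
  have : h0.choose ∈ ({x, y, z} : Set X) := hL.1 _ h3 _ h x y hxy (by simp) (by simp) (by simp) (by simp) ▸ by simp
  simpa [h1, h2] using this

theorem lineMap_cases (x y : X) : (lineMap L x y = y ∧ ¬ ∃ z : X, z ≠ x ∧ z ≠ y ∧ x ≠ y ∧ ({x, y, z} : Set X) ∈ L) ∨
    (lineMap L x y ≠ x ∧ lineMap L x y ≠ y ∧ x ≠ y ∧ ({x, y, lineMap L x y} : Set X) ∈ L) := by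
  by_cases h0 : ∃ z : X, z ≠ x ∧ z ≠ y ∧ x ≠ y ∧ ({x, y, z} : Set X) ∈ L
  · right
    rw [lineMap, dif_pos h0]
    exact h0.choose_spec
  · exact .inl ⟨by rw [lineMap, dif_neg h0], h0⟩

theorem exists_third (hL : IsFischerSpace L) (hl : l ∈ L) (hx : x ∈ l) (hy : y ∈ l) (hxy : x ≠ y) :
    ∃ z, z ≠ x ∧ z ≠ y ∧ l = {x, y, z} := by
  obtain ⟨a, b, c, hab, hac, hbc, rfl⟩ := Set.ncard_eq_three.1 (hL.2.1 l hl)
  rcases hx with rfl | rfl | rfl <;> rcases hy with rfl | rfl | rfl <;> try contradiction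
  · exact ⟨c, hac.symm, hbc.symm, rfl⟩
  · exact ⟨b, hab.symm, hbc, by rw [Set.pair_comm]⟩
  · exact ⟨c, hbc.symm, hac.symm, Set.insert_comm _ _ _⟩
  · exact ⟨a, hab, hac, by ext; simp only [Set.mem_insert_iff, Set.mem_singleton_iff]; tauto⟩
  · exact ⟨b, hbc, hab.symm, by ext; simp only [Set.mem_insert_iff, Set.mem_singleton_iff]; tauto⟩
  · exact ⟨a, hac, hab, by ext; simp only [Set.mem_insert_iff, Set.mem_singleton_iff]; tauto⟩

theorem lineMap_self (x : X) : lineMap L x x = x := (lineMap_cases x x).elim (·.1) fun h => (h.2.2.1 rfl).elim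

theorem lineMap_invol (hL : IsFischerSpace L) (x : X) : Function.Involutive (lineMap L x) := fun y => by
  rcases lineMap_cases (L := L) x y with h | h
  · rw [h.1, h.1]
  · exact lineMap_eq hL h.1.symm h.2.2.1.symm h.2.1.symm (by rw [Set.pair_comm]; exact h.2.2.2)

theorem lineMap_comm (hL : IsFischerSpace L) (h : lineMap L x y ≠ y) : lineMap L y x = lineMap L x y := by
  obtain ⟨h1, h2, h3, h4⟩ := (lineMap_cases x y).resolve_left fun h' => h h'.1
  exact lineMap_eq hL h3.symm h2 h1 (by rw [Set.insert_comm]; exact h4)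

theorem lineMap_iso (hL : IsFischerSpace L) {σ : X ≃ X} (hσ : IsIso L L σ) (x y : X) :
    σ (lineMap L x y) = lineMap L (σ x) (σ y) := by
  rcases lineMap_cases (L := L) x y with h | h
  · rw [h.1]
    refine ((lineMap_cases _ _).resolve_right fun h' => h.2 ⟨σ.symm (lineMap L (σ x) (σ y)), ?_, ?_, ?_, ?_⟩).1.symm
    · exact fun e => h'.1 (σ.symm_apply_eq.1 e)
    · exact fun e => h'.2.1 (σ.symm_apply_eq.1 e)
    · exact fun e => h'.2.2.1 (by rw [e])
    · rw [hσ]
      simpa [Set.image_insert_eq] using h'.2.2.2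
  · refine (lineMap_eq hL (σ.injective.ne h.2.2.1) (σ.injective.ne h.1) (σ.injective.ne h.2.1) ?_).symm
    simpa [Set.image_insert_eq] using (hσ _).1 h.2.2.2

theorem image_mem_of_plane (hL : IsFischerSpace L) {S : Set X} (hS : IsSubspace L S) {Y Y' : Type*} {M : Set (Set Y)}
    {P : Y' → Y} {op : Y' → Y' → Y'} (hM : Plane M P op) (h : Isomorphic (restrict L S) M) (hx : x ∈ S) (hl : l ∈ L)
    (hlS : l ⊆ S) : lineMap L x '' l ∈ L := by
  obtain ⟨e, he⟩ := h
  let f : Y' → X := fun u => e.symm (P u)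
  have hf : Function.Injective f := Subtype.val_injective.comp (e.symm.injective.comp hM.bij.1)
  have hfS : ∀ y ∈ S, ∃ u, f u = y := fun y hy => by
    obtain ⟨u, hu⟩ := hM.bij.2 (e ⟨y, hy⟩)
    exact ⟨u, by simp [f, hu]⟩
  have h1 : ∀ u v, op v u ≠ u → ({f u, f v, f (op v u)} : Set X) ∈ L := fun u v h => by
    obtain ⟨m, hm, hmS, e1⟩ := (he {e.symm (P u), e.symm (P v), e.symm (P (op v u))}).2
      (by simpa [Set.image_insert_eq] using (hM.line _).2 ⟨u, v, h, rfl⟩)
    have := congrArg (Set.image Subtype.val) e1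
    rw [show {x : S | (x : X) ∈ m} = Subtype.val ⁻¹' m from rfl, Subtype.image_preimage_coe,
      Set.inter_eq_right.2 hmS] at this
    simpa [Set.image_insert_eq, ← this] using hm
  have h2 : ∀ m ∈ L, m ⊆ S → ∃ u v, op v u ≠ u ∧ m = {f u, f v, f (op v u)} := fun m hm hmS => by
    obtain ⟨u, v, h, e1⟩ := (hM.line _).1 ((he _).1 ⟨m, hm, hmS, rfl⟩)
    refine ⟨u, v, h, ?_⟩
    have := congrArg (Set.image fun y => (e.symm y : X)) e1
    rw [Set.image_image] at this
    simp only [Equiv.symm_apply_apply, Set.image_insert_eq, Set.image_singleton] at this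
    rwa [show {x : S | (x : X) ∈ m} = Subtype.val ⁻¹' m from rfl, Subtype.image_preimage_coe,
      Set.inter_eq_right.2 hmS] at this
  have h3 : ∀ u v, lineMap L (f v) (f u) = f (op v u) := fun u v => by
    by_cases h : op v u = u
    · rw [h]
      refine ((lineMap_cases _ _).resolve_right fun h' => ?_).1
      have hsub := hS _ h'.2.2.2 _ (e.symm (P v)).2 _ (e.symm (P u)).2 h'.2.2.1 (by simp [f]) (by simp [f])
      obtain ⟨a, b, hab, e1⟩ := h2 _ h'.2.2.2 hsub
      obtain ⟨w, hw⟩ := hfS _ (hsub (show lineMap L (f v) (f u) ∈ _ by simp))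
      rw [← hw] at e1 h'
      have h4 : ∀ c, f c ∈ ({f v, f u, f w} : Set X) → c = a ∨ c = b ∨ c = op b a := fun c hc => by
        simpa [e1, hf.eq_iff] using hc
      have := hM.third a b v u w hab (fun e => h'.2.2.1 (by rw [e])) (fun e => h'.1 (by rw [e]))
        (fun e => h'.2.1 (by rw [e])) (h4 _ (by simp)) (h4 _ (by simp)) (h4 _ (by simp))
      exact h'.2.1 (by rw [← this, h])
    · exact lineMap_eq hL (hf.ne (hM.ne u v h).1.symm) (hf.ne (hM.ne u v h).2) (hf.ne h)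
        (by rw [Set.insert_comm]; exact h1 u v h)
  obtain ⟨w, rfl⟩ := hfS x hx
  obtain ⟨u, v, h, rfl⟩ := h2 l hl hlS
  simp only [Set.image_insert_eq, Set.image_singleton, h3, hM.distrib u v w]
  exact h1 _ _ fun e => h (by rw [← hM.invol (op v u) w, hM.distrib u v w, e, hM.invol])

theorem image_mem (hL : IsFischerSpace L) (x : X) (hl : l ∈ L) : lineMap L x '' l ∈ L := by
  by_cases h : ∀ y ∈ l, lineMap L x y = y
  · rwa [Set.image_congr h, Set.image_id']
  push Not at h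
  obtain ⟨y, hy, h⟩ := h
  obtain ⟨h1, h2, h3, h4⟩ := (lineMap_cases x y).resolve_left fun h' => h h'.1
  by_cases e : l = {x, y, lineMap L x y}
  · rw [e, Set.image_insert_eq, Set.image_insert_eq, Set.image_singleton, lineMap_self, lineMap_invol hL, Set.pair_comm]
    exact h4
  have hx : x ∈ span L (l ∪ {x, y, lineMap L x y}) := subset_span _ (by simp)
  have hl' : l ⊆ span L (l ∪ {x, y, lineMap L x y}) := Set.subset_union_left.trans (subset_span _)
  rcases hL.2.2 l hl _ h4 e ⟨y, hy, by simp⟩ with h5 | h5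
  · exact image_mem_of_plane hL (isSubspace_span _) plane6 h5 hx hl hl'
  · exact image_mem_of_plane hL (isSubspace_span _) plane9 h5 hx hl hl'

theorem isIso_lineMap (hL : IsFischerSpace L) (x : X) : IsIso L L (lineMap_invol hL x).toPerm := fun l =>
  ⟨image_mem hL x, fun h => by
    have := image_mem hL x h
    rwa [Function.Involutive.coe_toPerm, (lineMap_invol hL x).leftInverse.image_image] at this⟩

end Space

/-! ### The space of a set of 3-transpositions -/

section Group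
variable {G : Type*} [Group G] {D : Set G}

/-- The line through two members. -/
def ln (x y : D) : Set D := {z : D | (z : G) = x ∨ (z : G) = y ∨ (z : G) = (y : G) * (x : G) * (y : G)⁻¹}

theorem mem_lines {x y : D} (h : ¬ Commute (x : G) y) : ln x y ∈ threeTranspositionLines D := ⟨x, y, h, rfl⟩

theorem eq_ln (hD : IsThreeTranspositionSet D) {l : Set D} (hl : l ∈ threeTranspositionLines D) {a b : D} (ha : a ∈ l)
    (hb : b ∈ l) (hab : a ≠ b) : ¬ Commute (a : G) b ∧ l = ln a b := by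
  obtain ⟨x, y, h, rfl⟩ := hl
  have hx := TT.mul_self hD x.2
  have hy := TT.mul_self hD y.2
  have hbr := TT.braid hD x.2 y.2 h
  have hab' : (a : G) ≠ b := fun e => hab (Subtype.ext e)
  have h1 : ¬ Commute (y : G) (y * x * y) := TT.not_commute_conj_left hy fun e => h e.symm
  have h2 : ¬ Commute (x : G) (y * x * y) := hbr ▸ TT.not_commute_conj_left hx h
  have e1 : (x : G) * (y * x * y) * x = y := by rw [← hbr, TT.conj_conj' hx]
  have e2 : (y : G) * (y * x * y) * y = x := TT.conj_conj' hy _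
  have e3 : (y : G) * x * y * x * (y * x * y) = y := by
    rw [← hbr, mul_assoc _ (x : G) (x : G), hx, mul_one, ← mul_assoc, ← mul_assoc, hbr, mul_assoc _ (y : G) (y : G), hy,
      mul_one, mul_assoc, hx, mul_one]
  have e4 : (y : G) * x * y * y * (y * x * y) = x := by
    rw [mul_assoc _ (y : G) (y : G), hy, mul_one, ← hbr, ← mul_assoc, ← mul_assoc, mul_assoc _ (x : G) (x : G), hx,
      mul_one, hy, one_mul]
  simp only [Set.mem_ofPred_eq, TT.inv_eq hD y.2] at ha hb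
  simp only [ln, TT.inv_eq hD y.2, TT.inv_eq hD b.2]
  rcases ha with ha | ha | ha <;> rcases hb with hb | hb | hb <;> rw [ha, hb] at hab' ⊢ <;> try contradiction
  · exact ⟨h, rfl⟩
  · exact ⟨h2, by rw [e3]; ext; simp only [Set.mem_ofPred_eq]; tauto⟩
  · exact ⟨fun e => h e.symm, by rw [hbr]; ext; simp only [Set.mem_ofPred_eq]; tauto⟩
  · exact ⟨h1, by rw [e4]; ext; simp only [Set.mem_ofPred_eq]; tauto⟩
  · exact ⟨fun e => h2 e.symm, by rw [e1]; ext; simp only [Set.mem_ofPred_eq]; tauto⟩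
  · exact ⟨fun e => h1 e.symm, by rw [e2]; ext; simp only [Set.mem_ofPred_eq]; tauto⟩

theorem isomorphic_of_plane (hD : IsThreeTranspositionSet D) {Y Y' : Type*} {M : Set (Set Y)} {P : Y' → Y}
    {op : Y' → Y' → Y'} (hM : Plane M P op) (f : Y' → D) (hf : Function.Injective f)
    (hop : ∀ u v, (f (op v u) : G) = f v * f u * (f v : G)⁻¹) {A : Set D} (hA : A ⊆ Set.range f)
    (hA' : ∀ w, f w ∈ A ∨ ∃ u v, f u ∈ A ∧ f v ∈ A ∧ op v u ≠ u ∧ op v u = w) :
    Isomorphic (restrict (threeTranspositionLines D) (span (threeTranspositionLines D) A)) M := by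
  have h1 : ∀ u v, Commute (f u : G) (f v) ↔ op v u = u := fun u v => by
    rw [← hf.eq_iff, Subtype.ext_iff, hop, mul_inv_eq_iff_eq_mul, eq_comm]
    rfl
  have h2 : ∀ u v, ln (f u) (f v) = {f u, f v, f (op v u)} := fun u v => by
    ext z
    simp [ln, Subtype.ext_iff, hop]
  have h3 : span (threeTranspositionLines D) A = Set.range f := by
    refine (span_subset hA ?_).antisymm ?_
    · rintro l hl _ ⟨u, rfl⟩ _ ⟨v, rfl⟩ huv hu hv
      rw [(eq_ln hD hl hu hv huv).2, h2]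
      rintro _ (rfl | rfl | rfl) <;> exact ⟨_, rfl⟩
    · rintro _ ⟨w, rfl⟩
      rcases hA' w with h | ⟨u, v, hu, hv, h, rfl⟩
      · exact subset_span _ h
      · refine isSubspace_span A (ln (f u) (f v)) (mem_lines (mt (h1 u v).1 h)) _ (subset_span _ hu) _
          (subset_span _ hv) (hf.ne (hM.ne u v h).1) ?_ ?_ ?_ <;> simp [h2]
  rw [h3]
  refine ⟨(Equiv.ofInjective f hf).symm.trans (Equiv.ofBijective P hM.bij), fun l => ?_⟩
  have h4 : ∀ u v, {x : Set.range f | (x : D) ∈ ln (f u) (f v)} =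
      Equiv.ofInjective f hf '' {u, v, op v u} := fun u v => by
    ext ⟨_, w, rfl⟩
    simp only [h2, Set.image_insert_eq, Set.image_singleton, Set.mem_ofPred_eq, Set.mem_insert_iff,
      Set.mem_singleton_iff, Equiv.ofInjective_apply]
    exact or_congr Subtype.mk_eq_mk.symm (or_congr Subtype.mk_eq_mk.symm Subtype.mk_eq_mk.symm)
  have h5 : ∀ u v, ((Equiv.ofInjective f hf).symm.trans (Equiv.ofBijective P hM.bij)) ''
      (Equiv.ofInjective f hf '' {u, v, op v u}) = {P u, P v, P (op v u)} := fun u v => by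
    simp [Set.image_insert_eq]
  rw [hM.line]
  constructor
  · rintro ⟨_, ⟨x, y, h, rfl⟩, hS, rfl⟩
    obtain ⟨u, rfl⟩ := hS (show x ∈ ln x y from .inl rfl)
    obtain ⟨v, rfl⟩ := hS (show y ∈ ln _ y from .inr (.inl rfl))
    exact ⟨u, v, mt (h1 u v).2 h, (congrArg _ (h4 u v)).trans (h5 u v)⟩
  · rintro ⟨u, v, h, e⟩
    refine ⟨ln (f u) (f v), ⟨_, _, mt (h1 u v).1 h, rfl⟩, ?_, ?_⟩
    · rw [h2]
      rintro _ (rfl | rfl | rfl) <;> exact ⟨_, rfl⟩
    · rw [h4]
      exact (Equiv.image_eq_iff_eq _ _ _).1 (e.trans (h5 u v).symm)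

theorem isomorphic_six (hD : IsThreeTranspositionGroup D) {a b c : D} (hab : ¬ Commute (a : G) b)
    (hac : ¬ Commute (a : G) c) (hbc : Commute (b : G) c) (hne : b ≠ c) :
    Isomorphic (restrict (threeTranspositionLines D) (span (threeTranspositionLines D) (ln a b ∪ ln a c)))
      dualAffinePlaneTwo := by
  have ha := TT.mul_self hD.1 a.2
  have hb := TT.mul_self hD.1 b.2
  have hc := TT.mul_self hD.1 c.2
  have e1 := TT.braid hD.1 a.2 b.2 hab
  have e2 := TT.braid hD.1 a.2 c.2 hac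
  let cj : D → D → D := fun x y => ⟨x * y * x, TT.IsGroup.conj_mem' hD x.2 y.2⟩
  have hcj : ∀ x y : D, cj x (cj x y) = y := fun x y => Subtype.ext (TT.conj_conj' (TT.mul_self hD.1 x.2) _)
  have hcs : ∀ x : D, cj x x = x := fun x => Subtype.ext (TT.mul_self_right hD.1 x.2 _)
  have hcd : ∀ x y z : D, cj (cj x y) z = cj x (cj y (cj x z)) := fun x y z => Subtype.ext (by simp only [cj]; group)
  have c1 : cj b a = cj a b := Subtype.ext e1.symm
  have c2 : cj c a = cj a c := Subtype.ext e2.symm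
  have c3 : cj b c = c := Subtype.ext (TT.conj_eq_self hb hbc)
  have c4 : cj c b = b := Subtype.ext (TT.conj_eq_self hc hbc.symm)
  have c5 : ∀ z, cj b (cj c z) = cj c (cj b z) := fun z => Subtype.ext (by
    simp only [cj]
    calc (b : G) * (c * z * c) * b = b * c * z * (c * b) := by group
      _ = c * b * z * (b * c) := by rw [← hbc.eq]
      _ = _ := by group)
  have c6 : cj a (cj c (cj a b)) = cj c (cj a b) := by rw [← hcd, ← c2, hcd, c4]
  let f : Fin 6 → D := ![b, a, c, cj a b, cj a c, cj c (cj a b)]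
  have g0 : ∀ u, f (op6 0 u) = cj b (f u) := fun u => by
    fin_cases u
    exacts [(hcs b).symm, c1.symm, c3.symm, show a = cj b (cj a b) by rw [← c1, hcj], by
      show cj c (cj a b) = cj b (cj a c)
      rw [← c2, c5, c1], by
      show cj a c = cj b (cj c (cj a b))
      rw [c5, ← c1, hcj, c2]]
  have g1 : ∀ u, f (op6 1 u) = cj a (f u) := fun u => by
    fin_cases u
    exacts [rfl, (hcs a).symm, rfl, (hcj a b).symm, (hcj a c).symm, c6.symm]
  have g2 : ∀ u, f (op6 2 u) = cj c (f u) := fun u => by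
    fin_cases u
    exacts [c4.symm, c2.symm, (hcs c).symm, rfl, show a = cj c (cj a c) by rw [← c2, hcj], (hcj c _).symm]
  have g3 : ∀ u, f (op6 3 u) = cj (cj a b) (f u) := fun u => by
    rw [hcd, ← g1, ← g0, ← g1]
    exact congrArg f (by revert u; decide)
  have hop : ∀ v u, f (op6 v u) = cj (f v) (f u) := fun v => by
    fin_cases v
    exacts [g0, g1, g2, g3, fun u => by
      show _ = cj (cj a c) _
      rw [hcd, ← g1, ← g2, ← g1]
      exact congrArg f (by revert u; decide), fun u => by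
      show _ = cj (cj c (cj a b)) _
      rw [hcd, ← g2, ← g3, ← g2]
      exact congrArg f (by revert u; decide)]
  refine isomorphic_of_plane hD.1 plane6 f (fun u v e => ?_) (fun u v => by rw [hop, TT.inv_eq hD.1 (f v).2]) ?_ ?_
  · by_contra huv
    by_cases h : op6 v u = u
    · have : ∀ u v : Fin 6, u ≠ v → op6 v u = u → ∃ w w', (op6 w (op6 w' u) = 0 ∧ op6 w (op6 w' v) = 2) ∨
          (op6 w (op6 w' u) = 2 ∧ op6 w (op6 w' v) = 0) := by decide
      obtain ⟨w, w', h1⟩ := this u v huv h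
      have h3 : f (op6 w (op6 w' u)) = f (op6 w (op6 w' v)) := by rw [hop, hop, hop, hop, e]
      rcases h1 with h1 | h1 <;> rw [h1.1, h1.2] at h3
      exacts [hne h3, hne h3.symm]
    · have : ∀ u v : Fin 6, op6 v u ≠ u → ∃ w w', (op6 w (op6 w' u) = 0 ∧ op6 w (op6 w' v) = 1) ∨
          (op6 w (op6 w' u) = 1 ∧ op6 w (op6 w' v) = 0) ∨ (op6 w (op6 w' u) = 2 ∧ op6 w (op6 w' v) = 1) ∨
          (op6 w (op6 w' u) = 1 ∧ op6 w (op6 w' v) = 2) := by decide
      obtain ⟨w, w', h1⟩ := this u v h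
      have h3 : f (op6 w (op6 w' u)) = f (op6 w (op6 w' v)) := by rw [hop, hop, hop, hop, e]
      rcases h1 with h1 | h1 | h1 | h1 <;> rw [h1.1, h1.2] at h3
      exacts [hab (by rw [show b = a from h3]), hab (by rw [show a = b from h3]), hac (by rw [show c = a from h3]),
        hac (by rw [show a = c from h3])]
  · rintro z ((h | h | h) | (h | h | h))
    exacts [⟨1, Subtype.ext h.symm⟩, ⟨0, Subtype.ext h.symm⟩, ⟨3, Subtype.ext (by rw [h, TT.inv_eq hD.1 b.2]; exact e1)⟩,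
      ⟨1, Subtype.ext h.symm⟩, ⟨2, Subtype.ext h.symm⟩, ⟨4, Subtype.ext (by rw [h, TT.inv_eq hD.1 c.2]; exact e2)⟩]
  · have h3 : cj a b ∈ ln a b := .inr (.inr (by rw [TT.inv_eq hD.1 b.2]; exact e1))
    intro w
    fin_cases w
    exacts [.inl (.inl (.inr (.inl rfl))), .inl (.inl (.inl rfl)), .inl (.inr (.inr (.inl rfl))), .inl (.inl h3),
      .inl (.inr (.inr (.inr (by rw [TT.inv_eq hD.1 c.2]; exact e2)))),
      .inr ⟨3, 2, .inl h3, .inr (.inr (.inl rfl)), by decide, by decide⟩]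

theorem commute_conj_of_cube {x y : G} (hx : x ^ 3 = 1) (h1 : (x * y) ^ 3 = 1) (h2 : (x⁻¹ * y) ^ 3 = 1) :
    Commute y (x * y * x⁻¹ * y⁻¹) := by
  have e1 : y * x * y = x⁻¹ * y⁻¹ * x⁻¹ := by
    calc _ = x⁻¹ * (x * y) ^ 3 * y⁻¹ * x⁻¹ := by simp only [pow_succ]; group
      _ = _ := by rw [h1, mul_one]
  have e2 : y * x⁻¹ * y = x * y⁻¹ * x := by
    calc _ = x * (x⁻¹ * y) ^ 3 * y⁻¹ * x := by simp only [pow_succ]; group
      _ = _ := by rw [h2, mul_one]
  have e3 : x * x = x⁻¹ := eq_inv_of_mul_eq_one_left (by rw [← hx, pow_three'])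
  refine Commute.mul_right ?_ (Commute.refl y).inv_right
  calc y * (x * y * x⁻¹) = x⁻¹ * y⁻¹ * (x * x)⁻¹ := by rw [← mul_assoc, ← mul_assoc, e1]; group
    _ = x * x * y⁻¹ * x := by rw [e3, inv_inv]
    _ = _ := by rw [mul_assoc x y, mul_assoc x _ y, e2]; group

theorem isomorphic_nine (hD : IsThreeTranspositionGroup D) {a b c : D} (hab : ¬ Commute (a : G) b)
    (hac : ¬ Commute (a : G) c) (hbc : ¬ Commute (b : G) c) (hbc' : ¬ Commute (b : G) (a * c * a)) :
    Isomorphic (restrict (threeTranspositionLines D) (span (threeTranspositionLines D) (ln a b ∪ ln a c)))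
      affinePlaneThree := by
  have ha := TT.mul_self hD.1 a.2
  have hai := TT.inv_eq hD.1 a.2
  have hbi := TT.inv_eq hD.1 b.2
  have hci := TT.inv_eq hD.1 c.2
  set x : G := a * b with hxd
  set y : G := a * c with hyd
  have hx : x ^ 3 = 1 := TT.cube hD.1 a.2 b.2 hab
  have hy : y ^ 3 = 1 := TT.cube hD.1 a.2 c.2 hac
  have hax : a * x * (a : G)⁻¹ = x⁻¹ := by rw [hxd, ← mul_assoc, ha, one_mul, mul_inv_rev, hbi]
  have hay : a * y * (a : G)⁻¹ = y⁻¹ := by rw [hyd, ← mul_assoc, ha, one_mul, mul_inv_rev, hci]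
  have h1 : (x⁻¹ * y) ^ 3 = 1 := by
    rw [hxd, hyd, mul_inv_rev, mul_assoc, inv_mul_cancel_left, hbi]
    exact TT.cube hD.1 b.2 c.2 hbc
  have h2 : (x * y) ^ 3 = 1 := by
    have := TT.cube hD.1 b.2 (TT.IsGroup.conj_mem' hD a.2 c.2) hbc'
    calc _ = a * ((b : G) * (a * c * a)) ^ 3 * (a : G)⁻¹ := by
          rw [← conj_pow, hxd, hyd]; congr 1; group
      _ = 1 := by rw [this]; group
  have hzy := commute_conj_of_cube hx h2 h1
  have hzx : Commute x (x * y * x⁻¹ * y⁻¹) := by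
    have := (commute_conj_of_cube (y := x) hy (by
      calc _ = x⁻¹ * (x * y) ^ 3 * x⁻¹⁻¹ := by rw [← conj_pow]; congr 1; group
        _ = 1 := by rw [h2]; group) (by rw [← inv_eq_one, ← inv_pow, mul_inv_rev, inv_inv, h1])).inv_right
    rwa [show (y * x * y⁻¹ * x⁻¹)⁻¹ = x * y * x⁻¹ * y⁻¹ by group] at this
  set z := x * y * x⁻¹ * y⁻¹ with hzd
  have hza : Commute (a : G) z := by
    have : a * z * (a : G)⁻¹ = (y * x)⁻¹ * z * (y * x) := by
      calc _ = (a * x * (a : G)⁻¹) * (a * y * (a : G)⁻¹) * (a * x * (a : G)⁻¹)⁻¹ * (a * y * (a : G)⁻¹)⁻¹ := by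
            rw [hzd]; group
        _ = _ := by rw [hax, hay, hzd]; group
    rw [mul_assoc (y * x)⁻¹, ← (hzy.mul_left hzx).eq, inv_mul_cancel_left] at this
    exact mul_inv_eq_iff_eq_mul.1 this
  have hswap : ∀ i j : ℕ, x ^ i * y ^ j = y ^ j * x ^ i * z ^ (i * j) := fun i j => by
    have h3 : ∀ j : ℕ, x * y ^ j = y ^ j * x * z ^ j := fun j => by
      induction j with
      | zero => simp
      | succ j ih =>
        have : x * y = y * x * z := by rw [(hzy.mul_left hzx).eq, hzd]; group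
        rw [pow_succ, ← mul_assoc, ih, mul_assoc _ _ y, ← (hzy.pow_right j).eq, mul_assoc, ← mul_assoc x, this, pow_succ' z]
        group
    induction i with
    | zero => simp
    | succ i ih =>
      rw [pow_succ', mul_assoc, ih, ← mul_assoc, ← mul_assoc, h3, mul_assoc _ _ (x ^ i), ← ((hzx.pow_left i).pow_right j).eq,
        add_mul, one_mul, add_comm (i * j), pow_add]
      group
  have hmod : ∀ {w : G}, w ^ 3 = 1 → ∀ n : ℕ, w ^ (n : ZMod 3).val = w ^ n := fun {w} hw n => by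
    rw [ZMod.val_natCast]
    conv_rhs => rw [← Nat.mod_add_div n 3, pow_add, pow_mul, hw, one_pow, mul_one]
  have hinv : ∀ {w : G}, w ^ 3 = 1 → ∀ n : ℕ, (w ^ n)⁻¹ = w ^ (2 * n) := fun {w} hw n =>
    inv_eq_of_mul_eq_one_right (by rw [← pow_add, show n + 2 * n = 3 * n by ring, pow_mul, hw, one_pow])
  let g : (Fin 2 → ZMod 3) → G := fun v => x ^ (v 0).val * y ^ (v 1).val
  let f : (Fin 2 → ZMod 3) → D := fun v => ⟨g v * a * (g v)⁻¹, hD.2.1 _ _ a.2⟩
  have hop : ∀ u v, (f (-u - v) : G) = f v * f u * (f v : G)⁻¹ := fun u v => by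
    have h3 : ∀ s t : ZMod 3, -s - t = ((t.val + (t.val + 2 * s.val) : ℕ) : ZMod 3) := by decide
    have h4 : ∃ k ∈ Subgroup.centralizer {(a : G)}, g v * (a * ((g v)⁻¹ * g u) * (a : G)⁻¹) = g (-u - v) * k := by
      simp only [g, Pi.sub_apply, Pi.neg_apply]
      rw [h3 (u 0), h3 (u 1), hmod hx, hmod hy]
      generalize (u 0).val = k, (u 1).val = l, (v 0).val = i, (v 1).val = j
      have h5 : a * ((x ^ i * y ^ j)⁻¹ * (x ^ k * y ^ l)) * (a : G)⁻¹ = y ^ j * x ^ (i + 2 * k) * y ^ (2 * l) := by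
        calc _ = ((a * y * (a : G)⁻¹) ^ j)⁻¹ * ((a * x * (a : G)⁻¹) ^ i)⁻¹ * (a * x * (a : G)⁻¹) ^ k *
              (a * y * (a : G)⁻¹) ^ l := by simp only [conj_pow]; group
          _ = _ := by simp only [hax, hay, inv_pow, inv_inv, hinv hx k, hinv hy l, pow_add, mul_assoc]
      refine ⟨(z ^ ((i + 2 * k) * (j + j)))⁻¹, Subgroup.inv_mem _ (Subgroup.pow_mem _
        (Subgroup.mem_centralizer_singleton_iff.2 hza.symm.eq) _), ?_⟩
      have h6 := hswap (i + 2 * k) (j + j)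
      have h7 := ((hzy.pow_left (2 * l)).pow_right ((i + 2 * k) * (j + j))).inv_right.eq
      calc _ = x ^ i * (y ^ (j + j) * x ^ (i + 2 * k) * z ^ ((i + 2 * k) * (j + j))) *
            ((z ^ ((i + 2 * k) * (j + j)))⁻¹ * y ^ (2 * l)) := by rw [h5, pow_add y]; simp only [mul_assoc, mul_inv_cancel_left]
        _ = _ := by rw [← h6, ← h7, pow_add x i (i + 2 * k), ← add_assoc j, pow_add y (j + j)]; simp only [mul_assoc]
    obtain ⟨k, hk, e⟩ := h4
    have h5 := Subgroup.mem_centralizer_singleton_iff.1 hk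
    calc (f (-u - v) : G) = g (-u - v) * (k * a) * k⁻¹ * (g (-u - v))⁻¹ := by rw [h5]; simp only [f]; group
      _ = g (-u - v) * k * a * (g (-u - v) * k)⁻¹ := by group
      _ = _ := by rw [← e]; simp only [f, mul_inv_rev, hai, inv_inv, mul_assoc, TT.mul_mul_self hD.1 a.2]
  have hb : (f ![1, 0] : G) = b := by
    show x ^ 1 * y ^ 0 * a * (x ^ 1 * y ^ 0)⁻¹ = b
    rw [pow_one, pow_zero, mul_one]
    exact TT.conj_mul_eq hD.1 a.2 b.2 hab
  have hc : (f ![0, 1] : G) = c := by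
    show x ^ 0 * y ^ 1 * a * (x ^ 0 * y ^ 1)⁻¹ = c
    rw [pow_one, pow_zero, one_mul]
    exact TT.conj_mul_eq hD.1 a.2 c.2 hac
  have h0 : (f 0 : G) = a := by simp [f, g]
  have hb' : (f ![2, 0] : G) = b * a * (b : G)⁻¹ := by
    rw [← hb, ← h0, ← hop]
    exact congrArg (fun v => (f v : G)) (by decide)
  have hc' : (f ![0, 2] : G) = c * a * (c : G)⁻¹ := by
    rw [← hc, ← h0, ← hop]
    exact congrArg (fun v => (f v : G)) (by decide)
  refine isomorphic_of_plane hD.1 plane9 f (fun u v e => ?_) hop ?_ ?_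
  · by_contra huv
    have : ∀ u v : Fin 2 → ZMod 3, u ≠ v → ∃ w, (-u - w = 0 ∧ -v - w = ![1, 0]) ∨ (-u - w = ![1, 0] ∧ -v - w = 0) ∨
        (-u - w = 0 ∧ -v - w = ![0, 1]) ∨ (-u - w = ![0, 1] ∧ -v - w = 0) ∨ (-u - w = ![1, 0] ∧ -v - w = ![0, 1]) ∨
        (-u - w = ![0, 1] ∧ -v - w = ![1, 0]) ∨ (-u - w = ![1, 0] ∧ -v - w = ![0, 2]) ∨
        (-u - w = ![0, 2] ∧ -v - w = ![1, 0]) := by
      decide
    obtain ⟨w, h⟩ := this u v huv
    have h3 : (f (-u - w) : G) = f (-v - w) := by rw [hop, hop, e]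
    have h4 : (c : G) * a * (c : G)⁻¹ = a * c * a := by rw [hci, TT.braid hD.1 a.2 c.2 hac]
    rcases h with h | h | h | h | h | h | h | h <;> rw [h.1, h.2] at h3 <;> simp only [h0, hb, hc, hc', h4] at h3
    exacts [hab (by rw [h3]), hab (by rw [h3]), hac (by rw [h3]), hac (by rw [h3]), hbc (by rw [h3]), hbc (by rw [h3]),
      hbc' (by rw [← h3]), hbc' (by rw [h3])]
  · rintro z ((h | h | h) | (h | h | h))
    exacts [⟨_, Subtype.ext (h0.trans h.symm)⟩, ⟨_, Subtype.ext (hb.trans h.symm)⟩, ⟨_, Subtype.ext (hb'.trans h.symm)⟩,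
      ⟨_, Subtype.ext (h0.trans h.symm)⟩, ⟨_, Subtype.ext (hc.trans h.symm)⟩, ⟨_, Subtype.ext (hc'.trans h.symm)⟩]
  · have : ∀ w : Fin 2 → ZMod 3, (w = 0 ∨ w = ![1, 0] ∨ w = ![2, 0] ∨ w = ![0, 1] ∨ w = ![0, 2]) ∨
        ∃ u v, (u = ![1, 0] ∨ u = ![2, 0]) ∧ (v = ![0, 1] ∨ v = ![0, 2]) ∧ -u - v ≠ u ∧ -u - v = w := by decide
    intro w
    refine (this w).imp ?_ fun ⟨u, v, hu, hv, h⟩ => ⟨u, v, .inl ?_, .inr ?_, h⟩
    · rintro (rfl | rfl | rfl | rfl | rfl)
      exacts [.inl (.inl h0), .inl (.inr (.inl hb)), .inl (.inr (.inr hb')), .inr (.inr (.inl hc)), .inr (.inr (.inr hc'))]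
    · rcases hu with rfl | rfl
      exacts [.inr (.inl hb), .inr (.inr hb')]
    · rcases hv with rfl | rfl
      exacts [.inr (.inl hc), .inr (.inr hc')]

theorem isFischerSpace (hD : IsThreeTranspositionGroup D) : IsFischerSpace (threeTranspositionLines D) := by
  have h3 : ∀ {a b : D}, ¬ Commute (a : G) b → ∃ c : D, (c : G) = a * b * a ∧ ln a b = {a, b, c} ∧ c ≠ a ∧ c ≠ b :=
    fun {a b} h => ⟨⟨_, TT.IsGroup.conj_mem' hD a.2 b.2⟩, rfl, by
      ext; simp [ln, Subtype.ext_iff, TT.inv_eq hD.1 b.2, TT.braid hD.1 a.2 b.2 h],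
      fun e => TT.not_commute_conj_left (TT.mul_self hD.1 a.2) h (by rw [show (a : G) * b * a = a from congrArg Subtype.val e]),
      fun e => TT.not_commute_conj_right hD.1 a.2 b.2 h (by rw [show (a : G) * b * a = b from congrArg Subtype.val e])⟩
  have h4 : ∀ l ∈ threeTranspositionLines D, l.ncard = 3 := by
    rintro _ ⟨a, b, h, rfl⟩
    obtain ⟨c, -, e, h1, h2⟩ := h3 h
    exact Set.ncard_eq_three.2 ⟨a, b, c, fun e => h (by rw [e]), h1.symm, h2.symm, e⟩
  refine ⟨fun l hl m hm x y hxy h1 h2 h3 h4 => (eq_ln hD.1 hl h1 h2 hxy).2.trans (eq_ln hD.1 hm h3 h4 hxy).2.symm, h4,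
    fun l hl m hm hlm ⟨a, hal, ham⟩ => ?_⟩
  obtain ⟨b, hb, hba⟩ := Set.exists_ne_of_one_lt_ncard (s := l) (by rw [h4 l hl]; omega) a
  obtain ⟨c, hc, hca⟩ := Set.exists_ne_of_one_lt_ncard (s := m) (by rw [h4 m hm]; omega) a
  obtain ⟨hab, rfl⟩ := eq_ln hD.1 hl hal hb hba.symm
  obtain ⟨hac, rfl⟩ := eq_ln hD.1 hm ham hc hca.symm
  by_cases hbc : Commute (b : G) c
  · exact .inl (isomorphic_six hD hab hac hbc fun e => hlm (by rw [e]))
  by_cases hbc' : Commute (b : G) (a * c * a)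
  · obtain ⟨c', e, e', h1, -⟩ := h3 hac
    obtain ⟨hac', e''⟩ := eq_ln hD.1 hm ham (show c' ∈ _ by simp [e']) h1.symm
    rw [e''] at hlm ⊢
    exact .inl (isomorphic_six hD hab hac' (e ▸ hbc') fun e => hlm (by rw [e]))
  · exact .inr (isomorphic_nine hD hab hac hbc hbc')

end Group

end CL.FSp
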