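/-
The local subgroups `7 × A7` and `S3 × A9` of `Co1`.
-/
import Cfsg.Agent.Spor.Co1D
import Cfsg.Agent.Spor.Co1K
import Cfsg.Agent.Spor.Co1U

set_option autoImplicit false

namespace CL.Spor.CoX
open Cfsg Cfsg.Spor Subgroup CL.Spor.Leech CL.Spor.Mon CL.Spor.CoE MulAction CL.PG
open CL.Pc (pt2)
open CL.Spor.CoS (t7 bS bS_al)

theorem rt : rho.Rep t7 (rho.val t7) := rep_ok (bS_al.ok _ List.mem_cons_self).1

theorem U_le : subW CoU.gs1 [[0], [2]] ≤ stabilizer Co1 (pt2 2) ⊓ stabilizer Co1 (pt2 7) :=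
  subW_le_of_forall (mem_of_mem_ext (fun g hg => by
    obtain ⟨c, hc, rfl⟩ := List.mem_map.1 hg
    have h := allL_spec CoU.fix c hc
    simp only [Bool.and_eq_true, Nat.beq_eq] at h
    have hr := rep_ok (CoU.bU_al.ok c hc).1
    exact ⟨(smul_pt hr 2).trans (by rw [h.1]), (smul_pt hr 7).trans (by rw [h.2])⟩) _) _

theorem ub7 : UB (centralizer {rho.val t7}) (5880 * 3) := by
  have h := Bool.and_eq_true_iff.1 CoU.base
  refine ub_mul (CoK.orbit_le rt) (ub_base rt ((CoU.ctx0 CoU.c0).exact' CoU.G_c CoU.G_o CoU.last (ubU.mono U_le))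
    (by norm_num) h.1 fun g hg => ?_)
  rw [ubU.eq_of_lb ((CoU.ctx0 CoU.c0).lb' CoU.G_c CoU.G_o CoU.last) U_le]
  exact ⟨hg.2, Nat.eq_of_beq_eq_true h.2 ▸ smul_mv rt hg.1 hg.2⟩

theorem local7 : Nat.card (zpowers (rho.val t7)) = 7 ∧ Nonempty (centralizer (zpowers (rho.val t7) : Set Co1) ≃*
    Multiplicative (ZMod 7) × alternatingGroup (Fin 7)) := by
  refine ⟨CoG.card_zpowers rt (by norm_num) CoS.ord, ?_⟩
  rw [CL.Even.cent_zpowers]
  obtain ⟨e⟩ := equiv_prod_of (lA := [[0]]) (lB := [[2], [4]])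
    (CoS.r1 (CoS.ctx0 CoS.c0) CoS.Z.c1 ((faithful_eF _).mono le_top))
    (CoS.r2 (CoS.ctx0 CoS.c0) CL.Std.A7.c1 ((faithful_eF _).mono le_top)) (by decide)
    (mem_of_mem_ext (els_mem (allIn_cent rt bS_al.ok CoS.com)) _) (a := 7) (b := 2520) ub7
    (CoS.Z.G_card CoS.Z.c1) CL.Std.A7.card
  exact ⟨e.trans (prod_congr (equiv_zmod (CoS.Z.G_card CoS.Z.c1)) CL.Std.A7.iso).some⟩

theorem local3 : Nonempty (normalizer (zpowers (rho.val MonN.b3B) : Set Co1) ≃*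
    Equiv.Perm (Fin 3) × alternatingGroup (Fin 9)) := by
  have h := Bool.and_eq_true_iff.1 CoD.nrm
  have hb : rho.Rep MonN.b3B (rho.val MonN.b3B) := rep_ok (Mon3B.bs_ok _ List.mem_cons_self).1
  have ho : orderOf (rho.val MonN.b3B) = 3 := (Nat.card_zpowers _).symm.trans MonN.ord3B
  obtain ⟨e⟩ := equiv_prod_of (lA := [[0], [2]]) (lB := [[4], [6]])
    (CoD.r1 (CoD.ctx0 CoD.c0) CL.Std.S3.c1 ((faithful_eF _).mono le_top))
    (CoD.r2 (CoD.ctx0 CoD.c0) CL.Std.A9.c1 ((faithful_eF _).mono le_top)) (by decide)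
    (mem_of_mem_ext (els_mem (allIn_norm hb ho CoD.bD_al.ok h.1)) _) (a := 6) (b := 181440)
    (ub_norm3 ho (inverts hb (rep_ok (CoD.bD_al.ok _ List.mem_cons_self).1) h.2) (Mon3B.K_eq.1 ▸ Mon3B.K_eq.2))
    CL.Std.S3.card CL.Std.A9.card
  exact ⟨e.trans (prod_congr CL.Std.S3.iso CL.Std.A9.iso).some⟩

end CL.Spor.CoX
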