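import Cfsg.Agent.Spor.U43G
import Cfsg.Agent.Transfer.SL23
import Cfsg.Agent.Loc.FStar
import Cfsg.Agent.Cls.OrthIso6Minus

/-!
# Recognition of `U₄(3)` by the centraliser of an involution
-/

set_option autoImplicit false

namespace CL.U43
open CL.Transfer
open scoped MatrixGroups

variable {G : Type*} [Group G]

theorem exists_sl23 {H : Subgroup G} (e : H ≃* SL(2, ZMod 3)) {z : G} (hz : z ∈ H) (h2 : orderOf z = 2) :
    ∃ i ∈ H, ∃ j ∈ H, ∃ a ∈ H, Q8 z i j ∧ a * a * a = 1 ∧ a * i * a⁻¹ = j ∧ a * j * a⁻¹ = i * j ∧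
      (∀ h ∈ H, ∀ S : Subgroup G, i ∈ S → j ∈ S → h * i * h⁻¹ ∈ S ∧ h * j * h⁻¹ ∈ S ∧ h * h * h ∈ S) ∧
      ∀ S : Subgroup G, (∀ u ∈ H, u * u * u = 1 → u ∈ S) → H ≤ S := by
  let f : SL(2, ZMod 3) →* G := H.subtype.comp e.symm.toMonoidHom
  have hf : ∀ g, f g ∈ H := fun g => (e.symm g).2
  have hs : ∀ h ∈ H, ∃ g, f g = h := fun h hh => ⟨e ⟨h, hh⟩, by simp [f]⟩
  have hi : Function.Injective f := H.subtype_injective.comp e.symm.injective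
  obtain ⟨z0, rfl⟩ := hs z hz
  obtain rfl : z0 = sl23I * sl23I :=
    ((by decide +kernel : ∀ g : SL(2, ZMod 3), g * g = 1 → g = 1 ∨ g = sl23I * sl23I) z0
      (hi (by rw [map_mul, map_one, CL.Inv.SE.mul_self_of_inv h2]))).resolve_left (by
        rintro rfl
        simp at h2)
  have m : ∀ {x y : SL(2, ZMod 3)}, x = y → f x = f y := fun h => congrArg f h
  let J := sl23U * sl23I * sl23U⁻¹
  let L : List SL(2, ZMod 3) := [1, sl23I, sl23I * sl23I, sl23I⁻¹, J, sl23I * J, J⁻¹, J * sl23I]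
  refine ⟨f sl23I, hf _, f J, hf _, f sl23U, hf _, ⟨?_, ?_, ?_, ?_⟩, ?_, ?_, ?_, fun h hh S h1 h2 => ?_,
    fun S hS h hh => ?_⟩
  · simpa only [map_mul, map_one] using m (by decide +kernel : sl23I * sl23I * (sl23I * sl23I) = 1)
  · rw [map_mul]
  · simpa only [map_mul f J, map_mul f sl23I] using m (by decide +kernel : J * J = sl23I * sl23I)
  · simpa only [map_mul f J, map_mul f sl23I, map_mul f (sl23I * sl23I)] using
      m (by decide +kernel : J * sl23I = sl23I * sl23I * (sl23I * J))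
  · simpa only [map_mul, map_one] using m (by decide +kernel : sl23U * sl23U * sl23U = 1)
  · simp only [J, map_mul, map_inv]
  · rw [← map_inv, ← map_mul, ← map_mul, ← map_mul]
    exact m (by decide +kernel)
  · obtain ⟨g, rfl⟩ := hs h hh
    have hL : ∀ x ∈ L, f x ∈ S := by
      simp only [L, List.forall_mem_cons, List.not_mem_nil, false_imp_iff, implies_true, and_true, map_mul f J,
        map_mul f sl23I, map_inv, map_one]
      exact ⟨S.one_mem, h1, S.mul_mem h1 h1, S.inv_mem h1, h2, S.mul_mem h1 h2, S.inv_mem h2, S.mul_mem h2 h1⟩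
    obtain ⟨e1, e2, e3⟩ := (by decide +kernel : ∀ g : SL(2, ZMod 3),
      g * sl23I * g⁻¹ ∈ L ∧ g * J * g⁻¹ ∈ L ∧ g * g * g ∈ L) g
    simp only [← map_inv, ← map_mul]
    exact ⟨hL _ e1, hL _ e2, hL _ e3⟩
  · obtain ⟨g, rfl⟩ := hs h hh
    obtain ⟨x, -, y, -, u, hu, e⟩ := (by decide +kernel : ∀ g : SL(2, ZMod 3), ∃ x ∈ L, ∃ y ∈ L,
      ∃ u ∈ [sl23U, sl23U⁻¹], g = x * sl23U * x⁻¹ * (y * u * y⁻¹) ∨
        g = x * sl23U * x⁻¹ * (y * u * y⁻¹) * (x * sl23U * x⁻¹ * (y * u * y⁻¹)) ∨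
        g = x * sl23U⁻¹ * x⁻¹ * (y * u * y⁻¹)) g
    have h3 : ∀ x, ∀ u ∈ [sl23U, sl23U⁻¹], f (x * u * x⁻¹) ∈ S := fun x u hu => hS _ (hf _) (by
      rw [← map_mul, ← map_mul, conj_mul, conj_mul,
        (by decide +kernel : ∀ u ∈ [sl23U, sl23U⁻¹], u * u * u = 1) u hu, mul_one, mul_inv_cancel, map_one])
    have h4 := S.mul_mem (h3 x sl23U (by simp)) (h3 y u hu)
    rcases e with rfl | rfl | rfl
    · rwa [map_mul]
    · rw [map_mul, map_mul]; exact S.mul_mem h4 h4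
    · rw [map_mul]; exact S.mul_mem (h3 x _ (by simp)) (h3 y u hu)

theorem commute_of_cube {x y z : G} (zz : z * z = 1) (hz : Commute x z) (x3 : x * x * x = 1)
    (h : x * y * x⁻¹ * y⁻¹ = 1 ∨ x * y * x⁻¹ * y⁻¹ = z) : Commute x y := by
  rcases h with h | h
  · exact CL.Inv.commute_iff_comm_eq_one.1 h
  · have h1 : x * y * x⁻¹ = z * y := by rw [← h]; group
    have h2 : x * (z * y) * x⁻¹ = y := by
      calc _ = (x * z) * x⁻¹ * (x * y * x⁻¹) := by group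
        _ = y := by rw [hz.eq, h1, mul_inv_cancel_right, ← mul_assoc, zz, one_mul]
    have h3 : y = z * y := by
      calc y = (x * x * x) * y * (x * x * x)⁻¹ := by rw [x3]; group
        _ = x * (x * (x * y * x⁻¹) * x⁻¹) * x⁻¹ := by group
        _ = _ := by rw [h1, h2, h1]
    rw [← h3] at h1
    exact mul_inv_eq_iff_eq_mul.1 h1

theorem exists_hyp [Finite G] {z : G} (hz : orderOf z = 2) {H₁ H₂ Q : Subgroup G}
    (hC : H₁ ⊔ H₂ ≤ Subgroup.centralizer {z})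
    (hn₁ : ∀ h ∈ H₁, ∀ k ∈ H₂, k * h * k⁻¹ ∈ H₁) (hn₂ : ∀ h ∈ H₂, ∀ k ∈ H₁, k * h * k⁻¹ ∈ H₂)
    (e₁ : H₁ ≃* SL(2, ZMod 3)) (e₂ : H₂ ≃* SL(2, ZMod 3)) (hm : H₁ ⊓ H₂ = Subgroup.zpowers z)
    (hQ1 : IsPGroup 2 Q) (hQ2 : Q ≤ H₁ ⊔ H₂)
    (hQ3 : ∀ R ≤ H₁ ⊔ H₂, IsPGroup 2 R → H₁ ⊔ H₂ ≤ Subgroup.normalizer (R : Set G) → R ≤ Q)
    (hN : ∀ h, h * z = z * h → ∀ y ∈ Q, h * y * h⁻¹ ∈ Q)
    (hF : ∀ h, h * z = z * h → (∀ y ∈ Q, h * y = y * h) → h ∈ Q)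
    (hH : Nat.card (Subgroup.centralizer ({z} : Set G)) = 1152)
    (nwc : ∃ g, g * z * g⁻¹ ∈ Q ∧ g * z * g⁻¹ ≠ z)
    (int : ∀ g, g * z * g⁻¹ ∈ Q → g * z * g⁻¹ ≠ z → Nat.card ↥(Q ⊓ Q.map (MulAut.conj g).toMonoidHom) = 4) :
    ∃ (D : QD G) (a b : G), Hyp D a b := by
  have zz := CL.Inv.SE.mul_self_of_inv hz
  have hz12 : z ∈ H₁ ⊓ H₂ := hm ▸ Subgroup.mem_zpowers z
  obtain ⟨i, hi, j, hj, a, ha, q1, a3, ai, aj, n1, g1⟩ := exists_sl23 e₁ hz12.1 hz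
  obtain ⟨p, hp, q, hq, b, hb, q2, b3, bp, bq, n2, g2⟩ := exists_sl23 e₂ hz12.2 hz
  have cz : ∀ y ∈ H₁ ⊔ H₂, y * z = z * y := fun y hy => Subgroup.mem_centralizer_singleton_iff.1 (hC hy)
  have cc : ∀ x ∈ H₁, ∀ y ∈ H₂, Commute x y := fun x hx y hy =>
    (Subgroup.mem_centralizer_singleton_iff.1 (g1 (Subgroup.centralizer {y}) (fun u hu u3 =>
      Subgroup.mem_centralizer_singleton_iff.2 (commute_of_cube zz (cz u (Subgroup.mem_sup_left hu)) u3 (by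
        have h1 : u * y * u⁻¹ * y⁻¹ ∈ H₁ ⊓ H₂ := ⟨by
          rw [mul_assoc, mul_assoc, ← mul_assoc y]
          exact H₁.mul_mem hu (hn₁ _ (H₁.inv_mem hu) y hy), H₂.mul_mem (hn₂ y hy u hu) (H₂.inv_mem hy)⟩
        rw [hm] at h1
        obtain ⟨k, e⟩ := h1
        rw [← e]
        change z ^ k = 1 ∨ z ^ k = z
        rw [zpow_eq_zpow_emod k (show z ^ (2 : ℤ) = 1 by rw [zpow_two, zz])]
        rcases Int.emod_two_eq_zero_or_one k with e | e <;> simp [e]))) hx))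
  let D : QD G := ⟨z, i, j, p, q, q1, q2, cc i hi p hp, cc i hi q hq, cc j hj p hp, cc j hj q hq,
    CL.Inv.SE.ne_one_of_inv hz⟩
  have mi : i ∈ D.Q := ⟨oi, D.φ_oi⟩
  have mj : j ∈ D.Q := ⟨oj, D.φ_oj⟩
  have mp : p ∈ D.Q := ⟨op, D.φ_op⟩
  have mq : q ∈ D.Q := ⟨oq, D.φ_oq⟩
  have hK : D.Q ≤ H₁ ⊔ H₂ := D.Q_le (Subgroup.mem_sup_left hi) (Subgroup.mem_sup_left hj) (Subgroup.mem_sup_right hp)
    (Subgroup.mem_sup_right hq)
  have hDQ : D.Q = Q := by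
    refine le_antisymm ?_ ?_
    · have h1 : H₁ ⊔ H₂ ≤ Subgroup.normalizer (D.Q : Set G) := by
        refine sup_le (fun h hh => Subgroup.mem_normalizer_fintype fun y hy => ?_)
          (fun h hh => Subgroup.mem_normalizer_fintype fun y hy => ?_)
        · refine D.Q_le (H := D.Q.comap (MulAut.conj h).toMonoidHom) (n1 h hh _ mi mj).1 (n1 h hh _ mi mj).2.1 ?_ ?_ hy
          · change h * p * h⁻¹ ∈ D.Q
            rwa [(cc h hh p hp).eq, mul_inv_cancel_right]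
          · change h * q * h⁻¹ ∈ D.Q
            rwa [(cc h hh q hq).eq, mul_inv_cancel_right]
        · refine D.Q_le (H := D.Q.comap (MulAut.conj h).toMonoidHom) ?_ ?_ (n2 h hh _ mp mq).1 (n2 h hh _ mp mq).2.1 hy
          · change h * i * h⁻¹ ∈ D.Q
            rwa [← (cc i hi h hh).eq, mul_inv_cancel_right]
          · change h * j * h⁻¹ ∈ D.Q
            rwa [← (cc j hj h hh).eq, mul_inv_cancel_right]
      exact hQ3 _ hK D.isPGroup_Q h1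
    · intro y hy'
      have hy := hQ2 hy'
      obtain ⟨k, hk⟩ := hQ1 ⟨_, hy'⟩
      have h1 : y ^ 2 ^ k = 1 := congrArg Subtype.val hk
      have h2 : ∃ u ∈ H₁, ∃ v ∈ H₂, y = u * v := by
        clear hy' hk h1
        rw [Subgroup.sup_eq_closure] at hy
        induction hy using Subgroup.closure_induction with
        | mem x hx => exact hx.elim (fun h => ⟨x, h, 1, H₂.one_mem, by simp⟩) fun h => ⟨1, H₁.one_mem, x, h, by simp⟩
        | one => exact ⟨1, H₁.one_mem, 1, H₂.one_mem, by simp⟩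
        | mul x y _ _ hx hy =>
          obtain ⟨u, hu, v, hv, rfl⟩ := hx
          obtain ⟨u', hu', v', hv', rfl⟩ := hy
          exact ⟨_, H₁.mul_mem hu hu', _, H₂.mul_mem hv hv', (cc u' hu' v hv).symm.mul_mul_mul_comm u v'⟩
        | inv x _ hx =>
          obtain ⟨u, hu, v, hv, rfl⟩ := hx
          exact ⟨_, H₁.inv_mem hu, _, H₂.inv_mem hv, by rw [(cc u hu v hv).eq, mul_inv_rev]⟩
      obtain ⟨u, hu, v, hv, rfl⟩ := h2
      have h3 : (u * v) ^ 3 ∈ D.Q := by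
        rw [(cc u hu v hv).mul_pow, pow_succ, pow_succ v, pow_two, pow_two]
        exact D.Q.mul_mem (n1 u hu _ mi mj).2.2 (n2 v hv _ mp mq).2.2
      exact Subgroup.zpowers_le_of_mem h3 (mem_zpowers_pow_iff.2
        (Nat.Coprime.coprime_dvd_right (orderOf_dvd_of_pow_eq_one h1) (Nat.Coprime.pow_right k (by decide))))
  subst hDQ
  have fx : ∀ {y u : G}, Commute y u → y * u * y⁻¹ = u := fun h => mul_inv_eq_iff_eq_mul.2 h.eq
  refine ⟨D, a, b, a3, b3, ?_, ?_, fun h hh x => (hN h hh _ ⟨x, rfl⟩).imp fun _ e => e.symm,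
    fun h hh => hF h (hh z ⟨oz, D.φ_oz⟩) hh, hH, ?_, fun g x e h1 => ?_⟩
  · exact QD.Act.mk' (fx (cz a (Subgroup.mem_sup_left ha))) (ai.trans D.φ_oj.symm)
      (by rw [D.φ_mul, D.φ_oi, D.φ_oj]; exact aj) ((fx (cc a ha p hp)).trans D.φ_op.symm)
      ((fx (cc a ha q hq)).trans D.φ_oq.symm)
  · exact QD.Act.mk' (fx (cz b (Subgroup.mem_sup_right hb))) ((fx (cc i hi b hb).symm).trans D.φ_oi.symm)
      ((fx (cc j hj b hb).symm).trans D.φ_oj.symm) (bp.trans D.φ_oq.symm) (by rw [D.φ_mul, D.φ_op, D.φ_oq]; exact bq)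
  · obtain ⟨g, ⟨x, e⟩, h1⟩ := nwc
    exact ⟨g, x, e.symm, h1⟩
  · rw [← int g ⟨x, e.symm⟩ h1, ← Set.ncard_image_of_injective _ D.φ_inj]
    congr 1
    ext y
    constructor
    · rintro ⟨x, ⟨u, e⟩, rfl⟩
      exact ⟨⟨x, rfl⟩, _, ⟨u, rfl⟩, e.symm⟩
    · rintro ⟨⟨x, rfl⟩, _, ⟨u, rfl⟩, e⟩
      exact ⟨x, ⟨u, e.symm⟩, rfl⟩

/-- **Recognition of `U₄(3)`.** -/
theorem recognition [Finite G] (z : G) (hz : orderOf z = 2) (H₁ H₂ : Subgroup (Subgroup.centralizer ({z} : Set G)))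
    (hn₁ : (H₁.subgroupOf (H₁ ⊔ H₂)).Normal) (hn₂ : (H₂.subgroupOf (H₁ ⊔ H₂)).Normal)
    (e₁ : H₁ ≃* SL(2, ZMod 3)) (e₂ : H₂ ≃* SL(2, ZMod 3))
    (hmeet : (H₁ ⊓ H₂).map (Subgroup.subtype (Subgroup.centralizer ({z} : Set G))) = Subgroup.zpowers z)
    (Q : Subgroup (Subgroup.centralizer ({z} : Set G))) [hQn : Q.Normal]
    (hQ : Q = (Cfsg.pCore 2 ↥(H₁ ⊔ H₂)).map (Subgroup.subtype (H₁ ⊔ H₂)))
    (hF : Cfsg.generalizedFittingSubgroup (Subgroup.centralizer ({z} : Set G)) = Q)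
    (hnwc : ∃ g : G, (∃ hq : g * z * g⁻¹ ∈ Subgroup.centralizer ({z} : Set G),
      (⟨g * z * g⁻¹, hq⟩ : Subgroup.centralizer ({z} : Set G)) ∈ Q) ∧ g * z * g⁻¹ ≠ z)
    (hH : Nat.card ↥(Subgroup.centralizer ({z} : Set G)) = 2 ^ 7 * 3 ^ 2)
    (hQQg : ∀ g : G, g * z * g⁻¹ ∈ Q.map (Subgroup.subtype (Subgroup.centralizer ({z} : Set G))) → g * z * g⁻¹ ≠ z →
      Nat.card ↥((Q.map (Subgroup.subtype (Subgroup.centralizer ({z} : Set G)))) ⊓
        (Q.map (Subgroup.subtype (Subgroup.centralizer ({z} : Set G)))).map (MulAut.conj g).toMonoidHom) = 4) :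
    Nonempty (G ≃* Cfsg.PSU 4 F9 3) ∧ ∀ x y : G, orderOf x = 2 → orderOf y = 2 → IsConj x y := by
  let C := Subgroup.centralizer ({z} : Set G)
  have hs : H₁.map C.subtype ⊔ H₂.map C.subtype = (H₁ ⊔ H₂).map C.subtype := (Subgroup.map_sup _ _ _).symm
  have hc : ∀ h, h * z = z * h → h ∈ C := fun h hh => Subgroup.mem_centralizer_singleton_iff.2 hh
  obtain ⟨D, a, b, h⟩ := exists_hyp hz (H₁ := H₁.map C.subtype) (H₂ := H₂.map C.subtype) (Q := Q.map C.subtype)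
    (hs ▸ Subgroup.map_subtype_le _)
    (by
      rintro _ ⟨h, hh, rfl⟩ _ ⟨k, hk, rfl⟩
      exact ⟨_, (Subgroup.normal_subgroupOf_iff le_sup_left).1 hn₁ h k hh (Subgroup.mem_sup_right hk), rfl⟩)
    (by
      rintro _ ⟨h, hh, rfl⟩ _ ⟨k, hk, rfl⟩
      exact ⟨_, (Subgroup.normal_subgroupOf_iff le_sup_right).1 hn₂ h k hh (Subgroup.mem_sup_left hk), rfl⟩)
    ((H₁.equivMapOfInjective _ C.subtype_injective).symm.trans e₁)
    ((H₂.equivMapOfInjective _ C.subtype_injective).symm.trans e₂)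
    (by rw [← Subgroup.map_inf _ _ _ C.subtype_injective, hmeet])
    (by rw [hQ]; exact ((CL.Grp.pCore_isPGroup 2 _).map _).map _)
    (by rw [hs, hQ]; exact Subgroup.map_mono (Subgroup.map_subtype_le _))
    (fun R hR h2 hn y hy => by
      rw [hs] at hR hn
      obtain ⟨y, hy', rfl⟩ := hR hy
      have hN : ((R.comap C.subtype).comap (H₁ ⊔ H₂).subtype).Normal :=
        ⟨fun n hn' g => (Subgroup.mem_normalizer_iff.1 (hn ⟨g.1, g.2, rfl⟩) _).1 hn'⟩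
      rw [hQ]
      exact ⟨y, ⟨⟨y, hy'⟩, CL.Grp.le_pCore (N := (R.comap C.subtype).comap (H₁ ⊔ H₂).subtype)
        (h2.comap_subtype.comap_subtype) hy, rfl⟩, rfl⟩)
    (by
      rintro h hh _ ⟨y, hy, rfl⟩
      exact ⟨_, hQn.conj_mem y hy ⟨h, hc h hh⟩, rfl⟩)
    (fun h hh h1 => ⟨⟨h, hc h hh⟩, by
      have := CL.Loc.centralizer_fstar_le (G := C)
      rw [hF] at this
      exact this (Subgroup.mem_centralizer_iff.2 fun y hy => Subtype.ext (h1 y ⟨y, hy, rfl⟩).symm), rfl⟩)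
    (by rw [hH]; norm_num)
    (by
      obtain ⟨g, ⟨hq, h1⟩, h2⟩ := hnwc
      exact ⟨g, ⟨_, h1, rfl⟩, h2⟩)
    hQQg
  exact h.main

end CL.U43
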