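/-
Groups of large Fischer type: the normalizer of the elementary abelian subgroup `V` of order eight.
-/
import Cfsg.Agent.Spor.F24N
import Cfsg.Agent.Spor.J4G
import Cfsg.Agent.Spor.PGStruct

set_option autoImplicit false

namespace CL.F24

open Subgroup CL.Even CL.PG MulAction Cfsg CL.Loc Matrix
open scoped commutatorElement MatrixGroups

variable {G Γ V : Type*} [Group G] [Group Γ] [AddCommGroup V] [DistribMulAction Γ V]

/-- The elements that induce inner automorphisms on a quotient of `K`. -/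
def Inn {B : Type*} [Group B] {K : Subgroup G} (ψ : K →* B) : Subgroup G where
  carrier := {n | n ∈ 𝒩(K) ∧ ∃ b, ∀ k k' : K, n * k * n⁻¹ = k' → ψ k' = b * ψ k * b⁻¹}
  one_mem' := ⟨one_mem _, 1, fun k k' h => by rw [show k' = k from Subtype.ext (by simpa using h.symm)]; simp⟩
  mul_mem' := by
    rintro n m ⟨h1, b, hb⟩ ⟨h2, c, hc⟩
    refine ⟨mul_mem h1 h2, b * c, fun k k' h => ?_⟩
    rw [hb ⟨_, conj_mem h2 k.2⟩ k' (by rw [← h]; group), hc k _ rfl]; group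
  inv_mem' := by
    rintro n ⟨h1, b, hb⟩
    refine ⟨inv_mem h1, b⁻¹, fun k k' h => ?_⟩
    rw [hb k' k (by rw [← h]; group)]; group

theorem exists_prod {S B : Type*} [Group S] [Group B] {N K : Subgroup G} (hK : K ≤ N) (φ : N →* S)
    (hφ : ∀ n, φ n = 1 ↔ (n : G) ∈ K) (ψ : K →* B) (hψ : Function.Surjective ψ) (hB : center B = ⊥)
    (h : ∀ s, ∃ n : N, (n : G) ∈ Inn ψ ∧ φ n = s) :
    ∃ Φ : N →* S × B, Function.Surjective Φ ∧ ∀ n, Φ n = 1 ↔ ∃ h : (n : G) ∈ K, ψ ⟨n, h⟩ = 1 := by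
  have h1 : ∀ k k₁ k₂ : K, (k : G) * k₁ * (k : G)⁻¹ = k₂ → ψ k₂ = ψ k * ψ k₁ * (ψ k)⁻¹ := fun k k₁ k₂ e => by
    rw [show k₂ = k * k₁ * k⁻¹ from Subtype.ext e.symm, map_mul, map_mul, map_inv]
  have h2 : ∀ n : N, (n : G) ∈ Inn ψ := fun n => by
    obtain ⟨m, h2, h3⟩ := h (φ n)
    have h4 := (hφ (m⁻¹ * n)).mp (by rw [map_mul, map_inv, h3, inv_mul_cancel])
    exact (mul_mem_cancel_left (inv_mem h2)).mp ⟨le_normalizer h4, _, h1 ⟨_, h4⟩⟩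
  choose b hb using fun n => (h2 n).2
  have h3 : ∀ (n : N) c, (∀ k k' : K, (n : G) * k * (n : G)⁻¹ = k' → ψ k' = c * ψ k * c⁻¹) → b n = c := fun n c e => by
    refine (inv_mul_eq_one.mp (mem_bot.mp (hB.le (mem_center_iff.mpr fun y => ?_)))).symm
    obtain ⟨k, rfl⟩ := hψ y
    have := (hb n k ⟨_, conj_mem (h2 n).1 k.2⟩ rfl).symm.trans (e k _ rfl)
    calc _ = c⁻¹ * (c * ψ k * c⁻¹) * b n := by group
      _ = _ := by rw [← this]; group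
  let β : N →* B := MonoidHom.mk' b fun n m => h3 _ _ fun k k' e => by
    rw [hb n ⟨_, conj_mem (h2 m).1 k.2⟩ k' (by rw [← e, coe_mul]; group), hb m k _ rfl]; group
  have h4 : ∀ k : K, β ⟨k, hK k.2⟩ = ψ k := fun k => h3 _ _ (h1 k)
  refine ⟨φ.prod β, fun ⟨s, c⟩ => ?_, fun n => Prod.ext_iff.trans ⟨fun e => ⟨(hφ n).mp e.1, (h4 _).symm.trans e.2⟩,
    fun ⟨e, e'⟩ => ⟨(hφ n).mpr e, (h4 ⟨n, e⟩).trans e'⟩⟩⟩
  obtain ⟨n, -, rfl⟩ := h s
  obtain ⟨k, hk⟩ := hψ (c * (β n)⁻¹)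
  exact ⟨⟨k, hK k.2⟩ * n, by simp [h4, hk, (hφ ⟨k, hK k.2⟩).mpr k.2]⟩

theorem sl3_ext {A B : SL(3, ZMod 2)} (h : ∀ y ∈ [![1, 0, 0], ![0, 1, 0], ![0, 1, 1]], A.1 *ᵥ y = B.1 *ᵥ y) : A = B := by
  have h1 := h _ (.head _)
  have h2 := h _ (.tail _ (.head _))
  have h3 := h _ (.tail _ (.tail _ (.head _)))
  ext i j
  replace h1 := congrFun h1 i
  replace h2 := congrFun h2 i
  replace h3 := congrFun h3 i
  simp only [mulVec, dotProduct, Fin.sum_univ_three, cons_val, mul_one, mul_zero, add_zero, zero_add] at h1 h2 h3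
  fin_cases j
  exacts [h1, h2, add_left_cancel (h2 ▸ h3)]

/-- An element of order seven and two transvections. -/
def g3 : Fin 3 → SL(3, ZMod 2) := ![⟨!![0, 0, 1; 1, 0, 0; 0, 1, 1], by decide⟩, ⟨!![1, 0, 1; 0, 1, 0; 0, 0, 1], by decide⟩,
  ⟨!![1, 1, 0; 0, 1, 0; 0, 0, 1], by decide⟩]

theorem sl3_top {J : Subgroup SL(3, ZMod 2)} (h : ∀ i, g3 i ∈ J) : J = ⊤ :=
  SLn.eq_top_of_transvection_mem J fun i j hij c => by
    obtain ⟨a, -, t, ht, e⟩ := (by decide +kernel : ∀ (i j : Fin 3) (hij : i ≠ j) (c : ZMod 2), ∃ a < 7,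
      ∃ t ∈ [1, g3 1, g3 2, g3 1 * g3 2], SpecialLinearGroup.transvection hij c * g3 0 ^ a = g3 0 ^ a * t) i j hij c
    refine (mul_mem_cancel_right (pow_mem (h 0) a)).mp (e ▸ mul_mem (pow_mem (h 0) a) ?_)
    simp only [List.mem_cons, List.not_mem_nil, or_false] at ht
    rcases ht with rfl | rfl | rfl | rfl
    exacts [one_mem _, h 1, h 2, mul_mem (h 1) (h 2)]

theorem sl3_two {J : Subgroup SL(3, ZMod 2)} [J.Normal] (h : IsPGroup 2 J) : J = ⊥ := by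
  rcases SLn.normal_le_center_or_eq_top (Or.inl (by simp)) J with h1 | rfl
  · refine eq_bot_iff.mpr fun a ha => ?_
    obtain ⟨r, hr, e⟩ := Matrix.SpecialLinearGroup.mem_center_iff.mp (h1 ha)
    rcases z2_cases r with rfl | rfl
    · simp at hr
    · exact Subtype.ext (e.symm.trans (map_one _))
  · obtain ⟨n, hn⟩ := IsPGroup.iff_card.mp h
    rw [card_top, J4.card_SL3] at hn
    exact absurd ((by norm_num : Nat.Prime 3).dvd_of_dvd_pow (hn ▸ (by norm_num : 3 ∣ 168))) (by norm_num)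

/-- The code of the image in `Q / Z` of the element of `V` with given coordinates. -/
def cV (y : Fin 3 → ZMod 2) : ℕ := 85 * (y 1).val ^^^ 170 * (y 2).val

theorem cV_mem : ∀ y, cV y ∈ [0, 85, 170, 255] := by decide

theorem cV_lt : ∀ y, cV y < 4096 := by decide

namespace Mod

variable {q : V → ZMod 2} {e : ℕ → V} {gs : List Γ} {h : Γ} (M : Mod Γ V q e gs h)
include M

theorem fix_F {γ : Γ} (hγ : γ ∈ subW (aL gs) lZ) {v : V} (hv : v ∈ fx V (subW (aL gs) lR)) : γ • v = v := by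
  obtain ⟨c, hc, rfl⟩ := M.mem_F.mp hv
  obtain ⟨h1, h2⟩ := (by decide +kernel : ∀ c ∈ [0, 85, 170, 255], c < 4096 ∧ ∀ w ∈ lZ, ptW 4096 nL w c c = true) c hc
  exact (CL.PG.subW_le (H := stabilizer Γ (e c))).mpr (fun w hw => M.wd_e h1 (h2 w hw)) hγ

theorem β0_eq_one (γ : subW (aL gs) lZ) : M.β0 γ = 1 ↔ (γ : Γ) ∈ subW (aL gs) lR := by
  have h1 := M.stab_Z.ge γ.2
  rw [← M.inf_lB.1, ← M.ker_β.1, mem_inf, and_iff_right (mem_inf.mp h1).1]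
  exact (mem_map_iff_mem (f := (stabilizer Γ (e 85)).subtype) (K := M.β.ker) (subtype_injective _) (x := ⟨γ, h1.2⟩)).symm

end Mod

namespace Cx

variable {z : G} {Q : Subgroup G} {q : V → ZMod 2} {ρ : centralizer ({z} : Set G) →* Γ} {π : G → V}
  {x : centralizer ({z} : Set G)} {σ : V → G} {e : ℕ → V} {gs : List Γ} {h : Γ} {g : G}
  (C : Cx z Q q ρ π x σ e gs h g)

/-- The elementary abelian subgroup of order eight. -/
noncomputable abbrev V3 : Subgroup G := C.pre (fx V (subW (aL gs) lR))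

/-- The orthogonal complement of the image of `V`. -/
abbrev perp : AddSubgroup V := ((C.polR (e 85)).prod (C.polR (e 170))).ker

theorem V3_ea : IsElementaryAbelian 2 C.V3 := ea_mono C.A_ea fun _ ha => C.pre_le_A ⟨ha.1, C.M.F_le_W ha.2⟩

theorem card_V3 : Nat.card C.V3 = 8 := by rw [C.card_pre, C.M.card_F]

theorem mem_perp {v : V} : v ∈ C.perp ↔ pol q (e 85) v = 0 ∧ pol q (e 170) v = 0 := Prod.ext_iff

theorem e_mem_perp {a : ℕ} (ha : a < 4096) (hc : bb 85 a = false ∧ bb 170 a = false) : e a ∈ C.perp :=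
  C.mem_perp.mpr ⟨C.M.pol_eq (by norm_num) ha (bz_eq_zero.mpr hc.1), C.M.pol_eq (by norm_num) ha (bz_eq_zero.mpr hc.2)⟩

theorem card_perp : Nat.card C.perp = 1024 := by
  have h1 := C.perp.card_mul_index
  rw [AddSubgroup.index_ker, AddMonoidHom.range_eq_top.mpr, AddSubgroup.card_top, C.card, Nat.card_prod,
    Nat.card_zmod] at h1
  · omega
  · intro ⟨a, b⟩
    obtain ⟨c, hc, h2, h3⟩ := (by decide +kernel : ∀ a b : ZMod 2, ∃ c < 4, bz (bb 85 c) = a ∧ bz (bb 170 c) = b) a b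
    exact ⟨e c, Prod.ext (C.M.pol_eq (by norm_num) (by omega) h2) (C.M.pol_eq (by norm_num) (by omega) h3)⟩

theorem inf_cent : Q ⊓ 𝒞(C.V3) = C.pre C.perp := by
  have k : ∀ a ∈ Q ⊓ 𝒞(C.V3), ∀ c ∈ [0, 85, 170, 255], pol q (e c) (π a) = 0 := fun a ha c hc => by
    rw [← C.π_σ (e c), C.pol_eq_zero (C.σ_mem _) ha.1]
    exact ha.2 _ (C.σ_mem_pre (C.M.e_mem_F hc))
  refine le_antisymm (fun a ha => ⟨ha.1, C.mem_perp.mpr ⟨k a ha _ (by simp), k a ha _ (by simp)⟩⟩) fun a ha =>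
    ⟨ha.1, fun b hb => (C.pol_eq_zero hb.1 ha.1).mp ?_⟩
  obtain ⟨c, hc, h1⟩ := C.M.mem_F.mp hb.2
  obtain ⟨h2, h3⟩ := C.mem_perp.mp ha.2
  simp only [List.mem_cons, List.not_mem_nil, or_false] at hc
  rw [h1]
  rcases hc with rfl | rfl | rfl | rfl
  exacts [C.M.zero ▸ C.pol_zero _, h2, h3, by rw [show 255 = 85 ^^^ 170 from rfl, C.M.add, C.pol_add, h2, h3, add_zero]]

theorem ρ_mem_lZ (c : 𝒞(C.V3)) : ρ ⟨c, C.cent_pre_le _ c.2⟩ ∈ subW (aL gs) lZ :=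
  C.M.stab_Z.le ⟨C.mem_LL_of_cent c.2, C.fix_of_cent c.2 (C.M.e_mem_F (by simp))⟩

/-- The homomorphism of the centralizer of `V` onto `A₆`. -/
noncomputable def ψ0 : 𝒞(C.V3) →* Equiv.Perm (Fin 6) :=
  C.M.β0.comp ((ρ.comp (inclusion (C.cent_pre_le _))).codRestrict _ C.ρ_mem_lZ)

theorem range_ψ0 : C.ψ0.range = alternatingGroup (Fin 6) := by
  rw [← C.M.range_β0]
  refine le_antisymm (by rintro _ ⟨c, rfl⟩; exact ⟨_, rfl⟩) ?_
  rintro _ ⟨γ, rfl⟩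
  obtain ⟨c, h1, h2⟩ := C.exists_K (C.M.subW_le _ γ.2)
  exact ⟨⟨c, C.K_mem_cent h2 fun v hv => h1 ▸ C.M.fix_F γ.2 hv⟩, congrArg C.M.β0 (Subtype.ext h1)⟩

theorem ψ0_eq_one (c : 𝒞(C.V3)) : C.ψ0 c = 1 ↔ ρ ⟨c, C.cent_pre_le _ c.2⟩ ∈ subW (aL gs) lR := C.M.β0_eq_one _

/-- The homomorphism of the centralizer of `V` onto `A₆`. -/
noncomputable def ψ : 𝒞(C.V3) →* alternatingGroup (Fin 6) := C.ψ0.codRestrict _ fun c => C.range_ψ0.le ⟨c, rfl⟩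

theorem ψ_surj : Function.Surjective C.ψ := fun p => (C.range_ψ0.ge p.2).imp fun _ h => Subtype.ext h

theorem two_le {R : Subgroup G} (hR : IsPGroup 2 R) (hn : 𝒞(C.V3) ≤ 𝒩(R)) {c : 𝒞(C.V3)} (hc : (c : G) ∈ R) :
    C.ψ c = 1 := Subtype.ext (two_le_ker C.ψ0 C.range_ψ0.ge hR hn hc)

theorem le_inn {u : G} {U : Subgroup G} (hX : XS u U) (hu : u ∈ C.V3) (hU : U ≤ 𝒩(C.V3)) : U ≤ Inn C.ψ := fun a ha => by
  have h1 : 𝒞(C.V3) ≤ 𝒩(U) := (centralizer_le (Set.singleton_subset_iff.mpr hu)).trans hX.norm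
  refine ⟨norm_le_norm_cent _ (hU ha), 1, fun k k' e => ?_⟩
  rw [one_mul, inv_one, mul_one, ← mul_inv_eq_one, ← map_inv, ← map_mul]
  refine C.two_le hX.isPGroup h1 ?_
  rw [coe_mul, ← e, mul_assoc, mul_assoc, ← mul_assoc (k : G)]
  exact mul_mem ha (conj_mem (h1 k.2) (inv_mem ha))

variable [Finite G]

theorem x_mem_inn : (x : G) ∈ Inn C.ψ := ⟨norm_le_norm_cent _ C.x_norm_V, 1, fun k k' e => by
  rw [one_mul, inv_one, mul_one]
  refine Subtype.ext (congrArg C.M.β0 (Subtype.ext (?_ : ρ ⟨k', _⟩ = ρ ⟨k, _⟩)))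
  rw [show (⟨k', _⟩ : centralizer ({z} : Set G)) = x * ⟨k, C.cent_pre_le _ k.2⟩ * x⁻¹ from Subtype.ext e.symm, map_mul,
    map_mul, map_inv, C.ρx, ← C.M.commX (C.mem_LL_of_cent k.2), mul_inv_cancel_right]⟩

theorem exists_phi : ∃ φ : 𝒩(C.V3) →* SL(3, ZMod 2), (∀ n, φ n = 1 ↔ (n : G) ∈ 𝒞(C.V3)) ∧
    ∀ s, ∃ n : 𝒩(C.V3), (n : G) ∈ Inn C.ψ ∧ φ n = s := by
  let ζ : (Fin 3 → ZMod 2) → G := fun y => σ (e (cV y)) * zp z (y 0)
  have h1 : ∀ y, π (ζ y) = e (cV y) := fun y => by rw [C.π_mul_zp (C.σ_mem _), C.π_σ]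
  have h2 : Function.Injective ζ := fun y y' e => by
    have h3 := C.M.inj _ (cV_lt y) _ (cV_lt y') (by rw [← h1, e, h1])
    simp only [ζ, h3, mul_right_inj] at e
    exact (by decide : ∀ y y', cV y = cV y' → y 0 = y' 0 → y = y') y y' h3 (C.zp_inj e)
  have h3 : ∀ a, a ∈ C.V3 ↔ ∃ y, ζ y = a := fun a => ⟨fun ha => by
    obtain ⟨c, hc, h3⟩ := C.M.mem_F.mp ha.2
    obtain ⟨k, hk⟩ := C.exists_σ ha.1
    obtain ⟨y, rfl, rfl⟩ := (by decide : ∀ c ∈ [0, 85, 170, 255], ∀ k, ∃ y, cV y = c ∧ y 0 = k) c hc k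
    exact ⟨y, by rw [hk, h3]⟩, by
    rintro ⟨y, rfl⟩
    exact mul_mem (C.σ_mem_pre (C.M.e_mem_F (cV_mem y))) (C.zp_mem_pre _ _)⟩
  obtain ⟨φ, hφ⟩ := J4.exists_slHom (ζ := ζ) (fun y y' => by
    simp only [ζ]
    rw [← C.σ_xor (cV_mem y) (cV_mem y') ((by decide : ∀ y y', cV y ^^^ cV y' = cV (y + y')) y y'), Pi.add_apply,
      C.zp_add, mul_assoc, mul_assoc, ← mul_assoc (σ _) (zp z _), XM.zp_comm (C.le (C.σ_mem _)), mul_assoc]) h2 h3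
  have h4 := sup_le_iff.mp C.sup_le_norm_V
  refine ⟨φ, fun n => ⟨fun e a ha => ?_, fun hn => sl3_ext fun y _ => h2 ?_⟩, fun s => ?_⟩
  · obtain ⟨y, rfl⟩ := (h3 a).mp ha
    have := hφ n y
    rw [show (φ n).1 = 1 from congrArg Subtype.val e, one_mulVec] at this
    exact (mul_inv_eq_iff_eq_mul.mp this).symm
  · rw [← hφ, conj_eq_of_mem hn ((h3 _).mpr ⟨y, rfl⟩)]
    exact congrArg ζ (one_mulVec y).symm
  refine (sl3_top (J := ((Inn C.ψ).subgroupOf _).map φ) fun i => ?_).ge (mem_top s)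
  have h5 := C.le_inn C.toXS (C.z_mem_pre _) h4.1
  have h6 : ∀ a < 4096, ∀ i, (∀ y, cV ((g3 i).1 *ᵥ y) = cV y ∧ ((g3 i).1 *ᵥ y) 0 = bz (bb a (cV y)) + y 0) →
      g3 i ∈ ((Inn C.ψ).subgroupOf _).map φ := fun a ha i hc => ⟨⟨_, h4.1 (C.σ_mem (e a))⟩, h5 (C.σ_mem _),
    sl3_ext fun y _ => h2 (by
      rw [← hφ]
      simp only [ζ]
      rw [(hc y).1, (hc y).2, ← conj_mul, C.conj_eq (C.σ_mem _) (C.σ_mem _), C.π_σ, C.π_σ, C.M.pol_e ha (cV_lt y),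
        XM.zp_comm (C.le (C.σ_mem (e a))), mul_inv_cancel_right, C.zp_add, mul_assoc])⟩
  fin_cases i
  · obtain ⟨l, a1, a2, a3, a4, -⟩ := C.exists_l
    refine ⟨⟨l, a1 _ h4.1 h4.2 C.x_norm_V⟩, a1 _ h5 (C.le_inn C.xs (C.σ_mem_pre (C.M.e_mem_F (by simp))) h4.2)
      C.x_mem_inn, sl3_ext fun y hy => h2 ?_⟩
    have a5 : ∀ y, y 0 = 0 → ζ y = σ (e (cV y)) := fun y h => by simp only [ζ, h, zp_zero, mul_one]
    have a6 : ζ ![1, 0, 0] = z := (congrArg (· * z) ((congrArg σ C.M.zero).trans C.σ_zero)).trans (one_mul z) ▸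
      congrArg (_ * ·) (zp_one z)
    rw [← hφ]
    simp only [List.mem_cons, List.not_mem_nil, or_false] at hy
    rcases hy with rfl | rfl | rfl
    · rw [a6, a5 _ (by decide)]; exact a2
    · rw [a5 _ (by decide), a5 _ (by decide)]; exact a3
    · rw [a5 _ (by decide), show (g3 _).1 *ᵥ _ = ![1, 0, 0] by decide, a6]; exact a4
  · exact h6 1 (by norm_num) _ (by decide +kernel)
  · exact h6 2 (by norm_num) _ (by decide +kernel)

theorem V3_le {K : Subgroup G} (hz : z ∈ K) (hK : 𝒩(C.V3) ≤ 𝒩(K)) : C.V3 ≤ K := fun a ha => by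
  obtain ⟨l, a1, a2, a3, -⟩ := C.exists_l
  have h1 := hK (a1 _ (sup_le_iff.mp C.sup_le_norm_V).1 (sup_le_iff.mp C.sup_le_norm_V).2 C.x_norm_V)
  have h2 := a2 ▸ conj_mem h1 hz
  have h3 := a3 ▸ conj_mem h1 h2
  obtain ⟨c, hc, h4⟩ := C.M.mem_F.mp ha.2
  obtain ⟨k, hk⟩ := C.exists_σ ha.1
  rw [hk, h4]
  refine mul_mem ?_ (pow_mem hz _)
  simp only [List.mem_cons, List.not_mem_nil, or_false] at hc
  rcases hc with rfl | rfl | rfl | rfl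
  exacts [by rw [C.M.zero, C.σ_zero]; exact one_mem _, h2, h3,
    C.σ_xor (a := 85) (b := 170) (c := 255) (by simp) (by simp) rfl ▸ mul_mem h2 h3]

/-- The largest normal two-subgroup of the normalizer of `V`. -/
noncomputable def R : Subgroup G := C.ψ.ker.map 𝒞(C.V3).subtype

omit [Finite G] in
theorem R_le : C.R ≤ 𝒞(C.V3) := map_subtype_le _

omit [Finite G] in
theorem mem_R {c : G} : c ∈ C.R ↔ ∃ h : c ∈ 𝒞(C.V3), ρ ⟨c, C.cent_pre_le _ h⟩ ∈ subW (aL gs) lR :=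
  ⟨fun ⟨k, h1, h2⟩ => h2 ▸ ⟨k.2, (C.ψ0_eq_one k).mp (congrArg Subtype.val h1)⟩,
    fun ⟨h1, h2⟩ => ⟨⟨c, h1⟩, Subtype.ext ((C.ψ0_eq_one _).mpr h2), rfl⟩⟩

omit [Finite G] in
theorem inf_R : Q ⊓ C.R = C.pre C.perp := le_antisymm ((inf_le_inf_left _ C.R_le).trans C.inf_cent.le) fun a ha =>
  ⟨ha.1, C.mem_R.mpr ⟨(C.inf_cent.ge ha).2, (C.ρ_eq_one ⟨a, _⟩).mpr ha.1 ▸ one_mem _⟩⟩

theorem E'_le_R : cj g Q ⊓ cj (x : G) (cj g Q) ≤ C.R := fun _ ha =>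
  C.mem_R.mpr ⟨C.E'_le_cent ha, C.im_E'.le ⟨_, ha, rfl⟩⟩

theorem card_R : Nat.card C.R = 2 ^ 15 := by
  rw [C.card_im (C.R_le.trans (C.cent_pre_le _)), C.inf_R, C.card_pre, C.card_perp, show im ρ C.R = _ from
    le_antisymm (by rintro _ ⟨c, hc, rfl⟩; exact (C.mem_R.mp hc).2) (C.im_E'.ge.trans (map_mono (comap_mono C.E'_le_R))),
    C.M.inf_lB.2]
  norm_num

theorem sq_mem {c : G} (hc : c ∈ C.R) : c * c ∈ C.V3 := by
  obtain ⟨h1, h2⟩ := C.mem_R.mp hc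
  obtain ⟨y, h3, h4⟩ := mem_im.mp (C.im_E'.ge h2)
  have h5 : c * (y : G)⁻¹ ∈ Q := C.ρ_eq_iff.mp h4.symm
  have h6 := conj_mem' (C.cent_le_norm_E' (mul_mem h1 (inv_mem (C.E'_le_cent h3)))) h3
  have h7 : (y : G) * y = 1 := (sq _).symm.trans (ea_pow C.E'_ea h3)
  rw [show c * c = c * (y : G)⁻¹ * (c * (y : G)⁻¹) * ((c * (y : G)⁻¹)⁻¹ * y * (c * (y : G)⁻¹) * (y : G)⁻¹) * (y * y) by
    group, h7, mul_one, C.sq_eq h5]
  exact mul_mem (C.zp_mem_pre _ _) (C.inf_E'.le (mem_inf.mpr ⟨by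
    simpa only [mul_assoc] using mul_mem (inv_mem h5) (C.conj_mem y.2 h5), Subgroup.mul_mem _ h6 (inv_mem h3)⟩))

theorem center_R : C.R ⊓ 𝒞(C.R) = C.V3 := by
  refine le_antisymm (fun c hc => ?_) (le_inf (C.inf_E'.ge.trans (inf_le_right.trans C.E'_le_R))
    (le_centralizer_iff.mp C.R_le))
  obtain ⟨h1, h2⟩ := C.mem_R.mp hc.1
  have h3 := fun a ha hb => C.fix_of_cent (c := ⟨c, C.cent_pre_le _ h1⟩)
    (cent_mono (C.inf_R.ge.trans inf_le_right) hc.2) (C.e_mem_perp (a := a) ha hb)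
  have h4 := (C.ρ_eq_one _).mp (C.M.eq_one_Z (C.M.subW_le _ h2) (h3 _ (by norm_num) (by decide +kernel))
    (h3 _ (by norm_num) (by decide +kernel)) (h3 _ (by norm_num) (by decide +kernel))
    (h3 _ (by norm_num) (by decide +kernel)))
  refine ⟨h4, mem_fx.mpr fun γ hγ => ?_⟩
  obtain ⟨y, h5, rfl⟩ := C.im_E'.ge hγ
  rw [← C.π_conj y h4, hc.2 y (C.E'_le_R h5), mul_inv_cancel_right]

theorem struct_V : pCoreOf 2 𝒩(C.V3) = C.R ∧ IsSpecial 2 C.R ∧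
    ∃ Φ : 𝒩(C.V3) →* SL(3, ZMod 2) × alternatingGroup (Fin 6), Function.Surjective Φ ∧ C.R.subgroupOf _ = Φ.ker := by
  obtain ⟨φ, h1, h2⟩ := C.exists_phi
  obtain ⟨Φ, h3, h4⟩ := exists_prod (cent_le_norm _) φ h1 C.ψ C.ψ_surj (alternatingGroup.center_eq_bot (by simp)) h2
  have h5 : C.R.subgroupOf _ = Φ.ker := Subgroup.ext fun n => ⟨fun ⟨k, a1, a2⟩ => (h4 n).mpr ⟨C.R_le ⟨k, a1, a2⟩,
    (congrArg C.ψ (Subtype.ext a2.symm)).trans a1⟩, fun h => ((h4 n).mp h).elim fun a1 a2 => ⟨⟨n, a1⟩, a2, rfl⟩⟩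
  have h6 := C.R_le.trans (cent_le_norm _)
  have h7 : 𝒩(C.V3) ≤ 𝒩(C.R) := (normal_subgroupOf_iff_le_normalizer h6).mp (h5 ▸ Φ.normal_ker)
  have h8 : IsPGroup 2 C.R := IsPGroup.of_card C.card_R
  refine ⟨le_antisymm (fun a ha => ?_) (le_core h6 h8 h7), isSpecial_of h8 C.center_R (le_antisymm
    (commutator_le.mpr fun a ha b hb => ?_) (C.V3_le ?_ (le_norm_commutator h7 h7))) fun a ha => sq a ▸ C.sq_mem ha,
    Φ, h3, h5⟩
  · obtain ⟨n, hn, rfl⟩ := id ha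
    have := (inferInstance : (pCore 2 𝒩(C.V3)).Normal).map φ fun s => (h2 s).imp fun _ h => h.2
    have h9 := (h1 n).mp ((sl3_two (pCore_isP.map φ)).le ⟨n, hn, rfl⟩)
    exact ⟨⟨n, h9⟩, C.two_le (core_isP _) ((cent_le_norm _).trans (self_le_norm_core _)) ha, rfl⟩
  · simpa [commutatorElement_def, mul_assoc] using
      mul_mem (mul_mem (C.sq_mem ha) (C.sq_mem (mul_mem (inv_mem ha) hb))) (C.sq_mem (inv_mem hb))
  · have k := fun a ha hb => (C.inf_R.ge (C.σ_mem_pre (C.e_mem_perp (a := a) ha hb))).2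
    have := commutator_mem_commutator (k 256 (by norm_num) (by decide +kernel)) (k 512 (by norm_num) (by decide +kernel))
    rwa [commutatorElement_def, C.conj_eq (C.σ_mem _) (C.σ_mem _), C.π_σ, C.π_σ,
      C.M.pol_eq (k := 1) (by norm_num) (by norm_num) (by decide +kernel), zp_one, C.σ_z, mul_inv_cancel_right] at this

end Cx

end CL.F24
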