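/-
Groups of large Fischer type: the centralizer of the element of order three is quasisimple.
-/
import Cfsg.Agent.Spor.F24N

set_option autoImplicit false

namespace CL.F24

open Subgroup CL.Even CL.PG MulAction Cfsg CL.Loc
open scoped commutatorElement

variable {G Γ V : Type*} [Group G] [Group Γ] [AddCommGroup V] [DistribMulAction Γ V]

theorem Mod.mem_LL_of_comm {q : V → ZMod 2} {e : ℕ → V} {gs : List Γ} {h : Γ} (M : Mod Γ V q e gs h) {γ : Γ}
    (hγ : γ * wd gs [0] = wd gs [0] * γ) : γ ∈ LL gs := by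
  by_contra hn
  have h3 := M.semi_of hn (γ⁻¹ • e 1)
  rw [← mul_smul γ, hγ, mul_smul, smul_inv_smul, smul_left_cancel_iff, M.x_e (b := 2) (by norm_num) (by decide),
    M.eq_iff (by norm_num) (by norm_num)] at h3
  exact absurd h3 (by norm_num)

theorem Mod.x_ne_one {q : V → ZMod 2} {e : ℕ → V} {gs : List Γ} {h : Γ} (M : Mod Γ V q e gs h) : wd gs [0] ≠ 1 :=
  M.goodL.ne_one le_rfl M.inj (i := 1) (by decide +kernel)

namespace Cx

variable {z : G} {Q : Subgroup G} {q : V → ZMod 2} {ρ : centralizer ({z} : Set G) →* Γ} {π : G → V}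
  {x : centralizer ({z} : Set G)} {σ : V → G} {e : ℕ → V} {gs : List Γ} {h : Γ} {g : G}
  (C : Cx z Q q ρ π x σ e gs h g) [Finite G]

include C

theorem x_mem_comm : x ∈ ⁅centralizer {x}, centralizer {x}⁆ := by
  obtain ⟨a, ha, ax⟩ := C.exists_K (C.M.wd_mem [2, 23])
  obtain ⟨b, hb, bx⟩ := C.exists_K (C.M.wd_mem [4, 20])
  have h1 := commutator_mem_commutator (mem_centralizer_singleton_iff.mpr ax) (mem_centralizer_singleton_iff.mpr bx)
  obtain ⟨k, hk⟩ := C.eq_mul_zp_K rfl (mem_centralizer_singleton_iff.mp (commutator_le_of_le_norm le_normalizer h1)) (by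
    have := C.M.relsL (R := [([2, 23] ++ [4, 20], [0] ++ [4, 20] ++ [2, 23])]) (by decide +kernel) _
      (List.mem_singleton_self _)
    simp only [wordG_append] at this
    rw [map_commutatorElement, ha, hb, commutatorElement_def, this, C.ρx, mul_inv_cancel_right, mul_inv_cancel_right])
  have h2 := mul_mem h1 (pow_mem C.z_mem_comm k.val)
  rwa [show ⁅a, b⁆ * ⟨z, C.le C.mem⟩ ^ k.val = x from Subtype.ext hk.symm] at h2

theorem cent_x {S : Type*} [Group S] [IsSimpleGroup S] (hS : ¬ IsMulCommutative S) (φ : LL gs →* S)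
    (hφ : Function.Surjective φ) (hk : ∀ γ, φ γ = 1 ↔ (γ : Γ) ∈ zpowers (wd gs [0])) {K : Subgroup _}
    (hK : K = centralizer {x}) : Group.IsPerfect K ∧ (∃ y : K, orderOf y = 6 ∧ center K = zpowers y) ∧
      Nonempty (K ⧸ center K ≃* S) := by
  subst hK
  have : Fact (Nat.Prime 3) := ⟨Nat.prime_three⟩
  let Φ : centralizer {x} →* S := φ.comp ((ρ.comp (Subgroup.subtype _)).codRestrict _ fun c =>
    C.M.mem_LL_of_comm (by rw [← C.ρx]; simpa using congrArg ρ (mem_centralizer_singleton_iff.mp c.2)))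
  have h1 : Function.Surjective Φ := fun s => by
    obtain ⟨γ, rfl⟩ := hφ s
    obtain ⟨c, h1, h2⟩ := C.exists_K γ.2
    exact ⟨⟨c, mem_centralizer_singleton_iff.mpr h2⟩, congrArg φ (Subtype.ext h1)⟩
  let t : centralizer ({z} : Set G) := ⟨z, C.le C.mem⟩
  have ht : ∀ c, Commute c t := fun c => Subtype.ext (mem_centralizer_singleton_iff.mp c.2)
  have t2 : t ^ 2 = 1 := Subtype.ext ((sq z).trans C.mul_self)
  let y : centralizer {x} := ⟨x * t, mem_centralizer_singleton_iff.mpr ((Commute.refl x).mul_left (ht x).symm)⟩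
  have h2 : Φ.ker ≤ zpowers y := fun c hc => by
    obtain ⟨n, hn⟩ := (hk _).mp hc
    obtain ⟨k, h⟩ := C.eq_mul_zp_K (mem_centralizer_singleton_iff.mp c.2) ((Commute.refl x).zpow_left n)
      (by rw [map_zpow, C.ρx]; exact hn.symm)
    refine ⟨4 * n + 3 * k.val, Subtype.ext ?_⟩
    have a1 : (x * t) ^ (4 : ℤ) = x := by
      rw [zpow_ofNat, (ht x).mul_pow, pow_succ x, C.x3, pow_mul t 2 2, t2, one_pow, one_mul, mul_one]
    have a2 : (x * t) ^ (3 : ℤ) = t := by rw [zpow_ofNat, (ht x).mul_pow, pow_succ t, C.x3, t2, one_mul, one_mul]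
    rw [coe_zpow, zpow_add, zpow_mul, zpow_mul, a1, a2, zpow_natCast]
    exact Subtype.ext h.symm
  have h3 : zpowers y ≤ center _ := zpowers_le.mpr (mem_center_iff.mpr fun c =>
    Subtype.ext (Commute.mul_right (mem_centralizer_singleton_iff.mp c.2) (ht c)))
  have h4 : center _ ≤ Φ.ker := fun c hc => mem_bot.mp (((center S).normal_of_characteristic.eq_bot_or_eq_top.resolve_right
    fun h => hS (center_eq_top_iff.mp h)).le (mem_center_iff.mpr fun s => by
      obtain ⟨d, rfl⟩ := h1 s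
      rw [← map_mul, mem_center_iff.mp hc, map_mul]))
  refine ⟨Group.isPerfect_def.mpr ?_, ⟨y, ?_, le_antisymm (h4.trans h2) h3⟩,
    ⟨(QuotientGroup.quotientMulEquivOfEq (le_antisymm h4 (h2.trans h3))).trans
      (QuotientGroup.quotientKerEquivOfSurjective Φ h1)⟩⟩
  · have h5 : (commutator _).map Φ = ⊤ := by
      rw [commutator_def, map_commutator, map_top_of_surjective _ h1]
      exact (commutator_normal ⊤ ⊤).eq_bot_or_eq_top.resolve_left fun h => hS (center_eq_top_iff.mp ((commutator_eq_bot_iff_center_eq_top S).mp h))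
    rw [← sup_eq_left (a := commutator _).mpr (h2.trans (zpowers_le.mpr ?_)), ← comap_map_eq, h5, comap_top]
    rw [← mem_map_iff_mem (subtype_injective _), map_subtype_commutator]
    exact mul_mem C.x_mem_comm C.z_mem_comm
  · rw [← orderOf_coe, (ht x).orderOf_mul_eq_mul_orderOf_of_coprime] <;>
      rw [orderOf_eq_prime C.x3 fun h => C.M.x_ne_one (by rw [← C.ρx, h, map_one]), ← orderOf_coe, C.ord]
    norm_num

end Cx

end CL.F24
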