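/-
Groups of type M(22): the large extraspecial subgroup of the automorphism group.
-/
import Cfsg.Agent.Spor.Fi22A1
import Cfsg.Agent.Spor.Fi22A5
import Cfsg.Agent.Even.XS2

set_option autoImplicit false
set_option maxRecDepth 200000

namespace CL.F22
open CL.PG CL.Fi CL.TT Cfsg Subgroup

variable {G : Type*} [Group G] {D : Set G} {e : ℕ → Cj G} {gs : List G}

/-- generators of `O₂(C(a c))` in the automorphism group -/
abbrev LQ : List (List ℕ) := [[252], [254], [256], [258], [260], [262], [264], [266], [268], [270]]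

theorem ALay.lh {as : List (MulAut G)} (X : ALay ans aD achk D e gs as) : ∃ xs, ALay hns hD hchk D e gs xs :=
  ⟨_, X.ext (hctx X.f.ctx X.sep fun _ _ => trivial) (hlen X.f.ctx) (by decide +kernel)⟩

namespace ALay
variable {xs : List (MulAut G)} (X : ALay hns hD hchk D e gs xs)
include X

theorem wz : wordG xs [0, 4] = MulAut.conj (letG gs 0 * letG gs 4) := by simp [X.lt]

theorem centz : centralizer {MulAut.conj (letG gs 0 * letG gs 4)} = subW xs [[72], [74], [76]] := by
  rw [← hcz X.f.ctx (X.f.ub _), X.f.top, top_inf_eq, subW_single, zpowers_eq_closure, centralizer_closure,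
    show W (nat_lit 0x1401) = [0, 4] by decide +kernel, X.wz]

theorem quoz : Quo (centralizer {MulAut.conj (letG gs 0 * letG gs 4)}) (subW xs LQ)
    (subW CL.Std.O6m2.gs1 [[0], [2]]) := X.centz ▸ hquo X.f.ctx

theorem fstarz : (generalizedFittingSubgroup (centralizer {MulAut.conj (letG gs 0 * letG gs 4)})).map
    (Subgroup.subtype _) = subW xs LQ :=
  have := X.f.finite
  fstarOf_eq_of_pCoreOf Nat.prime_two (X.quoz.pCoreOf (isPGroup_of_card (hQ_card X.f.ctx) 11 (by norm_num))
    CL.Std.O6m2.core2) (X.centz ▸ hcq X.f.ctx) (hextra_z X.f.ctx ▸ inf_le_left)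

theorem large : IsLargeExtraspecial (subW xs LQ) := by
  have := X.f.finite
  have h := CL.Even.xe_of_fstar (by rw [orderOf_injective _ X.m.conj_inj, X.m.pac.orderOf X.m.tt]) X.fstarz
    (hextra X.f.ctx)
  have h1 := hin X.f.ctx (mem_subW List.mem_cons_self)
  have h2 := X.f.ctx.ne_one hne
  simp only [wordG_app, wordG_invW, X.wz, ← mul_assoc] at h1 h2
  exact h.isLarge fun K => h.toXS.large_of_conj_mem h1 fun q => h2 (by rw [q, mul_inv_cancel])

end ALay

end CL.F22
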