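/-
The subgroups `3 U_4(3)` of the unitary groups in dimension six over the field with four elements.
-/
import Cfsg.Agent.Spor.F24E0
import Cfsg.Agent.Spor.F24U
import Cfsg.Agent.Spor.RecU1

set_option autoImplicit false

namespace CL.F24E

open CL.PG CL.F24 CL.Uni Matrix

/-! ### Irreducibility of the model -/

theorem irred {Γ V : Type*} [Group Γ] [AddCommGroup V] [DistribMulAction Γ V] {q : V → ZMod 2} {e : ℕ → V}
    {gs : List Γ} (M : ModL Γ V q e gs) (S : AddSubgroup V) (hS : ∀ g ∈ LL gs, ∀ v ∈ S, g • v ∈ S) {v : V}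
    (hv : v ∈ S) (h0 : v ≠ 0) (w : V) : w ∈ S := by
  have back : ∀ g ∈ LL gs, ∀ v, g • v ∈ S → v ∈ S := fun g hg v h => by
    simpa using hS _ (inv_mem hg) _ h
  have hN : ∀ a < 4096, qb a = true → ∃ g ∈ LL gs, g • e 1 = e a := fun a ha h => by
    have := (M.mem_mset_iff ha).mpr h
    rw [← M.orbit_N] at this
    obtain ⟨g, hg⟩ := this
    exact ⟨g, g.2, hg⟩
  have h1 : ∀ a < 4096, qb a = true → e a ∈ S → e 1 ∈ S := fun a ha h h' => by
    obtain ⟨g, hg, e'⟩ := hN a ha h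
    exact back g hg _ (e' ▸ h')
  have h2 : e 1 ∈ S := by
    obtain ⟨a, ha, rfl⟩ := M.surj v
    rcases cover ha with rfl | h | h | h
    · exact absurd M.toCod.zero h0
    · exact h1 a ha h hv
    · obtain ⟨g, hg, e'⟩ := M.exists_smul_of_T ha h
      obtain ⟨g', hg', e''⟩ := M.exists_smul_of_T (a := 6) (by norm_num) (by decide +kernel)
      have h3 := back g hg _ (e' ▸ hv)
      exact h1 (5 ^^^ 6) (by decide) (by decide +kernel) (by rw [M.add]; exact S.add_mem h3 (e'' ▸ hS g' hg' _ h3))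
    · obtain ⟨g, hg, e'⟩ := M.exists_smul_of_Z ha h
      obtain ⟨g', hg', e''⟩ := M.exists_smul_of_Z (a := 86) (by norm_num) (by decide +kernel)
      have h3 := back g hg _ (e' ▸ hv)
      exact h1 (85 ^^^ 86) (by decide) (by decide +kernel) (by rw [M.add]; exact S.add_mem h3 (e'' ▸ hS g' hg' _ h3))
  obtain ⟨a, ha, rfl⟩ := M.surj w
  rw [← ap_idc ha, M.add.ap]
  refine cs_mem S _ (fun u hu => ?_) _
  obtain ⟨c, hc, rfl⟩ := List.mem_map.1 hu
  have h4 : ∀ c ∈ idc, c < 4096 ∧ qb c = true := by decide +kernel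
  obtain ⟨g, hg, e'⟩ := hN c (h4 c hc).1 (h4 c hc).2
  exact e' ▸ hS g hg _ h2

/-! ### Hermitian forms over the field with four elements as quadratic forms -/

section Herm
variable {F V : Type*} [Field F] [AddCommGroup V] [Module F V] {σ : F →+* F} {B : V →ₛₗ[σ] V →ₗ[F] F}

open Classical in
/-- The norm. -/
noncomputable def qv (B : V →ₛₗ[σ] V →ₗ[F] F) (v : V) : ZMod 2 := if B v v = 0 then 0 else 1

/-- The prime field. -/
def io (F : Type*) [Field F] (z : ZMod 2) : F := z.val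

theorem io_inj : Function.Injective (io F) := by
  intro a b h
  rcases z2_cases a with rfl | rfl <;> rcases z2_cases b with rfl | rfl <;>
    first | rfl | (exfalso; simp [io, ZMod.val_one] at h)

theorem io_add (h : IsBar σ 2) (a b : ZMod 2) : io F (a + b) = io F a + io F b := by
  rcases z2_cases a with rfl | rfl <;> rcases z2_cases b with rfl | rfl
  · simp [io]
  · simp [io]
  · simp [io]
  · rw [show (1 : ZMod 2) + 1 = 0 from rfl, Rec.add_self h]; simp [io]

theorem io_qv (h : IsHerm B 2) (v : V) : io F (qv B v) = B v v := by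
  unfold qv
  split_ifs with h0
  · simp [io, h0]
  · rw [Rec.eq_one_of_fixed h.bar h0 (h.symm v v)]; simp [io, ZMod.val_one]

theorem io_pol (h : IsHerm B 2) (u v : V) : io F (pol (qv B) u v) = B u v + σ (B u v) := by
  rw [pol, io_add h.bar, io_add h.bar, io_qv h, io_qv h, io_qv h, h.symm]
  simp only [map_add, LinearMap.add_apply]
  linear_combination Rec.add_self h.bar (B u u) + Rec.add_self h.bar (B v v)

theorem tr_ext (h : IsBar σ 2) {z z' : F} (h1 : ∀ c, c * z + σ (c * z) = c * z' + σ (c * z')) : z = z' := by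
  obtain ⟨c, hc⟩ := h.exists_ne
  have h2 := h1 1
  have h3 := h1 c
  simp only [map_mul, one_mul] at h2 h3
  have h4 : (c - σ c) * (z - z') = 0 := by linear_combination h3 - σ c * h2
  exact sub_eq_zero.1 ((mul_eq_zero.1 h4).resolve_left fun e => hc (sub_eq_zero.1 e).symm)

theorem qv_pol_add (h : IsHerm B 2) (u v w : V) : pol (qv B) (u + v) w = pol (qv B) u w + pol (qv B) v w :=
  io_inj (F := F) (by
    rw [io_add h.bar, io_pol h, io_pol h, io_pol h]
    simp only [map_add, LinearMap.add_apply]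
    ring)

theorem qv_nondeg (h : IsHerm B 2) (v : V) (h0 : ∀ w, pol (qv B) v w = 0) : v = 0 :=
  h.nondeg v fun w => tr_ext h.bar fun c => by
    have := io_pol h v (c • w)
    rw [h0] at this
    simpa [io] using this.symm

theorem herm_of_qv (h : IsHerm B 2) (T : V →ₗ[F] V) (hT : ∀ v, qv B (T v) = qv B v) (u v : V) :
    B (T u) (T v) = B u v := tr_ext h.bar fun c => by
  have h1 := io_pol h (T u) (T (c • v))
  have h2 := io_pol h u (c • v)
  rw [pol, ← map_add, hT, hT, hT] at h1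
  rw [pol, h1] at h2
  simpa using h2

end Herm

/-! ### The coordinate space -/

variable {F : Type*} [Field F] {el : ℕ → F}

instance instAdd : AddCommGroup (Vec (Fin 6) F) := inferInstanceAs (AddCommGroup (Fin 6 → F))

instance instMod : Module F (Vec (Fin 6) F) := inferInstanceAs (Module F (Fin 6 → F))

instance instAct : DistribMulAction (GL (Fin 6) F) (Vec (Fin 6) F) :=
  { Vec.act with
    smul_zero := fun g => Matrix.mulVec_zero (g : Matrix (Fin 6) (Fin 6) F)
    smul_add := fun g u v => Matrix.mulVec_add (g : Matrix (Fin 6) (Fin 6) F) u.val v.val }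

theorem smul_comm' (g : GL (Fin 6) F) (c : F) (v : Vec (Fin 6) F) : g • c • v = c • g • v :=
  Matrix.mulVec_smul (g : Matrix (Fin 6) (Fin 6) F) c v.val

theorem gl_ext {g g' : GL (Fin 6) F} (h : ∀ v : Vec (Fin 6) F, g • v = g' • v) : g = g' :=
  Units.ext (Sp.matrix_ext_mulVec h)

/-- The coordinate `j` of a code. -/
def dig (a j : ℕ) : ℕ := Nat.mod (Nat.div a (Nat.pow 2 (Nat.mul 2 j))) 4

/-- The standard coding. -/
def e1 (el : ℕ → F) (a : ℕ) : Vec (Fin 6) F := (fun j => el (dig a j) : Fin 6 → F)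

theorem dig_lt (a j : ℕ) : dig a j < 4 := Nat.mod_lt _ (by norm_num)

theorem xadd (h : FC t4 el) : XAdd (e1 el) := fun a b => funext fun j => by
  have h1 : ∀ u < 4, ∀ v < 4, t4.add u v = u ^^^ v := by decide +kernel
  show el (dig (a ^^^ b) j) = el (dig a j) + el (dig b j)
  rw [← (h.add _ (dig_lt a j) _ (dig_lt b j)).2, h1 _ (dig_lt a j) _ (dig_lt b j)]
  show el ((a ^^^ b) / 2 ^ (2 * j.1) % 2 ^ 2) = el ((a / 2 ^ (2 * j.1) % 2 ^ 2) ^^^ (b / 2 ^ (2 * j.1) % 2 ^ 2))
  rw [Nat.xor_div_two_pow, Nat.xor_mod_two_pow]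

omit [Field F] in
theorem vec_eq {a : ℕ} (ha : a < 4096) : vecOf el (Fin.val : Fin 6 → ℕ) t4.q P.N V a = e1 el a := funext fun j =>
  congrArg el (Nat.eq_of_beq_eq_true (allN_spec (all2_spec
    (f := fun a => allN (fun j => Nat.beq (cd t4.q P.N (nth 0 V j) a) (dig a j)) 6) (k := 12) (by decide +kernel) a ha)
    j j.2))

theorem e1_surj (h : FC t4 el) (v : Vec (Fin 6) F) : ∃ a < 4096, e1 el a = v := by
  obtain ⟨a, ha, e⟩ := vecOf_surj h (ix_fin 6) hP hV (by decide) v
  exact ⟨a, ha, (vec_eq ha).symm.trans e⟩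

/-- The matrices of the model. -/
noncomputable def gm (el : ℕ → F) (i : ℕ) : GL (Fin 6) F := glF el Fin.val (nth ([], []) ms i)

/-- The letters of the model. -/
noncomputable abbrev gs1 (el : ℕ → F) : List (GL (Fin 6) F) := ext (List.map (glF el (Fin.val : Fin 6 → ℕ)) ms) ws

theorem nth_mem {i : ℕ} (hi : i < 18) : nth ([], []) ms i ∈ ms := by
  rw [nth_eq, List.getD_eq_getElem _ _ (show i < ms.length from hi)]
  exact List.getElem_mem _

theorem getD_eq {i : ℕ} (hi : i < 18) : (List.map (glF el (Fin.val : Fin 6 → ℕ)) ms).getD i 1 = gm el i := by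
  rw [gm, nth_eq, List.getD_eq_getElem _ _ (show i < ms.length from hi),
    List.getD_eq_getElem _ _ (by rw [List.length_map]; exact hi), List.getElem_map]

theorem word_eq {i : ℕ} (hi : i < 18) : wordG (gs1 el) [2 * i] = gm el i := by
  rw [wordG_single, letG_prefix (ext_prefix _ _) (by rw [List.length_map]; show _ < 2 * 18; omega), letG_even,
    getD_eq hi]

theorem coe_gm (h : FC t4 el) {i : ℕ} (hi : i < 18) :
    (gm el i : Matrix (Fin 6) (Fin 6) F) = matF el Fin.val (look (nth ([], []) ms i).1) :=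
  coe_glF h (ix_fin 6) (allL_spec hinv _ (nth_mem hi))

theorem act_gm (h : FC t4 el) {i : ℕ} (hi : i < 18) {cols : List ℕ} (hc : linB cols (getN ns0 i) = true) :
    Act (e1 el) (gm el i) cols := fun a ha => by
  have h1 := ((base h).good.getN i).2 a ha
  have h2 := (linB_spec hc).2 a ha
  rw [getD_eq hi, vec_eq ha, vec_eq h2.1, h2.2] at h1
  exact ⟨h2.2 ▸ h2.1, h1.2⟩

/-- The group `3 U_4(3)`. -/
noncomputable def K0 (el : ℕ → F) : Subgroup (GL (Fin 6) F) := LL [gm el 0, gm el 1, gm el 2, gm el 3, gm el 4]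

theorem subW_five (i : ℕ) (hi : i + 4 < 18) : subW (gs1 el) [[2 * i], [2 * (i + 1)], [2 * (i + 2)], [2 * (i + 3)],
    [2 * (i + 4)]] = LL [gm el i, gm el (i + 1), gm el (i + 2), gm el (i + 3), gm el (i + 4)] := by
  rw [← subW_map_gensW]
  simp only [List.map_cons, List.map_nil]
  rw [word_eq (by omega), word_eq (by omega), word_eq (by omega), word_eq (by omega), word_eq (by omega)]
  rfl

theorem K0_eq : K0 el = subW (gs1 el) [[0], [2], [4], [6], [8]] := (subW_five 0 (by norm_num)).symm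

theorem fc_sq (h : FC t4 el) : FC t4 fun a => el a ^ 2 := by
  have h2 : (2 : F) = 0 := h.two_eq (by decide +kernel)
  have hi : ∀ x y : F, x ^ 2 = y ^ 2 → x = y := fun x y e => by
    have : (x - y) ^ 2 = 0 := by linear_combination e + (y ^ 2 - x * y) * h2
    exact sub_eq_zero.1 (pow_eq_zero_iff two_ne_zero |>.1 this)
  have h4 : ∀ a < 4, t4.pow (t4.pow a 2) 2 = a := by decide +kernel
  refine ⟨by rw [h.zero]; simp, by rw [h.one]; simp, h.two, fun i hi' j hj e => h.inj i hi' j hj (hi _ _ e), fun x => ?_,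
    fun a ha b hb => ⟨(h.add a ha b hb).1, ?_⟩, fun a ha b hb => ⟨(h.mul a ha b hb).1, ?_⟩⟩
  · obtain ⟨a, ha, rfl⟩ := h.surj x
    exact ⟨_, (h.pow ha 2).1, by rw [← (h.pow (h.pow ha 2).1 2).2, h4 a ha]⟩
  · rw [(h.add a ha b hb).2]
    linear_combination el a * el b * h2
  · rw [(h.mul a ha b hb).2, mul_pow]

theorem gm_sq (h : FC t4 el) {i : ℕ} (hi : i < 5) : gm (fun a => el a ^ 2) i = gm el (5 + i) := by
  have h1 := allN_spec (f := fun i => meqB 6 (look (nth ([], []) ms (5 + i)).1)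
    fun j k => t4.pow (look (nth ([], []) ms i).1 j k) 2) (r := 5) (by decide +kernel) i hi
  refine Units.ext ?_
  rw [coe_gm (fc_sq h) (by omega), coe_gm h (by omega), matF_congr (ix_fin 6) h1]
  ext j k
  exact (h.pow (t4.invB_bdd (allL_spec hinv _ (nth_mem (by omega))) _ j.2 _ k.2) 2).2.symm

theorem K0_sq (h : FC t4 el) : K0 (fun a => el a ^ 2) = K0 el := by
  rw [K0, gm_sq h (by norm_num), gm_sq h (by norm_num), gm_sq h (by norm_num), gm_sq h (by norm_num),
    gm_sq h (by norm_num), K0_eq]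
  exact (subW_five 5 (by norm_num)).symm.trans (eqB (c1 h))

theorem gs1_mem (h : FC t4 el) : ∀ g ∈ gs1 el, g ∈ Cfsg.GU 6 F 2 :=
  mem_of_mem_ext (forall_mem_GU h (by decide +kernel) hinv huni) _

theorem gm_mem (h : FC t4 el) {i : ℕ} (hi : i < 18) : gm el i ∈ Cfsg.GU 6 F 2 :=
  word_eq (el := el) hi ▸ wordG_mem (gs1_mem h) _

/-- The elements of determinant one. -/
abbrev D1 (F : Type*) [Field F] : Subgroup (GL (Fin 6) F) := (Matrix.GeneralLinearGroup.det : GL (Fin 6) F →* Fˣ).ker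

theorem N0_le (h : FC t4 el) : subW (gs1 el) [[22], [24], [26], [28], [30], [32], [34]] ≤ D1 F := by
  have h1 : ∀ i < 7, wordG (gs1 el) [2 * (11 + i)] ∈ D1 F := fun i hi => by
    rw [word_eq (by omega)]
    have h2 := det_glF h (ix_fin 6) (allL_spec hinv _ (nth_mem (i := 11 + i) (by omega)))
      (allN_spec (f := fun i => t4.detB 6 1 (nth ([], []) ms (11 + i))) (r := 7) (by decide +kernel) i hi)
    exact MonoidHom.mem_ker.2 (Units.ext ((Matrix.GeneralLinearGroup.val_det_apply _).trans h2))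
  refine subW_le.2 fun w hw => ?_
  simp only [List.mem_cons, List.not_mem_nil, or_false] at hw
  rcases hw with rfl | rfl | rfl | rfl | rfl | rfl | rfl
  exacts [h1 0 (by norm_num), h1 1 (by norm_num), h1 2 (by norm_num), h1 3 (by norm_num), h1 4 (by norm_num),
    h1 5 (by norm_num), h1 6 (by norm_num)]

theorem K0_le (h : FC t4 el) : K0 el ≤ Cfsg.GU 6 F 2 ⊓ D1 F := by
  rw [K0_eq]
  exact le_inf (subW_le_of_forall (gs1_mem h) _) ((leN (c1 h)).trans (N0_le h))

theorem norm_le [Fintype F] (hF : Fintype.card F = 4) (h : FC t4 el) :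
    Cfsg.GU 6 F 2 ⊓ Subgroup.normalizer (K0 el : Set (GL (Fin 6) F)) ≤ D1 F := by
  have hc : Nat.card (Cfsg.GU 6 F 2) = 82771476480 := (card_GU (q := 2) hF 6).trans (by decide +kernel)
  have h1 := (UB.of_card hc (by norm_num)).eq_of_lb (U_lb (c1 h)) (subW_le_of_forall (gs1_mem h) _)
  have h2 := nrm (c1 h) (h1 ▸ UB.of_card hc (by norm_num))
  rw [eqK2 (c1 h), ← K0_eq, h1] at h2
  exact h2.le.trans (N0_le h)

theorem det_delta (h : FC t4 el) : (gm el 10 : Matrix (Fin 6) (Fin 6) F).det = el 2 := by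
  have h1 : (gm el 10 : Matrix (Fin 6) (Fin 6) F) = Matrix.diagonal fun i : Fin 6 => el (nth 0 [2, 1, 1, 1, 1, 1] i) := by
    rw [coe_gm h (by norm_num), matF_congr (B := dgM [2, 1, 1, 1, 1, 1]) (ix_fin 6) (by decide +kernel)]
    ext i j
    show el (dgM _ i j) = _
    unfold dgM
    cases hb : Nat.beq i j
    · rw [Matrix.diagonal_apply_ne _ fun e => Nat.ne_of_beq_eq_false hb (congrArg Fin.val e)]; exact h.zero
    · rw [Fin.ext (Nat.eq_of_beq_eq_true hb), Matrix.diagonal_apply_eq]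
  rw [h1, Matrix.det_diagonal, Fin.prod_univ_six]
  show el 2 * el 1 * el 1 * el 1 * el 1 * el 1 = _
  simp [h.one]

theorem struct_K0 (h : FC t4 el) {K : Type*} [Field K] [Fintype K] (hK : Fintype.card K = 9) :
    Nat.card (Subgroup.center (K0 el)) = 3 ∧ Nonempty (K0 el ⧸ Subgroup.center (K0 el) ≃* Cfsg.PSU 4 K 3) := by
  have := CL.Std.U43.simple
  have h1 := quo (c1 h)
  have h2 := h1.cent_eq (fun y hy => Subgroup.mem_centralizer_iff.2 fun x hx => zc (c1 h) x hx y hy)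
    (center_eq_bot_of_simple CL.Std.U43.card (by norm_num))
  rw [K0_eq]
  exact ⟨by rw [center_eq_of_cent h2, Grp.card_subgroupOf_of_le h1.le, Z_card (c1 h)],
    (h1.congr (CL.Std.U43.iso hK)).equiv_center h2⟩

/-! ### Uniqueness -/

/-- The Hermitian form. -/
noncomputable def BV (σ : F →+* F) : Vec (Fin 6) F →ₛₗ[σ] Vec (Fin 6) F →ₗ[F] F := stdB σ (Fin 6)

variable {σ : F →+* F}

theorem herm_BV (hσ : IsBar σ 2) : IsHerm (BV σ) 2 := isHerm_stdB hσ (Fin 6)

theorem mem_GU_iff (hσ : IsBar σ 2) (g : GL (Fin 6) F) :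
    g ∈ Cfsg.GU 6 F 2 ↔ ∀ u v : Vec (Fin 6) F, BV σ (g • u) (g • v) = BV σ u v :=
  ⟨fun h u v => (hermForm_eq hσ _ _).symm.trans ((h v.val u.val).trans (hermForm_eq hσ _ _)),
    fun h u v => (hermForm_eq hσ _ _).trans ((h v u).trans (hermForm_eq hσ _ _).symm)⟩

theorem qv_e1 (hσ : IsBar σ 2) (h : FC t4 el) {a : ℕ} (ha : a < 4096) : qv (BV σ) (e1 el a) = bz (qb a) := by
  have h1 := Nat.eq_of_beq_eq_true (all2_spec (f := fun a => Nat.beq (t4.dot 6 (dig a) fun j => t4.pow (dig a j) 2)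
    (Bool.rec 0 1 (qb a))) (k := 12) (by decide +kernel) a ha)
  have h2 := (h.dot (u := dig a) (v := fun j => t4.pow (dig a j) 2) 6 (fun k _ => dig_lt a k)
    fun k _ => (h.pow (dig_lt a k) 2).1).2
  apply io_inj (F := F)
  rw [io_qv (herm_BV hσ)]
  refine (hermForm_eq hσ _ _).symm.trans ?_
  rw [h1, ← (ix_fin 6).sum_eq fun k => el (dig a k) * el (t4.pow (dig a k) 2)] at h2
  simp only [fun k => (h.pow (dig_lt a k) 2).2] at h2
  refine h2.symm.trans ?_
  cases qb a
  · simp [io, bz, h.zero]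
  · simp [io, bz, h.one, ZMod.val_one]

theorem qsp (hσ : IsBar σ 2) (h : FC t4 el) {K : Subgroup (GL (Fin 6) F)} (hK : K ≤ Cfsg.GU 6 F 2) :
    QSp K (Vec (Fin 6) F) (qv (BV σ)) where
  h2 := Rec.vadd_self hσ
  pol_add := qv_pol_add (herm_BV hσ)
  nondeg := qv_nondeg (herm_BV hσ)
  qinv g v := by
    have := (mem_GU_iff hσ g).1 (hK g.2) v v
    unfold qv
    rw [Subgroup.smul_def, this]
  faith g hg := Subtype.ext (gl_ext fun v => (hg v).trans (one_smul _ v).symm)
  card := by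
    have : Function.Bijective (fun i : Fin 4096 => vecOf el (Fin.val : Fin 6 → ℕ) t4.q P.N V i) :=
      ⟨fun i j e => Fin.ext ((base h).inj _ i.2 _ j.2 e), fun v => by
        obtain ⟨a, ha, e⟩ := vecOf_surj h (ix_fin 6) hP hV (by decide) v; exact ⟨⟨a, ha⟩, e⟩⟩
    rw [← Nat.card_eq_of_bijective _ this]; simp

theorem el_three (h : FC t4 el) : el 3 = el 2 ^ 2 ∧ el 2 ^ 2 + el 2 + 1 = 0 := by
  have h1 : el 3 = el 2 * el 2 := (h.mul 2 (by decide) 2 (by decide)).2
  have h2 : el 1 = el 3 + el 2 := (h.add 3 (by decide) 2 (by decide)).2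
  have h3 : (2 : F) = 0 := h.two_eq (by decide +kernel)
  rw [h.one] at h2
  exact ⟨by rw [h1, pow_two], by linear_combination -h2 - h1 + h3⟩

section
variable {K : Subgroup (GL (Fin 6) F)} {e : ℕ → Vec (Fin 6) F} {x d a b y : K}

theorem scalar (h : FC t4 el) (M : ModL K (Vec (Fin 6) F) (qv (BV σ)) e [x, d, a, b, y])
    (hx : ∀ g : K, g * x = x * g) : (∀ v : Vec (Fin 6) F, x • v = el 2 • v) ∨ ∀ v : Vec (Fin 6) F, x • v = el 2 ^ 2 • v := by
  have hX : Act e x cX := RepN.act (M.good.getN 0) lin_X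
  have h1 : ∀ v : Vec (Fin 6) F, x • x • v + x • v + v = 0 := fun v => by
    obtain ⟨c, hc, rfl⟩ := M.surj v
    have h3 : ap cX (ap cX c) ^^^ ap cX c ^^^ c = 0 := Nat.eq_of_beq_eq_true (all2_spec
      (f := fun c => Nat.beq (Nat.xor (Nat.xor (ap cX (ap cX c)) (ap cX c)) c) 0) (k := 12) (by decide +kernel) c hc)
    rw [(hX c hc).2, (hX _ (hX c hc).1).2, ← M.add, ← M.add, h3, M.toCod.zero]
  have h2 : ∀ (g : K) (c : F) (v : Vec (Fin 6) F), g • c • v = c • g • v := fun g => smul_comm' g.1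
  let S : AddSubgroup (Vec (Fin 6) F) :=
    { carrier := {v | x • v = el 2 • v}
      add_mem' := fun {u v} hu hv => by simp only [Set.mem_ofPred_eq, smul_add] at hu hv ⊢; rw [hu, hv]
      zero_mem' := by simp
      neg_mem' := fun {u} hu => by simp only [Set.mem_ofPred_eq, smul_neg] at hu ⊢; rw [hu] }
  by_cases h0 : ∃ v ∈ S, v ≠ 0
  · obtain ⟨v, hv, h0⟩ := h0
    exact .inl (irred M S (fun g _ v hv => by
      show x • g • v = el 2 • g • v
      rw [← mul_smul, ← hx, mul_smul, show x • v = _ from hv, h2]) hv h0)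
  · refine .inr fun v => ?_
    by_contra hne
    refine h0 ⟨x • v - el 2 ^ 2 • v, ?_, fun e => hne (sub_eq_zero.1 e)⟩
    show x • (x • v - el 2 ^ 2 • v) = el 2 • (x • v - el 2 ^ 2 • v)
    rw [smul_sub, h2]
    have h3 := (el_three h).2
    rw [eq_neg_of_add_eq_zero_left ((add_assoc _ _ _).symm.trans (h1 v))]
    generalize x • v = u
    match_scalars
    · linear_combination -h3
    · linear_combination (el 2 - 1) * h3

theorem conj_of_scalar (hσ : IsBar σ 2) (h : FC t4 el) (M : ModL K (Vec (Fin 6) F) (qv (BV σ)) e [x, d, a, b, y])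
    (hT : LL [x, d, a, b, y] = ⊤) (hx : ∀ v : Vec (Fin 6) F, x • v = el 2 • v) :
    ∃ T ∈ Cfsg.GU 6 F 2, (K0 el).map (MulAut.conj T).toMonoidHom = K := by
  have hX : Act e x cX := RepN.act (M.good.getN 0) lin_X
  let A : Matrix (Fin 6) (Fin 6) F := Matrix.of fun i j => (e (4 ^ j.1)).val i
  let f : Vec (Fin 6) F →ₗ[F] Vec (Fin 6) F := A.mulVecLin
  have h1 : ∀ j : Fin 6, ∀ c < 4, e1 el (c * 4 ^ j.1) = (Pi.single j (el c) : Fin 6 → F) := fun j c hc => funext fun k => by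
    have h2 : ∀ j k : Fin 6, ∀ c < 4, dig (c * 4 ^ j.1) k = if k = j then c else 0 := by decide +kernel
    show el (dig _ k) = _
    rw [h2 j k c hc, Pi.single_apply]
    split_ifs
    · rfl
    · exact h.zero
  have h2 : ∀ j : Fin 6, ∀ c < 4, f (e1 el (c * 4 ^ j.1)) = el c • e (4 ^ j.1) := fun j c hc => by
    rw [h1 j c hc]
    funext i
    show (A *ᵥ Pi.single j (el c)) i = el c * (e (4 ^ j.1)).val i
    rw [Matrix.mulVec_single]
    simp [A, mul_comm]
  have h3 : ∀ c ∈ idc, f (e1 el c) = e c := by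
    have h4 : ∀ c ∈ idc, ∃ j : Fin 6, c = 1 * 4 ^ j.1 ∨ (c = 2 * 4 ^ j.1 ∧ ap cX (4 ^ j.1) = c ∧ 4 ^ j.1 < 4096) := by
      decide +kernel
    intro c hc
    obtain ⟨j, rfl | ⟨e1', e2, e3⟩⟩ := h4 c hc
    · rw [h2 j 1 (by norm_num), h.one, one_smul, one_mul]
    · rw [← e2, ← (hX _ e3).2, hx, e2, e1', h2 j 2 (by norm_num)]
  have h4 : ∀ c < 4096, f (e1 el c) = e c := fun c hc => by
    rw [← ap_idc hc, (xadd h).ap, M.add.ap]
    refine (map_cs f.toAddMonoidHom _ _).trans ?_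
    rw [List.map_map]
    exact congrArg (cs · c) (List.map_congr_left h3)
  have h5 : Function.Surjective f := fun v => by
    obtain ⟨c, hc, rfl⟩ := M.surj v
    exact ⟨_, h4 c hc⟩
  obtain ⟨T, hT'⟩ := Matrix.mulVec_surjective_iff_isUnit.1 h5
  have h6 : ∀ v : Vec (Fin 6) F, T • v = f v := fun v => by
    show (T : Matrix (Fin 6) (Fin 6) F) *ᵥ v.val = A *ᵥ v.val
    rw [hT']
  have h7 : ∀ (g : K) (i : ℕ) (cols : List ℕ), Act e g cols → Act (e1 el) (gm el i) cols →
      MulAut.conj T (gm el i) = g := fun g i cols a1 a2 => by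
    rw [MulAut.conj_apply, mul_inv_eq_iff_eq_mul]
    refine gl_ext fun v => ?_
    obtain ⟨c, hc, rfl⟩ := e1_surj h v
    rw [mul_smul, mul_smul, (a2 c hc).2, h6, h6, h4 _ (a2 c hc).1, h4 c hc]
    exact (a1 c hc).2.symm
  refine ⟨T, (mem_GU_iff hσ T).2 fun u v => ?_, ?_⟩
  · rw [h6, h6]
    refine herm_of_qv (herm_BV hσ) f (fun v => ?_) u v
    obtain ⟨c, hc, rfl⟩ := e1_surj h v
    rw [h4 c hc, M.qe c hc, qv_e1 hσ h hc]
  · have h8 := congrArg (Subgroup.map K.subtype) hT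
    rw [subW_map, ← MonoidHom.range_eq_map, Subgroup.range_subtype] at h8
    rw [← h8, K0, subW_map]
    simp only [List.map_cons, List.map_nil, MulEquiv.toMonoidHom_eq_coe, MonoidHom.coe_coe, Subgroup.subtype_apply]
    rw [h7 x 0 cX hX (act_gm h (by norm_num) lin_cX), h7 d 1 cD (RepN.act (M.good.getN 1) lin_D)
      (act_gm h (by norm_num) lin_cD), h7 a 2 cA (RepN.act (M.good.getN 2) lin_A) (act_gm h (by norm_num) lin_cA),
      h7 b 3 cB (RepN.act (M.good.getN 3) lin_B) (act_gm h (by norm_num) lin_cB),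
      h7 y 4 cY (RepN.act (M.good.getN 4) lin_Y) (act_gm h (by norm_num) lin_cY)]

end

/-- Uniqueness up to conjugacy in the general unitary group. -/
theorem exists_conj [Fintype F] (hF : Fintype.card F = 4) (h : FC t4 el) {K : Subgroup (GL (Fin 6) F)}
    (hK : K ≤ Cfsg.GU 6 F 2) {F9 : Type*} [Field F9] [Fintype F9] (h9 : Fintype.card F9 = 9)
    (hz : Nat.card (Subgroup.center K) = 3) (φ : K ⧸ Subgroup.center K ≃* Cfsg.PSU 4 F9 3) :
    ∃ T ∈ Cfsg.GU 6 F 2, (K0 el).map (MulAut.conj T).toMonoidHom = K := by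
  have hσ := isBar_bar (q := 2) hF
  let π : K →* Cfsg.PSU 4 F9 3 := φ.toMonoidHom.comp (QuotientGroup.mk' _)
  have hk : π.ker = Subgroup.center K := Subgroup.ext fun g => by simp [π]
  obtain ⟨e, x, d, a, b, y, M, hT, hx⟩ := exists_modL (qsp hσ h hK) h9 π
    (φ.surjective.comp (QuotientGroup.mk'_surjective _)) (hk ▸ hz)
  rcases scalar h M (Subgroup.mem_center_iff.1 (hk.le hx)) with h1 | h1
  · exact conj_of_scalar hσ h M hT h1
  · exact K0_sq h ▸ conj_of_scalar hσ (fc_sq h) M hT h1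

/-! ### The three classes -/

theorem range_su : (suHom 6 F 2).range = Cfsg.GU 6 F 2 ⊓ D1 F := by
  ext g
  constructor
  · rintro ⟨s, rfl⟩
    exact ⟨s.2, MonoidHom.mem_ker.2 (Units.ext ((Matrix.GeneralLinearGroup.val_det_apply _).trans s.1.2))⟩
  · rintro ⟨h1, h2⟩
    exact ⟨⟨⟨g, (Matrix.GeneralLinearGroup.val_det_apply g).symm.trans (congrArg Units.val (MonoidHom.mem_ker.1 h2))⟩,
      h1⟩, Units.ext rfl⟩

/-- The conjugates of the model. -/
noncomputable def KC (el : ℕ → F) (T : GL (Fin 6) F) : Subgroup (GL (Fin 6) F) := (K0 el).map (MulAut.conj T).toMonoidHom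

theorem KC_mul (S T : GL (Fin 6) F) : (KC el T).map (MulAut.conj S).toMonoidHom = KC el (S * T) := by
  rw [KC, KC, Subgroup.map_map]
  congr 1
  ext1 x
  simp [mul_assoc]

theorem KC_le (h : FC t4 el) {T : GL (Fin 6) F} (hT : T ∈ Cfsg.GU 6 F 2) : KC el T ≤ (suHom 6 F 2).range := by
  rw [range_su]
  rintro _ ⟨g, hg, rfl⟩
  exact ⟨(Cfsg.GU 6 F 2).mul_mem (mul_mem hT (K0_le h hg).1) (inv_mem hT), Subgroup.Normal.conj_mem inferInstance _ (K0_le h hg).2 T⟩

/-- The representatives of the three classes. -/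
noncomputable def KS (el : ℕ → F) (i : ℕ) : Subgroup (Cfsg.SU 6 F 2) := (KC el (gm el 10 ^ i)).comap (suHom 6 F 2)

theorem map_KS (h : FC t4 el) (i : ℕ) : (KS el i).map (suHom 6 F 2) = KC el (gm el 10 ^ i) :=
  Subgroup.map_comap_eq_self (KC_le h (pow_mem (gm_mem h (by norm_num)) i))

theorem map_conj_su (K : Subgroup (Cfsg.SU 6 F 2)) (g : Cfsg.SU 6 F 2) :
    (K.map (MulAut.conj g).toMonoidHom).map (suHom 6 F 2) =
      (K.map (suHom 6 F 2)).map (MulAut.conj (suHom 6 F 2 g)).toMonoidHom := by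
  rw [Subgroup.map_map, Subgroup.map_map]
  congr 1
  ext1 x
  simp

theorem struct_KS (h : FC t4 el) {K : Type*} [Field K] [Fintype K] (hK : Fintype.card K = 9) (i : ℕ) :
    Nat.card (Subgroup.center (KS el i)) = 3 ∧ Nonempty (KS el i ⧸ Subgroup.center (KS el i) ≃* Cfsg.PSU 4 K 3) := by
  let e : KS el i ≃* K0 el := ((KS el i).equivMapOfInjective _ (suHom_inj 6 2)).trans
    ((MulEquiv.subgroupCongr (map_KS h i)).trans
      ((K0 el).equivMapOfInjective _ (MulAut.conj (gm el 10 ^ i)).injective).symm)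
  exact ⟨(card_center_congr e).trans (struct_K0 h hK).1, ⟨(centerQuotCongr e).trans (struct_K0 h hK).2.some⟩⟩

theorem det_pow (h : FC t4 el) (i : ℕ) :
    ((Matrix.GeneralLinearGroup.det (gm el 10 ^ i) : Fˣ) : F) = el 2 ^ i := by
  rw [map_pow, Units.val_pow_eq_pow_val, Matrix.GeneralLinearGroup.val_det_apply, det_delta h]

theorem pow_eq_of_conj [Fintype F] (hF : Fintype.card F = 4) (h : FC t4 el) {i j : ℕ} {g : Cfsg.SU 6 F 2}
    (hg : (KS el i).map (MulAut.conj g).toMonoidHom = KS el j) : el 2 ^ i = el 2 ^ j := by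
  have h1 := congrArg (fun K => (K.map (suHom 6 F 2)).map (MulAut.conj (gm el 10 ^ j)⁻¹).toMonoidHom) hg
  simp only [map_conj_su, map_KS h, KC_mul, inv_mul_cancel] at h1
  have h2 : KC el 1 = K0 el := by ext x; simp [KC]
  have h3 := range_su.le ⟨g, rfl⟩
  have h4 := norm_le hF h ⟨(Cfsg.GU 6 F 2).mul_mem (inv_mem (pow_mem (gm_mem h (by norm_num)) j))
    (mul_mem h3.1 (pow_mem (gm_mem h (by norm_num)) i)), Subgroup.mem_normalizer_iff_map_conj_eq.2 (h1.trans h2)⟩
  rw [MonoidHom.mem_ker, map_mul, map_mul, MonoidHom.mem_ker.1 h3.2, one_mul, map_inv, inv_mul_eq_one] at h4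
  rw [← det_pow h, ← det_pow h, h4]

theorem exists_conj_KS [Fintype F] (hF : Fintype.card F = 4) (h : FC t4 el) (K : Subgroup (Cfsg.SU 6 F 2))
    {F9 : Type*} [Field F9] [Fintype F9] (h9 : Fintype.card F9 = 9) (hz : Nat.card (Subgroup.center K) = 3)
    (φ : K ⧸ Subgroup.center K ≃* Cfsg.PSU 4 F9 3) :
    ∃ g : Cfsg.SU 6 F 2, ∃ i < 3, K.map (MulAut.conj g).toMonoidHom = KS el i := by
  let e := K.equivMapOfInjective _ (suHom_inj 6 2)
  obtain ⟨T, hT, e1⟩ := exists_conj hF h (((Subgroup.map_le_range _ K).trans range_su.le).trans inf_le_left) h9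
    ((card_center_congr e).symm.trans hz) ((centerQuotCongr e).symm.trans φ)
  obtain ⟨i, hi, e2⟩ : ∃ i < 3, el 2 ^ i = (Matrix.GeneralLinearGroup.det T : Fˣ) := by
    obtain ⟨a, ha, e2⟩ := h.surj (Matrix.GeneralLinearGroup.det T : Fˣ)
    have ha : a < 4 := ha
    interval_cases a
    · exact absurd (e2.symm.trans h.zero) (Units.ne_zero _)
    · exact ⟨0, by norm_num, by rw [← e2, h.one, pow_zero]⟩
    · exact ⟨1, by norm_num, by rw [← e2, pow_one]⟩
    · exact ⟨2, by norm_num, by rw [← e2, (el_three h).1]⟩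
  obtain ⟨g, hg⟩ : gm el 10 ^ i * T⁻¹ ∈ (suHom 6 F 2).range := range_su.ge
    ⟨(Cfsg.GU 6 F 2).mul_mem (pow_mem (gm_mem h (by norm_num)) i) (inv_mem hT), MonoidHom.mem_ker.2 (by
      rw [map_mul, map_inv, mul_inv_eq_one]
      exact Units.ext ((det_pow h i).trans e2))⟩
  refine ⟨g, i, hi, Subgroup.map_injective (suHom_inj 6 2) ?_⟩
  rw [map_conj_su, ← e1, hg, map_KS h]
  exact (KC_mul _ T).trans (by rw [inv_mul_cancel_right])

end CL.F24E
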