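/-
Groups of Janko-four type, the subgroup of order `2 ^ 10`, part 3: the additive bijections of the exterior square of
the five-dimensional space over the field with two elements that preserve the decomposable vectors.
-/
import Cfsg.Agent.Spor.J4T2
import Cfsg.Agent.Spor.J4VB

set_option autoImplicit false

namespace CL.J4.Ten

open Cfsg CL.Spor Matrix
open CL.F24 (ap ap_nil ap_cons all2 all2_spec)
open CL.PG (ones pop cnt pop_eq testBit_ones tb tb_eq)

theorem testBit_valM {f : ℕ → ℕ} {k : ℕ} : ∀ {n : ℕ}, k < n → (valM f n).testBit (f k) = true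
  | 0, h => by omega
  | n + 1, h => by
    show (1 <<< f n ||| valM f n).testBit (f k) = true
    rw [Nat.testBit_or, Bool.or_eq_true]
    rcases Nat.lt_succ_iff_lt_or_eq.1 h with h | rfl
    · exact Or.inr (testBit_valM h)
    · left; rw [Nat.one_shiftLeft, Nat.testBit_two_pow_self]

theorem ap_ind {C : ℕ → Prop} (h0 : C 0) (hx : ∀ a b, C a → C b → C (a ^^^ b)) :
    ∀ {l : List ℕ}, (∀ b ∈ l, C b) → ∀ n, C (ap l n)
  | [], _, _ => h0
  | c :: l, h, n => by
    rw [ap_cons]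
    refine hx _ _ ?_ (ap_ind h0 hx (fun d hd => h d (by simp [hd])) _)
    rcases Nat.mod_two_eq_zero_or_one n with e | e <;> rw [e]
    · exact h0
    · simpa using h c (by simp)

theorem xor_lt10 {a b : ℕ} (ha : a < 1024) (hb : b < 1024) : a ^^^ b < 1024 := Nat.xor_lt_two_pow (n := 10) ha hb

/-- The mask of the decomposable vectors. -/
def PM : ℕ := 724513949090993092676990300673178031926665579158541165973999997059656288184643972480497270192964938314965262424187986147569694966988517056105759035780678697681705920886905597260137559667287248156761983904803887649618246624576497111797497302036894910983110507258918105027813069013613397466900445345061474303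

/-- For each hyperplane an indecomposable vector and a basis of its exterior square. -/
def TB : List (ℕ × List ℕ) :=
  [(0, []), (160, [32, 36, 48, 128, 288, 544]), (96, [32, 34, 40, 64, 288, 544]), (224, [32, 38, 56, 192, 288, 544]),
  (80, [16, 17, 24, 64, 144, 528]), (168, [40, 45, 56, 128, 360, 552]), (112, [48, 51, 56, 64, 432, 560]),
  (232, [40, 47, 48, 192, 360, 552]), (68, [4, 5, 6, 64, 132, 260]), (162, [34, 38, 51, 128, 290, 610]),
  (100, [36, 38, 45, 64, 292, 676]), (226, [34, 36, 59, 192, 290, 610]), (84, [20, 21, 30, 64, 148, 788]),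
  (170, [42, 47, 59, 128, 362, 618]), (116, [52, 55, 61, 64, 436, 692]), (234, [42, 45, 51, 192, 362, 618]),
  (12, [4, 5, 6, 8, 20, 36]), (161, [32, 36, 48, 129, 290, 552]), (97, [32, 34, 40, 65, 292, 560]),
  (225, [32, 38, 56, 193, 290, 552]), (82, [16, 17, 24, 66, 148, 560]), (169, [40, 45, 56, 129, 362, 544]),
  (113, [48, 51, 56, 65, 436, 544]), (233, [40, 47, 48, 193, 362, 544]), (76, [4, 5, 6, 72, 148, 292]),
  (163, [34, 38, 51, 129, 288, 618]), (101, [36, 38, 45, 65, 288, 692]), (227, [34, 36, 59, 193, 288, 618]),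
  (86, [20, 21, 30, 66, 144, 820]), (171, [42, 47, 59, 129, 360, 610]), (117, [52, 55, 61, 65, 432, 676]),
  (235, [42, 45, 51, 193, 360, 610])]

/-- The mask of the exterior square of the kernel of a functional. -/
noncomputable def KM (h : ℕ) : ℕ := cond (Nat.beq h 0) (ones 1024) (valM (ap (nth (0, []) TB h).2) 64)

theorem KM_zero {c : ℕ} (hc : c < 1024) : (KM 0).testBit c = true := by
  show (ones 1024).testBit c = true
  rw [testBit_ones]; simpa

theorem KM_iff {h c : ℕ} (h0 : h ≠ 0) : (KM h).testBit c = true ↔ ∃ n < 64, ap (nth (0, []) TB h).2 n = c := by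
  have : Nat.beq h 0 = false := by rw [← Bool.not_eq_true, Nat.beq_eq]; exact h0
  rw [KM, this, cond_false]
  exact ⟨valM_spec, fun ⟨n, hn, e⟩ => e ▸ testBit_valM hn⟩

theorem KM_xor {h a b : ℕ} (ha : a < 1024) (hb : b < 1024) (h1 : (KM h).testBit a = true)
    (h2 : (KM h).testBit b = true) : (KM h).testBit (a ^^^ b) = true := by
  by_cases h0 : h = 0
  · rw [h0]; exact KM_zero (xor_lt10 ha hb)
  obtain ⟨n, hn, rfl⟩ := (KM_iff h0).1 h1
  obtain ⟨m, hm, rfl⟩ := (KM_iff h0).1 h2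
  exact (KM_iff h0).2 ⟨_, Nat.xor_lt_two_pow (n := 6) hn hm, ap_xor _ _ _⟩

theorem KM_bit0 (h : ℕ) : (KM h).testBit 0 = true := by
  by_cases h0 : h = 0
  · rw [h0]; exact KM_zero (by norm_num)
  · exact (KM_iff h0).2 ⟨0, by norm_num, ap_zero _⟩

theorem chk_K1 : allBelow (fun h => or (Nat.beq h 0) (allBelow (fun n => (fun a => or (tb PM a)
    (allL (fun p => or (not (tb PM (Nat.xor a p))) (tb (KM h) p)) (bitsL PM 1024))) (ap (nth (0, []) TB h).2 n)) 64))
    32 = true := by decide +kernel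

theorem KM_of_pure {h a p : ℕ} (hh : h < 32) (h0 : h ≠ 0) (h1 : (KM h).testBit a = true) (h2 : PM.testBit a = false)
    (hp : p < 1024) (h3 : PM.testBit p = true) (h4 : PM.testBit (a ^^^ p) = true) : (KM h).testBit p = true := by
  obtain ⟨n, hn, rfl⟩ := (KM_iff h0).1 h1
  have := (allBelow_iff _ _).1 chk_K1 h hh
  simp only [Bool.or_eq_true, Nat.beq_eq, h0, false_or, allBelow_iff, allL_iff, tb_eq, Bool.not_eq_true'] at this
  have := (this n hn).resolve_left (by simp [h2]) p (mem_bitsL h3 hp)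
  exact this.resolve_left (by simpa using h4)

theorem exists_KM {a : ℕ} (ha : a < 1024) (h : PM.testBit a = false) : ∃ k < 32, k ≠ 0 ∧ (KM k).testBit a = true := by
  have : all2 (fun a => or (tb PM a) (anyBelow (fun k => and (not (Nat.beq k 0)) (tb (KM k) a)) 32)) 10 0 = true := by
    decide +kernel
  have := all2_spec this a ha
  simpa [tb_eq, h, anyBelow_iff, ← Bool.not_eq_true] using this

theorem TB_spec {h : ℕ} (hh : h < 32) (h0 : h ≠ 0) : (nth (0, []) TB h).1 < 1024 ∧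
    PM.testBit (nth (0, []) TB h).1 = false ∧ ∀ b ∈ (nth (0, []) TB h).2, b < 1024 ∧ PM.testBit b = true ∧
      PM.testBit ((nth (0, []) TB h).1 ^^^ b) = true := by
  revert h; decide +kernel

theorem chk_pair : ∀ k < 32, k ≠ 0 → pop 10 1024 (KM k) ≤ 64 ∧ ∀ h < 32, h ≠ k →
    64 < pop 10 1024 (KM h ||| KM k) ∧ 8 ≤ pop 10 1024 (KM h &&& KM k &&& KM (h ^^^ k)) := by decide +kernel

theorem chk_triple : allBelow (fun a => allBelow (fun b => (fun m => allBelow (fun c =>
    or (Nat.blt (pop 10 1024 (Nat.land m (KM c))) 8) (or (Nat.beq (Nat.mul (Nat.mul a b) c) 0) (or (Nat.beq a b)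
      (or (Nat.beq a c) (or (Nat.beq b c) (Nat.beq c (Nat.xor a b))))))) 32) (Nat.land (KM a) (KM b))) 32) 32 = true := by
  decide +kernel

/-- An additive injection of the codes preserving the decomposable vectors. -/
structure Pres (φ : ℕ → ℕ) : Prop where
  lt : ∀ c < 1024, φ c < 1024
  xor : ∀ a < 1024, ∀ b < 1024, φ (a ^^^ b) = φ a ^^^ φ b
  inj : ∀ a < 1024, ∀ b < 1024, φ a = φ b → a = b
  pure : ∀ c < 1024, PM.testBit (φ c) = PM.testBit c

/-- The map sends the first mask into the second. -/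
def Into (φ : ℕ → ℕ) (m m' : ℕ) : Prop := ∀ c < 1024, m.testBit c = true → m'.testBit (φ c) = true

namespace Pres

variable {φ : ℕ → ℕ} (h : Pres φ)
include h

theorem zero : φ 0 = 0 := by simpa using h.xor 0 (by norm_num) 0 (by norm_num)

theorem pop_le {m m' : ℕ} (hm : Into φ m m') : pop 10 1024 m ≤ pop 10 1024 m' := by
  rw [pop_eq (by norm_num), pop_eq (by norm_num), cnt, cnt]
  refine Finset.card_le_card_of_injOn φ (fun c hc => ?_) fun a ha b hb => h.inj a ?_ b ?_
  · simp only [Finset.coe_filter, Finset.mem_range, Set.mem_ofPred_eq] at hc ⊢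
    exact ⟨h.lt c hc.1, hm c hc.1 hc.2⟩
  · simp only [Finset.coe_filter, Finset.mem_range, Set.mem_ofPred_eq] at ha
    exact ha.1
  · simp only [Finset.coe_filter, Finset.mem_range, Set.mem_ofPred_eq] at hb
    exact hb.1

theorem exists_into (k : ℕ) : ∃ k', k < 32 → k' < 32 ∧ (k' = 0 ↔ k = 0) ∧ Into φ (KM k) (KM k') := by
  by_cases h0 : k = 0
  · exact ⟨0, fun _ => ⟨by norm_num, by simp [h0], fun c hc _ => KM_zero (h.lt c hc)⟩⟩
  by_cases hk : k < 32
  swap
  · exact ⟨0, fun h => absurd h hk⟩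
  obtain ⟨h1, h2, h3⟩ := TB_spec hk h0
  obtain ⟨k', h4, h5, h6⟩ := exists_KM (h.lt _ h1) ((h.pure _ h1).trans h2)
  refine ⟨k', fun _ => ⟨h4, by simp [h0, h5], fun c _ hc => ?_⟩⟩
  obtain ⟨n, -, rfl⟩ := (KM_iff h0).1 hc
  refine (ap_ind (C := fun c => c < 1024 ∧ (KM k').testBit (φ c) = true) ⟨by norm_num, by rw [h.zero]; exact KM_bit0 _⟩
    (fun a b ha hb => ⟨xor_lt10 ha.1 hb.1, ?_⟩) (fun b hb => ⟨(h3 b hb).1, ?_⟩) n).2
  · rw [h.xor a ha.1 b hb.1]; exact KM_xor (h.lt a ha.1) (h.lt b hb.1) ha.2 hb.2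
  · obtain ⟨b1, b2, b3⟩ := h3 b hb
    refine KM_of_pure h4 h5 h6 ((h.pure _ h1).trans h2) (h.lt b b1) ((h.pure b b1).trans b2) ?_
    rw [← h.xor _ h1 b b1, h.pure _ (xor_lt10 h1 b1), b3]

theorem exists_add : ∃ g : ℕ → ℕ, (∀ k < 32, g k < 32 ∧ (g k = 0 ↔ k = 0) ∧ Into φ (KM k) (KM (g k))) ∧
    ∀ a < 32, ∀ b < 32, g (a ^^^ b) = g a ^^^ g b := by
  choose g hg using h.exists_into
  have g0 : g 0 = 0 := (hg 0 (by norm_num)).2.1.2 rfl
  have inj : ∀ a < 32, ∀ b < 32, g a = g b → a = b := fun a ha b hb e => by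
    by_contra hab
    have hb0 : b ≠ 0 := fun h0 => hab (by rw [h0, ← (hg a ha).2.1, e, h0, g0])
    have h1 := h.pop_le (m := KM a ||| KM b) (m' := KM (g b)) fun c hc h2 => by
      rw [Nat.testBit_or, Bool.or_eq_true] at h2
      exact h2.elim (e ▸ (hg a ha).2.2 c hc) ((hg b hb).2.2 c hc)
    have h2 := ((chk_pair b hb hb0).2 a ha hab).1
    have h3 := (chk_pair _ (hg b hb).1 (mt (hg b hb).2.1.1 hb0)).1
    omega
  refine ⟨g, hg, fun a ha b hb => ?_⟩
  by_cases hab : a = b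
  · rw [hab, Nat.xor_self, Nat.xor_self, g0]
  by_cases ha0 : a = 0
  · rw [ha0, g0, Nat.zero_xor, Nat.zero_xor]
  by_cases hb0 : b = 0
  · rw [hb0, g0, Nat.xor_zero, Nat.xor_zero]
  have hc : a ^^^ b < 32 := Nat.xor_lt_two_pow (n := 5) ha hb
  have h1 := h.pop_le (m := KM a &&& KM b &&& KM (a ^^^ b)) (m' := KM (g a) &&& KM (g b) &&& KM (g (a ^^^ b)))
    fun c hc' h2 => by
      simp only [Nat.testBit_and, Bool.and_eq_true] at h2 ⊢
      exact ⟨⟨(hg a ha).2.2 c hc' h2.1.1, (hg b hb).2.2 c hc' h2.1.2⟩, (hg _ hc).2.2 c hc' h2.2⟩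
  have h2 := ((chk_pair b hb hb0).2 a ha hab).2
  have h3 := (allBelow_iff _ _).1 ((allBelow_iff _ _).1 ((allBelow_iff _ _).1 chk_triple _ (hg a ha).1) _
    (hg b hb).1) _ (hg _ hc).1
  simp only [Bool.or_eq_true, Nat.blt_eq, Nat.beq_eq, Nat.mul_eq, Nat.mul_eq_zero, (hg a ha).2.1, (hg b hb).2.1,
    (hg _ hc).2.1, ha0, hb0, false_or, Nat.xor_eq_zero_iff, hab] at h3
  rcases h3 with h3 | h3 | h3 | h3 | h3
  · exact absurd (h2.trans h1) (not_le.2 h3)
  · exact absurd (inj _ ha _ hb h3) hab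
  · have := congrArg (a ^^^ ·) (inj _ ha _ hc h3)
    simp only [Nat.xor_self, Nat.xor_xor_cancel_left] at this
    exact absurd this.symm hb0
  · have := congrArg (· ^^^ b) (inj _ hb _ hc h3)
    simp only [Nat.xor_self, Nat.xor_xor_cancel_right] at this
    exact absurd this.symm ha0
  · exact h3

theorem eq_self (hK : ∀ k < 32, Into φ (KM k) (KM k)) : ∀ c < 1024, φ c = c := by
  have chk : allBelow (fun i => all2 (fun d => or (anyBelow (fun k => and (tb (KM k) (2 ^ i)) (not (tb (KM k) d))) 32)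
      (or (Nat.beq d 0) (Nat.beq d (2 ^ i)))) 10 0) 10 = true := by decide +kernel
  refine xor_ind (C := fun c => φ c = c) (n := 10) h.zero (fun i hi => ?_) fun a ha b hb h1 h2 => by rw [h.xor a ha b hb, h1, h2]
  have h1 : 2 ^ i < 1024 := Nat.pow_lt_pow_right (by norm_num) hi
  have := all2_spec ((allBelow_iff _ _).1 chk i hi) _ (h.lt _ h1)
  simp only [Bool.or_eq_true, anyBelow_iff, Bool.and_eq_true, tb_eq, Bool.not_eq_true', Nat.beq_eq] at this
  rcases this with ⟨k, hk, h2, h3⟩ | h2 | h2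
  · rw [hK k hk _ h1 h2] at h3; cases h3
  · exact absurd (h.inj _ h1 0 (by norm_num) (h2.trans h.zero.symm)) (by positivity)
  · exact h2

end Pres

/-- The code of a vector. -/
def enc5 (y : Fin 5 → ZMod 2) : ℕ := (y 0).val + 2 * (y 1).val + 4 * (y 2).val + 8 * (y 3).val + 16 * (y 4).val

/-- The vector with a given code. -/
def dec5 (n : ℕ) : Fin 5 → ZMod 2 := fun i => if n.testBit i then 1 else 0

theorem enc5_dec5 : ∀ n < 32, enc5 (dec5 n) = n := by decide +kernel

theorem enc5_spec : ∀ y, enc5 y < 32 ∧ dec5 (enc5 y) = y := by decide +kernel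

theorem dec5_xor : ∀ a < 32, ∀ b < 32, dec5 (a ^^^ b) = dec5 a + dec5 b := by decide +kernel

theorem enc5_add (x y : Fin 5 → ZMod 2) : enc5 (x + y) = enc5 x ^^^ enc5 y := by
  conv_lhs => rw [← (enc5_spec x).2, ← (enc5_spec y).2, ← dec5_xor _ (enc5_spec x).1 _ (enc5_spec y).1]
  exact enc5_dec5 _ (Nat.xor_lt_two_pow (n := 5) (enc5_spec x).1 (enc5_spec y).1)

theorem enc5_inj {x y : Fin 5 → ZMod 2} (h : enc5 x = enc5 y) : x = y := by
  rw [← (enc5_spec x).2, h, (enc5_spec y).2]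

theorem Pres.exists_SL {φ : ℕ → ℕ} (h : Pres φ) :
    ∃ γ : SpecialLinearGroup (Fin 5) (ZMod 2), ∀ y, Into φ (KM (enc5 y)) (KM (enc5 (γ • y))) := by
  obtain ⟨g, h1, h2⟩ := h.exists_add
  let f : (Fin 5 → ZMod 2) →+ (Fin 5 → ZMod 2) := AddMonoidHom.mk' (fun y => dec5 (g (enc5 y))) fun x y => by
    rw [enc5_add, h2 _ (enc5_spec x).1 _ (enc5_spec y).1, dec5_xor _ (h1 _ (enc5_spec x).1).1 _ (h1 _ (enc5_spec y).1).1]
  have hF : ∀ y, LinearMap.toMatrix' (f.toZModLinearMap 2) *ᵥ y = dec5 (g (enc5 y)) := fun y => by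
    rw [← toLin'_apply, toLin'_toMatrix']; rfl
  have hd : (LinearMap.toMatrix' (f.toZModLinearMap 2)).det ≠ 0 := fun h0 => by
    obtain ⟨y, hy, e⟩ := exists_mulVec_eq_zero_iff.2 h0
    have := congrArg enc5 ((hF y).symm.trans e)
    rw [enc5_dec5 _ (h1 _ (enc5_spec y).1).1] at this
    exact hy (enc5_inj ((h1 _ (enc5_spec y).1).2.1.1 this))
  have h3 : ∀ x : ZMod 2, x ≠ 0 → x = 1 := by decide
  refine ⟨⟨_, h3 _ hd⟩, fun y => ?_⟩
  show Into φ _ (KM (enc5 (LinearMap.toMatrix' (f.toZModLinearMap 2) *ᵥ y)))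
  rw [hF, enc5_dec5 _ (h1 _ (enc5_spec y).1).1]
  exact (h1 _ (enc5_spec y).1).2.2

theorem eq_of_KM_le {h k : ℕ} (hh : h < 32) (hk : k < 32) (h0 : k ≠ 0) (e : Into id (KM h) (KM k)) : h = k := by
  by_contra hn
  have h1 := Pres.pop_le (φ := id) ⟨fun _ h => h, fun _ _ _ _ => rfl, fun _ _ _ _ h => h, fun _ _ => rfl⟩
    (m := KM h ||| KM k) (m' := KM k) fun c hc h2 => by
      rw [Nat.testBit_or, Bool.or_eq_true] at h2
      exact h2.elim (e c hc) id
  have h2 := chk_pair k hk h0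
  have h3 := (h2.2 h hh hn).1
  omega

theorem lt_of_pure {p : ℕ} (hp : p < 1024) (h1 : PM.testBit p = true) (h2 : PM.testBit (18 ^^^ p) = true) : p < 64 := by
  have : all2 (fun p => or (Nat.blt p 64) (not (and (tb PM p) (tb PM (Nat.xor 18 p))))) 10 0 = true := by decide +kernel
  have := all2_spec this p hp
  simpa [tb_eq, h1, h2] using this

theorem exists_not_pure {p : ℕ} (hp : p < 1024) (h0 : p ≠ 0) (h1 : PM.testBit p = true) :
    ∃ q < 1024, PM.testBit q = true ∧ PM.testBit (p ^^^ q) = false := by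
  have : all2 (fun p => or (or (Nat.beq p 0) (not (tb PM p))) (anyBelow (fun i => not (tb PM (Nat.xor p (2 ^ i)))) 10))
    10 0 = true := by decide +kernel
  have := all2_spec this p hp
  simp only [Bool.or_eq_true, Nat.beq_eq, h0, tb_eq, h1, Bool.not_true, anyBelow_iff, Bool.not_eq_true',
    Bool.false_eq_true, false_or] at this
  obtain ⟨i, hi, h⟩ := this
  exact ⟨_, Nat.pow_lt_pow_right (by norm_num) hi, (by decide +kernel : ∀ i < 10, PM.testBit (2 ^ i) = true) i hi, h⟩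

end CL.J4.Ten
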