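/-
Groups of Janko-four type, the subgroup of order `2 ^ 10`, part 4: coordinates on `A0`, the classes of its elements,
the homomorphism from its normaliser to `SL₅(2)` and the orbits of the normaliser.
-/
import Cfsg.Agent.Spor.J4T3
import Cfsg.Agent.Spor.M24Match
import Cfsg.Agent.Spor.M24More

set_option autoImplicit false

namespace CL.J4.Ten

open Cfsg CL.Spor Subgroup MulAction
open CL.F24 (ap ap_nil ap_cons ap_lt all2 all2_spec)
open CL.PG (ones pop cnt pop_eq testBit_ones tb tb_eq)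
open scoped Pointwise

variable {G : Type*} [Group G]

/-- The components in `V` of a basis of `A0`. -/
def va : List ℕ := [1441, 2009, 1105, 694, 940, 600, 694, 1549, 1409, 694]

/-- The elements of `F16`. -/
def LF : List ℕ := [984818244535754528103549039458486304, 972512676110088067912772961567868960,
  976448692869377735270425038196672544, 961365507626256404119956257276790816, 971592882964418941354553515258775584,
  966182099583441531322624363496310816, 979121071158219704299181131031480352, 970499966350631336865513127433832480,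
  967812279691448225500382947153381408, 981818691054096003685363657089320992, 975346028712660580592452217730074656,
  968708902336673183175954409307867168, 965128854020860192151391391390468128, 980224387687010295957922729495201824,
  983548720921252936276249910206105632, 963721886883755259286232606933354528]

theorem LF_spec : ∀ k < 16, inM24 (nth pone LF k) = true ∧ fixesPts 8536111 (nth pone LF k) = true ∧
    (nth pone LF k = pone → k = 0) ∧ ∀ l < 16, pmul (nth pone LF k) (nth pone LF l) = nth pone LF (k ^^^ l) := by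
  decide +kernel

theorem va_lt (c : ℕ) : ap va c < 2048 := ap_lt11 (by decide +kernel) c

theorem comm_F16 (M : NM G) {a : ℕ} (ha : a < 2048) (h : ∀ Q ∈ e16G, ap (vcols Q) a = a) :
    ∀ x ∈ F16, M.μ x * M.v a = M.v a * M.μ x := fun x hx => by
  rw [F16, e16G_eq.1] at hx
  exact mem_centralizer_singleton_iff.1 (gen_le_of (H := (centralizer {M.v a}).comap M.μ) (fun Q hQ =>
    mem_centralizer_singleton_iff.2 ((pr_comm_iff (pr_μ M _) (e16G_good Q hQ).rep ha).2 (h Q hQ))) hx)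

variable (M : NM G)

theorem va_comm (c : ℕ) : ∀ x ∈ F16, M.μ x * M.v (ap va c) = M.v (ap va c) * M.μ x :=
  ap_ind (C := fun a => ∀ x ∈ F16, M.μ x * M.v a = M.v a * M.μ x) (by simp [M.v_zero])
    (fun a b ha hb x hx => by rw [M.v_xor, ← mul_assoc, ha x hx, mul_assoc, hb x hx, mul_assoc])
    (fun b hb => comm_F16 M ((by decide +kernel : ∀ b ∈ va, b < 2048) b hb)
      ((by decide +kernel : ∀ b ∈ va, ∀ Q ∈ e16G, ap (vcols Q) b = b) b hb)) c

/-- The element of `A0` with a given code. -/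
noncomputable def el (c : ℕ) : G := M.v (ap va c) * M.μ (m24 (nth pone LF (c / 64)))

theorem rep_LF {c : ℕ} (hc : c < 1024) : Rep (nth pone LF (c / 64)) (m24 (nth pone LF (c / 64))) :=
  rep_m24 (LF_spec _ (by omega)).1

theorem LF_mem {c : ℕ} (hc : c < 1024) : m24 (nth pone LF (c / 64)) ∈ F16 :=
  (rep_LF hc).mem_fixS_iff.2 (LF_spec _ (by omega)).2.1

theorem rn_el {c : ℕ} (hc : c < 1024) : M.RN (ap va c, nth pone LF (c / 64)) (el M c) := M.rn_mk (va_lt c) (rep_LF hc)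

theorem el_mem {c : ℕ} (hc : c < 1024) : el M c ∈ A0 M := ⟨_, M.v_mem (va_lt c), va_comm M c, _, LF_mem hc, rfl⟩

theorem el_xor {a b : ℕ} (ha : a < 1024) (hb : b < 1024) : el M (a ^^^ b) = el M a * el M b := by
  rw [el, el, el, ap_xor, M.v_xor, show (a ^^^ b) / 64 = a / 64 ^^^ b / 64 from Nat.xor_div_two_pow (n := 6),
    ← (LF_spec _ (by omega)).2.2.2 _ (by omega), ((rep_LF ha).mul (rep_LF hb)).m24_eq, map_mul, mul_assoc, mul_assoc,
    ← mul_assoc (M.μ _) (M.v _), va_comm M b _ (LF_mem ha), mul_assoc]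

theorem el_lt {c : ℕ} (hc : c < 64) : el M c = M.v (ap va c) := by
  rw [el, Nat.div_eq_of_lt hc, show nth pone LF 0 = pone from rfl, rep_one.m24_eq, map_one, mul_one]

theorem el_zero : el M 0 = 1 := by rw [el_lt M (by norm_num), ap_zero, M.v_zero]

theorem el_one : el M 1 = M.z := by rw [el_lt M (by norm_num), ← M.v_z]; rfl

theorem el_18 : el M 18 = M.t := by rw [el_lt M (by norm_num)]; rfl

theorem el_eq_one {c : ℕ} (hc : c < 1024) (h : el M c = 1) : c = 0 := by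
  have h1 := Prod.ext_iff.1 (((rn_el M hc).eq_iff M.rn_one).1 h)
  have h2 := (LF_spec _ (by omega)).2.2.1 h1.2
  exact (by decide +kernel : ∀ c < 64, ap va c = 0 → c = 0) c (by omega) h1.1

theorem el_inj {a b : ℕ} (ha : a < 1024) (hb : b < 1024) (h : el M a = el M b) : a = b :=
  Nat.xor_eq_zero_iff.1 (el_eq_one M (xor_lt10 ha hb) (by rw [el_xor M ha hb, h, A0_sq M (el_mem M hb)]))

theorem card_A0_le : Nat.card (A0 M) ≤ 1024 := by
  have h1 : im M (A0 M) ≤ F16 := fun x hx => by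
    obtain ⟨_, ⟨u, hu, -, y, hy, rfl⟩, h⟩ := (mem_im M).1 hx
    obtain ⟨a, ha, rfl⟩ := (M.mem_V _).1 hu
    rwa [pr_unique h (pr_vμ M ha y)]
  have h2 := (card_le_pop (W := vecs M (A0 M)) (m := m6) fun a ha => ⟨((mem_vecs M).1 ha).1, testBit_m6 M
    ((mem_vecs M).1 ha).1 fun x hx => A0_comm M (μ_mem_A0 M hx) ((mem_vecs M).1 ha).2⟩).1
  rw [card_eq_im M (A0_le_N M), card_vecs]
  exact Nat.mul_le_mul (h2.trans pop_m6.le) ((card_le_of_le h1).trans e16G_eq.2.le)

theorem bij_el [Finite G] : Function.Bijective fun c : Fin 1024 => (⟨el M c, el_mem M c.2⟩ : A0 M) :=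
  Function.Injective.bijective_of_nat_card_le (fun a b h => Fin.ext (el_inj M a.2 b.2 (congrArg Subtype.val h)))
    (by simpa using card_A0_le M)

theorem card_A0 [Finite G] : Nat.card (A0 M) = 1024 := by
  rw [← Nat.card_congr (Equiv.ofBijective _ (bij_el M))]; simp

theorem exists_el [Finite G] {g : G} (hg : g ∈ A0 M) : ∃ c < 1024, el M c = g :=
  let ⟨c, h⟩ := (bij_el M).2 ⟨g, hg⟩; ⟨c, c.2, congrArg Subtype.val h⟩

theorem orderOf_A0 {g : G} (hg : g ∈ A0 M) (h1 : g ≠ 1) : orderOf g = 2 :=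
  orderOf_eq_prime (by rw [pow_two, A0_sq M hg]) h1

/-- The set of elements with codes in a mask. -/
def ES (m : ℕ) : Set G := {g | ∃ c < 1024, m.testBit c = true ∧ el M c = g}

theorem ncard_ES (m : ℕ) : (ES M m).ncard = pop 10 1024 m := by
  classical
  rw [pop_eq (by norm_num), cnt, ← Finset.card_image_of_injOn (f := el M) fun a ha b hb => el_inj M
    (by simpa using (Finset.mem_filter.1 ha).1) (by simpa using (Finset.mem_filter.1 hb).1), ← Set.ncard_coe_finset]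
  congr 1
  ext g
  simp [ES, and_assoc]

theorem el_mem_ES {m c : ℕ} (hc : c < 1024) : el M c ∈ ES M m ↔ m.testBit c = true :=
  ⟨fun ⟨_, hd, h, e⟩ => el_inj M hd hc e ▸ h, fun h => ⟨c, hc, h, rfl⟩⟩

theorem μ_mem_normalizer [Finite G] {x : M24} (hx : x ∈ stabilizer M24 oct0) : M.μ x ∈ normalizer (A0 M : Set G) := by
  have h0 : ∀ x ∈ stabilizer M24 oct0, ∀ y ∈ F16, x * y * x⁻¹ ∈ F16 := fun x hx y hy => by
    have : F16 = F16.map (MulAut.conj x).toMonoidHom := by rw [← fixS_smul, mem_stabilizer_iff.1 hx]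
    exact this ▸ ⟨y, hy, rfl⟩
  refine mem_normalizer_fintype ?_
  rintro _ ⟨u, hu, h1, y, hy, rfl⟩
  refine ⟨_, M.conj_mem_V x hu, fun w hw => ?_, _, h0 x hx y hy, by simp [mul_assoc]⟩
  have := h1 _ (h0 _ (inv_mem hx) w hw)
  simp only [map_mul, map_inv, inv_inv] at this
  calc _ = M.μ x * ((M.μ x)⁻¹ * M.μ w * M.μ x * u) * (M.μ x)⁻¹ := by group
    _ = _ := by rw [this]; group

theorem exists_sub {u : G} (hu : u ∈ M.V) (h : u ∈ A0 M) :
    ∃ s ⊆ oct0, Even s.card ∧ s.card ≤ 4 ∧ u = M.v (vc s) := by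
  obtain ⟨a, ha, rfl⟩ := (M.mem_V _).1 hu
  have h1 : all2 (fun a => or (not (tb m6 a)) (tb (valM (fun n => (fun s => cond (or (Nat.beq (pc24 s) 2)
      (Nat.beq (pc24 s) 4)) (synd s % 2048) 0) (Nat.land (ap [1, 2, 4, 8, 32, 16384, 131072, 8388608] n) 8536111)) 256) a))
      11 0 = true := by decide +kernel
  have h2 := all2_spec h1 a ha
  rw [tb_eq, tb_eq, testBit_m6 M ha fun x hx => A0_comm M (μ_mem_A0 M hx) h, Bool.not_true, Bool.false_or] at h2
  obtain ⟨n, -, h3⟩ := valM_spec h2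
  generalize ap [1, 2, 4, 8, 32, 16384, 131072, 8388608] n = s at h3
  have h4 : s &&& 8536111 < 2 ^ 24 := Nat.and_lt_two_pow _ (by norm_num)
  cases h5 : or (Nat.beq (pc24 (Nat.land s 8536111)) 2) (Nat.beq (pc24 (Nat.land s 8536111)) 4)
  · simp only [h5, cond_false] at h3
    exact ⟨∅, by simp, by simp, by simp, by rw [← h3, ← ofMask_zero, vc_ofMask (by norm_num)]; rfl⟩
  · simp only [h5, cond_true] at h3
    have h6 : (ofMask (s &&& 8536111)).card = 2 ∨ (ofMask (s &&& 8536111)).card = 4 := by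
      simpa [card_ofMask, Nat.beq_eq] using h5
    refine ⟨ofMask (s &&& 8536111), (ofMask_subset_iff h4).2 (by rw [Nat.and_assoc, Nat.and_self]), ?_, by omega,
      by rw [vc_ofMask h4, ← h3]; rfl⟩
    rcases h6 with h | h <;> rw [h] <;> decide

variable {M}

theorem exists_φ [Finite G] {n : G} (hn : n ∈ normalizer (A0 M : Set G)) :
    ∃ φ : ℕ → ℕ, ∀ c < 1024, φ c < 1024 ∧ el M (φ c) = n * el M c * n⁻¹ := by
  have : ∀ c, ∃ d, c < 1024 → d < 1024 ∧ el M d = n * el M c * n⁻¹ := fun c => by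
    by_cases hc : c < 1024
    · obtain ⟨d, h⟩ := exists_el M ((mem_normalizer_iff.1 hn _).1 (el_mem M hc))
      exact ⟨d, fun _ => h⟩
    · exact ⟨0, fun h => absurd h hc⟩
  choose φ h using this
  exact ⟨φ, h⟩

section
variable [Finite G] (M : JM G)

theorem pure_iff {c : ℕ} (hc : c < 1024) : PM.testBit c = true ↔ el M.toNM c = 1 ∨ IsConj M.z (el M.toNM c) := by
  by_cases h0 : c = 0
  · rw [h0, el_zero]; simpa using (by decide +kernel : PM.testBit 0 = true)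
  rw [or_iff_right (mt (el_eq_one _ hc) h0)]
  by_cases h1 : c < 64
  · rw [el_lt _ h1, M.pre.isConj_z_iff (va_lt c)]
    exact (by decide +kernel : ∀ c < 64, c ≠ 0 → (PM.testBit c = true ↔ wt (ap va c) = 4)) c h1 h0
  have h2 : allBelow (fun k => or (Nat.beq k 0) ((fun m => allBelow (fun j => (fun c => Bool.xor (tb m (ap va c))
      (not (tb PM c))) (Nat.add (Nat.mul 64 k) j)) 64) (valM (fun b => Nat.xor b (ap (vcols (nth pone LF k)) b)) 2048)))
      16 = true := by decide +kernel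
  have h3 := (allBelow_iff _ _).1 h2 (c / 64) (by omega)
  rw [Bool.or_eq_true, Nat.beq_eq, or_iff_right (by omega), allBelow_iff] at h3
  have h4 := h3 (c % 64) (by omega)
  simp only [Nat.add_eq, Nat.mul_eq, Nat.div_add_mod, tb_eq, Bool.xor_not, Bool.not_eq_true', bne_eq_false_iff_eq] at h4
  rw [M.label _ _ (rn_el _ hc) (orderOf_A0 _ (el_mem _ hc) (mt (el_eq_one _ hc) h0))
    (fun h => by have := (LF_spec _ (by omega)).2.2.1 h; omega), ← h4]
  exact ⟨fun h => let ⟨b, hb, e⟩ := valM_spec h; ⟨b, hb, e.symm⟩, fun ⟨b, hb, e⟩ => by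
    rw [show ap va c = _ from e]; exact testBit_valM (f := fun b => b ^^^ ap (vcols (nth pone LF (c / 64))) b) hb⟩

theorem not_pure_iff {c : ℕ} (hc : c < 1024) : PM.testBit c = false ↔ IsConj M.t (el M.toNM c) := by
  rw [← Bool.not_eq_true, pure_iff M hc, not_or]
  refine ⟨fun h => (M.two _ (orderOf_A0 _ (el_mem _ hc) h.1)).resolve_left h.2, fun h => ⟨fun e => ?_,
    fun e => M.nconj (e.trans h.symm)⟩⟩
  rw [e, isConj_one_left, ← el_18] at h
  exact absurd (el_eq_one _ (by norm_num) h) (by norm_num)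

variable {M}

theorem exists_pres {n : G} (hn : n ∈ normalizer (A0 M.toNM : Set G)) :
    ∃ φ, Pres φ ∧ ∀ c < 1024, el M.toNM (φ c) = n * el M.toNM c * n⁻¹ := by
  obtain ⟨φ, h⟩ := exists_φ hn
  refine ⟨φ, ⟨fun c hc => (h c hc).1, fun a ha b hb => el_inj M.toNM (h _ (xor_lt10 ha hb)).1
    (xor_lt10 (h a ha).1 (h b hb).1) ?_, fun a ha b hb e => el_inj M.toNM ha hb ?_, fun c hc => ?_⟩,
    fun c hc => (h c hc).2⟩
  · rw [el_xor _ (h a ha).1 (h b hb).1, (h a ha).2, (h b hb).2, (h _ (xor_lt10 ha hb)).2, el_xor _ ha hb]; group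
  · exact mul_left_cancel (mul_right_cancel ((h a ha).2.symm.trans (e ▸ (h b hb).2)))
  · rw [← Bool.not_inj_iff, Bool.eq_iff_iff, Bool.not_eq_true', Bool.not_eq_true', not_pure_iff M hc,
      not_pure_iff M (h c hc).1, (h c hc).2]
    exact ⟨fun e => e.trans (isConj_iff.2 ⟨n, rfl⟩).symm, fun e => e.trans (isConj_iff.2 ⟨n, rfl⟩)⟩

omit [Finite G] in
theorem smul_eq_of_ES {γ : Matrix.SpecialLinearGroup (Fin 5) (ZMod 2)} {y : Fin 5 → ZMod 2}
    (h : ES M.toNM (KM (enc5 y)) ⊆ ES M.toNM (KM (enc5 (γ • y)))) : γ • y = y := by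
  by_cases h0 : y = 0
  · rw [h0, smul_zero]
  refine (enc5_inj (eq_of_KM_le (enc5_spec _).1 (enc5_spec _).1 (fun e => h0 ?_) fun c hc h1 =>
    (el_mem_ES _ hc).1 (h ((el_mem_ES _ hc).2 h1)))).symm
  exact (smul_eq_zero_iff_eq γ).1 (enc5_inj e)

theorem exists_SL {n : G} (hn : n ∈ normalizer (A0 M.toNM : Set G)) : ∃ γ : Matrix.SpecialLinearGroup (Fin 5) (ZMod 2),
    ∀ y, MulAut.conj n • ES M.toNM (KM (enc5 y)) = ES M.toNM (KM (enc5 (γ • y))) := by
  have h : ∀ n ∈ normalizer (A0 M.toNM : Set G), ∃ γ : Matrix.SpecialLinearGroup (Fin 5) (ZMod 2),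
      ∀ y, MulAut.conj n • ES M.toNM (KM (enc5 y)) ⊆ ES M.toNM (KM (enc5 (γ • y))) := fun n hn => by
    obtain ⟨φ, h1, h2⟩ := exists_pres hn
    obtain ⟨γ, h3⟩ := h1.exists_SL
    refine ⟨γ, fun y => ?_⟩
    rintro _ ⟨_, ⟨c, hc, h4, rfl⟩, rfl⟩
    exact ⟨_, h1.lt c hc, h3 y c hc h4, h2 c hc⟩
  obtain ⟨γ, h1⟩ := h n hn
  obtain ⟨δ, h2⟩ := h _ (inv_mem hn)
  refine ⟨γ, fun y => (h1 y).antisymm ?_⟩
  have h3 := h2 (γ • y)
  rw [map_inv, ← mul_smul] at h3
  have h4 : (δ * γ) • y = y :=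
    smul_eq_of_ES (M := M) ((Set.smul_set_subset_iff_subset_inv_smul_set.1 (h1 y)).trans h3)
  rwa [h4, ← Set.subset_smul_set_iff] at h3

variable (M)

theorem exists_θ : ∃ θ : normalizer (A0 M.toNM : Set G) →* Matrix.SpecialLinearGroup (Fin 5) (ZMod 2),
    θ.ker = (A0 M.toNM).subgroupOf _ := by
  obtain ⟨θ, h, -⟩ := exists_hom_of_match (fun (g : G) (S : Set G) => MulAut.conj g • S)
    (fun g h S => by rw [map_mul, mul_smul]) (fun y => ES M.toNM (KM (enc5 y)))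
    (MonoidHom.id (Matrix.SpecialLinearGroup (Fin 5) (ZMod 2)))
    (fun γ => ⟨fun h y => by rw [show γ = 1 from h, one_smul], fun h => Subtype.ext
      (Matrix.ext_iff_mulVec.2 fun y => (smul_eq_of_ES (M := M) (γ := γ) (y := y) (by
        beta_reduce at h; rw [h y])).trans (Matrix.one_mulVec y).symm)⟩) (normalizer (A0 M.toNM : Set G))
    fun n hn => by beta_reduce; exact exists_SL hn
  refine ⟨θ, Subgroup.ext fun n => ?_⟩
  rw [MonoidHom.mem_ker, h, mem_subgroupOf]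
  refine ⟨fun h1 => cent_A0 _ M.centT fun u hu => ?_, fun h1 y => ?_⟩
  · obtain ⟨φ, h2, h3⟩ := exists_pres n.2
    obtain ⟨c, hc, rfl⟩ := exists_el _ hu
    have := h3 c hc
    rwa [h2.eq_self (fun k hk c hc h4 => ?_) c hc, eq_mul_inv_iff_mul_eq] at this
    have h5 := h1 (dec5 k)
    rw [enc5_dec5 k hk] at h5
    rw [← el_mem_ES M.toNM (h2.lt c hc), h3 c hc, ← h5]
    exact ⟨_, ⟨c, hc, h4, rfl⟩, rfl⟩
  · refine (Set.image_congr (g := id) ?_).trans (Set.image_id _)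
    rintro _ ⟨c, hc, -, rfl⟩
    show n * _ * (n : G)⁻¹ = el _ c
    rw [A0_comm _ h1 (el_mem _ hc), mul_inv_cancel_right]

variable {M}

theorem trans_V {u w : G} (hu : u ∈ M.V) (h1 : u ∈ A0 M.toNM) (hw : w ∈ M.V) (h2 : w ∈ A0 M.toNM) (h : IsConj u w) :
    ∃ n ∈ normalizer (A0 M.toNM : Set G), n * u * n⁻¹ = w := by
  obtain ⟨s, a1, a2, a3, rfl⟩ := exists_sub _ hu h1
  obtain ⟨r, b1, b2, b3, rfl⟩ := exists_sub _ hw h2
  have e1 : s.card = 4 ↔ r.card = 4 := by
    rw [← wt_vc a2 a3, ← wt_vc b2 b3, ← M.pre.isConj_z_iff (vc_lt _), ← M.pre.isConj_z_iff (vc_lt _)]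
    exact ⟨fun e => e.trans h, fun e => e.trans h.symm⟩
  have e2 : s.card = 2 ↔ r.card = 2 := by
    rw [← wt_vc a2 a3, ← wt_vc b2 b3, ← M.pre.isConj_t_iff (vc_lt _), ← M.pre.isConj_t_iff (vc_lt _)]
    exact ⟨fun e => e.trans h, fun e => e.trans h.symm⟩
  obtain ⟨x, h3, h4⟩ := octad_subset_trans oct0_mem oct0_mem a1 b1 (by omega) (by
    rw [Nat.even_iff] at a2 b2; omega)
  exact ⟨_, μ_mem_normalizer _ h3, by rw [M.μ_vc x a2, h4]⟩

theorem trans_t {a : G} (ha : a ∈ A0 M.toNM) (h : IsConj M.t a) :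
    ∃ n ∈ normalizer (A0 M.toNM : Set G), n * a * n⁻¹ = M.t := by
  obtain ⟨g, hg⟩ := isConj_iff.1 h.symm
  have h1 : M.t ∈ cj g (A0 M.toNM) := hg ▸ conj_mem_cj.2 ha
  have h2 := elem_cj (A0_elem M.toNM) g
  obtain ⟨n, hn, e⟩ := conj_A0_N M.centT h2 ((card_cj _ _).trans (card_A0 _))
    (by rw [centralizer_cj]; exact cj_mono _ (cent_A0 _ M.centT))
    fun u hu => M.centT (mem_centralizer_singleton_iff.2 (elem_comm h2 hu h1))
  obtain ⟨k, hk, e'⟩ := trans_V ((mem_normalizer_iff.1 hn _).1 M.t_mem_V) (e ▸ conj_mem_cj.2 h1) M.t_mem_V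
    (t_mem_A0 _) (isConj_iff.2 ⟨n, rfl⟩).symm
  exact ⟨k * (n * g), mul_mem hk (mem_normalizer_iff_cj.2 (by rw [← cj_cj, e])), by rw [← e', ← hg]; group⟩

theorem trans_z {a : G} (ha : a ∈ A0 M.toNM) (h : IsConj M.z a) :
    ∃ n ∈ normalizer (A0 M.toNM : Set G), n * a * n⁻¹ = M.z := by
  obtain ⟨p, hp, rfl⟩ := exists_el _ ha
  have hz : M.z ≠ 1 := fun e => absurd (el_eq_one M.toNM (by norm_num) ((el_one _).trans e)) (by norm_num)
  have h1 := (pure_iff M hp).2 (Or.inr h)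
  obtain ⟨q, hq, h2, h3⟩ := exists_not_pure hp (fun e => hz (by rwa [e, el_zero, isConj_one_left] at h)) h1
  obtain ⟨n, hn, e⟩ := trans_t (el_mem _ (xor_lt10 hp hq)) ((not_pure_iff M (xor_lt10 hp hq)).1 h3)
  obtain ⟨φ, h4, h5⟩ := exists_pres hn
  have h6 : φ p ^^^ φ q = 18 := by
    rw [← h4.xor p hp q hq]
    exact el_inj M.toNM (h4.lt _ (xor_lt10 hp hq)) (by norm_num) (by rw [h5 _ (xor_lt10 hp hq), e, el_18])
  have h7 := lt_of_pure (h4.lt p hp) ((h4.pure p hp).trans h1) (by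
    rw [← h6, Nat.xor_comm (φ p), Nat.xor_xor_cancel_right, h4.pure q hq, h2])
  obtain ⟨k, hk, e'⟩ := trans_V (u := el M.toNM (φ p)) (by rw [el_lt _ h7]; exact M.v_mem (va_lt _)) (el_mem _ (h4.lt p hp)) M.z_mem_V
    (el_one M.toNM ▸ el_mem _ (by norm_num)) (by rw [h5 p hp]; exact (h.trans (isConj_iff.2 ⟨n, rfl⟩)).symm)
  exact ⟨k * n, mul_mem hk hn, by rw [← e', h5 p hp]; group⟩

omit [Finite G] in
theorem orbit_eq {A : Subgroup G} {u : G} (hu : u ∈ A)
    (h : ∀ a ∈ A, IsConj u a → ∃ n ∈ normalizer (A : Set G), n * a * n⁻¹ = u) :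
    {v | ∃ n ∈ normalizer (A : Set G), n * u * n⁻¹ = v} = {v | v ∈ A ∧ IsConj u v} := by
  ext v
  refine ⟨fun ⟨n, hn, e⟩ => ⟨e ▸ (mem_normalizer_iff.1 hn _).1 hu, isConj_iff.2 ⟨n, e⟩⟩, fun ⟨h1, h2⟩ => ?_⟩
  obtain ⟨n, hn, e⟩ := h v h1 h2
  exact ⟨n⁻¹, inv_mem hn, by rw [← e]; group⟩

variable (M)

theorem z_mem_A0 : M.z ∈ A0 M.toNM := el_one M.toNM ▸ el_mem _ (by norm_num)

theorem ncard_orbit_t : {v | ∃ n ∈ normalizer (A0 M.toNM : Set G), n * M.t * n⁻¹ = v}.ncard = 868 := by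
  rw [orbit_eq (t_mem_A0 _) fun _ => trans_t, ← (by decide +kernel : pop 10 1024 (ones 1024 ^^^ PM) = 868),
    ← ncard_ES M.toNM]
  congr 1
  ext v
  have h : ∀ c < 1024, (ones 1024 ^^^ PM).testBit c = true ↔ IsConj M.t (el M.toNM c) := fun c hc => by
    rw [← not_pure_iff M hc, Nat.testBit_xor, testBit_ones]; simp [hc]
  refine ⟨fun ⟨h1, h2⟩ => ?_, fun ⟨c, hc, h1, e⟩ => e ▸ ⟨el_mem _ hc, (h c hc).1 h1⟩⟩
  obtain ⟨c, hc, rfl⟩ := exists_el _ h1
  exact ⟨c, hc, (h c hc).2 h2, rfl⟩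

theorem ncard_orbit_z : {v | ∃ n ∈ normalizer (A0 M.toNM : Set G), n * M.z * n⁻¹ = v}.ncard = 155 := by
  rw [orbit_eq (z_mem_A0 M) fun _ => trans_z, ← (by decide +kernel : pop 10 1024 (2 ^ 0 ^^^ PM) = 155),
    ← ncard_ES M.toNM]
  congr 1
  ext v
  have h : ∀ c < 1024, (2 ^ 0 ^^^ PM).testBit c = true ↔ IsConj M.z (el M.toNM c) := fun c hc => by
    rw [Nat.testBit_xor, Nat.testBit_two_pow]
    by_cases h0 : 0 = c
    · rw [← h0, el_zero, isConj_one_left, ← el_one]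
      exact iff_of_false (by decide +kernel) fun e => absurd (el_eq_one _ (by norm_num) e) (by norm_num)
    · simp [h0, pure_iff M hc, mt (el_eq_one M.toNM hc) (Ne.symm h0)]
  refine ⟨fun ⟨h1, h2⟩ => ?_, fun ⟨c, hc, h1, e⟩ => e ▸ ⟨el_mem _ hc, (h c hc).1 h1⟩⟩
  obtain ⟨c, hc, rfl⟩ := exists_el _ h1
  exact ⟨c, hc, (h c hc).2 h2, rfl⟩

/-- The normaliser acts irreducibly. -/
theorem irred_A0 {W : Subgroup G} (hW : W ≤ A0 M.toNM) (hN : normalizer (A0 M.toNM : Set G) ≤ normalizer (W : Set G)) :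
    W = ⊥ ∨ W = A0 M.toNM := by
  have key : ∀ {u : G}, (∀ a ∈ A0 M.toNM, IsConj u a → ∃ n ∈ normalizer (A0 M.toNM : Set G), n * a * n⁻¹ = u) →
      ∀ w ∈ W, IsConj u w → ∀ a ∈ A0 M.toNM, IsConj u a → a ∈ W := fun h w hw h1 a ha h2 => by
    obtain ⟨n, hn, e⟩ := h w (hW hw) h1
    obtain ⟨k, hk, e'⟩ := h a ha h2
    exact (mem_normalizer_iff.1 (hN hk) _).2 (e' ▸ e ▸ (mem_normalizer_iff.1 (hN hn) _).1 hw)
  refine (bot_or_exists_ne_one W).imp_right fun ⟨w, hw, h1⟩ => le_antisymm hW fun a ha => ?_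
  have hz : M.z ∈ W := by
    rcases M.two w (orderOf_A0 _ (hW hw) h1) with h | h
    · exact key (fun _ => trans_z) w hw h _ (z_mem_A0 M) (IsConj.refl _)
    · have h2 := fun c hc hp => key (fun _ => trans_t) w hw h _ (el_mem _ hc) ((not_pure_iff M (c := c) hc).1 hp)
      have h3 := mul_mem (h2 18 (by norm_num) (by decide +kernel)) (h2 19 (by norm_num) (by decide +kernel))
      rwa [← el_xor _ (by norm_num) (by norm_num), show 18 ^^^ 19 = 1 from rfl, el_one] at h3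
  obtain ⟨c, hc, rfl⟩ := exists_el _ ha
  refine xor_ind (C := fun c => el M.toNM c ∈ W) (n := 10) (by rw [el_zero]; exact one_mem _) (fun i hi => ?_)
    (fun a ha b hb h1 h2 => by rw [el_xor _ ha hb]; exact mul_mem h1 h2) c hc
  have h2 : 2 ^ i < 1024 := Nat.pow_lt_pow_right (by norm_num) hi
  exact key (fun _ => trans_z) _ hz (IsConj.refl _) _ (el_mem _ h2) (((pure_iff M h2).1
    ((by decide +kernel : ∀ i < 10, PM.testBit (2 ^ i) = true) i hi)).resolve_left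
      fun e => absurd (el_eq_one _ h2 e) (by positivity))

end

end CL.J4.Ten
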