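/-
Groups of Janko-four type, the subgroup of order `2 ^ 10`, part 5: the normaliser is a split extension by `SL₅(2)`.
-/
import Cfsg.Agent.Spor.J4T4
import Cfsg.Agent.Spor.J4R
import Cfsg.Agent.Spor.J4Main
import Cfsg.Agent.Grp.Gaschutz
import Cfsg.Agent.Cls.SLnCard
import Cfsg.Agent.Fgs.ClassBasic

set_option autoImplicit false

namespace CL.J4.Ten

open Cfsg CL.Spor Subgroup MulAction
open CL.F24 (ap)
open scoped Pointwise

variable {G : Type*} [Group G] (M : NM G)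

theorem even_pair (p q : GolayPt) : Even (symmDiff ({p} : Finset GolayPt) {q}).card := by
  rw [Nat.even_iff, ← par_syn, syn_symmDiff, par_xor (syn_lt _) (syn_lt _), par_syn, par_syn]; simp

/-- A second complement to `V` in `N`. -/
noncomputable def μ' : M24 →* G :=
  MonoidHom.mk' (fun x => M.v (vc (symmDiff {gPt 4} {x • gPt 4})) * M.μ x) fun x y => by
    have h := M.μ_vc x (even_pair (gPt 4) (y • gPt 4))
    rw [Finset.smul_finset_symmDiff, Finset.smul_finset_singleton, Finset.smul_finset_singleton, ← mul_smul,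
      mul_inv_eq_iff_eq_mul] at h
    rw [mul_assoc, ← mul_assoc (M.μ x), h, ← mul_assoc, ← mul_assoc, ← M.v_xor, ← vc_symmDiff, symmDiff_assoc,
      symmDiff_symmDiff_cancel_left, map_mul, mul_assoc]

theorem pr_μ' (x : M24) : M.Pr (μ' M x) x := pr_vμ M (vc_lt _) x

theorem μ'_injective : Function.Injective (μ' M) := fun x y h => pr_unique (pr_μ' M x) (by rw [h]; exact pr_μ' M y)

theorem vc_pair {k : ℕ} (hk : k < 24) : vc (symmDiff {gPt 4} {gPt k}) = synd (16 ^^^ 2 ^ k) % 2048 := by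
  rw [← ofMask_two_pow (by norm_num), ← ofMask_two_pow hk, ← ofMask_xor, vc_ofMask (Nat.xor_lt_two_pow (by norm_num)
    (Nat.pow_lt_pow_right (by norm_num) hk))]
  rfl

theorem μ'_mem_normalizer [Finite G] {x : M24} (hx : x ∈ stabilizer M24 oct0) :
    μ' M x ∈ normalizer (A0 M : Set G) := by
  refine mul_mem ?_ (μ_mem_normalizer M hx)
  have h1 : x • gPt 4 ∉ oct0 := by
    rw [← mem_stabilizer_iff.1 hx, Finset.smul_mem_smul_finset_iff]; decide +kernel
  rw [← gPt_gIdx (x • gPt 4)] at h1 ⊢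
  rw [vc_pair (gIdx_lt _)]
  rw [oct0, mem_ofMask, gIdx_gPt (gIdx_lt _)] at h1
  have h2 := (by decide +kernel : ∀ k < 24, ¬ Nat.testBit 8536111 k = true → ∀ P ∈ e16G, ∀ Q ∈ e16G,
    (fun a => ap (vcols Q) a = a) (synd (16 ^^^ 2 ^ k) % 2048 ^^^ ap (vcols P) (synd (16 ^^^ 2 ^ k) % 2048))) _
      (gIdx_lt _) h1
  have ha : synd (16 ^^^ 2 ^ gIdx (x • gPt 4)) % 2048 < 2048 := Nat.mod_lt _ (by norm_num)
  generalize synd (16 ^^^ 2 ^ gIdx (x • gPt 4)) % 2048 = a at h2 ha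
  refine mem_normalizer_fintype ?_
  rintro _ ⟨u, hu, h3, y, hy, rfl⟩
  rw [F16, e16G_eq.1] at hy
  have h4 := gen_le_of (H := (cj (M.v a)⁻¹ (A0 M)).comap M.μ) (fun P hP => by
    have hr := (e16G_good P hP).rep
    rw [mem_comap, mem_cj, inv_inv, (NM.RN.conj_by_v hr ha).eq]
    exact ⟨_, M.v_mem (xor_lt11 ha (vcols_lt _ _)), comm_F16 M (xor_lt11 ha (vcols_lt _ _)) (h2 P hP), _,
      (e16G_good P hP).m24_mem, rfl⟩) hy
  rw [mem_comap, mem_cj, inv_inv] at h4
  have := mul_mem (mem_A0_of M hu h3) h4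
  rwa [← mul_assoc, ← mul_assoc, M.V_comm hu (M.v_mem ha), mul_assoc (M.v a)] at this

theorem map_inf_A0 (K : Subgroup M24) : K.map (μ' M) ⊓ A0 M = ⊥ := by
  refine eq_bot_iff.2 ?_
  rintro _ ⟨⟨x, -, rfl⟩, u, hu, h1, y, hy, e⟩
  obtain ⟨a, ha, rfl⟩ := (M.mem_V _).1 hu
  obtain ⟨e1, rfl⟩ := (M.vμ_eq_iff (vc_lt _) ha).1 e
  rw [← gPt_gIdx (x • gPt 4), vc_pair (gIdx_lt _)] at e1
  have h2 := (by decide +kernel : ∀ k < 24, m6.testBit (synd (16 ^^^ 2 ^ k) % 2048) = true → k = 4) _ (gIdx_lt _)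
    (e1 ▸ testBit_m6 M ha h1)
  have h3 : x ∈ F16 ⊓ stabilizer M24 (gPt 4) := ⟨hy, mem_stabilizer_iff.2 (by rw [← gPt_gIdx (x • gPt 4), h2])⟩
  rw [fixS_octad_pt oct0_mem (by decide +kernel), mem_bot] at h3
  rw [h3, map_one]
  exact one_mem _

theorem card_map_sup [Finite G] {K : Subgroup M24} (hK : K ≤ stabilizer M24 oct0) :
    K.map (μ' M) ⊔ A0 M ≤ normalizer (A0 M : Set G) ∧ Nat.card (K.map (μ' M) ⊔ A0 M : Subgroup G) = Nat.card K * 1024 := by
  have h : K.map (μ' M) ≤ normalizer (A0 M : Set G) := by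
    rintro _ ⟨x, hx, rfl⟩
    exact μ'_mem_normalizer M (hK hx)
  exact ⟨sup_le h le_normalizer, by
    rw [CL.Grp.card_sup_of_inf_eq_bot h (map_inf_A0 M K), card_map_of_injective (μ'_injective M), card_A0]⟩

theorem card_SL5 : Nat.card (Matrix.SpecialLinearGroup (Fin 5) (ZMod 2)) = 9999360 := by
  rw [CL.SLn.card_SL]; simp [Finset.prod_range_succ]

variable [Finite G] (M : JM G)

theorem exists_θ_A0 : ∃ θ : normalizer (A0 M.toNM : Set G) →* Matrix.SpecialLinearGroup (Fin 5) (ZMod 2),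
    θ.ker = (A0 M.toNM).subgroupOf _ ∧ Function.Surjective θ := by
  obtain ⟨θ, h⟩ := exists_θ M
  refine ⟨θ, h, surjective_of_card_ker θ ?_⟩
  obtain ⟨h1, h2⟩ := card_map_sup M.toNM (K := Bs) inf_le_right
  have h3 : Bs.map (μ' M.toNM) ⊔ A0 M.toNM ≤ centralizer {M.t} := sup_le (by
    rintro _ ⟨x, hx, rfl⟩
    have := (pr_μ' M.toNM x).conj_vc (s := duad0) (by rw [duad0_card]; decide)
    rw [mem_stabilizer_iff.1 hx.1, vc_duad0, mul_inv_eq_iff_eq_mul] at this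
    exact mem_centralizer_singleton_iff.2 this)
    fun u hu => mem_centralizer_singleton_iff.2 (A0_comm _ hu (t_mem_A0 _))
  have h4 := card_le_of_le (le_inf h3 h1)
  rw [h, Nat.card_congr (subgroupOfEquivOfLe le_normalizer).toEquiv, card_A0, card_SL5,
    ← CL.Grp.card_inf_mul_relIndex (centralizer {M.t}), ← CL.Fgs.ncard_conj_subgroup, ncard_orbit_t]
  rw [h2, card_Bs] at h4
  omega

/-- The order of the normaliser of the subgroup of order `2 ^ 10`. -/
theorem card_normalizer_A0 : Nat.card (normalizer (A0 M.toNM : Set G)) = 1024 * 9999360 := by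
  obtain ⟨θ, h1, h2⟩ := exists_θ_A0 M
  rw [← θ.ker.card_mul_index, index_ker, MonoidHom.range_eq_top.2 h2, card_top, card_SL5, h1,
    Nat.card_congr (subgroupOfEquivOfLe le_normalizer).toEquiv, card_A0]

theorem split_A0 : ∃ B : Subgroup G, B ≤ normalizer (A0 M.toNM : Set G) ∧ B ⊓ A0 M.toNM = ⊥ ∧
    B ⊔ A0 M.toNM = normalizer (A0 M.toNM : Set G) ∧ Nonempty (B ≃* Matrix.SpecialLinearGroup (Fin 5) (ZMod 2)) := by
  obtain ⟨θ, h1, h2⟩ := exists_θ_A0 M
  obtain ⟨h3, h4⟩ := card_map_sup M.toNM (K := stabilizer M24 oct0) le_rfl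
  have hA : Nat.card ((A0 M.toNM).subgroupOf (normalizer (A0 M.toNM : Set G))) = 1024 := by
    rw [Nat.card_congr (subgroupOfEquivOfLe le_normalizer).toEquiv, card_A0]
  haveI : IsMulCommutative ((A0 M.toNM).subgroupOf (normalizer (A0 M.toNM : Set G))) :=
    ⟨⟨fun a b => Subtype.ext (Subtype.ext (A0_comm _ a.2 b.2))⟩⟩
  obtain ⟨H, hH⟩ := CL.Grp.gaschutz_exists ((A0 M.toNM).subgroupOf (normalizer (A0 M.toNM : Set G)))
    (((stabilizer M24 oct0).map (μ' M.toNM) ⊔ A0 M.toNM).subgroupOf _) (by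
      have := card_mul_index (((stabilizer M24 oct0).map (μ' M.toNM) ⊔ A0 M.toNM).subgroupOf
        (normalizer (A0 M.toNM : Set G)))
      rw [Nat.card_congr (subgroupOfEquivOfLe h3).toEquiv, h4, card_stabilizer_octad oct0_mem,
        card_normalizer_A0 M] at this
      rw [hA, show index _ = 31 by omega]; norm_num) (((stabilizer M24 oct0).map (μ' M.toNM)).subgroupOf _)
    (by rw [subgroupOf, subgroupOf, ← comap_inf, map_inf_A0]; exact bot_subgroupOf _)
    (by rw [sup_comm, subgroupOf_sup (le_sup_left.trans h3) le_normalizer])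
  refine ⟨H.map (normalizer (A0 M.toNM : Set G)).subtype, map_subtype_le _, eq_bot_iff.2 ?_, ?_,
    ⟨(H.equivMapOfInjective _ (subtype_injective _)).symm.trans (MulEquiv.ofBijective (θ.comp H.subtype)
      (nonempty_equiv_of_injective _ (fun g hg => Subtype.ext ?_) ?_))⟩⟩
  · rintro _ ⟨⟨x, hx, rfl⟩, h⟩
    rw [disjoint_def.1 hH.disjoint h hx]
    exact one_mem _
  · conv_rhs => rw [← (normalizer (A0 M.toNM : Set G)).range_subtype, MonoidHom.range_eq_map, ← hH.sup_eq_top,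
      Subgroup.map_sup, map_subgroupOf_eq_of_le le_normalizer, sup_comm]
  · exact disjoint_def.1 hH.disjoint (h1 ▸ hg) g.2
  · have := hH.card_mul_card
    rw [hA, card_normalizer_A0 M] at this
    rw [card_SL5]; omega

theorem cent_A0_eq : centralizer (A0 M.toNM : Set G) = A0 M.toNM :=
  le_antisymm (cent_A0 _ M.centT) fun _ hg _ hu => A0_comm _ hu hg

theorem ten_split (M : JM G) (A : Subgroup G) (hA : IsElementaryAbelian 2 A) (hc : Nat.card A = 2 ^ 10)
    (hs : centralizer (A : Set G) = A) :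
    (∃ B : Subgroup G, B ≤ normalizer (A : Set G) ∧ B ⊓ A = ⊥ ∧ B ⊔ A = normalizer (A : Set G) ∧
      Nonempty (B ≃* Matrix.SpecialLinearGroup (Fin 5) (ZMod 2))) ∧
    ∀ W : Subgroup G, W ≤ A → normalizer (A : Set G) ≤ normalizer (W : Set G) → W = ⊥ ∨ W = A := by
  obtain ⟨g, rfl⟩ := conj_A0 M hA hc hs.le
  obtain ⟨B, h1, h2, h3, ⟨e⟩⟩ := split_A0 M
  obtain ⟨e'⟩ := cj_equiv g B
  refine ⟨⟨cj g B, normalizer_cj g _ ▸ cj_mono g h1, by rw [← cj_inf, h2, cj, Subgroup.map_bot],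
    by rw [normalizer_cj, ← h3]; exact (Subgroup.map_sup _ _ _).symm, ⟨e'.symm.trans e⟩⟩, fun W hW hN => ?_⟩
  obtain ⟨W, rfl⟩ : ∃ U, W = cj g U := ⟨cj g⁻¹ W, by rw [cj_cj, mul_inv_cancel, cj_one]⟩
  rw [normalizer_cj, normalizer_cj] at hN
  have hi := (MulAut.conj g).injective
  exact (irred_A0 M ((map_le_map_iff_of_injective hi).1 hW) ((map_le_map_iff_of_injective hi).1 hN)).imp
    (fun h => by rw [h, cj, Subgroup.map_bot]) (congrArg _)

theorem ten_orbits (M : JM G) (A : Subgroup G) (hA : IsElementaryAbelian 2 A) (hc : Nat.card A = 2 ^ 10)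
    (hs : centralizer (A : Set G) = A) :
    ∃ a b : G, a ∈ A ∧ b ∈ A ∧ {v : G | ∃ n ∈ normalizer (A : Set G), n * a * n⁻¹ = v}.ncard = 155 ∧
      {v : G | ∃ n ∈ normalizer (A : Set G), n * b * n⁻¹ = v}.ncard = 868 := by
  obtain ⟨g, rfl⟩ := conj_A0 M hA hc hs.le
  exact ⟨_, _, conj_mem_cj.2 (z_mem_A0 M), conj_mem_cj.2 (t_mem_A0 _), by rw [ncard_orbit_cj, ncard_orbit_z],
    by rw [ncard_orbit_cj, ncard_orbit_t]⟩

end CL.J4.Ten
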