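/-
Groups of Janko-four type: the centraliser and the normaliser of a subgroup of order seven.
-/
import Cfsg.Agent.Spor.J4M3

set_option autoImplicit false

namespace CL.J4

open Cfsg CL.Spor Subgroup MulAction Matrix
open CL.F24 (ap idc cX ap_nil ap_cons ap_lt ap_idc all2 all2_spec)
open scoped Pointwise

/-- Chain of the centraliser of `s7`. -/
def levC7 : List (ℕ × List ℕ) := [(23, [984818244535754528103549039458486304, 482964959943285519520443728143136268, 313351269219803712310356286822995284, 374388252168858859442614793386171893, 644780390190558343236933834565626099, 559491667182138259056440026086093078, 445984459350179397437503844964093609, 676503318065677684140824456260690354, 729948289058319724464387859878512357, 837917564949137464141124857110379818, 792288599271743389398512227160761991, 936286064301357335046496896330121576, 232870689702202792571652348322024471, 752415638435212467237781906752024269, 55061997963331118869991477071090755,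 137210961491179796455930641260928546, 512133030264903068815082754582960720, 11006036118894752725123392423937121, 104676618506669608119361384158560433, 874517119501374031758769647390020207, 341545061406955611516947318048311691]),
  (4, [984818244535754528103549039458486304, 965128854020860192151391391390468128])]

set_option maxHeartbeats 1000000 in
theorem chainC7 : SChain (⊤ ⊓ centralizer {m24 s7}) levC7 :=
  chain24.cent rep_s7 [16760751, 1, 2, 4, 8, 80, 32] (good_top_of_all (by decide +kernel)) (by decide +kernel)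

/-- The powers of `s7`. -/
def pw7 : List ℕ := [984818244535754528103549039458486304, 11006036118894752725123392423937121, 56600152071662957667394502770857027, 140502995649198044212333726339882530, 104676618506669608119361384158560433, 729948289058319724464387859878512357, 224941410169647033374574076418362391]

theorem rep_pw7 (j : ℕ) : Rep (nth pone pw7 (j % 7)) (m24 s7 ^ j) := by
  rw [← (by decide +kernel : ∀ j < 7, ppow s7 j = nth pone pw7 j) _ (Nat.mod_lt _ (by norm_num)),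
    pow_eq_pow_mod j ((rep_s7.pow 7).eq_one_iff.2 (by decide +kernel))]
  exact rep_s7.pow _

set_option maxHeartbeats 1000000 in
theorem conj_s7 {x : M24} {j : ℕ} (hj : j < 7) (h : x * m24 s7 * x⁻¹ = m24 s7 ^ j) : j = 1 ∨ j = 2 ∨ j = 4 := by
  by_contra h1
  refine chain24.not_of_dead (PruneOK.allL fun j (_ : j ∈ [0, 3, 5, 6]) =>
    (pruneOK_conj rep_s7 (rep_pw7 j)).or (pruneOK_conj (rep_pw7 3) (rep_pw7 (j * 3))))
    (by decide +kernel) x (mem_top x) ⟨j, ?_, h, by rw [← conj_pow, h, pow_mul]⟩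
  simp only [List.mem_cons, List.not_mem_nil, or_false]
  omega

/-- The code of an element of order seven of `H`. -/
def S7 : HC := ⟨0, 0, 971221070063201723765560347470209056,
  [2302, 3159, 3614, 1831, 2496, 3648, 928, 496, 3480, 1772, 3473, 1762]⟩

theorem rep_S7 : Rep S7.P (m24 S7.P) := rep_m24 (by decide +kernel)

theorem card_cent_S7 : Nat.card (stabilizer M24 duad0 ⊓ centralizer {m24 S7.P} : Subgroup M24) = 14 :=
  (chainD.cent (lv := [(23, [984818244535754528103549039458486304, 14649291215885860644799444862294071]),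
    (2, [984818244535754528103549039458486304, 971221070063201723765560347470209056,
      980700738537182469165875392643504160, 977984453737110047331370454041051168, 968832756791886291217135868413457440,
      974944220683867759054324257593633824, 967394293915940988095717315544831008])]) rep_S7
    [8388609, 2, 2173252, 8, 16, 32]
    (good_stab_all (m := 8388609) (good_top_of_all (by decide +kernel)) (by decide +kernel)) (by decide +kernel)).card_eq

/-- An involution that commutes with `s7`. -/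
def y7 : ℕ := 859476676985696056904033473758149930

/-- An element that conjugates `s7` to its square. -/
def u7 : ℕ := 934011365362113706726725369528230411

variable {G : Type*} [Group G] [Finite G]

theorem HM.card_cent_seven (M : HM G) {s : G} (hs : s ∈ M.H) (ho : orderOf s = 7) :
    Nat.card (M.H ⊓ centralizer {s} : Subgroup G) ≤ 84 := by
  obtain ⟨g, hg⟩ := M.exists_of_code (a := 0) (by norm_num) 2
    ⟨_, rep_S7.mem_stabilizer_of_fixesMask (m := 8388609) (by decide +kernel), rep_S7⟩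
  have h0 := hg.congr (Y := S7) (by decide +kernel)
  have hg := (h0.pow 8).congr (Y := S7) (by decide +kernel)
  have h7 : orderOf (g ^ 8) = 7 := by
    have := Fact.mk (by norm_num : Nat.Prime 7)
    refine orderOf_eq_prime ?_ fun h => absurd (hg.P_eq (h ▸ M.rh_one)) (by decide +kernel)
    rw [← pow_mul, mul_comm, pow_mul]
    rcases (h0.pow 7).eq_one_or (by decide +kernel) with h | h <;> rw [h]
    exacts [one_pow _, (M.zp_congr (m := 8) (n := 0) rfl).trans (pow_zero _)]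
  generalize g ^ 8 = r at hg h7
  obtain ⟨k, hk, e⟩ := exists_cj_prime (by norm_num) ((Nat.card_zpowers s).trans ho) ((Nat.card_zpowers r).trans h7)
    (zpowers_le.2 hs) (zpowers_le.2 hg.mem) (by rw [M.card_H]; norm_num)
  rw [← card_cj k, cj_inf, Ten.cj_eq_of_mem hk, ← centralizer_zpowers, ← Ten.centralizer_cj, e, centralizer_zpowers]
  let φ : (M.H ⊓ centralizer {r} : Subgroup G) →* M24 := M.π.comp (inclusion inf_le_left)
  have h1 : φ.range ≤ stabilizer M24 duad0 ⊓ centralizer {m24 S7.P} := by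
    rintro _ ⟨u, rfl⟩
    refine ⟨M.π_mem _, mem_centralizer_singleton_iff.2 ?_⟩
    rw [← hg.π_eq]
    exact (map_mul ..).symm.trans ((congrArg M.π (Subtype.ext (mem_centralizer_singleton_iff.1 u.2.2))).trans (map_mul ..))
  have hp : M.RH hp M.p := M.rh_p
  have hc : Commute M.p M.z := M.mem_H.1 hp.mem
  have h2 : φ.ker.map (Subgroup.subtype _) ≤ zpowers (M.p * M.z) := by
    rintro _ ⟨u, hu, rfl⟩
    obtain ⟨a, ha, i, j, h⟩ := M.ker _ hu
    have h : (u : G) = _ := h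
    have h3 := h ▸ ((M.rh_c ha).mul (hp.pow i)).mul_zp j
    have h7 := hg.mul h3
    rw [← mem_centralizer_singleton_iff.1 u.2.2] at h7
    have h4 : a ^^^ ap idc (hpow J4.hp i).a ^^^ ap _ 0 = 0 ^^^ ap S7.A (a ^^^ ap idc (hpow J4.hp i).a) :=
      ((h3.mul hg).o_a_eq h7).2
    have h5 : ∀ i, (hpow J4.hp i).a = 0 := fun i => by
      induction i with
      | zero => rfl
      | succ i ih => exact (congrArg₂ Nat.xor ih (ap_zero _)).trans rfl
    rw [h5, ap_zero, ap_zero, Nat.xor_zero, Nat.xor_zero, Nat.zero_xor] at h4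
    have h6 := all2_spec (by decide +kernel : all2 (fun a => or (Nat.beq a 0) (not (Nat.beq a (ap S7.A a)))) 12 0 = true) a ha
    rw [← h4, Nat.beq_refl, Bool.not_true, Bool.or_false, Nat.beq_eq] at h6
    rw [coe_subtype, h, h6, M.c_zero, one_mul]
    refine mul_mem (pow_mem ?_ _) (pow_mem ?_ _)
    · exact ⟨(4 : ℕ), by simp only [zpow_natCast]; rw [hc.mul_pow, M.zp_congr (m := 4) (n := 0) rfl, pow_succ, M.p3]; simp⟩
    · exact ⟨(3 : ℕ), by simp only [zpow_natCast]; rw [hc.mul_pow, M.zp_congr (m := 3) (n := 1) rfl, M.p3]; simp⟩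
  have h3 : orderOf (M.p * M.z) ≤ 6 := orderOf_le_of_pow_eq_one (by norm_num)
    (by rw [hc.mul_pow, M.zp_congr (m := 6) (n := 0) rfl, show 6 = 3 * 2 from rfl, pow_mul, M.p3]; simp)
  have h4 := card_le_of_le h1
  have h5 := card_le_of_le h2
  rw [card_map_of_injective (subtype_injective _), Nat.card_zpowers] at h5
  rw [card_eq_card_quotient_mul_card_subgroup φ.ker, Nat.card_congr (QuotientGroup.quotientKerEquivRange φ).toEquiv]
  rw [card_cent_S7] at h4
  nlinarith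

namespace NM

variable (M : NM G)

theorem eq_one_of_L_σ {g : G} (hg : g ∈ M.L) (h : g * M.σ = M.σ * g) : g = 1 := by
  obtain ⟨a, ha, x, hx, rfl⟩ := M.exists_of_L hg
  obtain ⟨P, hP, e⟩ := chainE6.forall_mem (by decide +kernel : allProds (fun P => or (Nat.beq P pone)
    (not (Nat.beq (pmul P s7) (pmul s7 P)))) levE6 pone = true) x hx
  have h1 := ((((M.rn_mk ha.1 hP).mul (M.rn_μ rep_s7)).eq_iff ((M.rn_μ rep_s7).mul (M.rn_mk ha.1 hP))).1 h)
  have h2 : pmul P s7 = pmul s7 P := congrArg Prod.snd h1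
  have h3 : a ^^^ ap (vcols P) 0 = 0 ^^^ ap (vcols s7) a := congrArg Prod.fst h1
  rw [h2, Nat.beq_refl, Bool.not_true, Bool.or_false, Nat.beq_eq] at e
  obtain ⟨n, hn, rfl⟩ := ha.exists
  have h4 := all2_spec (by decide +kernel : (fun A => all2 (fun n => (fun a => or (Nat.beq a 0) (not (Nat.beq a (ap A a))))
    (ap B9 n)) 9 0) (vcols s7) = true) n hn
  rw [ap_zero, Nat.xor_zero, Nat.zero_xor] at h3
  simp only [← h3, Nat.beq_refl, Bool.not_true, Bool.or_false, Nat.beq_eq] at h4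
  rw [h4, hP.eq_one_iff.2 e, M.v_zero, map_one, mul_one]

/-- The complement `S₅` of `σ` in its centraliser. -/
def I7 : Subgroup G := centralizer {M.σ} ⊓ centralizer (M.Z3 : Set G)

omit [Finite G] in
theorem I7_le : M.I7 ≤ M.M3 := inf_le_right.trans (centralizer_le_normalizer _)

theorem bij_I7 : Function.Bijective (M.φ5.comp (inclusion M.I7_le)) := by
  refine ⟨(injective_iff_map_eq_one _).2 fun g h => Subtype.ext (M.eq_one_of_L_σ
    ((M.mem_L_iff (g := ⟨g, M.I7_le g.2⟩)).2 ⟨h, M.φ7_eq_one.2 g.2.2⟩) (mem_centralizer_singleton_iff.1 g.2.1)), fun τ => ?_⟩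
  obtain ⟨m, hm⟩ := M.card_M3.2 (τ, 1)
  obtain ⟨k, h1, h2⟩ := M.exists_cent_lift (f := ⟨M.σ, M.σ_mem⟩) (by norm_num) (by norm_num) M.σ_pow m (by
    rw [hm]; exact Prod.ext (by simp [φ, M.φ5_σ]) (by simp))
  rw [hm, Prod.ext_iff] at h1
  exact ⟨⟨k, mem_centralizer_singleton_iff.2 h2, M.φ7_eq_one.1 h1.2⟩, h1.1⟩

/-- `I7` is the symmetric group of degree five. -/
noncomputable def ψ5 : M.I7 ≃* Equiv.Perm (Fin 5) := MulEquiv.ofBijective _ M.bij_I7

omit [Finite G] in
theorem dec7 {g : G} (hg : g ∈ M.M3) (h : g * M.σ = M.σ * g) : ∃ i : ℕ, (M.σ ^ i)⁻¹ * g ∈ M.I7 := by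
  obtain ⟨i, hi⟩ := M.σ_trans ((mem_normalizer_iff.1 hg _).1 M.z_mem_Z3) (by simpa using M.z_ne)
  have h1 : Commute ((M.σ ^ i)⁻¹ * g) M.σ := ((Commute.refl _).pow_left i).inv_left.mul_left h
  have h2 : Commute ((M.σ ^ i)⁻¹ * g) M.z := mul_inv_eq_iff_eq_mul.1 (by
    rw [_root_.mul_inv_rev, mul_assoc, mul_assoc, ← mul_assoc M.z, ← mul_assoc g, ← mul_assoc g, ← hi]; group)
  refine ⟨i, mem_centralizer_singleton_iff.2 h1, fun e he => ?_⟩
  obtain rfl | h0 := eq_or_ne e 1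
  · simp
  obtain ⟨j, rfl⟩ := M.σ_trans he h0
  exact (((h1.pow_right j).mul_right h2).mul_right (h1.pow_right j).inv_right).eq.symm

theorem mem_I7_of_sq {g : G} (hg : g ∈ M.M3) (h : g * M.σ = M.σ * g) (h2 : g * g = 1) : g ∈ M.I7 := by
  obtain ⟨i, hi⟩ := M.dec7 hg h
  have h1 := (M.φ7_eq_one (g := (⟨M.σ, M.σ_mem⟩ ^ i)⁻¹ * ⟨g, hg⟩)).2 hi.2
  rw [map_mul, map_inv, inv_mul_eq_one] at h1
  refine ⟨mem_centralizer_singleton_iff.2 h, (M.φ7_eq_one (g := ⟨g, hg⟩)).1
    (eq_one_of_pow_eq (by norm_num : Nat.Coprime 7 2) ?_ ?_)⟩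
  · rw [← h1, ← map_pow, ← pow_mul, mul_comm, pow_mul, show (⟨M.σ, M.σ_mem⟩ : M.M3) ^ 7 = 1 from Subtype.ext M.σ_pow,
      one_pow, map_one]
  · rw [← map_pow, show (⟨g, hg⟩ : M.M3) ^ 2 = 1 from Subtype.ext ((pow_two g).trans h2), map_one]

theorem mem_M3_of_N {g : G} (hg : g ∈ M.N) (h : g * M.σ = M.σ * g) : g ∈ M.M3 := by
  obtain ⟨a, ha, x, rfl⟩ := M.mem_N.1 hg
  have h1 := Ten.pr_unique ((Ten.pr_vμ M ha x).mul (Ten.pr_μ M (m24 s7)))
    (h ▸ (Ten.pr_μ M (m24 s7)).mul (Ten.pr_vμ M ha x))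
  exact mul_mem (centralizer_le_normalizer _ (M.V_le_cent_Z3 (M.v_mem ha))) (M.μ_gen_mem (S := levelEls levC7)
    (by decide +kernel) (chainC7.eq_gen.le ⟨mem_top x, mem_centralizer_singleton_iff.2 h1⟩))

omit [Finite G] in
theorem RN.mem_I7 {M : NM G} {X : ℕ × ℕ} {g : G} (hX : M.RN X g) (h : (neq (nmul X (0, s7)) (nmul (0, s7) X) &&
    allL (fun a => Nat.beq (ap (vcols X.2) a) a) Zl) = true) : g ∈ M.I7 := by
  rw [Bool.and_eq_true] at h
  exact ⟨mem_centralizer_singleton_iff.2 ((hX.mul (M.rn_μ rep_s7)).eq_of ((M.rn_μ rep_s7).mul hX) h.1),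
    hX.mem_cent_Z3 h.2⟩

/-- The involutions of `I7`. -/
theorem inv_I7 : ∃ a ∈ M.I7, IsConj M.z a ∧ 12 ∣ Nat.card (M.I7 ⊓ centralizer {a} : Subgroup G) ∧ M.v 1736 ∈ M.I7 ∧
    ∀ c ∈ M.I7, orderOf c = 2 → ∃ k ∈ M.I7, k * a * k⁻¹ = c ∨ k * M.v 1736 * k⁻¹ = c := by
  have hy : Rep y7 (m24 y7) := rep_m24 (by decide +kernel)
  have ha := (M.rn_μ hy).mem_I7 (by decide +kernel)
  have hb := (M.rn_v (a := 1736) (by norm_num)).mem_I7 (by decide +kernel)
  have hw := M.rn_mk (a := 439) (by norm_num) hy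
  have h1 : IsConj M.z (M.μ (m24 y7)) := (M.pre.label _ _ (M.rn_μ hy) ((orderOf_injective M.μ M.μ_injective _).trans
    (hy.orderOf_prime Nat.prime_two (by decide +kernel) (by decide +kernel))) (by decide +kernel)).2
    ⟨0, by norm_num, by rw [ap_zero]; rfl⟩
  have h2 : ¬ IsConj M.z (M.v 1736) := by rw [M.pre.isConj_z_iff (by norm_num)]; decide +kernel
  have hc : ∀ c : M.I7, orderOf (c : G) = 2 → IsConj (M.ψ5 c) (Equiv.swap 0 1) ∨
      IsConj (M.ψ5 c) (Equiv.swap 0 1 * Equiv.swap 2 3) := fun c hc => by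
    rw [orderOf_coe, ← M.ψ5.orderOf_eq, orderOf_eq_prime_iff, pow_two] at hc
    obtain ⟨g, hg⟩ := perm5_inv _ hc.1 hc.2
    exact hg.imp (fun h => isConj_iff.2 ⟨g, h⟩) fun h => isConj_iff.2 ⟨g, h⟩
  have hk : ∀ c d : M.I7, IsConj (M.ψ5 c) (M.ψ5 d) → ∃ k ∈ M.I7, k * c * k⁻¹ = d := fun c d h => by
    obtain ⟨g, hg⟩ := isConj_iff.1 h
    obtain ⟨k, rfl⟩ := M.ψ5.surjective g
    exact ⟨k, k.2, congrArg Subtype.val (M.ψ5.injective (by simpa using hg) : k * c * k⁻¹ = d)⟩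
  have h3 := (hc ⟨_, hb⟩ (M.orderOf_v (by norm_num) (by norm_num))).resolve_left fun h => by
    obtain ⟨g, hg⟩ := isConj_iff.1 h
    refine perm5_sq (g * M.ψ5 ⟨_, hw.mem_I7 (by decide +kernel)⟩ * g⁻¹) ?_
    rw [conj_mul, ← map_mul, ← hg]
    exact congrArg (fun x => g * M.ψ5 x * g⁻¹) (Subtype.ext ((hw.mul hw).eq_of (M.rn_v (by norm_num)) (by decide +kernel)))
  have h4 := (hc ⟨_, ha⟩ (ord_two_of_isConj h1 M.ord_z)).resolve_right fun h =>
    let ⟨k, _, e⟩ := hk _ _ (h.trans h3.symm)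
    h2 (h1.trans (isConj_iff.2 ⟨k, e⟩))
  refine ⟨_, ha, h1, ?_, hb, fun c hc' ho => ?_⟩
  · obtain ⟨g, hg⟩ := isConj_iff.1 h4
    rw [← perm5_card, ← hg, card_centralizer_conj, ← card_subgroupOf']
    exact dvd_of_eq (Nat.card_congr (M.ψ5.toEquiv.subtypeEquiv fun k => by
      simp only [mem_subgroupOf, mem_centralizer_singleton_iff, MulEquiv.toEquiv_eq_coe, EquivLike.coe_coe, ← map_mul,
        M.ψ5.apply_eq_iff_eq, Subtype.ext_iff, coe_mul])).symm
  · rcases hc ⟨c, hc'⟩ ho with h | h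
    · exact (hk _ _ (h4.trans h.symm)).imp fun _ h => ⟨h.1, .inl h.2⟩
    · exact (hk _ _ (h3.trans h.symm)).imp fun _ h => ⟨h.1, .inr h.2⟩

theorem cent_inv7 {c g : G} (hc : c ∈ M.M3) (h1 : c * M.σ = M.σ * c) (ho : orderOf c = 2) (h2 : g * c = c * g)
    (h3 : g * M.σ = M.σ * g) : g ∈ M.M3 := by
  obtain ⟨a, ha, h4, h5, -, h⟩ := M.inv_I7
  obtain ⟨k, hk, h⟩ := h c (M.mem_I7_of_sq hc h1 (mul_self_of_ord ho)) ho
  have h6 : Commute (k⁻¹ * g * k) M.σ :=
    ((Commute.inv_left (mem_centralizer_singleton_iff.1 hk.1)).mul_left h3).mul_left (mem_centralizer_singleton_iff.1 hk.1)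
  have h7 : ∀ b, k * b * k⁻¹ = c → k⁻¹ * g * k ∈ centralizer {b} := fun b e => mem_centralizer_singleton_iff.2 (by
    simpa [mul_assoc, ← e] using congrArg (fun x => k⁻¹ * x * k) h2)
  suffices k⁻¹ * g * k ∈ M.M3 by simpa [mul_assoc] using mul_mem (mul_mem (M.I7_le hk) this) (inv_mem (M.I7_le hk))
  rcases h with h | h
  · obtain ⟨r, rfl⟩ := isConj_iff.1 h4
    have hσ : M.σ ∈ centralizer {r * M.z * r⁻¹} :=
      mem_centralizer_singleton_iff.2 (mem_centralizer_singleton_iff.1 ha.1).symm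
    have h8 := M.card_cent_seven (s := r⁻¹ * M.σ * r) (mem_cj.1 (centralizer_cj r M.z ▸ hσ))
      (by simpa using (orderOf_conj' r⁻¹ M.σ).trans M.orderOf_σ)
    rw [← card_cj r, cj_inf, ← centralizer_cj, ← centralizer_cj,
      show r * (r⁻¹ * M.σ * r) * r⁻¹ = M.σ by group] at h8
    have h9 : 7 * 12 ∣ Nat.card (centralizer {r * M.z * r⁻¹} ⊓ centralizer {M.σ} ⊓ M.M3 : Subgroup G) :=
      Nat.Coprime.mul_dvd_of_dvd_of_dvd (by norm_num) (M.orderOf_σ ▸ orderOf_dvd_natCard _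
        ⟨⟨hσ, mem_centralizer_singleton_iff.2 rfl⟩, M.σ_mem⟩)
        (h5.trans (card_dvd_of_le fun _ h => ⟨⟨h.2, h.1.1⟩, M.I7_le h.1⟩))
    exact ((eq_of_le_of_card_ge inf_le_left (h8.trans (Nat.le_of_dvd Nat.card_pos h9))).ge
      ⟨h7 _ h, mem_centralizer_singleton_iff.2 h6⟩).2
  · exact M.mem_M3_of_N (M.cent_v_le (by norm_num) (by decide +kernel) (h7 _ h)) h6

theorem norm7 {g : G} (hg : g ∈ normalizer (zpowers M.σ : Set G)) : ∃ k ∈ M.I7, k⁻¹ * g ∈ M.N := by
  obtain ⟨a, ha, h1, -, hb, h⟩ := M.inv_I7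
  have h2 := M.isConj_t (a := 1736) (by norm_num) (by decide +kernel)
  have h3 : IsConj M.t (g * M.v 1736 * g⁻¹) := h2.trans (isConj_iff.2 ⟨g, rfl⟩)
  have h4 : g * M.v 1736 * g⁻¹ * M.σ = M.σ * (g * M.v 1736 * g⁻¹) := by
    simpa [mul_assoc] using congrArg (fun x => g * x * g⁻¹) (comm_of_zpowers (mem_centralizer_singleton_iff.1 hb.1)
      ((mem_normalizer_iff.1 (inv_mem hg) _).1 (mem_zpowers _)))
  have ho := ord_two_of_isConj h3 M.orderOf_t
  have hn : ¬ IsConj a (g * M.v 1736 * g⁻¹) := fun h => M.pre.nconj (h1.trans (h.trans h3.symm))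
  obtain ⟨w, hw, h5, h6, h7⟩ := exists_mid ha.1 (mem_centralizer_singleton_iff.2 h4) 
    (mul_self_of_ord (ord_two_of_isConj h1 M.ord_z)) (mul_self_of_ord ho) hn
  have hw := mem_centralizer_singleton_iff.1 hw
  obtain ⟨k, hk, e⟩ := h _ (M.mem_I7_of_sq (M.cent_inv7 (M.cent_inv7 (M.I7_le ha) (mem_centralizer_singleton_iff.1 ha.1)
    (ord_two_of_isConj h1 M.ord_z) h6 hw) hw h5 h7.symm h4) h4 (mul_self_of_ord ho)) ho
  exact ⟨k, hk, M.cent_v_le (a := 1736) (by norm_num) (by decide +kernel) (mem_centralizer_singleton_iff.2 (by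
    simpa [mul_assoc] using congrArg (fun x => k⁻¹ * x * g) (e.resolve_left fun e => hn (isConj_iff.2 ⟨k, e⟩)).symm))⟩

theorem cent_σ_le : centralizer {M.σ} ≤ M.M3 := fun g hg => by
  obtain ⟨k, hk, h⟩ := M.norm7 (centralizer_le_normalizer _ (centralizer_zpowers M.σ ▸ hg))
  simpa using mul_mem (M.I7_le hk) (M.mem_M3_of_N h (mem_centralizer_singleton_iff.1 (mul_mem (inv_mem hk.1) hg)))

theorem prod7 : IsInternalDirectProduct (zpowers M.σ) M.I7 (centralizer (zpowers M.σ : Set G)) := by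
  have h1 : zpowers M.σ ≤ centralizer {M.σ} := zpowers_le.2 (mem_centralizer_singleton_iff.2 rfl)
  rw [centralizer_zpowers]
  refine ⟨h1, inf_le_left, fun a ha b hb => (comm_of_zpowers (mem_centralizer_singleton_iff.1 hb.1) ha).symm,
    eq_bot_iff.2 fun g hg => ?_, le_antisymm (sup_le h1 inf_le_left) fun g hg => ?_⟩
  · obtain ⟨i, -, rfl⟩ := exists_pow_of_mem rfl hg.1
    exact M.eq_one_of_L_σ ((M.mem_L_iff (g := ⟨_, M.σ_mem⟩ ^ i)).2
      ⟨by rw [map_pow, M.φ5_σ, one_pow], M.φ7_eq_one.2 hg.2.2⟩) (mem_centralizer_singleton_iff.1 hg.2.1)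
  · obtain ⟨i, hi⟩ := M.dec7 (M.cent_σ_le hg) (mem_centralizer_singleton_iff.1 hg)
    simpa using mul_mem (mem_sup_left (pow_mem (mem_zpowers M.σ) i)) (mem_sup_right (S := zpowers M.σ) hi)

theorem card_cent_σ : Nat.card (centralizer (zpowers M.σ : Set G)) = 840 := by
  rw [IsInternalDirectProduct.card M.prod7, Nat.card_zpowers, M.orderOf_σ, Nat.card_congr M.ψ5.toEquiv, card_perm5]

omit [Finite G] in
theorem u7_conj {i j : ℕ} (h : pconj (ppow u7 i) s7 = ppow s7 j) :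
    M.μ (m24 u7) ^ i * M.σ * (M.μ (m24 u7) ^ i)⁻¹ = M.σ ^ j := by
  rw [σ, ← map_pow M.μ (m24 s7), ← (((rep_m24 (P := u7) (by decide +kernel)).pow i).isConj_eq rep_s7 (rep_s7.pow j)).2 h]
  simp

theorem conj_σ {g : G} (hg : g ∈ normalizer (zpowers M.σ : Set G)) :
    ∃ i < 3, g * M.σ * g⁻¹ = M.μ (m24 u7) ^ i * M.σ * (M.μ (m24 u7) ^ i)⁻¹ := by
  obtain ⟨k, hk, h⟩ := M.norm7 hg
  obtain ⟨j, hj, e⟩ := exists_pow_of_mem M.orderOf_σ ((mem_normalizer_iff.1 hg _).1 (mem_zpowers _))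
  obtain ⟨x, hx⟩ := exists_pr h
  have h1 : k⁻¹ * g * M.σ * (k⁻¹ * g)⁻¹ = M.σ ^ j := by
    rw [_root_.mul_inv_rev, mul_assoc, mul_assoc, ← mul_assoc M.σ, ← mul_assoc g, ← mul_assoc g, e, inv_inv,
      ← comm_of_zpowers (mem_centralizer_singleton_iff.1 hk.1) (pow_mem (mem_zpowers _) j), inv_mul_cancel_left]
  have h2 := conj_s7 hj (Ten.pr_unique (Ten.pr_conj hx (Ten.pr_μ M _)) (h1 ▸ Ten.pr_pow (Ten.pr_μ M _) j))
  obtain ⟨i, hi, h3⟩ := (by decide +kernel : ∀ j ∈ [1, 2, 4], ∃ i < 3, pconj (ppow u7 i) s7 = ppow s7 j) j (by simpa using h2)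
  exact ⟨i, hi, e.trans (M.u7_conj h3).symm⟩

theorem norm_σ_le : normalizer (zpowers M.σ : Set G) ≤ M.M3 := fun g hg => by
  obtain ⟨i, -, h⟩ := M.conj_σ hg
  have h1 := pow_mem (M.μ_mem_M3 (rep_m24 (P := u7) (by decide +kernel)) (by decide +kernel)) i
  simpa using mul_mem h1 (M.cent_σ_le (x := (M.μ (m24 u7) ^ i)⁻¹ * g) (mem_centralizer_singleton_iff.2 (by
    simpa [mul_assoc] using congrArg (fun x => (M.μ (m24 u7) ^ i)⁻¹ * x * g) h)))

theorem card_norm_σ : Nat.card (normalizer (zpowers M.σ : Set G)) = 2520 := by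
  have h1 : ∀ i j, pconj (ppow u7 i) s7 = ppow s7 j → IsConj M.σ (M.σ ^ j) := fun i j h =>
    isConj_iff.2 ⟨_, M.u7_conj h⟩
  have h2 : ∀ i < 7, ∀ j < 7, i ≠ j → M.σ ^ i ≠ M.σ ^ j := fun i hi j hj h e =>
    h (pow_injOn_Iio_orderOf (by rwa [M.orderOf_σ]) (by rwa [M.orderOf_σ]) e)
  rw [card_normalizer_zpowers, ← centralizer_zpowers, M.card_cent_σ, Set.ncard_eq_three.2 ⟨M.σ ^ 1, M.σ ^ 2, M.σ ^ 4,
    h2 _ (by norm_num) _ (by norm_num) (by norm_num), h2 _ (by norm_num) _ (by norm_num) (by norm_num),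
    h2 _ (by norm_num) _ (by norm_num) (by norm_num), Set.Subset.antisymm (fun y hy => ?_) ?_⟩]
  rotate_left
  · obtain ⟨g, rfl⟩ := isConj_iff.1 hy.2
    obtain ⟨i, hi, e⟩ := M.conj_σ (mem_normalizer_zpowers hy.1)
    obtain ⟨j, hj, h⟩ := (by decide +kernel : ∀ i < 3, ∃ j ∈ [1, 2, 4], pconj (ppow u7 i) s7 = ppow s7 j) i hi
    rw [e, M.u7_conj h]
    simp only [List.mem_cons, List.not_mem_nil, or_false] at hj
    rcases hj with rfl | rfl | rfl <;> simp
  · rintro _ (rfl | rfl | rfl)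
    exacts [⟨pow_mem (mem_zpowers _) _, h1 0 1 (by decide +kernel)⟩, ⟨pow_mem (mem_zpowers _) _, h1 1 2 (by decide +kernel)⟩,
      ⟨pow_mem (mem_zpowers _) _, h1 2 4 (by decide +kernel)⟩]

include M in
theorem not_dvd_49 : ¬ 7 ^ 2 ∣ Nat.card G :=
  not_sq_dvd (by norm_num) ((Nat.card_zpowers _).trans M.orderOf_σ) (by rw [M.card_norm_σ]; norm_num)

include M in
/-- The local structure at the prime seven. -/
theorem seven (S : Subgroup G) (hS : Nat.card S = 7) : ¬ (49 ∣ Nat.card G) ∧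
    (∃ I : Subgroup G, IsInternalDirectProduct S I (centralizer (S : Set G)) ∧ Nonempty (I ≃* Equiv.Perm (Fin 5))) ∧
    Nat.card (normalizer (S : Set G)) = 3 * Nat.card (centralizer (S : Set G)) ∧
    Nat.card (normalizer (S : Set G)) = 2 ^ 3 * 3 ^ 2 * 5 * 7 := by
  obtain ⟨g, -, rfl⟩ := exists_cj_prime (by norm_num) ((Nat.card_zpowers _).trans M.orderOf_σ) hS le_top le_top
    (card_top (G := G) ▸ M.not_dvd_49)
  rw [normalizer_cj, Ten.centralizer_cj, card_cj, card_cj, M.card_norm_σ, M.card_cent_σ]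
  exact ⟨M.not_dvd_49, ⟨_, IsInternalDirectProduct.cj M.prod7 g, ⟨(cj_equiv g _).some.symm.trans M.ψ5⟩⟩, rfl, rfl⟩

end NM

end CL.J4
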