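/-
Groups of Janko-four type: the centraliser and the normaliser of a subgroup of order five, and the extension `M3`.
-/
import Cfsg.Agent.Spor.J4S7

set_option autoImplicit false

namespace CL.J4

open Cfsg CL.Spor Subgroup MulAction Matrix
open CL.F24 (ap idc cX ap_nil ap_cons ap_lt ap_idc all2 all2_spec)
open scoped Pointwise

/-- Chain of the centraliser of `F5` in the duad group. -/
def levC5 : List (ℕ × List ℕ) := [(23, [984818244535754528103549039458486304, 7042160619815368382885766681350711]),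
  (2, [984818244535754528103549039458486304, 959908304884857332482435543298908192, 971099296447995941498736170608830496,
    975760202594642433615586199219867680, 983140777587520676696521863531580448])]

theorem chainC5 : SChain (stabilizer M24 duad0 ⊓ centralizer {m24 F5.P}) levC5 :=
  chainD.cent rep_F5 [8388609, 2, 525588, 8, 16, 32]
    (good_stab_all (m := 8388609) (good_top_of_all (by decide +kernel)) (by decide +kernel)) (by decide +kernel)

/-- Singular vectors fixed by `F5` outside `W`, with an element that moves them into `W`. -/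
def tab5 : List (ℕ × ℕ × ℕ × ℕ) := [(1329, 968831900483021157457398538231481440, 1543, 65),
  (1503, 974192857846616903476708535734645952, 1535, 36), (2578, 968831900483021157457398538231481440, 2825, 987),
  (2661, 974192857846616903476708535734645952, 2645, 838), (3875, 968831900483021157457398538231481440, 3342, 922),
  (4026, 974192857846616903476708535734645952, 4010, 866)]

theorem fix_F5 {b : ℕ} (hb : b < 4096) (h : ap F5.A b = b) : b ∈ [0, 119, 153, 238] ∨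
    (bn b 119 = 1 ∨ bn b 153 = 1) ∧ (qn b = 1 ∨ ∃ e ∈ tab5, e.1 = b) := by
  have := all2_spec (by decide +kernel : all2 (fun b => or (not (Nat.beq (ap F5.A b) b)) (or (anyL (Nat.beq b) [0, 119, 153, 238])
    (and (or (Nat.beq (bn b 119) 1) (Nat.beq (bn b 153) 1)) (or (Nat.beq (qn b) 1) (anyL (fun e => Nat.beq e.1 b) tab5)))))
    12 0 = true) b hb
  simpa only [h, Nat.beq_refl, Bool.not_true, Bool.false_or, Bool.or_eq_true, Bool.and_eq_true, anyL_iff, Nat.beq_eq,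
    exists_eq_right'] using this

/-- Chain of a Frobenius group of order twenty. -/
def lev20 : List (ℕ × List ℕ) := [(1, [984818244535754528103549039458486304, 974380510768821363662145534143076928,
    977864963184960973661438897150854272, 969952412052033243847481939299780672, 980421952782553364827122591706088640]),
  (2, [984818244535754528103549039458486304, 984447756380300809835322717071984672, 984799016615329826603595760505294880,
    984444188461805708752323088099022880])]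

theorem chain20 : SChain (gen (levelEls lev20)) lev20 := sChain_gen (by decide +kernel)

theorem rep_pC : Rep pC (m24 pC) := rep_m24 (by decide +kernel)

variable {G : Type*} [Group G]

namespace NM

variable (M : NM G)

theorem isConj_t_tab {e : ℕ × ℕ × ℕ × ℕ} (he : e ∈ tab5) (j : ℕ) : IsConj M.t (M.c e.1 * M.z ^ j) := by
  have := (allL_iff _ _).1 (by decide +kernel : allL (fun e => and (and (and (inM24 e.2.1) (fixesMask 8388609 e.2.1))
    (and (Nat.beq (ap (lift e.2.1).A e.2.2.1) e.1) (heq (hv e.2.2.2) (hq e.2.2.1)))) (and (and (Nat.blt e.2.2.1 4096)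
    (Nat.blt e.2.2.2 2048)) (and (Nat.beq (wt e.2.2.2) 2) (Nat.beq (wt (Nat.xor e.2.2.2 1441)) 2)))) tab5 = true) e he
  simp only [Bool.and_eq_true, Nat.beq_eq, Nat.blt_eq] at this
  obtain ⟨⟨⟨h1, h2⟩, h3, h4⟩, ⟨h5, h6⟩, h7, h8⟩ := this
  obtain ⟨-, -, u, hu⟩ := M.rh_lift ⟨_, (rep_m24 h1).mem_stabilizer_of_fixesMask h2, rep_m24 h1⟩
  have h9 : ∀ n : ℕ, IsConj M.t (M.c e.2.2.1 * M.z ^ n) := fun n => by
    rcases ((M.rh_v h6).congr h4).unique (M.rh_cz h5 n) with h | h <;> rw [h]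
    · exact M.isConj_t h6 h7
    · rw [← M.v_z, ← M.v_xor]; exact M.isConj_t (xor_lt11 h6 (by norm_num)) h8
  have h := hu.conj h5
  generalize (lift e.2.1).o * _ + _ = s at h
  refine (h9 (s + j)).trans (isConj_iff.2 ⟨u, ?_⟩)
  rw [← conj_mul, h, M.conj_zp hu.mem, h3, mul_assoc, ← pow_add, M.zp_congr (n := j) (by omega)]

theorem sq_of_conj {u : G} (h : IsConj M.z u) : u * u = 1 := mul_self_of_ord (ord_two_of_isConj h M.ord_z)

theorem fix_of_g5 {a j : ℕ} (ha : a < 4096) (h : M.c a * M.z ^ j * M.g5 = M.g5 * (M.c a * M.z ^ j)) : ap F5.A a = a :=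
  M.rh_g5.fix_of_comm ha h.symm

theorem π_eq_one {X : HC} {g : G} (hX : M.RH X g) (h : g * M.g5 = M.g5 * g) (h2 : g * g ∈ M.Z3)
    (h3 : ap X.A 119 = 119 ∧ ap X.A 153 = 153) : ∃ a < 4096, ∃ j : ℕ, g = M.c a * M.z ^ j := by
  obtain ⟨P, hP, e⟩ := chainC5.forall_mem (by decide +kernel : allProds (fun P => or (Nat.beq P pone)
    (or (not (Nat.beq (pmul P P) pone)) (allBelow (fun i => not (and (Nat.beq (ap (matP P i) 119) 119)
      (Nat.beq (ap (matP P i) 153) 153))) 3))) levC5 pone = true) _ ⟨M.π_mem ⟨g, hX.mem⟩,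
    mem_centralizer_singleton_iff.2 (by
      rw [← M.π_g5, ← map_mul, ← map_mul]; exact congrArg M.π (Subtype.ext h))⟩
  obtain rfl := hX.rep.unique' hP
  obtain ⟨b, hb, j, h4⟩ := M.exists_cz_of_Z3 h2
  have h5 : pmul X.P X.P = pone := (hX.mul hX).P_eq (Y := hq b)
    (h4 ▸ M.rh_cz ((by decide : ∀ b ∈ [0, 119, 153, 238], b < 4096) b hb) j)
  obtain ⟨i, hi, h6⟩ := hX.exists_matP
  simp only [h5, Nat.beq_refl, Bool.not_true, Bool.false_or, Bool.or_eq_true, allBelow_iff, Nat.beq_eq] at e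
  refine ⟨_, hX.a_lt, hX.eq_cz (hX.rep'.eq_one_iff.2 (e.resolve_right fun e => ?_)) (b := 119) (by norm_num) (by norm_num)
    (by rw [h3.1, h3.1])⟩
  have := e i hi
  rw [← h6 _ (by norm_num), ← h6 _ (by norm_num), h3.1, h3.2] at this
  exact absurd this (by decide)

theorem exists_x8 : ∃ x ∈ M.H, x * M.g5 = M.g5 * x ∧ x ^ 4 = M.z := by
  have hk : Rep 9746434453445118869693048128977463 (m24 9746434453445118869693048128977463) := rep_m24 (by decide +kernel)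
  obtain ⟨x, hx⟩ := M.exists_of_code (a := 1329) (by norm_num) 1
    ⟨_, hk.mem_stabilizer_of_fixesMask (m := 8388609) (by decide +kernel), hk⟩
  refine ⟨x, hx.mem, ?_, ?_⟩
  · refine ((M.rh_g5.mul hx).unique' (hx.mul M.rh_g5) (by decide +kernel)).resolve_right fun h => M.z_ne ?_
    have h1 : x * M.g5 * x⁻¹ = M.g5 * M.z := by rw [h, mul_assoc M.g5, M.mem_H.1 hx.mem]; group
    have h2 := congrArg (· ^ 5) h1
    simp only [conj_pow, M.g5_pow, (show Commute M.g5 M.z from M.mem_H.1 M.rh_g5.mem).mul_pow] at h2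
    simpa [M.zp_congr (m := 5) (n := 1) rfl] using h2.symm
  · obtain ⟨n, h⟩ := (M.rh_c (a := 3924) (by norm_num)).exists_zp ((hx.mul hx).congr (by decide +kernel))
    rw [show x ^ 4 = x * x * (x * x) by simp [pow_succ, mul_assoc], h, M.cz_sq (by norm_num),
      show qn 3924 = 1 by decide +kernel, pow_one]

variable [Finite G]

theorem mem_Z3_of_cz {a j : ℕ} (ha : a < 4096) (h : M.c a * M.z ^ j * M.g5 = M.g5 * (M.c a * M.z ^ j))
    (hc : IsConj M.z (M.c a * M.z ^ j)) : M.c a * M.z ^ j ∈ M.Z3 := by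
  obtain h1 | ⟨-, h1 | ⟨e, he, rfl⟩⟩ := fix_F5 ha (M.fix_of_g5 ha h)
  · exact M.cz_mem_Z3 h1 j
  · have := HM.qn_eq_zero_of_sq M.toHM ha (M.sq_of_conj hc)
    omega
  · exact absurd (hc.trans (M.isConj_t_tab he j).symm) M.pre.nconj

theorem mem_M3_of_H {g : G} (hg : g ∈ M.H) (h : g * M.g5 = M.g5 * g) : g ∈ M.M3 := by
  obtain ⟨X, hX⟩ := M.exists_code' hg
  have h1 : ∀ b < 4096, M.c b ∈ M.Z3 → b ≠ 0 → g * M.c b * g⁻¹ ∈ M.Z3 := fun b hb h2 h0 => by
    have h3 := (M.isConj_of_Z3 h2 fun e => h0 (M.c_inj hb (e ▸ one_mem _))).trans (isConj_iff.2 ⟨g, rfl⟩)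
    have h4 : Commute (g * M.c b * g⁻¹) M.g5 :=
      ((show Commute g _ from h).mul_left (M.g5_cent _ h2)).mul_left (Commute.inv_left h)
    rw [hX.conj hb] at h3 h4 ⊢
    exact M.mem_Z3_of_cz (hX.lt hb) h4 h3
  exact M.mem_M3 (by rw [M.mem_H.1 hg, mul_inv_cancel_right]; exact M.z_mem_Z3)
    (h1 _ (by norm_num) M.c_mem_Z3 (by norm_num)) (h1 _ (by norm_num) M.c_mem_Z3' (by norm_num))

theorem mem_Z3_of_L {g : G} (hg : g ∈ M.L) (h : g * M.g5 = M.g5 * g) : g ∈ M.Z3 := by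
  obtain ⟨X, hX⟩ := M.exists_code' (M.L_le_H hg)
  obtain ⟨a, ha, j, rfl⟩ := M.π_eq_one hX h (M.sq_mem_Z3 hg) (RH.fix_of_cent hX (M.L_le_cent hg))
  have := M.bn_of_cent ha (M.L_le_cent hg)
  exact M.cz_mem_Z3 ((fix_F5 ha (M.fix_of_g5 ha h)).resolve_right fun h => by omega) j

omit [Finite G] in
theorem φ7_g5 : M.φ7 ⟨M.g5, M.g5_mem⟩ = 1 := M.φ7_eq_one.2 M.g5_cent

theorem φ5_g5 : M.φ5 ⟨M.g5, M.g5_mem⟩ ^ 5 = 1 ∧ M.φ5 ⟨M.g5, M.g5_mem⟩ ≠ 1 :=
  ⟨by rw [← map_pow, show (⟨M.g5, M.g5_mem⟩ : M.M3) ^ 5 = 1 from Subtype.ext M.g5_pow, map_one], fun h =>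
    absurd (M.inj5 (i := 1) (j := 0) (by simpa using (M.φ5_iff ⟨M.g5, M.g5_mem⟩ 0 0).1 (by rw [h]; rfl))) (by decide)⟩

/-- The complement `2 ^ 3 · L₃(2)` of `g5` in its centraliser. -/
noncomputable def J5 : Subgroup G := centralizer {M.g5} ⊓ M.φ5.ker.map M.M3.subtype

theorem J5_le : M.J5 ≤ M.M3 := inf_le_right.trans (map_subtype_le _)

theorem mem_J5 {g : M.M3} : (g : G) ∈ M.J5 ↔ (g : G) * M.g5 = M.g5 * g ∧ M.φ5 g = 1 :=
  and_congr mem_centralizer_singleton_iff ⟨fun ⟨_, h, e⟩ => Subtype.ext e ▸ h, fun h => ⟨g, h, rfl⟩⟩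

theorem Z3_le_J5 : M.Z3 ≤ M.J5 := fun g h => (M.mem_J5 (g := ⟨g, le_normalizer h⟩)).2
  ⟨M.g5_cent _ h, ((M.mem_L_iff (g := ⟨g, le_normalizer h⟩)).1 (M.Z3_le_L h)).1⟩

/-- The action of `J5` on `Z3`. -/
noncomputable def ψ7 : M.J5 →* SpecialLinearGroup (Fin 3) (ZMod 2) := M.φ7.comp (inclusion M.J5_le)

theorem ψ7_surj : Function.Surjective M.ψ7 := fun A => by
  obtain ⟨m, hm⟩ := M.card_M3.2 (1, A)
  obtain ⟨k, h1, h2⟩ := M.exists_cent_lift (f := ⟨M.g5, M.g5_mem⟩) Nat.prime_five (by norm_num) M.g5_pow m (by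
    rw [hm]; exact Prod.ext (by simp) (by simp [φ, M.φ7_g5]))
  rw [hm, Prod.ext_iff] at h1
  exact ⟨⟨k, M.mem_J5.2 ⟨h2, h1.1⟩⟩, h1.2⟩

theorem ψ7_ker : M.ψ7.ker = M.Z3.subgroupOf M.J5 := Subgroup.ext fun g =>
  have h := (M.mem_J5 (g := ⟨g, M.J5_le g.2⟩)).1 g.2
  ⟨fun e => M.mem_Z3_of_L ((M.mem_L_iff (g := ⟨g, M.J5_le g.2⟩)).2 ⟨h.2, e⟩) h.1,
    fun e => M.φ7_eq_one.2 (M.V_le_cent_Z3 (M.Z3_le_V e))⟩

theorem dec5 {g : G} (hg : g ∈ M.M3) (h : g * M.g5 = M.g5 * g) : ∃ i : ℕ, (M.g5 ^ i)⁻¹ * g ∈ M.J5 := by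
  obtain ⟨i, hi⟩ := perm5_cent _ M.φ5_g5.1 M.φ5_g5.2 (M.φ5 ⟨g, hg⟩) (by
    rw [← map_mul, ← map_mul]; exact congrArg M.φ5 (Subtype.ext h))
  exact ⟨i, (M.mem_J5 (g := ((⟨M.g5, M.g5_mem⟩ : M.M3) ^ (i : ℕ))⁻¹ * ⟨g, hg⟩)).2
    ⟨(((Commute.refl M.g5).pow_left i).inv_left.mul_left (show Commute g M.g5 from h)).eq, by rw [map_mul, map_inv, map_pow, hi, inv_mul_cancel]⟩⟩

theorem J5_trans {e : G} (he : e ∈ M.Z3) (h1 : e ≠ 1) : ∃ k ∈ M.J5, k * M.z * k⁻¹ = e := by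
  obtain ⟨i, rfl⟩ := M.σ_trans he h1
  obtain ⟨k, hk⟩ := M.ψ7_surj (M.φ7 (⟨M.σ, M.σ_mem⟩ ^ i))
  exact ⟨k, k.2, M.conj_eq_of_φ7 hk M.z_mem_Z3⟩

theorem comm_g5_conj {k g : G} (hk : k ∈ M.J5) (h : g * M.g5 = M.g5 * g) : k⁻¹ * g * k * M.g5 = M.g5 * (k⁻¹ * g * k) :=
  ((Commute.inv_left (mem_centralizer_singleton_iff.1 hk.1)).mul_left h).mul_left (mem_centralizer_singleton_iff.1 hk.1)

theorem cent_Z3_inv {e g : G} (he : e ∈ M.Z3) (h1 : e ≠ 1) (h2 : g * e = e * g) (h3 : g * M.g5 = M.g5 * g) :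
    g ∈ M.M3 := by
  obtain ⟨k, hk, rfl⟩ := M.J5_trans he h1
  have := M.mem_M3_of_H (g := k⁻¹ * g * k) (M.mem_H.2 (by simpa [mul_assoc] using congrArg (fun x => k⁻¹ * x * k) h2))
    (M.comm_g5_conj hk h3)
  simpa [mul_assoc] using mul_mem (mul_mem (M.J5_le hk) this) (inv_mem (M.J5_le hk))

theorem mem_Z3_of_M3 {u : G} (hu : u ∈ M.M3) (h : u * M.g5 = M.g5 * u) (hc : IsConj M.z u) : u ∈ M.Z3 := by
  obtain ⟨e, he, h1, h2, h3⟩ := M.exists_axis hu (M.sq_of_conj hc)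
  obtain ⟨k, hk, rfl⟩ := M.J5_trans he h1
  have hk' := M.J5_le hk
  have hc' : IsConj M.z (k⁻¹ * u * k) := hc.trans (isConj_iff.2 ⟨k⁻¹, by rw [inv_inv]⟩)
  have h4 := M.comm_g5_conj hk h
  obtain ⟨X, hX⟩ := M.exists_code' (g := k⁻¹ * u * k)
    (M.mem_H.2 (by simpa [mul_assoc] using congrArg (fun x => k⁻¹ * x * k) h2))
  have h5 : ∀ b < 4096, M.c b ∈ M.Z3 → ap X.A b = b := fun b hb h6 => by
    have h7 := hX.conj hb
    rcases h3 _ ((mem_normalizer_iff.1 hk' _).1 h6) with h8 | h8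
    · exact ((M.c_eq_iff (n := 0) (hX.lt hb) hb).1 (h7.symm.trans (by
        simpa [mul_assoc] using congrArg (fun x => k⁻¹ * x * k) h8))).1
    · exact ((M.c_eq_iff (n := 1) (hX.lt hb) hb).1 (h7.symm.trans (by
        simpa [mul_assoc] using congrArg (fun x => k⁻¹ * x * k) h8))).1
  obtain ⟨a, ha, j, e⟩ := M.π_eq_one hX h4 (M.sq_of_conj hc' ▸ one_mem _)
    ⟨h5 _ (by norm_num) M.c_mem_Z3, h5 _ (by norm_num) M.c_mem_Z3'⟩
  have := (mem_normalizer_iff.1 hk' _).1 (e ▸ M.mem_Z3_of_cz ha (e ▸ h4) (e ▸ hc'))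
  simpa [mul_assoc] using this

/-- An element of order five of `N` centralises exactly one conjugate of `z` in `V`. -/
theorem exists_uniq_five {f : G} (hf : f ∈ M.N) (ho : orderOf f = 5) : ∃ e ∈ M.V, IsConj M.z e ∧ e * f = f * e ∧
    ∀ u ∈ M.V, IsConj M.z u → u * f = f * u → u = e := by
  have h5 : orderOf (M.μ (m24 pC)) = 5 := (orderOf_injective M.μ M.μ_injective _).trans
    (rep_pC.orderOf_prime Nat.prime_five (by decide +kernel) (by decide +kernel))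
  obtain ⟨n, hn, e⟩ := exists_cj_prime Nat.prime_five ((Nat.card_zpowers _).trans h5) ((Nat.card_zpowers f).trans ho)
    (zpowers_le.2 (M.μ_mem _)) (zpowers_le.2 hf) (by rw [M.card_N]; norm_num)
  have h1 : ∀ u, n * u * n⁻¹ * f = f * (n * u * n⁻¹) ↔ u ∈ centralizer {M.μ (m24 pC)} := fun u => by
    rw [← mem_centralizer_singleton_iff, ← centralizer_zpowers, ← e, Ten.centralizer_cj, conj_mem_cj, centralizer_zpowers]
  have h2 : ∀ a < 2048, M.v a ∈ centralizer {M.μ (m24 pC)} ↔ ap (vcols pC) a = a := fun a ha => by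
    rw [← (M.rn_μ rep_pC).cent_iff ha, mem_centralizer_singleton_iff, mem_centralizer_singleton_iff, eq_comm]
  refine ⟨n * M.v 670 * n⁻¹, (mem_normalizer_iff.1 hn _).1 (M.v_mem (by norm_num)),
    (M.isConj_z (by norm_num) (by decide +kernel)).trans (isConj_iff.2 ⟨n, rfl⟩),
    (h1 _).2 ((h2 _ (by norm_num)).2 (by decide +kernel)), fun u hu hc h => ?_⟩
  obtain ⟨a, ha, h3⟩ := (M.mem_V _).1 ((mem_normalizer_iff.1 (inv_mem hn) _).1 hu)
  obtain rfl : u = n * M.v a * n⁻¹ := by rw [← h3]; group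
  have h4 := all2_spec (by decide +kernel : (fun A => all2 (fun a => or (not (Nat.beq (ap A a) a))
    (or (Nat.beq a 670) (not (Nat.beq (wt a) 4)))) 11 0) (vcols pC) = true) a ha
  simp only [(h2 a ha).1 ((h1 _).1 h), (M.pre.isConj_z_iff ha).1 (hc.trans (isConj_iff.2 ⟨n, rfl⟩).symm), Nat.beq_refl,
    Bool.not_true, Bool.false_or, Bool.or_false, Nat.beq_eq] at h4
  rw [h4]

theorem exists_z_of_t {b f : G} (hb : IsConj M.t b) (ho : orderOf f = 5) (h : b * f = f * b) :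
    ∃ e, IsConj M.z e ∧ e * f = f * e ∧ ∀ g, g * b = b * g → g * f = f * g → g * e = e * g := by
  obtain ⟨r, rfl⟩ := isConj_iff.1 hb
  have h1 : ∀ g, g * (r * M.t * r⁻¹) = r * M.t * r⁻¹ * g → r⁻¹ * g * r ∈ M.N := fun g h => M.pre.centT
    (mem_centralizer_singleton_iff.2 (by simpa [mul_assoc] using congrArg (fun x => r⁻¹ * x * r) h))
  obtain ⟨e, he, h2, h3, h4⟩ := M.exists_uniq_five (h1 f h.symm) (by simpa using (orderOf_conj' r⁻¹ f).trans ho)
  refine ⟨r * e * r⁻¹, h2.trans (isConj_iff.2 ⟨r, rfl⟩), by simpa [mul_assoc] using congrArg (fun x => r * x * r⁻¹) h3,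
    fun g h5 h6 => ?_⟩
  have h7 : Commute (r⁻¹ * g * r) (r⁻¹ * f * r) := by
    simpa [Commute, SemiconjBy, mul_assoc] using congrArg (· * r) h6
  have := h4 _ ((mem_normalizer_iff.1 (h1 g h5) _).1 he) (h2.trans (isConj_iff.2 ⟨_, rfl⟩))
    ((h7.mul_left h3).mul_left h7.inv_left)
  simpa [mul_assoc] using congrArg (fun x => r * x * r⁻¹ * g) this

theorem cent_inv5 {c g : G} (hc : c ∈ M.M3) (h1 : c * M.g5 = M.g5 * c) (ho : orderOf c = 2) (h2 : g * c = c * g)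
    (h3 : g * M.g5 = M.g5 * g) : g ∈ M.M3 := by
  have h0 : ∀ {u}, IsConj M.z u → u ≠ 1 := fun h e => M.z_ne (isConj_one_left.1 (e ▸ h))
  rcases M.pre.two c ho with h | h
  · exact M.cent_Z3_inv (M.mem_Z3_of_M3 hc h1 h) (h0 h) h2 h3
  · obtain ⟨e, he, h4, h5, -⟩ := M.exists_axis hc (mul_self_of_ord ho)
    obtain ⟨u, h6, h7, h8⟩ := M.exists_z_of_t h M.orderOf_g5 h1
    exact M.cent_Z3_inv (M.mem_Z3_of_M3 (M.cent_Z3_inv he h4 (h8 e h5.symm (M.g5_cent _ he)).symm h7) h7 h6) (h0 h6)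
      (h8 g h2 h3) h3

theorem mem_Z3_of_g5 {u : G} (h : u * M.g5 = M.g5 * u) (hc : IsConj M.z u) : u ∈ M.Z3 := by
  have h1 := M.isConj_t_tab (e := (1329, 968831900483021157457398538231481440, 1543, 65)) (by decide) 0
  have h2 := (M.g5_comm (b := 1329) (by norm_num) (by decide +kernel) 0).symm
  have ho := ord_two_of_isConj h1 M.orderOf_t
  obtain ⟨w, hw, h3, h4, h5⟩ := exists_mid (mem_centralizer_singleton_iff.2 h) (mem_centralizer_singleton_iff.2 h2)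
    (M.sq_of_conj hc) (mul_self_of_ord ho) fun e => M.pre.nconj (hc.trans (e.trans h1.symm))
  have hw := mem_centralizer_singleton_iff.1 hw
  exact M.mem_Z3_of_M3 (M.cent_inv5 (M.cent_inv5 (M.mem_M3_of_H (M.cz_mem_H _ _) h2) h2 ho h5 hw) hw h3 h4.symm h) h hc

theorem norm_g5_le : normalizer (zpowers M.g5 : Set G) ≤ M.M3 := fun g hg => mem_normalizer_fintype fun u hu => by
  obtain rfl | h1 := eq_or_ne u 1
  · simp
  refine M.mem_Z3_of_g5 ?_ ((M.isConj_of_Z3 hu h1).trans (isConj_iff.2 ⟨g, rfl⟩))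
  simpa [mul_assoc] using congrArg (fun x => g * x * g⁻¹) (comm_of_zpowers (M.g5_cent _ hu)
    ((mem_normalizer_iff.1 (inv_mem hg) _).1 (mem_zpowers _)))

theorem prod5 : IsInternalDirectProduct (zpowers M.g5) M.J5 (centralizer (zpowers M.g5 : Set G)) := by
  have h0 := (centralizer_le_normalizer _).trans M.norm_g5_le
  have h1 : zpowers M.g5 ≤ centralizer {M.g5} := zpowers_le.2 (mem_centralizer_singleton_iff.2 rfl)
  rw [centralizer_zpowers] at h0 ⊢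
  refine ⟨h1, inf_le_left, fun a ha b hb => (comm_of_zpowers (mem_centralizer_singleton_iff.1 hb.1) ha).symm,
    eq_bot_iff.2 fun g hg => ?_, le_antisymm (sup_le h1 inf_le_left) fun g hg => ?_⟩
  · obtain ⟨i, hi, rfl⟩ := exists_pow_of_mem M.orderOf_g5 hg.1
    have h2 := (M.φ5_iff (⟨M.g5, M.g5_mem⟩ ^ i) 0 0).1 (by rw [((M.mem_J5 (g := ⟨M.g5, M.g5_mem⟩ ^ i)).1 hg.2).2]; rfl)
    obtain rfl : i = 0 := congrArg Fin.val (M.inj5 (i := ⟨i, hi⟩) (j := 0) (by simpa using h2))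
    exact pow_zero _
  · obtain ⟨i, hi⟩ := M.dec5 (h0 hg) (mem_centralizer_singleton_iff.1 hg)
    simpa using mul_mem (mem_sup_left (pow_mem (mem_zpowers M.g5) i)) (mem_sup_right (S := zpowers M.g5) hi)

theorem card_cent_g5 : Nat.card (centralizer (zpowers M.g5 : Set G)) = 6720 := by
  rw [IsInternalDirectProduct.card M.prod5, Nat.card_zpowers, M.orderOf_g5, card_eq_card_quotient_mul_card_subgroup M.ψ7.ker,
    Nat.card_congr (QuotientGroup.quotientKerEquivOfSurjective _ M.ψ7_surj).toEquiv, card_SL3, M.ψ7_ker,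
    Nat.card_congr (subgroupOfEquivOfLe M.Z3_le_J5).toEquiv, M.card_Z3]

include M in
theorem not_dvd_25 : ¬ 5 ^ 2 ∣ Nat.card G := by
  refine not_sq_dvd Nat.prime_five ((Nat.card_zpowers _).trans M.orderOf_g5) fun h => ?_
  have h1 := Nat.card_pos (α := normalizer (zpowers M.g5 : Set G))
  have h2 := (ncard_conj_five M.orderOf_g5).1
  rw [card_normalizer_zpowers, ← centralizer_zpowers, M.card_cent_g5] at h h1
  omega

theorem exists_x8' : ∃ x ∈ M.J5, x ^ 4 = M.z := by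
  obtain ⟨x, h1, h2, h3⟩ := M.exists_x8
  have hx := M.mem_M3_of_H h1 h2
  obtain ⟨i, hi⟩ := perm5_cent _ M.φ5_g5.1 M.φ5_g5.2 (M.φ5 ⟨x, hx⟩) (by
    rw [← map_mul, ← map_mul]; exact congrArg M.φ5 (Subtype.ext h2))
  refine ⟨x, (M.mem_J5 (g := ⟨x, hx⟩)).2 ⟨h2, eq_one_of_pow_eq (by norm_num : Nat.Coprime 5 4) ?_ ?_⟩, h3⟩
  · rw [hi, ← pow_mul, mul_comm, pow_mul, M.φ5_g5.1, one_pow]
  · rw [← map_pow]
    exact ((M.mem_L_iff (g := ⟨x, hx⟩ ^ 4)).1 (h3 ▸ M.Z3_le_L M.z_mem_Z3 : x ^ 4 ∈ M.L)).1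

theorem ns_J5 : NS M.J5 := by
  have hn : (M.Z3.subgroupOf M.J5).Normal := M.ψ7_ker ▸ inferInstance
  refine ⟨_, hn, ⟨⟨⟨fun a b => Subtype.ext (Subtype.ext (M.V_comm (M.Z3_le_V a.2) (M.Z3_le_V b.2)))⟩⟩, fun a ha =>
    Subtype.ext ((pow_two _).trans (M.V_sq (M.Z3_le_V ha)))⟩,
    (Nat.card_congr (subgroupOfEquivOfLe M.Z3_le_J5).toEquiv).trans M.card_Z3,
    ⟨(QuotientGroup.quotientMulEquivOfEq M.ψ7_ker.symm).trans (QuotientGroup.quotientKerEquivOfSurjective _ M.ψ7_surj)⟩,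
    fun K hK => ?_⟩
  obtain ⟨x, hx, h⟩ := M.exists_x8'
  obtain ⟨⟨e, k⟩, h1⟩ := hK.2 ⟨x, hx⟩
  have h2 : (k : M.J5) ^ 4 ∈ M.ψ7.ker := by
    have h3 : (⟨x, hx⟩ : M.J5) ^ 4 ∈ M.ψ7.ker := M.ψ7_ker ▸ (h ▸ M.z_mem_Z3 : x ^ 4 ∈ M.Z3)
    rwa [← h1, MonoidHom.mem_ker, map_pow, map_mul, show M.ψ7 e = 1 from M.ψ7_ker.ge e.2, one_mul, ← map_pow] at h3
  exact M.z_ne (h.symm.trans ((congrArg (fun y : M.J5 => (y : G) ^ 4) h1).symm.trans (M.pow_four (M.J5_le k.1.2)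
    (congrArg Subtype.val (disjoint_def.1 hK.disjoint (M.ψ7_ker ▸ h2) (pow_mem k.2 4))) e.2)))

/-- `L` has no complement in `M3`. -/
theorem not_compl_L {K : Subgroup G} (hK : K ≤ M.M3) (h1 : ∀ m ∈ M.M3, ∃ l ∈ M.L, ∃ k ∈ K, l * k = m)
    (h2 : ∀ k ∈ K, k ∈ M.L → k = 1) : False := by
  have h3 : ∀ m : M.M3, ∃ k : M.M3, (k : G) ∈ K ∧ M.φ k = M.φ m := fun m => by
    obtain ⟨l, hl, k, hk, e⟩ := h1 m m.2
    exact ⟨⟨k, hK hk⟩, hk, by rw [show m = ⟨l, M.L_le hl⟩ * ⟨k, hK hk⟩ from Subtype.ext e.symm, map_mul,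
      (M.mem_L_iff' (g := ⟨l, M.L_le hl⟩)).1 hl, one_mul]⟩
  have h4 : ∀ k : M.M3, (k : G) ∈ K → M.φ k = 1 → (k : G) = 1 := fun k hk e => h2 _ hk (M.mem_L_iff'.2 e)
  obtain ⟨x, hx, h⟩ := M.exists_x8'
  obtain ⟨f, hf, e⟩ := h3 ⟨M.g5, M.g5_mem⟩
  obtain ⟨l, hl, h5⟩ := exists_conj_coset (L := M.L) (y := f) Nat.prime_five (M.M3_le_norm_L M.g5_mem) M.g5_pow
    (by rw [M.card_L]; norm_num) (h4 (f ^ 5) (pow_mem hf 5) (by
      rw [map_pow, e, ← map_pow, show (⟨M.g5, M.g5_mem⟩ : M.M3) ^ 5 = 1 from Subtype.ext M.g5_pow, map_one]))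
    ((M.mem_L_iff' (g := f * (⟨M.g5, M.g5_mem⟩ : M.M3)⁻¹)).2 (by rw [map_mul, map_inv, e, mul_inv_cancel]))
  obtain ⟨k, hk, e'⟩ := h3 ⟨x, M.J5_le hx⟩
  have h6 : (k : G) * f * (k : G)⁻¹ * (f : G)⁻¹ = 1 := h4 (k * f * k⁻¹ * f⁻¹)
    (mul_mem (mul_mem (mul_mem hk hf) (inv_mem hk)) (inv_mem hf)) (by
      rw [map_mul, map_mul, map_mul, map_inv, map_inv, e, e', ← map_mul, show (⟨x, M.J5_le hx⟩ : M.M3) * ⟨M.g5, M.g5_mem⟩ =
        ⟨M.g5, M.g5_mem⟩ * ⟨x, M.J5_le hx⟩ from Subtype.ext (mem_centralizer_singleton_iff.1 hx.1), map_mul]; group)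
  have h7 : (k : G) ^ 4 = 1 := h4 (k ^ 4) (pow_mem hk 4) (by
    rw [map_pow, e', ← map_pow]; exact M.mem_L_iff'.1 (h ▸ M.Z3_le_L M.z_mem_Z3 : x ^ 4 ∈ M.L))
  have h8 : Commute (l * k * l⁻¹) M.g5 := by
    rw [← h5]; simpa [Commute, SemiconjBy, mul_assoc] using congrArg (· * (f * k * l⁻¹)) h6
  have h9 := M.mem_Z3_of_L (g := x * (l * k * l⁻¹)⁻¹) ((M.mem_L_iff' 
    (g := (⟨x, M.J5_le hx⟩ : M.M3) * (⟨l, M.L_le hl⟩ * k * (⟨l, M.L_le hl⟩ : M.M3)⁻¹)⁻¹)).2 (by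
      rw [map_mul, map_inv, map_mul, map_mul, map_inv, (M.mem_L_iff' (g := ⟨l, M.L_le hl⟩)).1 hl, e']; group))
    ((show Commute x _ from mem_centralizer_singleton_iff.1 hx.1).mul_left h8.inv_left)
  refine M.z_ne (h.symm.trans ?_)
  simpa only [inv_mul_cancel_right] using M.pow_four (mul_mem (mul_mem (M.L_le hl) k.2) (inv_mem (M.L_le hl))) (by rw [conj_pow, h7]; group) h9

include M in
/-- The local structure at the prime five. -/
theorem five (Q : Subgroup G) (hQ : Nat.card Q = 5) : ¬ (25 ∣ Nat.card G) ∧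
    (∃ J : Subgroup G, IsInternalDirectProduct Q J (centralizer (Q : Set G)) ∧ NS J) ∧
    (∃ R : Subgroup G, Q ≤ R ∧ R ≤ normalizer (Q : Set G) ∧ Nat.card R = 20 ∧ R ⊓ centralizer (Q : Set G) = Q) ∧
    Nat.card (normalizer (Q : Set G)) = 2 ^ 8 * 3 * 5 * 7 ∧ Nat.card (centralizer (Q : Set G)) = 6720 := by
  have h0 : ∀ {S T : Subgroup G}, Nat.card S = 5 → Nat.card T = 5 → ∃ g, cj g S = T := fun hS hT =>
    (exists_cj_prime Nat.prime_five hS hT le_top le_top (card_top (G := G) ▸ M.not_dvd_25)).imp fun _ h => h.2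
  have h1 : ∀ {S : Subgroup G}, Nat.card S = 5 → Nat.card (centralizer (S : Set G)) = 6720 := fun hS => by
    obtain ⟨g, rfl⟩ := h0 ((Nat.card_zpowers _).trans M.orderOf_g5) hS
    rw [Ten.centralizer_cj, card_cj, M.card_cent_g5]
  have h5 : orderOf (M.μ (m24 pC)) = 5 := (orderOf_injective M.μ M.μ_injective _).trans
    (rep_pC.orderOf_prime Nat.prime_five (by decide +kernel) (by decide +kernel))
  have h6 := (Nat.card_zpowers _).trans h5
  refine ⟨M.not_dvd_25, ?_, ?_, ?_, h1 hQ⟩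
  · obtain ⟨g, rfl⟩ := h0 ((Nat.card_zpowers _).trans M.orderOf_g5) hQ
    exact ⟨_, Ten.centralizer_cj _ g ▸ IsInternalDirectProduct.cj M.prod5 g, M.ns_J5.congr (cj_equiv g _).some⟩
  · obtain ⟨g, rfl⟩ := h0 h6 hQ
    have h2 : zpowers (M.μ (m24 pC)) ≤ (gen (levelEls lev20)).map M.μ :=
      zpowers_le.2 ⟨_, (good_gen chain20.1 pC (by decide +kernel)).m24_mem, rfl⟩
    have h3 := chain20.forall_mem (by decide +kernel : allProds (fun P => and (anyBelow (fun i => Nat.beq (pconj P pC) (ppow pC i)) 5)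
      (or (not (Nat.beq (pmul P pC) (pmul pC P))) (anyBelow (fun i => Nat.beq P (ppow pC i)) 5))) lev20 pone = true)
    simp only [Bool.and_eq_true, Bool.or_eq_true, anyBelow_iff, Nat.beq_eq, Bool.not_eq_true', ← Bool.not_eq_true] at h3
    refine ⟨cj g _, Ten.cj_mono g h2, normalizer_cj g _ ▸ Ten.cj_mono g ?_,
      by rw [card_cj, card_map_of_injective M.μ_injective, chain20.card_eq]; rfl, ?_⟩
    · rintro _ ⟨x, hx, rfl⟩
      obtain ⟨P, hP, ⟨i, -, h⟩, -⟩ := h3 x hx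
      refine mem_normalizer_zpowers ?_
      rw [← map_inv, ← map_mul, ← map_mul, (hP.isConj_eq rep_pC (rep_pC.pow i)).2 h, map_pow]
      exact pow_mem (mem_zpowers _) i
    · rw [Ten.centralizer_cj, ← cj_inf, centralizer_zpowers]
      refine congrArg _ (le_antisymm ?_ (le_inf h2 (zpowers_le.2 (mem_centralizer_singleton_iff.2 rfl))))
      rintro _ ⟨⟨x, hx, rfl⟩, h⟩
      obtain ⟨P, hP, -, h4⟩ := h3 x hx
      obtain ⟨i, -, h4⟩ := h4.resolve_left fun h4 => h4 ((hP.commute_iff rep_pC).1 (M.μ_injective (by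
        simpa using mem_centralizer_singleton_iff.1 h)))
      rw [(hP.eq_iff (rep_pC.pow i)).2 h4, map_pow]
      exact pow_mem (mem_zpowers _) i
  · obtain ⟨g, rfl⟩ := h0 h6 hQ
    rw [normalizer_cj, card_cj, card_normalizer_zpowers, ← centralizer_zpowers, h1 h6, (ncard_conj_five h5).2
      (map_pow M.μ _ 2 ▸ M.μ.map_isConj (isConj_iff.2 ⟨_, ((rep_m24 (P := s0) (by decide +kernel)).isConj_eq rep_pC
        (rep_pC.pow 2)).2 (by decide +kernel)⟩))]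
    norm_num

end NM

end CL.J4
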