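/-
Groups of Janko-four type, elements of order eleven, part 3: the centraliser of `y'`, the two classes and the Sylow
11-normaliser.
-/
import Cfsg.Agent.Spor.J4E2
import Cfsg.Agent.Fus.SubGrp

set_option autoImplicit false

namespace CL.J4.El

open Cfsg CL.Spor Subgroup MulAction CL.Grp CL.J4.Ten
open scoped Pointwise

variable {G : Type*} [Group G]

/-- The elements of `O` commuting with `φ` modulo the central subgroup `⟨y⟩`. -/
def mc (O : Subgroup G) (y φ : G) (h : O ≤ centralizer {y}) : Subgroup G where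
  carrier := {a | a ∈ O ∧ a⁻¹ * φ * a * φ⁻¹ ∈ zpowers y}
  one_mem' := ⟨one_mem _, by simp⟩
  mul_mem' := by
    rintro a b ⟨ha, n, hn⟩ ⟨hb, hb'⟩
    refine ⟨mul_mem ha hb, ?_⟩
    have h1 := (Commute.zpow_right (mem_centralizer_singleton_iff.1 (h (inv_mem hb))) n).eq
    rw [show (a * b)⁻¹ * φ * (a * b) * φ⁻¹ = b⁻¹ * (a⁻¹ * φ * a * φ⁻¹) * (φ * b * φ⁻¹) by group, ← hn, h1,
      show y ^ n * b⁻¹ * (φ * b * φ⁻¹) = y ^ n * (b⁻¹ * φ * b * φ⁻¹) by group]
    exact mul_mem (zpow_mem_zpowers _ _) hb'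
  inv_mem' := by
    rintro a ⟨ha, n, hn⟩
    refine ⟨inv_mem ha, ?_⟩
    have h1 := (Commute.zpow_right (mem_centralizer_singleton_iff.1 (h ha)) n).inv_right.eq
    rw [show a⁻¹⁻¹ * φ * a⁻¹ * φ⁻¹ = a * (a⁻¹ * φ * a * φ⁻¹)⁻¹ * a⁻¹ by group, ← hn, h1, mul_inv_cancel_right]
    exact inv_mem (zpow_mem_zpowers _ _)

/-- An odd group with a four-group or `2 × 5` of automorphisms. -/
theorem struct [Finite G] {O : Subgroup G} {y t φ : G} (ho : Odd (Nat.card O)) (hy : y ∈ O) (h : O ≤ centralizer {y})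
    (ht : t * t = 1) (hn : ∀ x ∈ O, t * x * t⁻¹ ∈ O) (hty : Commute y t) (hf : ∀ x ∈ O, t * x * t⁻¹ = x → x ∈ zpowers y)
    (hφ : Commute φ t) (h1 : ∀ c ∈ zpowers y, Commute φ c → c = 1) (h2 : ∀ a ∈ O, a⁻¹ * φ * a * φ⁻¹ ∈ zpowers y) :
    (∀ i ∈ O, t * i * t⁻¹ = i⁻¹ → Commute φ i) ∧ (∀ a ∈ O, ∀ b ∈ O, a * b = b * a) ∧
      Nat.card O ∣ orderOf y * Nat.card (O ⊓ centralizer {φ} : Subgroup G) := by
  have hz : ∀ c ∈ zpowers y, ∀ a ∈ O, Commute c a := fun c ⟨n, hn⟩ a ha =>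
    hn ▸ (Commute.zpow_right (mem_centralizer_singleton_iff.1 (h ha)) n).symm
  have key : ∀ i ∈ O, t * i * t⁻¹ = i⁻¹ → Commute φ i := fun i hi e => by
    obtain ⟨c, hc, e1⟩ : ∃ c ∈ zpowers y, φ * i * φ⁻¹ = i * c := ⟨_, h2 i hi, by group⟩
    have h3 : Commute c t := by obtain ⟨n, rfl⟩ := hc; exact hty.zpow_left n
    have h4 : (i * c)⁻¹ = i⁻¹ * c := by
      calc _ = φ * (t * i * t⁻¹) * φ⁻¹ := by rw [← e1, e]; group
        _ = t * (φ * i * φ⁻¹) * t⁻¹ := by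
          rw [← mul_assoc, ← mul_assoc, hφ.eq, mul_assoc _ t⁻¹, ← mul_inv_rev, hφ.eq]; group
        _ = _ := by rw [e1, ← e, mul_assoc _ t⁻¹, ← h3.inv_right.eq]; group
    rw [← (hz c hc i hi).eq, mul_inv_rev, mul_right_inj, inv_eq_iff_mul_eq_one] at h4
    rw [CL.Rec.eq_one_of_odd ho (CL.Rec.pow_card_of_mem (zpowers_le.2 hy hc)) h4, mul_one] at e1
    exact mul_inv_eq_iff_eq_mul.1 e1
  have split : ∀ a ∈ O, ∃ c ∈ zpowers y, ∃ i ∈ O, a = c * i ∧ t * i * t⁻¹ = i⁻¹ := fun a ha => by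
    obtain ⟨c, hc, i, hi, e, e1, e2⟩ := CL.Rec.exists_split ho ht hn ha
    exact ⟨c, hf c hc e1, i, hi, e, e2⟩
  refine ⟨key, fun a ha b hb => ?_, ?_⟩
  · obtain ⟨c, hc, i, hi, rfl, e⟩ := split a ha
    obtain ⟨d, hd, j, hj, rfl, e'⟩ := split b hb
    obtain ⟨c', hc', k, hk, e1, e2⟩ := split _ (mul_mem hi hj)
    have h3 : c' = 1 := h1 c' hc' (eq_mul_inv_of_mul_eq e1.symm ▸
      ((key i hi e).mul_right (key j hj e')).mul_right (key k hk e2).inv_right)
    rw [h3, one_mul] at e1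
    have h4 : Commute i j := by
      rw [← e1, show t * (i * j) * t⁻¹ = t * i * t⁻¹ * (t * j * t⁻¹) by group, e, e', ← mul_inv_rev, inv_inj] at e2
      exact e2.symm
    exact (hz c hc _ hb).mul_left ((hz d hd i hi).symm.mul_right h4)
  · rw [← Nat.card_zpowers, mul_comm]
    refine (card_dvd_of_le fun a ha => ?_).trans (card_sup_dvd (inf_le_left.trans (h.trans
      (centralizer_zpowers_eq y ▸ centralizer_le_normalizer _))))
    obtain ⟨c, hc, i, hi, rfl, e⟩ := split a ha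
    exact mul_mem (mem_sup_right hc) (mem_sup_left ⟨hi, mem_centralizer_singleton_iff.2 (key i hi e).symm⟩)

variable (M : JM G) [Finite G]

theorem conj_y {w : G} (hw : w ∈ zpowers M.y) (h1 : w ≠ 1) : IsConj M.y w :=
  let ⟨_, _, _, _, e⟩ := autom M.y11 (f_y M.toNM) (k_y M.toNM) hw h1; isConj_iff.2 ⟨_, e⟩

theorem conj_y' {w : G} (hw : w ∈ zpowers (y' M)) (h1 : w ≠ 1) : IsConj (y' M) w :=
  let ⟨_, _, _, _, e⟩ := autom (y'11 M) (f'_y' M) (k'_y' M) hw h1; isConj_iff.2 ⟨_, e⟩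

omit [Finite G] in
theorem kt_y' : k' M * M.t * y' M * (k' M * M.t)⁻¹ = y' M ^ 10 := by
  rw [← k'_y', mul_assoc (k' M), ← (y'_t M).eq]; group

omit [Finite G] in
theorem ord_kt : orderOf (k' M * M.t) = 2 := by
  refine orderOf_eq_prime (by rw [(k'_t M).mul_pow, sq, sq, k'_sq, t_sq, one_mul]) fun h => ?_
  have h1 := kt_y' M
  rw [h, one_mul, inv_one, mul_one, ← pow_one (y' M), ← pow_mul, pow_eq_pow_iff_modEq, ord_y'] at h1
  exact absurd h1 (by decide)

/-- The structure of the centraliser of `y'`. -/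
theorem exists_O : ∃ (O : Subgroup G) (φ : G), (φ = f' M ∨ φ = k' M ∨ φ = k' M * M.t) ∧ O ≤ centralizer {y' M} ∧
    Odd (Nat.card O) ∧ Nat.card (centralizer {y' M}) = 2 * Nat.card O ∧
    (∀ x ∈ centralizer {y' M}, Odd (orderOf x) → x ∈ O) ∧ (∀ a ∈ O, a⁻¹ * φ * a * φ⁻¹ ∈ zpowers (y' M)) ∧
    (∀ s ∈ centralizer {y' M}, s * s = 1 → Commute φ s) ∧ (∀ a ∈ O, ∀ b ∈ O, a * b = b * a) ∧
    Nat.card O ∣ 11 * Nat.card (O ⊓ centralizer {φ} : Subgroup G) := by
  have ht : M.t ∈ centralizer {y' M} := mem_centralizer_singleton_iff.2 (y'_t M).symm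
  have hZ : ∀ u ∈ zpowers M.t, u = 1 ∨ u = M.t := fun u hu => by
    obtain ⟨n, rfl⟩ := mem_powers_iff_mem_zpowers.2 hu
    rcases Nat.mod_two_eq_zero_or_one n with h | h <;>
      simp only [pow_eq_pow_mod n (show M.t ^ 2 = 1 by rw [sq, t_sq]), h] <;> simp
  obtain ⟨O, hO, cop, hn, hodd, hd⟩ := CL.Rec.exists_compl (p := 2) (zpowers_le.2 ht)
    (.of_card (n := 1) (by rw [Nat.card_zpowers, M.orderOf_t, pow_one])) (fun n _ h => by
      rw [centralizer_zpowers_eq, mem_centralizer_singleton_iff, ← mul_inv_eq_iff_eq_mul]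
      refine (hZ _ ((mem_normalizer_iff.1 h _).1 (mem_zpowers _))).resolve_left ?_
      rw [conj_eq_one_iff, ← orderOf_eq_one_iff, M.orderOf_t]; norm_num) fun n h1 h2 k hk => by
      rw [centralizer_zpowers_eq] at h2
      obtain ⟨c, hc, e, -, rfl⟩ := cent_N M (M.centT h2) (mem_centralizer_singleton_iff.1 h1)
      have h3 : Commute c M.t := by obtain ⟨n, rfl⟩ := hc; exact (y'_t M).zpow_left n
      have h4 : c ^ (2 ^ k * 2) = 1 := by
        have : (c * M.t ^ e) ^ (2 ^ k * 2) = 1 := by rw [pow_mul, hk, one_pow]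
        rwa [(h3.pow_right e).mul_pow, ← pow_mul, ← mul_assoc, mul_comm (e * _) 2, pow_mul M.t, sq M.t, t_sq, one_pow,
          mul_one] at this
      have h5 : c = 1 := mem_bot.1 (mem_of_pow (n := 2 ^ k * 2) (Nat.Coprime.coprime_dvd_left
        (ord_y' M ▸ orderOf_dvd_of_mem_zpowers hc) (by rw [← pow_succ]; exact Nat.Coprime.pow_right _ (by norm_num)))
        (mem_bot.2 h4))
      rw [h5, one_mul]
      exact pow_mem (mem_zpowers _) e
  have ho : Odd (Nat.card O) := Nat.coprime_two_right.1 cop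
  have hodd' : ∀ x ∈ centralizer {y' M}, Odd (orderOf x) → x ∈ O := fun x h1 h2 => hodd x h1 (Nat.coprime_two_right.2 h2)
  have hy : y' M ∈ O := hodd' _ (mem_centralizer_singleton_iff.2 rfl) (by rw [ord_y']; decide)
  have htO : M.t ∉ O := fun h => absurd (M.orderOf_t ▸ ho.of_dvd_nat (O.orderOf_dvd_natCard h)) (by decide)
  have hN : ∀ x ∈ O, x ∈ M.N → x ∈ zpowers (y' M) := fun x h1 h2 => by
    obtain ⟨c, hc, e, he, rfl⟩ := cent_N M h2 (mem_centralizer_singleton_iff.1 (hO h1))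
    interval_cases e
    · simpa using hc
    · exact absurd (by simpa using (mul_mem_cancel_left (zpowers_le.2 hy hc)).1 h1) htO
  have hc : ∀ φ ∈ M.N, (∃ m : ℕ, φ * y' M * φ⁻¹ = y' M ^ m) → ∀ a ∈ O, a⁻¹ * φ * a ∈ M.N →
      a⁻¹ * φ * a * φ⁻¹ ∈ zpowers (y' M) := fun φ h1 ⟨m, h2⟩ a ha h3 => by
    refine hN _ ?_ (mul_mem h3 (inv_mem h1))
    rw [mul_assoc, mul_assoc, ← mul_assoc φ]
    refine mul_mem (inv_mem ha) (hodd' _ ?_ (by rw [orderOf_conj']; exact ho.of_dvd_nat (O.orderOf_dvd_natCard ha)))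
    rw [← centralizer_zpowers_eq] at hO ⊢
    exact (mem_normalizer_iff.1 (le_normalizer_centralizer' le_rfl
      (mem_normalizer_zpowers (h2 ▸ pow_mem (mem_zpowers _) m))) a).1 (hO ha)
  have hf : ∀ x ∈ O, M.t * x * M.t⁻¹ = x → x ∈ zpowers (y' M) := fun x h1 h2 =>
    hN x h1 (M.centT (mem_centralizer_singleton_iff.2 (mul_inv_eq_iff_eq_mul.1 h2).symm))
  have htN : M.t ∈ M.N := M.V_le_N M.t_mem_V
  have h3 := cover3 (A := mc O _ (f' M) hO) (B := mc O _ (k' M) hO) (C := mc O _ (k' M * M.t) hO) ho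
    (fun _ h => h.1) (fun _ h => h.1) (fun _ h => h.1) fun a ha => by
      by_cases h : a ∈ M.N
      · exact Or.inl ⟨ha, hc _ (M.μ_mem _) ⟨_, f'_y' M⟩ a ha (mul_mem (mul_mem (inv_mem h) (M.μ_mem _)) h)⟩
      obtain ⟨φ, h1, h2⟩ := key M (mem_centralizer_singleton_iff.1 (hO ha)) h
      simp only [List.mem_cons, List.not_mem_nil, or_false] at h1
      rcases h1 with rfl | rfl | rfl | rfl
      · obtain ⟨c, h3, i, hi, rfl, e1, e2⟩ := CL.Rec.exists_split ho (t_sq M) (hn _ ht) ha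
        have h4 := hc _ htN ⟨1, by rw [← (y'_t M).eq]; simp⟩ _ ha h2
        rw [show (c * i)⁻¹ * M.t * (c * i) * M.t⁻¹ = i⁻¹ * c⁻¹ * (M.t * c * M.t⁻¹) * (M.t * i * M.t⁻¹) by group, e1, e2,
          inv_mul_cancel_right, ← mul_inv_rev, inv_mem_iff, ← sq] at h4
        exact absurd (zpowers_le.2 (M.μ_mem _) (mul_mem (hf c h3 e1) (mem_of_pow (Nat.coprime_two_right.2
          (ho.of_dvd_nat (O.orderOf_dvd_natCard hi))) h4))) h
      · exact Or.inl ⟨ha, hc _ (M.μ_mem _) ⟨_, f'_y' M⟩ a ha h2⟩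
      · exact Or.inr (Or.inl ⟨ha, hc _ (M.μ_mem _) ⟨_, k'_y' M⟩ a ha h2⟩)
      · exact Or.inr (Or.inr ⟨ha, hc _ (mul_mem (M.μ_mem _) htN) ⟨_, kt_y' M⟩ a ha h2⟩)
  obtain ⟨φ, h4, h5, m, hm, h6, h7⟩ : ∃ φ, (φ = f' M ∨ φ = k' M ∨ φ = k' M * M.t) ∧ Commute φ M.t ∧ ∃ m : ℕ,
      m % 11 ≠ 1 ∧ φ * y' M * φ⁻¹ = y' M ^ m ∧ O ≤ mc O _ φ hO := by
    rcases h3 with h | h | h
    exacts [⟨_, Or.inl rfl, f'_t M, 3, by norm_num, f'_y' M, h⟩,
      ⟨_, Or.inr (Or.inl rfl), k'_t M, 10, by norm_num, k'_y' M, h⟩,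
      ⟨_, Or.inr (Or.inr rfl), (k'_t M).mul_left rfl, 10, by norm_num, kt_y' M, h⟩]
  obtain ⟨s1, s2, s3⟩ := struct ho hy hO (t_sq M) (hn _ ht) (y'_t M) hf h5 (fun c hc e => by
    by_contra h1
    have h8 : orderOf c = 11 := ((Nat.dvd_prime (by norm_num)).1 (ord_y' M ▸ orderOf_dvd_of_mem_zpowers hc)).resolve_left
      (mt orderOf_eq_one_iff.1 h1)
    obtain ⟨n, hn⟩ := (eq_of_le_of_card_ge (zpowers_le.2 hc) (by
      rw [Nat.card_zpowers, Nat.card_zpowers, h8, ord_y'])).ge (mem_zpowers _)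
    have h9 : Commute φ (y' M) := hn ▸ e.zpow_right n
    rw [h9.eq, mul_inv_cancel_right, ← pow_one (y' M), ← pow_mul, pow_eq_pow_iff_modEq, ord_y', one_mul] at h6
    exact hm h6.symm) fun a ha => (h7 ha).2
  refine ⟨O, φ, h4, hO, ho, ?_, hodd', fun a ha => (h7 ha).2, fun s hs e => ?_, s2, ord_y' M ▸ s3⟩
  · rw [← M.orderOf_t, ← Nat.card_zpowers, ← card_sup_of_inf_eq_bot (zpowers_le.2 (mem_normalizer_fintype (hn _ ht)))
      (inf_eq_bot_of_coprime (by rw [Nat.card_zpowers, M.orderOf_t]; exact cop.symm))]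
    congr 2
    refine le_antisymm (fun d h => ?_) (sup_le (zpowers_le.2 ht) hO)
    obtain ⟨r, hr, v, hv, rfl⟩ := hd d h
    exact mul_mem (mem_sup_right hr) (mem_sup_left hv)
  · obtain ⟨r, hr, v, hv, rfl⟩ := hd s hs
    rcases hZ v hv with rfl | rfl
    · rw [mul_one] at e ⊢
      rw [CL.Rec.eq_one_of_odd ho (CL.Rec.pow_card_of_mem hr) e]
      exact Commute.one_right φ
    · refine (s1 r hr ?_).mul_right h5
      rw [inv_eq_of_mul_eq_one_right (t_sq M), ← mul_right_inj r, mul_inv_cancel, ← e]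
      group

variable (hp3 : centralizer {M.p} ≤ M.H)
include hp3

theorem card_Cy : Nat.card (centralizer {M.y}) = 31944 := by rw [card_X, card_U M hp3]; rfl

theorem not_conj : ¬ IsConj M.y (y' M) := fun h => by
  obtain ⟨c, e⟩ := isConj_iff.1 h
  obtain ⟨O, -, -, -, ⟨k, h1⟩, h2, -⟩ := exists_O M
  rw [← e, card_centralizer_conj, card_Cy M hp3] at h2
  omega

theorem exists_conj_U {w : G} {k : ℕ} (hw : orderOf w = 11 ^ k) : ∃ g, g * w * g⁻¹ ∈ U M.toNM :=
  let ⟨g, _, h⟩ := exists_conj_mem_sylIn (by norm_num) (sylIn_of_card (m := 65195770883604480) (by norm_num) le_top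
    (card_U M hp3) (by rw [card_top, M.card_G]; norm_num) (by norm_num)) (mem_top w) hw
  ⟨g, h⟩

theorem mem_U {w : G} {k : ℕ} (h : w ∈ centralizer {M.y}) (hw : orderOf w = 11 ^ k) : w ∈ U M.toNM := by
  obtain ⟨g, hg, h⟩ := exists_conj_mem_sylIn (by norm_num) (sylIn_of_card (m := 24) (by norm_num) (U_le _)
    (card_U M hp3) (by rw [card_Cy M hp3]; norm_num) (by norm_num)) h hw
  exact (mem_normalizer_iff.1 (X_norm _ hg) w).2 h

theorem card_Cy' : Nat.card (centralizer {y' M}) = 242 := by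
  obtain ⟨O, φ, h1, hO, ho, hc, hodd, h2, -, h3, h4⟩ := exists_O M
  obtain ⟨g, hg⟩ := exists_conj_U M hp3 (k := 1) (ord_y' M)
  have nc : ∀ x : G, ∀ w ∈ zpowers M.y, x⁻¹ * w * x ∈ zpowers (y' M) → w = 1 := fun x w h1 h2 => by
    by_contra h
    exact not_conj M hp3 ((conj_y M h1 h).trans ((isConj_iff.2 ⟨x⁻¹, by rw [inv_inv]⟩).trans
      (conj_y' M h2 fun e => h (conj_eq_one_iff.1 (by rwa [inv_inv]))).symm))
  have hy : g⁻¹ * M.y * g ∈ O := hodd _ (mem_centralizer_singleton_iff.2 (by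
    have := mem_centralizer_singleton_iff.1 (U_le _ hg)
    calc _ = g⁻¹ * (M.y * (g * y' M * g⁻¹)) * g := by group
      _ = _ := by rw [← this]; group)) (by rw [← inv_inv g, inv_inv g⁻¹, orderOf_conj', ord_y]; decide)
  have h5 : cj g O ≤ centralizer {M.y} := fun x hx => mem_centralizer_singleton_iff.2 (by
    have := h3 _ (mem_cj.1 hx) _ hy
    calc _ = g * (g⁻¹ * x * g * (g⁻¹ * M.y * g)) * g⁻¹ := by group
      _ = _ := by rw [this]; group)
  have h6 : Nat.card O ∣ 2 ^ 3 * (3 * 11 ^ 3) := card_cj g O ▸ (card_dvd_of_le h5).trans (card_Cy M hp3).dvd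
  have h7 : ¬ 3 ∣ Nat.card O := fun h => by
    obtain ⟨⟨e, he⟩, oe⟩ := exists_prime_orderOf_dvd_card' 3 h
    obtain ⟨x, hx, n, hn⟩ := conj_zp (by norm_num) (by rw [card_Cy M hp3]; norm_num)
      (mem_centralizer_singleton_iff.2 (p_y M.toNM)) (h5 (conj_mem_cj.2 he)) (ord_p M.toNM)
      ((orderOf_conj' _ _).trans ((orderOf_mk _ _).symm.trans oe))
    have e1 : Commute (g * e * g⁻¹) (g * y' M * g⁻¹) :=
      Commute.map (mem_centralizer_singleton_iff.1 (hO he)) (MulAut.conj g)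
    have e2 := (e1.zpow_left n).eq
    rw [show (g * e * g⁻¹) ^ n = _ from hn] at e2
    have e3 := (U_inf M.toNM).le ⟨(mem_normalizer_iff.1 (X_norm _ (inv_mem hx)) _).1 hg,
      hp3 (mem_centralizer_singleton_iff.2 (by
        calc _ = x⁻¹ * (g * y' M * g⁻¹ * (x * M.p * x⁻¹)) * x := by group
          _ = _ := by rw [← e2]; group))⟩
    have e4 := nc (x⁻¹ * g) _ e3 (by simp [mul_assoc])
    rw [conj_eq_one_iff, conj_eq_one_iff, ← orderOf_eq_one_iff, ord_y'] at e4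
    cases e4
  obtain ⟨k, hk, h8⟩ := (Nat.dvd_prime_pow (by norm_num)).1
    (((Nat.prime_three.coprime_iff_not_dvd.2 h7).symm).dvd_of_dvd_mul_left
      (((Nat.coprime_two_right.2 ho).pow_right 3).dvd_of_dvd_mul_left h6))
  have h9 := sq_dvd_card_centralizer (by norm_num) (ord_y' M) (by rw [M.card_G]; norm_num)
  rw [hc, h8] at h9 ⊢
  interval_cases k
  · norm_num at h9
  · norm_num at h9
  · rfl
  exfalso
  have h10 : 11 ^ 2 ∣ Nat.card (centralizer {φ}) :=
    (Nat.dvd_of_mul_dvd_mul_left (by norm_num) (show 11 * 11 ^ 2 ∣ _ from h8 ▸ h4)).trans (card_dvd_of_le inf_le_right)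
  have h11 : orderOf φ ≠ 2 := fun h => by
    rcases M.two φ h with h | h <;> obtain ⟨c, rfl⟩ := isConj_iff.1 h <;> rw [card_centralizer_conj] at h10
    · rw [M.card_H] at h10; norm_num at h10
    · rw [M.card_T] at h10; norm_num at h10
  obtain rfl := (h1.resolve_right fun h => h11 (h.elim (· ▸ ord_k' M) (· ▸ ord_kt M)))
  have h12 : cj g O = U M.toNM := eq_of_le_of_card_ge (fun x hx => by
    obtain ⟨j, -, hj⟩ := (Nat.dvd_prime_pow (by norm_num)).1 (h8 ▸ card_cj g O ▸ (cj g O).orderOf_dvd_natCard hx)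
    exact mem_U M hp3 (h5 hx) hj) (by rw [card_cj, h8, card_U M hp3])
  have h13 : f' M ∈ normalizer (O : Set G) := mem_normalizer_fintype fun a ha => by
    have := mul_mem ha (zpowers_le.2 (hodd _ (mem_centralizer_singleton_iff.2 rfl) (by rw [ord_y']; decide)) (h2 a ha))
    simpa [mul_assoc] using this
  have hf : zpowers M.f ≤ normalizer (zpowers M.y : Set G) :=
    zpowers_le.2 (mem_normalizer_zpowers (f_y M.toNM ▸ pow_mem (mem_zpowers _) 3))
  obtain ⟨n, hn, h14⟩ := conj_zp (p := 5) (K := normalizer (U M.toNM : Set G)) (by norm_num)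
    (fun h => absurd (M.card_G ▸ h.trans (card_subgroup_dvd_card _)) (by norm_num)) (a := g * f' M * g⁻¹)
    (by rw [← h12, normalizer_cj]; exact conj_mem_cj.2 h13) (U_norm _ (hf (mem_zpowers _)))
    ((orderOf_conj' _ _).trans (ord_f' M)) (ord_f M.toNM)
  have h15 := nc (n * g) _ (mul_mem (inv_mem (mem_zpowers M.y)) ((mem_normalizer_iff.1 (hf h14) _).1 (mem_zpowers _))) (by
    have := h2 _ (mem_cj.1 (h12.ge ((mem_normalizer_iff.1 (inv_mem hn) _).1 (y_le _ (mem_zpowers _)))))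
    convert this using 1
    group)
  have h16 := (centralizer {M.y}).orderOf_dvd_natCard
    (mem_centralizer_singleton_iff.2 (mul_inv_eq_iff_eq_mul.1 (inv_mul_eq_one.1 h15).symm))
  rw [orderOf_conj', orderOf_conj', ord_f', card_Cy M hp3] at h16
  norm_num at h16

theorem card_Ny : Nat.card (normalizer (zpowers M.y : Set G)) = 319440 := by
  have h1 : {x : G | x ∈ zpowers M.y ∧ IsConj M.y x} = (zpowers M.y : Set G) \ {1} := by
    ext x
    refine and_congr_right fun hx => ⟨?_, conj_y M hx⟩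
    rintro h rfl
    have := ord_y M.toNM
    rw [isConj_one_left.1 h, orderOf_one] at this
    cases this
  have h2 := Set.ncard_sdiff_singleton_add_one (s := (zpowers M.y : Set G)) (one_mem _)
  rw [← h1, show (zpowers M.y : Set G).ncard = 11 from (Nat.card_zpowers _).trans (ord_y M.toNM)] at h2
  rw [card_normalizer_zpowers, card_Cy M hp3, show Nat.card {x : G // x ∈ zpowers M.y ∧ IsConj M.y x} = 10 from
    Nat.add_right_cancel h2]

theorem conj_of_mem_U {w : G} (hw : w ∈ U M.toNM) (h : w ∉ zpowers M.y) : IsConj (y' M) w := by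
  obtain ⟨g, hg⟩ := exists_conj_U M hp3 (k := 1) (ord_y' M)
  have h1 := card_eq_card_conj_mul (normalizer (zpowers M.y : Set G)) (g * y' M * g⁻¹)
  have h2 := card_le_of_le (inf_le_right : normalizer (zpowers M.y : Set G) ⊓ centralizer {g * y' M * g⁻¹} ≤ _)
  rw [card_centralizer_conj, card_Cy' M hp3] at h2
  rw [card_Ny M hp3] at h1
  have h3 := Set.ncard_sdiff_add_ncard_of_subset (y_le M.toNM : (zpowers M.y : Set G) ⊆ U M.toNM)
  rw [show (zpowers M.y : Set G).ncard = 11 from (Nat.card_zpowers _).trans (ord_y M.toNM),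
    show (U M.toNM : Set G).ncard = 11 ^ 3 from card_U M hp3] at h3
  have h4 : {x : G | ∃ n ∈ normalizer (zpowers M.y : Set G), n * (g * y' M * g⁻¹) * n⁻¹ = x} =
      (U M.toNM : Set G) \ zpowers M.y := by
    refine Set.eq_of_subset_of_ncard_le ?_ ?_
    · rintro _ ⟨n, hn, rfl⟩
      refine ⟨(mem_normalizer_iff.1 (U_norm _ hn) _).1 hg, fun h => not_conj M hp3 ?_⟩
      rw [← isConj_conj_iff g, ← isConj_conj_iff n]
      refine conj_y M h ?_
      rw [ne_eq, conj_eq_one_iff, conj_eq_one_iff, ← orderOf_eq_one_iff, ord_y']; norm_num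
    · have := Nat.mul_le_mul_left (Nat.card {x : G // ∃ n ∈ normalizer (zpowers M.y : Set G),
        n * (g * y' M * g⁻¹) * n⁻¹ = x}) h2
      rw [← h1] at this
      show _ ≤ Nat.card {x : G // ∃ n ∈ normalizer (zpowers M.y : Set G), n * (g * y' M * g⁻¹) * n⁻¹ = x}
      omega
  obtain ⟨n, -, rfl⟩ := h4.ge ⟨hw, h⟩
  rw [isConj_conj_iff, isConj_conj_iff]

/-- The two classes of elements of order eleven. -/
theorem class_11 {w : G} (hw : orderOf w = 11) : IsConj M.y w ∨ IsConj (y' M) w := by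
  obtain ⟨g, hg⟩ := exists_conj_U M hp3 (k := 1) hw
  rw [← isConj_conj_iff g, ← isConj_conj_iff (x := y' M) g]
  by_cases h : g * w * g⁻¹ ∈ zpowers M.y
  · refine Or.inl (conj_y M h ?_)
    rw [ne_eq, conj_eq_one_iff, ← orderOf_eq_one_iff, hw]; norm_num
  · exact Or.inr (conj_of_mem_U M hp3 hg h)

theorem card_cent_11 {w : G} (hw : orderOf w = 11) :
    Nat.card (centralizer {w}) = 31944 ∨ Nat.card (centralizer {w}) = 242 := by
  rcases class_11 M hp3 hw with h | h <;> obtain ⟨c, rfl⟩ := isConj_iff.1 h <;> rw [card_centralizer_conj]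
  exacts [Or.inl (card_Cy M hp3), Or.inr (card_Cy' M hp3)]

/-- An involution of `N` over `pB` commuting with all involutions of the centraliser of `y'`. -/
theorem exists_φ : ∃ φ, (φ = k' M ∨ φ = k' M * M.t) ∧ ∀ s ∈ centralizer {y' M}, s * s = 1 → Commute φ s := by
  obtain ⟨O, φ, h1, -, -, hc, -, -, h2, -, h3⟩ := exists_O M
  refine ⟨φ, h1.resolve_left ?_, h2⟩
  rintro rfl
  rw [card_Cy' M hp3] at hc
  rw [show Nat.card O = 11 * 11 by omega] at h3
  have : Fact (Nat.Prime 11) := ⟨by norm_num⟩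
  obtain ⟨⟨b, hb⟩, ob⟩ := exists_prime_orderOf_dvd_card' 11 (Nat.dvd_of_mul_dvd_mul_left (by norm_num) h3)
  have h4 := (centralizer {b}).orderOf_dvd_natCard
    (mem_centralizer_singleton_iff.2 (mem_centralizer_singleton_iff.1 hb.2).symm)
  rw [ord_f'] at h4
  rcases card_cent_11 M hp3 ((orderOf_mk _ _).symm.trans ob) with h | h <;> rw [h] at h4 <;> norm_num at h4

theorem norm_U : normalizer (U M.toNM : Set G) = normalizer (zpowers M.y : Set G) :=
  le_antisymm (fun n hn => mem_normalizer_zpowers (by_contra fun h => not_conj M hp3 ((isConj_iff.2 ⟨n, rfl⟩).trans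
    (conj_of_mem_U M hp3 ((mem_normalizer_iff.1 hn _).1 (y_le _ (mem_zpowers _))) h).symm))) (U_norm _)

theorem pow_U {w : G} (hw : w ∈ U M.toNM) : w ^ 11 = 1 := by
  by_cases h : w ∈ zpowers M.y
  · exact orderOf_dvd_iff_pow_eq_one.1 (ord_y M.toNM ▸ orderOf_dvd_of_mem_zpowers h)
  · rw [← ord_y' M, ← orderOf_of_isConj (conj_of_mem_U M hp3 hw h), pow_orderOf_eq_one]

theorem not_comm_U : ¬ ∀ a ∈ U M.toNM, ∀ b ∈ U M.toNM, a * b = b * a := fun h => by
  obtain ⟨g, hg⟩ := exists_conj_U M hp3 (k := 1) (ord_y' M)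
  have := card_dvd_of_le (show U M.toNM ≤ centralizer {g * y' M * g⁻¹} from fun a ha =>
    mem_centralizer_singleton_iff.2 (h a ha _ hg))
  rw [card_centralizer_conj, card_Cy' M hp3, card_U M hp3] at this
  norm_num at this

/-- The Sylow 11-subgroups and their normalisers. -/
theorem sylow_11 (S : Sylow 11 G) : IsExtraspecial 11 (S : Subgroup G) ∧ Nat.card (S : Subgroup G) = 11 ^ 3 ∧
    Monoid.exponent (S : Subgroup G) = 11 ∧ Nat.card (normalizer ((S : Subgroup G) : Set G)) = 2 ^ 4 * 3 * 5 * 11 ^ 3 ∧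
    ∃ K : Subgroup G, K ≤ normalizer ((S : Subgroup G) : Set G) ∧ Nonempty (K ≃* GL (Fin 2) (ZMod 3)) := by
  have : Fact (Nat.Prime 11) := ⟨by norm_num⟩
  obtain ⟨g, hg⟩ := exists_conj_le_sylow S (IsPGroup.of_card (card_U M hp3))
  obtain ⟨k, hk⟩ := IsPGroup.iff_card.1 S.isPGroup'
  have h1 : k < 4 := pow_lt (hk ▸ card_subgroup_dvd_card (S : Subgroup G)) (by rw [M.card_G]; norm_num)
  have e : cj g (U M.toNM) = S := eq_of_le_of_card_ge hg (by
    rw [card_cj, card_U M hp3, hk]; exact Nat.pow_le_pow_right (by norm_num) (by omega))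
  have hc : Nat.card (S : Subgroup G) = 11 ^ 3 := by rw [← e, card_cj, card_U M hp3]
  refine ⟨CL.Fus.isExtraspecial_of_card_eq_cube hc fun h => not_comm_U M hp3 fun a ha b hb => ?_, hc, ?_, ?_,
    cj g (K M.toNM), ?_, ?_⟩
  · have := congrArg Subtype.val (h.1.1 ⟨_, e.le (conj_mem_cj.2 ha)⟩ ⟨_, e.le (conj_mem_cj.2 hb)⟩)
    exact (MulAut.conj g).injective (by simpa [mul_assoc] using this)
  · have : Nontrivial (S : Subgroup G) := Finite.one_lt_card_iff_nontrivial.1 (by rw [hc]; norm_num)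
    refine ((Nat.dvd_prime (by norm_num)).1 (Monoid.exponent_dvd_of_forall_pow_eq_one fun x => Subtype.ext ?_)).resolve_left
      Monoid.one_lt_exponent.ne'
    have := pow_U M hp3 (mem_cj.1 (e.ge x.2))
    rwa [← inv_inv g, inv_inv g⁻¹, conj_pow, conj_eq_one_iff] at this
  · rw [← e, normalizer_cj, card_cj, norm_U M hp3, card_Ny M hp3]; norm_num
  · rw [← e, normalizer_cj]
    exact cj_mono g ((sup_le (L_norm _) (zpowers_le.2
      (mem_normalizer_zpowers (k_y M.toNM ▸ pow_mem (mem_zpowers _) 10)))).trans (U_norm _))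
  · obtain ⟨e1⟩ := cj_equiv g (K M.toNM)
    obtain ⟨e2⟩ := equiv_K M.toNM
    exact ⟨e1.symm.trans e2⟩

end CL.J4.El
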