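/-
Groups of Janko-four type: the normalisers of the Sylow subgroups for the primes 23, 29, 31, 37, 43.
-/
import Cfsg.Agent.Spor.J4T5
import Cfsg.Agent.Transfer.Abelian

set_option autoImplicit false

namespace CL.J4.Big

open Cfsg Subgroup

variable {G : Type*} [Group G] [Finite G]

/-- The order of the automiser. -/
noncomputable abbrev aut (R : Subgroup G) : ℕ := (centralizer (R : Set G)).relIndex (normalizer (R : Set G))

theorem aut_dvd {R : Subgroup G} {r : ℕ} [hr : Fact r.Prime] (hR : Nat.card R = r) : aut R ∣ r - 1 := by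
  haveI := isCyclic_of_prime_card hR
  have := CL.Transfer.relIndex_centralizer_normalizer_dvd R
  rwa [IsCyclic.card_mulAut, hR, Nat.totient_prime hr.out] at this

theorem card_mul_aut (R : Subgroup G) : Nat.card (centralizer (R : Set G)) * aut R = Nat.card (normalizer (R : Set G)) :=
  CL.Grp.card_mul_relIndex (centralizer_le_normalizer _)

theorem card_syl {r m : ℕ} [hr : Fact r.Prime] (h : Nat.card G = r * m) (hm : ¬ r ∣ m) (P : Sylow r G) :
    Nat.card P = r := by
  rw [P.card_eq_multiplicity, h, Nat.factorization_mul_apply_of_coprime ((Nat.Prime.coprime_iff_not_dvd hr.out).2 hm),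
    hr.out.factorization_self, Nat.factorization_eq_zero_of_not_dvd hm, pow_one]

theorem div_mod {r : ℕ} [hr : Fact r.Prime] (P : Sylow r G) :
    Nat.card G / (Nat.card (centralizer ((P : Subgroup G) : Set G)) * aut (P : Subgroup G)) % r = 1 := by
  rw [card_mul_aut, ← card_mul_index (normalizer ((P : Subgroup G) : Set G)), Nat.mul_div_cancel_left _ Nat.card_pos,
    show (normalizer ((P : Subgroup G) : Set G)).index = _ from P.card_eq_index_normalizer.symm, card_sylow_modEq_one r G, Nat.mod_eq_of_lt hr.out.one_lt]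

theorem le_cent {R : Subgroup G} {r : ℕ} [Fact r.Prime] (hR : Nat.card R = r) : R ≤ centralizer (R : Set G) := by
  haveI := isCyclic_of_prime_card hR
  exact le_centralizer R

theorem aut_eq_inf {R S : Subgroup G} {s : ℕ} [Fact s.Prime] (hS : Fus.SylIn s S (centralizer (R : Set G)))
    (hc : (aut S).Coprime (Nat.card (centralizer (R : Set G)))) :
    aut R = (centralizer (R : Set G) ⊓ centralizer (S : Set G)).relIndex
      (normalizer (R : Set G) ⊓ normalizer (S : Set G)) := by
  have h0 : normalizer (R : Set G) ≤ normalizer (centralizer (R : Set G) : Set G) :=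
    (normal_subgroupOf_iff_le_normalizer (centralizer_le_normalizer _)).1 inferInstance
  have h1 : normalizer (R : Set G) = (normalizer (R : Set G) ⊓ normalizer (S : Set G)) ⊔ centralizer (R : Set G) :=
    le_antisymm (fun g hg => by
      obtain ⟨n, hn, h⟩ := hS.frattini' (h0 hg)
      rw [← mul_inv_cancel_right g n]
      exact mul_mem (mem_sup_left ⟨mul_mem hg (centralizer_le_normalizer _ hn), h⟩) (mem_sup_right (inv_mem hn)))
      (sup_le inf_le_left (centralizer_le_normalizer _))
  rw [aut, h1, CL.Grp.relIndex_sup_of_le_normalizer (inf_le_left.trans h0), ← h1, ← inf_relIndex_right,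
    ← inf_relIndex_right (centralizer (R : Set G) ⊓ centralizer (S : Set G))]
  congr 1
  refine le_antisymm (le_inf (le_inf inf_le_left fun x hx => ?_) inf_le_right) (inf_le_inf_right _ inf_le_left)
  exact CL.Transfer.mem_of_pow_mem_of_coprime (pow_index_mem ((centralizer (S : Set G)).subgroupOf (normalizer (S : Set G))) ⟨x, hx.2.2⟩)
    (hc.coprime_dvd_right (Subgroup.orderOf_dvd_natCard _ hx.1))

/-- The divisors of `23 * 29 * 31 * 37 * 43`. -/
def DL : List ℕ := [1, 23, 29, 31, 37, 43, 667, 713, 851, 899, 989, 1073, 1147, 1247, 1333, 1591, 20677, 24679, 26381,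
  28681, 30659, 33263, 36593, 38657, 46139, 49321, 765049, 889111, 1061197, 1134383, 1430309, 32897107]

theorem mem_DL {c : ℕ} (h : c ∣ 23 * (29 * (31 * (37 * 43)))) : c ∈ DL := by
  simp only [Nat.dvd_mul, Nat.dvd_prime (by norm_num : Nat.Prime 23), Nat.dvd_prime (by norm_num : Nat.Prime 29),
    Nat.dvd_prime (by norm_num : Nat.Prime 31), Nat.dvd_prime (by norm_num : Nat.Prime 37),
    Nat.dvd_prime (by norm_num : Nat.Prime 43)] at h
  obtain ⟨_, _, rfl | rfl, ⟨_, _, rfl | rfl, ⟨_, _, rfl | rfl, ⟨_, _, rfl | rfl, rfl | rfl, rfl⟩, rfl⟩, rfl⟩, rfl⟩ := h <;>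
    decide

/-- The arithmetical conditions on the orders of centraliser and automiser. -/
def Ok (r c d : ℕ) : Prop := r ∣ c ∧ d ∣ r - 1 ∧ 86775571046077562880 / (c * d) % r = 1 ∧ (r = 31 → 5 ∣ d)

instance (r c d : ℕ) : Decidable (Ok r c d) := by unfold Ok; infer_instance

theorem arith : ∀ e ∈ [(23, 22), (29, 28), (31, 10), (37, 12), (43, 14)], ∀ c ∈ DL, ∀ d < 43, Ok e.1 c d →
    (∀ s ∈ [23, 29, 31, 37, 43], s ≠ e.1 → s ∣ c → ∃ c' ∈ DL, e.1 ∣ c' ∧ Ok s c' d) → c = e.1 ∧ d = e.2 := by
  decide +kernel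

/-- The hypotheses. -/
structure Hyp (G : Type*) [Group G] : Prop where
  card : Nat.card G = 86775571046077562880
  small : ∀ p ∈ [2, 3, 5, 7, 11], ∀ x : G, orderOf x = p → ∀ r ∈ [23, 29, 31, 37, 43],
    ¬ r ∣ Nat.card (centralizer ({x} : Set G))
  sub : ∃ X : Subgroup G, Nat.card X = 1024 * 9999360

namespace Hyp

variable (h : Hyp G)
include h

theorem cent_dvd {R : Subgroup G} {r : ℕ} (hr : r ∈ [23, 29, 31, 37, 43]) (hR : Nat.card R = r) :
    Nat.card (centralizer (R : Set G)) ∣ 23 * (29 * (31 * (37 * 43))) := by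
  have h1 : ∀ p ∈ [2, 3, 5, 7, 11], (Nat.card (centralizer (R : Set G))).Coprime p := fun p hp => by
    haveI : Fact p.Prime := ⟨(by decide +kernel : ∀ p ∈ [2, 3, 5, 7, 11], Nat.Prime p) p hp⟩
    refine ((Nat.Prime.coprime_iff_not_dvd Fact.out).2 fun hd => ?_).symm
    obtain ⟨x, hx⟩ := exists_prime_orderOf_dvd_card' p hd
    exact h.small p hp x ((orderOf_coe x).trans hx) r hr
      (hR ▸ card_dvd_of_le fun y hy => mem_centralizer_singleton_iff.2 (x.2 y hy))
  refine Nat.Coprime.dvd_of_dvd_mul_left (m := 2 ^ 21 * 3 ^ 3 * 5 * 7 * 11 ^ 3) ?_ ?_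
  · simp only [Nat.coprime_mul_iff_right]
    exact ⟨⟨⟨⟨(h1 2 (by simp)).pow_right _, (h1 3 (by simp)).pow_right _⟩, h1 5 (by simp)⟩, h1 7 (by simp)⟩,
      (h1 11 (by simp)).pow_right _⟩
  · exact (card_subgroup_dvd_card _).trans (by rw [h.card]; norm_num)

theorem card_P {r : ℕ} [Fact r.Prime] (hr : r ∈ [23, 29, 31, 37, 43]) (P : Sylow r G) : Nat.card P = r :=
  have := (by decide +kernel : ∀ r ∈ [23, 29, 31, 37, 43], 86775571046077562880 = r * (86775571046077562880 / r) ∧
    ¬ r ∣ 86775571046077562880 / r) r hr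
  card_syl (h.card.trans this.1) this.2 P

theorem five [Fact (Nat.Prime 31)] (P : Sylow 31 G) : 5 ∣ aut (P : Subgroup G) := by
  obtain ⟨X, hX⟩ := h.sub
  obtain ⟨Q⟩ : Nonempty (Sylow 31 X) := inferInstance
  have h1 := card_syl (m := 330301440) (hX.trans (by norm_num)) (by norm_num) Q
  have h2 : Nat.card ((Q : Subgroup X).map X.subtype) = 31 := by rw [card_map_of_injective X.subtype_injective, h1]
  have h3 : Nat.card (centralizer ((Q : Subgroup X) : Set X)) ∣ 31 := by
    have a1 := card_dvd_of_le (map_centralizer_le_centralizer_image ((Q : Subgroup X) : Set X) X.subtype)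
    rw [card_map_of_injective X.subtype_injective, ← coe_map] at a1
    have a2 := card_subgroup_dvd_card (centralizer ((Q : Subgroup X) : Set X))
    rw [hX] at a2
    exact (Nat.dvd_gcd (a1.trans (h.cent_dvd (r := 31) (by simp) h2)) a2).trans (by norm_num)
  have h4 := div_mod Q
  rw [Nat.dvd_antisymm h3 (h1.symm.dvd.trans (card_dvd_of_le (le_cent h1))), hX] at h4
  have h8 : aut (Q : Subgroup X) ∣ 30 := aut_dvd h1
  have h5 := (by decide +kernel : ∀ d ≤ 30, d ∣ 30 → 1024 * 9999360 / (31 * d) % 31 = 1 → d = 5) _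
    (Nat.le_of_dvd (by norm_num) h8) h8 h4
  obtain ⟨P', hP⟩ := (IsPGroup.of_card (n := 1) (h2.trans (pow_one 31).symm)).exists_le_sylow
  have h6 := card_dvd_of_le (le_normalizer_map (H := (Q : Subgroup X)) X.subtype)
  rw [card_map_of_injective X.subtype_injective, ← card_mul_aut, h5,
    eq_of_le_of_card_ge hP (by rw [h2, h.card_P (by simp) P'])] at h6
  have h7 : Nat.card (normalizer ((P' : Subgroup G) : Set G)) = Nat.card (normalizer ((P : Subgroup G) : Set G)) := by
    apply Nat.eq_of_mul_eq_mul_right (Nat.card_pos (α := Sylow 31 G))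
    conv_lhs => rw [P'.card_eq_index_normalizer]
    rw [P.card_eq_index_normalizer]
    exact (card_mul_index _).trans (card_mul_index _).symm
  rw [h7, ← card_mul_aut] at h6
  exact (Nat.Coprime.coprime_dvd_right (h.cent_dvd (by simp) (h.card_P (by simp) P)) (by norm_num)).dvd_of_dvd_mul_left
    ((Dvd.intro_left _ rfl).trans h6)

theorem ok {r : ℕ} [Fact r.Prime] (hr : r ∈ [23, 29, 31, 37, 43]) (P : Sylow r G) :
    Ok r (Nat.card (centralizer ((P : Subgroup G) : Set G))) (aut (P : Subgroup G)) :=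
  ⟨(h.card_P hr P).symm.dvd.trans (card_dvd_of_le (le_cent (h.card_P hr P))), aut_dvd (h.card_P hr P),
    h.card ▸ div_mod P, by rintro rfl; exact h.five P⟩

theorem main {e : ℕ × ℕ} (he : e ∈ [(23, 22), (29, 28), (31, 10), (37, 12), (43, 14)]) (P : Sylow e.1 G) :
    centralizer ((P : Subgroup G) : Set G) = P ∧ Nat.card (normalizer ((P : Subgroup G) : Set G)) = e.1 * e.2 := by
  have hp : ∀ p ∈ [23, 29, 31, 37, 43], Nat.Prime p := by decide +kernel
  have hc : ∀ p ∈ [23, 29, 31, 37, 43], p - 1 < 43 ∧ (p - 1).Coprime (23 * (29 * (31 * (37 * 43)))) := by decide +kernel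
  have hr : e.1 ∈ [23, 29, 31, 37, 43] := (by decide : ∀ e ∈ [(23, 22), (29, 28), (31, 10), (37, 12), (43, 14)],
    e.1 ∈ [23, 29, 31, 37, 43]) e he
  haveI := Fact.mk (hp _ hr)
  have h1 := h.card_P hr P
  obtain ⟨h2, h3⟩ := arith e he _ (mem_DL (h.cent_dvd hr h1)) _
    ((Nat.le_of_dvd (by have := (hp _ hr).two_le; omega) (aut_dvd h1)).trans_lt (hc _ hr).1) (h.ok hr P)
    fun s hs _ hd => by
      haveI := Fact.mk (hp _ hs)
      obtain ⟨x, hx⟩ := exists_prime_orderOf_dvd_card' s hd
      have h4 : Nat.card (zpowers (x : G)) = s := by rw [Nat.card_zpowers, orderOf_coe, hx]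
      obtain ⟨S, hS⟩ := (IsPGroup.of_card (n := 1) (h4.trans (pow_one s).symm)).exists_le_sylow
      have h5 := h.card_P hs S
      have h6 : (S : Subgroup G) ≤ centralizer ((P : Subgroup G) : Set G) :=
        eq_of_le_of_card_ge hS (by rw [h4, h5]) ▸ zpowers_le.2 x.2
      have h7 := le_centralizer_iff.1 h6
      refine ⟨_, mem_DL (h.cent_dvd hs h5), h1.symm.dvd.trans (card_dvd_of_le h7), ?_⟩
      rw [aut_eq_inf (Fus.sylIn_of_sylow_le S h6) (((hc _ hs).2.coprime_dvd_left (aut_dvd h5)).coprime_dvd_right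
        (h.cent_dvd hr h1)), inf_comm, inf_comm (normalizer _), ← aut_eq_inf (Fus.sylIn_of_sylow_le P h7)
        (((hc _ hr).2.coprime_dvd_left (aut_dvd h1)).coprime_dvd_right (h.cent_dvd hs h5))]
      exact h.ok hs S
  exact ⟨(eq_of_le_of_card_ge (le_cent h1) (by rw [h1, h2])).symm, by rw [← card_mul_aut, h2, h3]⟩

end Hyp

end CL.J4.Big
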