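/-
Groups of Janko-four type: the centralisers of elements of order at most eleven have orders prime to the large primes.
-/
import Cfsg.Agent.Spor.J4T6
import Cfsg.Agent.Spor.J4Three2
import Cfsg.Agent.Spor.J4F5
import Cfsg.Agent.Spor.J4S7
import Cfsg.Agent.Spor.J4E3
import Cfsg.Agent.Spor.J4Ord

set_option autoImplicit false

namespace CL.J4.Big

open Cfsg Subgroup

variable {G : Type*} [Group G] [Finite G]

theorem card_cent_of_isConj {x y : G} (h : IsConj x y) :
    Nat.card (centralizer ({y} : Set G)) = Nat.card (centralizer ({x} : Set G)) := by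
  obtain ⟨c, rfl⟩ := isConj_iff.1 h
  exact CL.Spor.card_centralizer_conj c x

theorem hyp (M : JM G) : Hyp G := by
  refine ⟨M.card_G, fun p hp x hx r hr hd => ?_, ⟨_, Ten.card_normalizer_A0 M⟩⟩
  have key : ∀ n ∈ [21799895040, 1816657920, 6720, 840, 31944, 242],
      ¬ Nat.card (centralizer ({x} : Set G)) ∣ n := fun n hn h =>
    (by decide +kernel : ∀ r ∈ [23, 29, 31, 37, 43], ∀ n ∈ [21799895040, 1816657920, 6720, 840, 31944, 242], ¬ r ∣ n)
      r hr n hn (hd.trans h)
  have hz : ∀ k, orderOf x = k → Nat.card (zpowers x) = k := fun k h => (Nat.card_zpowers x).trans h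
  simp only [List.mem_cons, List.not_mem_nil, or_false] at hp
  rcases hp with rfl | rfl | rfl | rfl | rfl
  · rcases M.two x hx with h | h
    · exact key _ (by simp) ((card_cent_of_isConj h).trans M.card_H).dvd
    · exact key _ (by simp) ((card_cent_of_isConj h).trans M.card_T).dvd
  · exact key _ (by simp) ((card_cent_of_isConj (M.isConj_p hx).symm).dvd.trans
      ((card_dvd_of_le M.cent_p).trans M.card_H.dvd))
  · exact key _ (by simp) (centralizer_zpowers x ▸ (M.toNM.five _ (hz _ hx)).2.2.2.2).dvd
  · obtain ⟨-, -, h1, h2⟩ := M.toNM.seven _ (hz _ hx)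
    rw [centralizer_zpowers] at h1
    exact key 840 (by simp) (Dvd.intro 1 (by omega))
  · rcases El.card_cent_11 M M.cent_p hx with h | h <;> exact key _ (by simp) h.dvd

end CL.J4.Big
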