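/-
Groups of Janko-four type: the normaliser of a subgroup of order 23 and the subgroup `PGL(2,23)`.
-/
import Cfsg.Agent.Spor.J4PGL1
import Cfsg.Agent.Spor.J4Ord
import Cfsg.Agent.Rec.Gen
import Cfsg.Agent.Odd.BG4a

set_option autoImplicit false
set_option linter.unusedSectionVars false

namespace CL.J4.PGL

open Cfsg CL.Spor Subgroup MulAction CL.J4.Ten

variable {G : Type*} [Group G] [Finite G] (M : JM G)

/-- The element of order 23. -/
noncomputable abbrev xx : G := M.μ x0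

/-- The element of order 11. -/
noncomputable abbrev yy : G := M.μ (m24 y0)

/-- The normaliser of the subgroup of order 23. -/
noncomputable abbrev LL : Subgroup G := normalizer (zpowers (xx M) : Set G)

theorem orderOf_xx : orderOf (xx M) = 23 := (orderOf_injective M.μ M.μ_injective _).trans orderOf_r23

theorem orderOf_yy : orderOf (yy M) = 11 := (orderOf_injective M.μ M.μ_injective _).trans orderOf_y0

theorem zp_le_N : zpowers (xx M) ≤ M.N := zpowers_le.2 (M.μ_mem _)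

theorem zp_comm {u w : G} (hu : u ∈ zpowers (xx M)) (hw : w ∈ zpowers (xx M)) : u * w = w * u := by
  obtain ⟨i, rfl⟩ := hu
  obtain ⟨j, rfl⟩ := hw
  exact zpow_mul_comm _ _ _

theorem μ_mem_LL {h : M24} (hh : h ∈ B0) : M.μ h ∈ LL M := mem_normalizer_zpowers (by
  obtain ⟨k, hk⟩ := mem_zpowers_iff.1 ((mem_normalizer_iff.1 hh x0).1 (mem_zpowers _))
  rw [← map_inv, ← map_mul, ← map_mul, ← hk, map_zpow]
  exact zpow_mem (mem_zpowers _) k)

variable {M}

theorem conj_xx {g : G} (hg : g ∈ LL M) : g * xx M * g⁻¹ ∈ zpowers (xx M) :=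
  (mem_normalizer_iff.1 hg _).1 (mem_zpowers _)

theorem eq_one_of_V {u : G} (hu : u ∈ M.V) (h : xx M * u = u * xx M) : u = 1 := by
  obtain ⟨a, ha, rfl⟩ := (M.mem_V _).1 hu
  rw [fix_x0 ha ((pr_comm_iff (pr_μ M.toNM _) rep_r23 ha).1 h), M.v_zero]

theorem exists_μ {g : G} (hg : g ∈ M.N) (hL : g ∈ LL M) : ∃ h ∈ B0, g = M.μ h := by
  obtain ⟨h, hh⟩ := NM.exists_pr hg
  obtain ⟨k, hk⟩ := mem_zpowers_iff.1 (conj_xx hL)
  have h1 : h * x0 * h⁻¹ = x0 ^ k := pr_unique (pr_conj hh (pr_μ M.toNM x0)) (by rw [← hk, ← map_zpow]; exact pr_μ _ _)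
  refine ⟨h, mem_normalizer_zpowers (h1 ▸ zpow_mem (mem_zpowers _) k), ?_⟩
  have h2 : (M.μ h)⁻¹ * g ∈ M.V := by simpa [mul_assoc] using M.conj_mem_V h⁻¹ hh
  refine (inv_mul_eq_one.1 (eq_one_of_V h2 ?_)).symm
  have h3 : M.μ h * xx M * (M.μ h)⁻¹ = g * xx M * g⁻¹ := by
    rw [← hk, ← map_zpow, ← h1, map_mul, map_mul, map_inv]
  calc _ = (M.μ h)⁻¹ * (M.μ h * xx M * (M.μ h)⁻¹) * g := by group
    _ = _ := by rw [h3]; group

theorem mem_zp_of_comm {g : G} (hg : g ∈ M.N) (h : g * xx M = xx M * g) : g ∈ zpowers (xx M) := by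
  obtain ⟨k, -, rfl⟩ := exists_μ hg (mem_normalizer_zpowers (by rw [h, mul_inv_cancel_right]; exact mem_zpowers _))
  have h1 : k ∈ zpowers x0 := cent_x0 ▸ mem_centralizer_singleton_iff.2 (M.μ_injective (by rwa [map_mul, map_mul]))
  obtain ⟨i, rfl⟩ := h1
  exact ⟨i, (map_zpow _ _ _).symm⟩

theorem not_inverts {g : G} (hg : g ∈ M.N) : g * xx M * g⁻¹ ≠ (xx M)⁻¹ := fun e => by
  obtain ⟨k, hk, rfl⟩ := exists_μ hg (mem_normalizer_zpowers (e ▸ inv_mem (mem_zpowers _)))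
  exact not_inv hk (M.μ_injective (by rwa [map_mul, map_mul, map_inv, map_inv]))

theorem cent_ty {g : G} (ht : g * M.t = M.t * g) (hy : g * yy M = yy M * g) :
    g ∈ zpowers (yy M) ∨ M.t * g ∈ zpowers (yy M) := by
  obtain ⟨h, hh⟩ := NM.exists_pr (M.centT (mem_centralizer_singleton_iff.2 ht))
  have h1 : h ∈ zpowers (m24 y0) := cent_y0 ▸ mem_centralizer_singleton_iff.2
    (pr_unique (hh.mul (pr_μ M.toNM _)) (hy ▸ (pr_μ M.toNM _).mul hh))
  obtain ⟨i, rfl⟩ := h1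
  obtain ⟨a, ha, rfl⟩ := pr_eq hh
  have h2 : M.μ (m24 y0 ^ i) ∈ zpowers (yy M) := ⟨i, (map_zpow _ _ _).symm⟩
  have h3 : yy M * M.v a = M.v a * yy M := by
    rw [mul_assoc, ← map_mul, ← zpow_add_one, add_comm, zpow_one_add, map_mul, ← mul_assoc, ← mul_assoc] at hy
    exact (mul_right_cancel hy).symm
  rcases fix_y0 ha ((pr_comm_iff (pr_μ M.toNM _) rep_y0 ha).1 h3) with rfl | rfl
  · left; rwa [M.v_zero, one_mul]
  · right; rwa [← mul_assoc, NM.t, M.v_mul_self, one_mul]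

theorem irr {W : Subgroup G} (hW : W ≤ M.V) (hx : xx M ∈ normalizer (W : Set G)) : W = ⊥ ∨ W = M.V := by
  have h1 := card_modEq_inf_centralizer (by norm_num) (orderOf_xx M) hx
  rw [show W ⊓ centralizer {xx M} = ⊥ from eq_bot_iff.2 fun u hu =>
    eq_one_of_V (hW hu.1) (mem_centralizer_singleton_iff.1 hu.2).symm, card_bot] at h1
  obtain ⟨k, hk, e⟩ := (Nat.dvd_prime_pow (m := 11) Nat.prime_two).1 ((card_dvd_of_le hW).trans M.card_V.dvd)
  rw [e] at h1
  rcases (by revert h1; unfold Nat.ModEq; interval_cases k <;> norm_num : k = 0 ∨ k = 11) with rfl | rfl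
  · exact Or.inl (card_eq_one.1 e)
  · exact Or.inr (eq_of_le_of_card_ge hW (by rw [e, M.card_V]; rfl))

variable (M)

/-- The stabiliser of two conjugates of `V`. -/
abbrev XX (g : G) : Subgroup G := M.N ⊓ cj g M.N

/-- Its projection to `M24`. -/
noncomputable def θ (g : G) : XX M g →* M24 := (ρ M.toNM).comp (inclusion inf_le_left)

theorem mem_range {g : G} {h : M24} : h ∈ (θ M g).range ↔ ∃ u ∈ XX M g, M.Pr u h :=
  ⟨fun ⟨u, e⟩ => ⟨u, u.2, e ▸ pr_ρ M.toNM ⟨u, u.2.1⟩⟩, fun ⟨u, hu, e⟩ => ⟨⟨u, hu⟩, ρ_eq (g := ⟨u, hu.1⟩) e⟩⟩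

theorem card_XX (g : G) : 2898 ≤ Nat.card (XX M g) := by
  have h1 : ∀ K : Subgroup G, Nat.card K = 501397585920 → K.index = 173067389 := fun K hK => by
    have := K.index_mul_card
    rw [hK, M.card_G] at this
    omega
  have h2 : (XX M g).index ≤ _ := index_inf_le
  have h3 := (XX M g).index_mul_card
  rw [h1 _ M.card_N, h1 _ ((card_cj _ _).trans M.card_N)] at h2
  rw [M.card_G] at h3
  by_contra! hc
  have := Nat.mul_le_mul h2 (Nat.le_of_lt_succ hc)
  omega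

variable {M}

theorem xx_mem {g : G} (hg : g ∈ LL M) : xx M ∈ XX M g :=
  ⟨M.μ_mem _, mem_cj.2 (zp_le_N M (by simpa using conj_xx (inv_mem hg)))⟩

theorem XX_inf {g : G} (hg : g ∈ LL M) (hN : g ∉ M.N) : XX M g ⊓ M.V = ⊥ := by
  refine (irr inf_le_right (inf_normalizer_le_normalizer_inf ⟨le_normalizer (xx_mem hg), M.μ_mem _⟩)).resolve_right
    fun h => hN ?_
  refine (inv_mem_iff (x := g)).1 (mem_normalizer_iff_cj.2 (M.uniqN _ (M.cj_elem _) (M.card_cj_V _) fun u hu => ?_))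
  have h1 : g⁻¹⁻¹ * u * g⁻¹ ∈ XX M g ⊓ M.V := h.symm ▸ mem_cj.1 hu
  simpa [mul_assoc] using mem_cj.1 h1.1.2

theorem eq_of_pr {g u w : G} (hg : g ∈ LL M) (hN : g ∉ M.N) (hu : u ∈ XX M g) (hw : w ∈ XX M g) {h : M24}
    (h1 : M.Pr u h) (h2 : M.Pr w h) : u = w :=
  mul_inv_eq_one.1 (mem_bot.1 (XX_inf hg hN ▸ mem_inf.2 ⟨mul_mem hu (inv_mem hw),
    (h1.mul (pr_inv h2)).mem_iff.2 (mul_inv_cancel h)⟩))

theorem θ_inj {g : G} (hg : g ∈ LL M) (hN : g ∉ M.N) : Function.Injective (θ M g) := fun u w e =>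
  Subtype.ext (eq_of_pr hg hN u.2 w.2 (pr_ρ M.toNM ⟨u, u.2.1⟩) (by
    have := pr_ρ M.toNM ⟨w, w.2.1⟩
    exact (show ρ M.toNM ⟨w, w.2.1⟩ = ρ M.toNM ⟨u, u.2.1⟩ from e.symm) ▸ this))

theorem card_range {g : G} (hg : g ∈ LL M) (hN : g ∉ M.N) : Nat.card (θ M g).range = Nat.card (XX M g) :=
  (Nat.card_congr (MonoidHom.ofInjective (θ_inj hg hN)).toEquiv).symm

theorem B0_le {g : G} (hg : g ∈ LL M) (hN : g ∉ M.N) : B0 ≤ (θ M g).range :=
  le_of_mem ((mem_range M).2 ⟨_, xx_mem hg, pr_μ _ _⟩) (by have := card_XX M g; rw [card_range hg hN]; omega)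

theorem conj_yy {g : G} (hg : g ∈ LL M) : g⁻¹ * yy M * g ∈ M.N := by
  by_cases hN : g ∈ M.N
  · exact mul_mem (mul_mem (inv_mem hN) (M.μ_mem _)) hN
  obtain ⟨u, hu, h1⟩ := (mem_range M).1 (B0_le hg hN y0_mem)
  obtain ⟨k, hk⟩ := mem_zpowers_iff.1 ((mem_normalizer_iff.1 y0_mem x0).1 (mem_zpowers _))
  have h2 : u * xx M * u⁻¹ = xx M ^ k := eq_of_pr hg hN (mul_mem (mul_mem hu (xx_mem hg)) (inv_mem hu))
    (zpow_mem (xx_mem hg) k) (pr_conj h1 (pr_μ _ _)) (by rw [← hk, ← map_zpow]; exact pr_μ _ _)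
  obtain ⟨h, -, rfl⟩ := exists_μ hu.1 (mem_normalizer_zpowers (h2 ▸ zpow_mem (mem_zpowers _) k))
  obtain rfl := pr_unique (pr_μ _ _) h1
  exact mem_cj.1 hu.2

theorem comm_xx {c : G} (hc : c ∈ LL M) {p : ℕ} (hp : p.Prime) (ho : orderOf c = p) (h : ¬ p ∣ 22) :
    c * xx M = xx M * c := by
  have h1 := card_modEq_inf_centralizer hp ho hc
  have h2 : Nat.card (zpowers (xx M)) = 23 := by rw [Nat.card_zpowers, orderOf_xx]
  rcases (Nat.dvd_prime (by norm_num)).1 (h2 ▸ card_dvd_of_le (inf_le_left (b := centralizer {c}))) with e | e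
  · rw [h2, e] at h1
    exact absurd ((Nat.modEq_iff_dvd' (by norm_num)).1 h1.symm) h
  · have h3 : xx M ∈ zpowers (xx M) ⊓ centralizer {c} :=
      (eq_of_le_of_card_ge inf_le_left (by rw [h2, e])).symm ▸ mem_zpowers _
    exact (mem_centralizer_singleton_iff.1 h3.2).symm

theorem comm_yy {c : G} (hc : c ∈ LL M) {p : ℕ} (ho : orderOf c = p) (h : p.Coprime 23)
    (hx : c * xx M = xx M * c) : c * yy M = yy M * c := by
  have hz : ∀ u ∈ zpowers (xx M), Commute c u := by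
    rintro _ ⟨i, rfl⟩
    exact Commute.zpow_right hx i
  have h1 : c⁻¹ * yy M * c * (yy M)⁻¹ ∈ zpowers (xx M) :=
    mem_zp_of_comm (mul_mem (conj_yy hc) (inv_mem (M.μ_mem _))) (by
      have h2 := (hz _ (conj_xx (inv_mem (μ_mem_LL M y0_mem)))).eq
      calc _ = c⁻¹ * yy M * (c * ((yy M)⁻¹ * xx M * (yy M)⁻¹⁻¹)) * (yy M)⁻¹ := by group
        _ = c⁻¹ * xx M * yy M * c * (yy M)⁻¹ := by rw [h2]; group
        _ = _ := by rw [(show Commute c (xx M) from hx).inv_left.eq]; group)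
  obtain ⟨u, hu, e⟩ : ∃ u ∈ zpowers (xx M), c⁻¹ * yy M * c = u * yy M := ⟨_, h1, by group⟩
  have h2 : ∀ n : ℕ, (c ^ n)⁻¹ * yy M * c ^ n = u ^ n * yy M := fun n => by
    induction n with
    | zero => simp
    | succ n ih =>
      calc _ = c⁻¹ * ((c ^ n)⁻¹ * yy M * c ^ n) * c := by group
        _ = u ^ n * (c⁻¹ * yy M * c) := by
          rw [ih, ← mul_assoc, ((hz u hu).inv_left.pow_right n).eq]; group
        _ = _ := by rw [e]; group
  have h3 := h2 p
  rw [← ho, pow_orderOf_eq_one, inv_one, one_mul, mul_one, right_eq_mul, ho] at h3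
  have h4 : orderOf u = 1 := Nat.eq_one_of_dvd_coprimes h (orderOf_dvd_of_pow_eq_one h3)
    (orderOf_xx M ▸ orderOf_dvd_of_mem_zpowers hu)
  rw [orderOf_eq_one_iff.1 h4, one_mul, mul_assoc, inv_mul_eq_iff_eq_mul] at e
  exact e.symm

theorem t_inverts {c : G} {p : ℕ} (ho : orderOf c = p) (h2 : p.Coprime 2) (h11 : p.Coprime 11)
    (hy : c * yy M = yy M * c) : M.t * c * M.t⁻¹ = c⁻¹ := by
  have htt : M.t * M.t = 1 := M.v_mul_self _
  have hty : M.t * yy M = yy M * M.t :=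
    ((pr_comm_iff (pr_μ M.toNM _) rep_y0 (by norm_num)).2 (by decide +kernel)).symm
  have hz : ∀ {u : G}, u ∈ zpowers (yy M) → u ^ 11 = 1 := fun hu =>
    orderOf_dvd_iff_pow_eq_one.1 (orderOf_yy M ▸ orderOf_dvd_of_mem_zpowers hu)
  have hzt : ∀ u, u ∈ zpowers M.t ↔ u = 1 ∨ u = M.t := fun u => by
    refine ⟨fun h => ?_, fun h => h.elim (fun h => h ▸ one_mem _) fun h => h ▸ mem_zpowers _⟩
    obtain ⟨n, rfl⟩ := mem_powers_iff_mem_zpowers.2 h
    show M.t ^ n = 1 ∨ M.t ^ n = M.t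
    rw [pow_eq_pow_mod n (show M.t ^ 2 = 1 by rw [pow_two, htt])]
    rcases Nat.mod_two_eq_zero_or_one n with e | e <;> simp [e]
  obtain ⟨R, hR, h3, h4, h5, -⟩ := Rec.exists_compl (p := 2) (D := centralizer {yy M}) (V := zpowers M.t)
    (zpowers_le.2 (mem_centralizer_singleton_iff.2 hty))
    (IsPGroup.of_card (n := 1) (by rw [Nat.card_zpowers, M.orderOf_t]; rfl))
    (fun n _ hn => by
      rw [centralizer_zpowers_eq, mem_centralizer_singleton_iff]
      rcases (hzt _).1 ((mem_normalizer_iff.1 hn _).1 (mem_zpowers _)) with e | e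
      · rw [conj_eq_one_iff.1 e]; simp
      · exact mul_inv_eq_iff_eq_mul.1 e)
    (fun n hn hc k hk => by
      rw [centralizer_zpowers_eq, mem_centralizer_singleton_iff] at hc
      have key : ∀ u ∈ zpowers (yy M), u ^ 2 ^ k = 1 → u = 1 := fun u hu e => orderOf_eq_one_iff.1
        (Nat.eq_one_of_dvd_coprimes (Nat.Coprime.pow_left k (by norm_num)) (orderOf_dvd_of_pow_eq_one e)
          (orderOf_dvd_of_pow_eq_one (hz hu)))
      rcases cent_ty hc (mem_centralizer_singleton_iff.1 hn) with h | h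
      · rw [key n h hk]; exact one_mem _
      · have h1 := key ((M.t * n) ^ 2) (pow_mem h 2) (by
          rw [(show Commute M.t n from hc.symm).mul_pow, pow_two M.t, htt, one_mul, ← pow_mul, mul_comm, pow_mul, hk,
            one_pow])
        rw [← inv_eq_of_mul_eq_one_right (Rec.eq_one_of_odd (by decide) (hz h) (by rw [← pow_two, h1]))]
        exact inv_mem (mem_zpowers _))
  have hodd : Odd (Nat.card R) := Nat.coprime_two_right.1 h3
  obtain ⟨a, ha, i, -, e, h6, h7⟩ := Rec.exists_split hodd htt (h4 _ (mem_centralizer_singleton_iff.2 hty))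
    (h5 c (mem_centralizer_singleton_iff.2 hy) (ho ▸ h2))
  have h8 : a ∈ zpowers (yy M) := (cent_ty (mul_inv_eq_iff_eq_mul.1 h6).symm
    (mem_centralizer_singleton_iff.1 (hR ha))).resolve_right fun h => by
      have h9 := hz h
      rw [(show Commute M.t a from mul_inv_eq_iff_eq_mul.1 h6).mul_pow] at h9
      have h10 : M.t ^ 11 ∈ R := by rw [eq_inv_of_mul_eq_one_left h9]; exact inv_mem (pow_mem ha _)
      have h11 := orderOf_dvd_card_of_mem h10
      rw [pow_eq_pow_mod 11 (show M.t ^ 2 = 1 by rw [pow_two, htt]), pow_one, M.orderOf_t] at h11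
      exact Nat.not_even_iff_odd.2 hodd (even_iff_two_dvd.2 h11)
  have hca : Commute c a := by
    obtain ⟨n, rfl⟩ := h8
    exact Commute.zpow_right hy n
  have h9 : M.t * c * M.t⁻¹ = c⁻¹ * (a * a) := by
    have hi : i = a⁻¹ * c := by rw [e]; group
    calc _ = M.t * a * M.t⁻¹ * (M.t * i * M.t⁻¹) := by rw [e]; group
      _ = a * c⁻¹ * a := by rw [h6, h7, hi]; group
      _ = _ := by rw [← hca.inv_left.eq, mul_assoc]
  have h10 : (a * a) ^ p = 1 := by
    have := congrArg (· ^ p) h9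
    simp only [conj_pow] at this
    rw [(hca.mul_right hca).inv_left.mul_pow, inv_pow, ← ho, pow_orderOf_eq_one] at this
    simpa [ho] using this.symm
  rw [h9, orderOf_eq_one_iff.1 (Nat.eq_one_of_dvd_coprimes h11 (orderOf_dvd_of_pow_eq_one h10)
    (orderOf_dvd_of_pow_eq_one (hz (mul_mem h8 h8)))), mul_one]

theorem prime_cases {p : ℕ} (hp : p.Prime) (h : p ∣ Nat.card (LL M)) : p = 2 ∨ p = 11 ∨ p = 23 := by
  by_contra! hc
  have := Fact.mk hp
  obtain ⟨⟨c, hL⟩, ho⟩ := exists_prime_orderOf_dvd_card' p h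
  rw [orderOf_mk] at ho
  have co : ∀ q : ℕ, q.Prime → p ≠ q → p.Coprime q := fun q hq e => (Nat.coprime_primes hp hq).2 e
  have hx := comm_xx hL hp ho (hp.coprime_iff_not_dvd.1
    ((co 2 Nat.prime_two hc.1).mul_right (co 11 (by norm_num) hc.2.1)))
  have ht := t_inverts ho (co 2 Nat.prime_two hc.1) (co 11 (by norm_num) hc.2.1)
    (comm_yy hL ho (co 23 (by norm_num) hc.2.2) hx)
  have htt : M.t * M.t = 1 := M.v_mul_self _
  have hn : xx M ∈ normalizer ((M.V ⊓ centralizer {c} : Subgroup G) : Set G) :=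
    inf_normalizer_le_normalizer_inf ⟨M.μ_mem _, le_normalizer (mem_centralizer_singleton_iff.2 hx.symm)⟩
  rcases irr inf_le_left hn with e | e
  · have h1 : M.t⁻¹ * (xx M * M.t * (xx M)⁻¹) ∈ M.V ⊓ centralizer {c} :=
      mem_inf.2 ⟨mul_mem (inv_mem M.t_mem_V) (M.conj_mem_V _ M.t_mem_V), mem_centralizer_singleton_iff.2 (by
        have h2 : (xx M)⁻¹ * c = c * (xx M)⁻¹ := (show Commute c (xx M) from hx).inv_right.eq.symm
        have h3 : xx M * c⁻¹ = c⁻¹ * xx M := (show Commute c (xx M) from hx).inv_left.eq.symm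
        calc _ = M.t⁻¹ * (xx M * (M.t * ((xx M)⁻¹ * c))) := by group
          _ = M.t⁻¹ * (xx M * (M.t * c * M.t⁻¹)) * M.t * (xx M)⁻¹ := by rw [h2]; group
          _ = M.t⁻¹ * (M.t * c * M.t⁻¹) * xx M * M.t * (xx M)⁻¹ := by rw [ht, h3]; group
          _ = _ := by group)⟩
    rw [e, mem_bot, inv_mul_eq_one, eq_mul_inv_iff_mul_eq] at h1
    have h2 := M.orderOf_t
    rw [eq_one_of_V M.t_mem_V h1.symm, orderOf_one] at h2
    cases h2
  · have h1 : M.t ∈ M.V ⊓ centralizer {c} := e.symm ▸ M.t_mem_V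
    rw [mem_centralizer_singleton_iff.1 h1.2, mul_inv_cancel_right] at ht
    have h2 : p ∣ 2 := ho ▸ orderOf_dvd_of_pow_eq_one (by rw [pow_two]; exact mul_eq_one_iff_eq_inv.2 ht)
    exact hc.1 ((Nat.prime_dvd_prime_iff_eq hp Nat.prime_two).1 h2)

variable (M)

theorem exists_invol : ∃ j ∈ LL M, orderOf j = 2 := by
  have h : 2 ∣ Nat.card (LL M) := by
    by_contra h2
    obtain ⟨k, h3, h4⟩ := exists_card_eq_mul_normalizer' (p := 23) (by norm_num) (orderOf_xx M)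
      (by rw [M.card_G]; norm_num) (H := ⊤) le_top
    obtain ⟨m, hm⟩ : 23 ∣ Nat.card (LL M) := orderOf_xx M ▸ orderOf_dvd_card_of_mem (le_normalizer (mem_zpowers _))
    rw [card_top, M.card_G, hm, mul_left_comm] at h4
    have h5 : k * m = 3772850915046850560 := by omega
    have h6 := Nat.eq_prime_pow_of_unique_prime_dvd (n := m) (p := 11) (by rintro rfl; omega) fun {d} hd h7 => by
      rcases prime_cases hd (hm ▸ h7.mul_left _) with rfl | rfl | rfl
      · exact absurd (hm ▸ h7.mul_left _) h2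
      · rfl
      · exact absurd (h5 ▸ h7.mul_left k) (by norm_num)
    generalize m.primeFactorsList.length = e at h6
    subst h6
    have h7 : e < 4 := by
      by_contra! hc
      exact absurd (h5 ▸ (pow_dvd_pow 11 hc).mul_left k) (by norm_num)
    interval_cases e <;> omega
  obtain ⟨⟨j, hj⟩, ho⟩ := exists_prime_orderOf_dvd_card' 2 h
  exact ⟨j, hj, by rwa [orderOf_mk] at ho⟩

variable {M}

theorem inverts {j : G} (hj : j ∈ LL M) (ho : orderOf j = 2) : j * xx M * j⁻¹ = (xx M)⁻¹ := by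
  by_contra hne
  have hjj : j * j = 1 := by rw [← pow_two, ← ho, pow_orderOf_eq_one]
  have h1 : xx M * (j * xx M * j⁻¹) ∈ zpowers (xx M) := mul_mem (mem_zpowers _) (conj_xx hj)
  have h2 : Commute j (xx M * (j * xx M * j⁻¹)) := by
    refine mul_inv_eq_iff_eq_mul.1 ?_
    rw [zp_comm M (mem_zpowers _) (conj_xx hj)]
    calc _ = j * j * xx M * (j * j)⁻¹ * (j * xx M * j⁻¹) := by group
      _ = _ := by rw [hjj, zp_comm M (conj_xx hj) (mem_zpowers _)]; group
  have := Fact.mk (show Nat.Prime 23 by norm_num)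
  obtain ⟨n, hn⟩ := mem_powers_of_prime_card (G := zpowers (xx M)) (by rw [Nat.card_zpowers, orderOf_xx])
    (g := ⟨_, h1⟩) (fun e => hne (eq_inv_of_mul_eq_one_right (congrArg Subtype.val e))) (g' := ⟨_, mem_zpowers _⟩)
  have h3 : (xx M * (j * xx M * j⁻¹)) ^ n = xx M := congrArg Subtype.val hn
  have h4 : 23 ∣ Nat.card (centralizer ({j} : Set G)) := orderOf_xx M ▸ orderOf_dvd_card_of_mem
    (mem_centralizer_singleton_iff.2 (h3 ▸ (h2.pow_right n).eq.symm))
  rcases M.two j ho with h | h <;> rw [← card_centralizer_eq_of_isConj h] at h4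
  · exact absurd (M.card_H ▸ h4) (by norm_num)
  · exact absurd (M.card_T ▸ h4) (by norm_num)

theorem exists_pgl (M : JM G) :
    ∃ K : Subgroup G, Nonempty (K ≃* GL (Fin 2) (ZMod 23) ⧸ center (GL (Fin 2) (ZMod 23))) := by
  obtain ⟨j, hj, ho⟩ := exists_invol M
  have hi := inverts hj ho
  have hN : j ∉ M.N := fun h => not_inverts h hi
  have hjj : j * j = 1 := by rw [← pow_two, ← ho, pow_orderOf_eq_one]
  have hn : j ∈ normalizer (XX M j : Set G) := by
    rw [mem_normalizer_iff_cj, cj_inf, cj_cj, hjj, cj_one, inf_comm]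
  have hc : Nat.card (XX M j) = 6072 := by
    have h1 := card_XX M j
    have h2 := card_range hj hN
    rcases card_cases (B0_le hj hN) with h | h | h
    · omega
    · omega
    obtain ⟨a, ha⟩ := Des.inner_of_card_out ((Des.card_out_congr (MonoidHom.ofInjective (θ_inj hj hN))).trans
      (card_out h)) ((XX M j).normalizerMonoidHom ⟨j, hn⟩)
    exact absurd ((congrArg Subtype.val (ha ⟨_, xx_mem hj⟩)).symm.trans hi) (not_inverts a.2.1)
  have hx : xx M ∈ XX M j ⊔ zpowers j := mem_sup_left (xx_mem hj)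
  have h1 : orderOf (⟨xx M, hx⟩ : (XX M j ⊔ zpowers j : Subgroup G)) = 23 := by rw [orderOf_mk, orderOf_xx]
  refine ⟨_, pgl_of_card ?_ h1 ?_⟩
  · rw [Odd.card_sup_zpowers (p := 2) hn (fun h => hN h.1) (by rw [pow_two, hjj]; exact one_mem _), hc]
  · rw [← h1, ← Nat.card_zpowers]
    congr 2
    refine le_antisymm (fun g hg => ?_) (zpowers_le.2 (mem_centralizer_singleton_iff.2 rfl))
    have h2 : (g : G) * xx M = xx M * g := congrArg Subtype.val (mem_centralizer_singleton_iff.1 hg)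
    obtain ⟨k, hk, i, e⟩ := (Odd.mem_sup_zpowers_of_normalizes hn).1 g.2
    have h3 : (g : G) ∈ M.N := by
      rw [zpow_eq_zpow_emod' i (show j ^ 2 = 1 by rw [pow_two, hjj])] at e
      rcases Int.emod_two_eq_zero_or_one i with h | h <;> rw [Nat.cast_ofNat, h] at e
      · rw [e, zpow_zero, mul_one]; exact hk.1
      · refine absurd ?_ (not_inverts (inv_mem hk.1))
        rw [e, zpow_one] at h2
        calc k⁻¹ * xx M * k⁻¹⁻¹ = k⁻¹ * (xx M * (k * j)) * j⁻¹ := by group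
          _ = _ := by rw [← h2, ← hi]; group
    obtain ⟨n, hn⟩ := mem_zp_of_comm h3 h2
    exact ⟨n, Subtype.ext (by simpa using hn)⟩

end CL.J4.PGL
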