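import Cfsg.Agent.Spor.J4K5

/-!
# The classes of a group of Janko-four type: the elements of `2`-power order and the total
-/

namespace CL.J4

open Cfsg CL.Spor Subgroup CL.Fgs MulAction
open CL.F24 (ap all2 all2_spec)
open CL.Mx (force force_eq)
open Ln J4.Ord

open Cn

variable {G : Type*} [Group G]

namespace NM

variable {M : NM G}

theorem rn_ok {X : ℕ × ℕ} (h : okN X = true) : M.RN X (M.elt X) := by
  rw [okN, Bool.and_eq_true, Nat.blt_eq] at h
  exact M.rn_m24 h.1 h.2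

theorem fe_spec {r : ℕ} {f : FE} (h : feOK r f = true) {u : G} (hu : M.RN (f.a, r) u) :
    ∃ e ∈ R2, ∃ g, M.RN e.2 (g * u * g⁻¹) := by
  simp only [feOK, Bool.and_eq_true, Bool.or_eq_true, anyL_iff, neq_iff, Nat.beq_eq, Nat.blt_eq] at h
  obtain ⟨⟨-, h1, e, he, h2⟩, h3⟩ := h
  have a1 := (rn_ok (M := M) h1).conj hu
  refine ⟨e, he, h2 ▸ ?_⟩
  rcases h3 with h3 | ⟨⟨⟨h3, h4⟩, h5, h6⟩, h7, h8, h9⟩
  · exact ⟨_, h3 ▸ a1⟩
  · obtain ⟨k, hk⟩ := M.exists_of_code h5 f.i (good_of_inD h6)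
    have a2 : M.RN f.Y (M.elt e.2) := by rw [h2]; exact (ordN_spec ((allL_iff _ _).1 R2_ok e he)).1
    have a3 := a2.mem_H h4
    rcases (hk.mul (a1.rh (a1.mem_H h3))).unique' ((a2.rh a3).mul hk) h7 with b | b
    · exact ⟨k * M.elt f.c, by
        rwa [show k * M.elt f.c * u * _ = k * (M.elt f.c * u * (M.elt f.c)⁻¹) * k⁻¹ by group, ← b, mul_inv_cancel_right]⟩
    · refine ⟨M.elt f.d * (k * M.elt f.c), h9 ▸ ?_⟩
      rw [show M.elt f.d * (k * M.elt f.c) * u * _ =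
          M.elt f.d * (k * (M.elt f.c * u * (M.elt f.c)⁻¹) * M.z * M.z⁻¹ * k⁻¹) * (M.elt f.d)⁻¹ by group, ← b,
        M.z_inv, mul_assoc _ k, M.mem_H.1 hk.mem, ← mul_assoc (M.elt e.2), mul_inv_cancel_right, M.mem_H.1 a3]
      exact (rn_ok h8).conj (M.rn_z.mul a2)

theorem pow_nrm {r a : ℕ} {x : M24} (hr : Rep r x) : ∀ n, (a < 2048 → nrm (vcols r) a n < 2048) ∧
    (a < 2048 → (M.v a * M.μ x) ^ n = M.v (nrm (vcols r) a n) * M.μ (x ^ n))
  | 0 => ⟨fun _ => by norm_num [nrm], fun _ => by simp [nrm, M.v_zero]⟩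
  | n + 1 => ⟨fun ha => xor_lt11 ha (vcols_lt _ _), fun ha => by
    rw [pow_succ', (pow_nrm hr n).2 ha, pow_succ', map_mul, show nrm (vcols r) a (n + 1) = a ^^^ ap _ (nrm (vcols r) a n) from rfl, M.v_xor,
      ← M.μ_v _ _ hr _ ((pow_nrm hr n).1 ha)]
    group⟩

theorem orbN_spec {r m n : ℕ} {mvs : List (ℕ × ℕ)} {fs : List FE} (h : orbN r m n mvs fs = true) {a k : ℕ} {u : G}
    (hu : M.RN (a, r) u) (h1 : u ^ k ∈ M.V) (h2 : ¬ orderOf u ∣ k) : ∃ e ∈ R2, ∃ g, M.RN e.2 (g * u * g⁻¹) := by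
  simp only [orbN, Bool.and_eq_true, forceL_eq, force_eq, mapG_eq, vcF_eq, allL_iff, Nat.beq_eq] at h
  obtain ⟨⟨h3, h4, h5⟩, h6⟩ := h
  have h7 := all2_spec h6 a hu.lt
  rw [Bool.or_eq_true, Nat.beq_eq] at h7
  rcases h7 with h7 | h7
  · obtain ⟨f, hf, h7⟩ := orL_spec h7
    have h8 : f.a < 2048 := by
      have := h5 f hf
      simp only [feOK, Bool.and_eq_true, Nat.blt_eq] at this
      exact this.1.1
    have h9 : ∀ b, b = f.a → b < 2048 ∧ IsConj (M.elt (b, r)) (M.elt (f.a, r)) := fun b e => by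
      rw [e]; exact ⟨h8, IsConj.refl _⟩
    obtain ⟨c, hc⟩ := isConj_iff.1 (reach_spec (R := fun b => b < 2048 ∧ IsConj (M.elt (b, r)) (M.elt (f.a, r)))
      (fun m hm b ⟨b1, b2⟩ => by
        obtain ⟨e, he, rfl⟩ := List.mem_map.1 hm
        have a1 := rn_ok (M := M) (h4 e he).1
        have a2 := (NM.RN.conj_μ a1.rep (M.rn_mk b1 hu.rep)).eq
        have a3 := M.μ_v _ _ hu.rep _ a1.lt
        dsimp only at a2 a3
        rw [ap_aff]
        refine ⟨xor_lt11 (xor_lt11 a1.lt (vcols_lt _ _)) (vcols_lt _ _),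
          IsConj.trans (isConj_iff.2 ⟨M.v e.1 * M.μ (m24 e.2), ?_⟩).symm b2⟩
        dsimp only [elt]
        rw [mul_inv_rev, mul_assoc (M.v e.1), mul_assoc (M.v e.1), ← mul_assoc _ _ (M.v e.1)⁻¹, a2, (h4 e he).2,
          Nat.xor_eq, Nat.xor_assoc, M.v_xor, M.v_xor, M.v_comm (ap _ e.1), ← a3, M.v_inv]
        group)
      n _ _ (fun b hb => h9 b (testBit_one_shift hb).symm) (fun b hb => h9 b (List.mem_singleton.1 hb)) a h7).2
    obtain ⟨e, he, g, hg⟩ := fe_spec (M := M) (h5 f hf) (M.rn_mk h8 hu.rep)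
    refine ⟨e, he, g * c, ?_⟩
    rw [show g * c * u * (g * c)⁻¹ = g * (c * u * c⁻¹) * g⁻¹ by group, hu.eq]
    exact hc ▸ hg
  · have a1 : orderOf (m24 r) = m := by
      have := (ordN_spec (M := M) h3).2
      rwa [elt, M.v_zero, one_mul, orderOf_injective _ M.μ_injective] at this
    have a2 := fun n => hu.eq ▸ (pow_nrm (M := M) hu.rep n).2 hu.lt
    refine (h2 (Dvd.dvd.trans (b := m) (orderOf_dvd_of_pow_eq_one ?_) (a1 ▸ orderOf_dvd_of_pow_eq_one ?_))).elim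
    · rw [a2, h7, ← a1, pow_orderOf_eq_one, M.v_zero, map_one, mul_one]
    · exact M.eq_one_of_mem_V (a2 k ▸ h1)

/-- Elements with the same power `z` and different images. -/
theorem ncH {X Y : ℕ × ℕ} (k : ℕ) (h : (neq (npow X k) (1441, pone) && neq (npow Y k) (1441, pone) &&
    (fun P Q => not (and (Nat.beq (pc24 (fixMask P)) (pc24 (fixMask Q)))
      (Nat.beq (pc24 (fixMask (pmul P P))) (pc24 (fixMask (pmul Q Q)))))) (hn X).P (hn Y).P) = true) :
    ∀ u w, M.RN X u → M.RN Y w → ∀ g ∈ (⊤ : Subgroup G), g * u * g⁻¹ ≠ w := fun u w hu hw g _ e => by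
  simp only [Bool.and_eq_true, Nat.beq_eq, Bool.not_eq_true', ← Bool.not_eq_true] at h
  have h1 := (hu.pow k).eq_of M.rn_z h.1.1
  have h2 := (hw.pow k).eq_of M.rn_z h.1.2
  have h3 := mem_H_of_conj h1 h2 e
  have h4 := mem_H_of_conj h1 h1 (mul_inv_cancel_right u u)
  have h5 := mem_H_of_conj h2 h2 (mul_inv_cancel_right w w)
  have h6 := (hu.rh h4).of_rep h4
  have h7 : Rep (hn Y).P (M.π ⟨g, h3⟩ * M.π ⟨u, h4⟩ * (M.π ⟨g, h3⟩)⁻¹) := by
    rw [← map_inv, ← map_mul, ← map_mul, show ⟨g, h3⟩ * ⟨u, h4⟩ * ⟨g, h3⟩⁻¹ = (⟨w, h5⟩ : M.H) from Subtype.ext e]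
    exact (hw.rh h5).of_rep h5
  have h8 := h7.mul h7
  rw [conj_mul] at h8
  exact h.2 ⟨by rw [← h7.card_fixSet_conj, h6.fixSet_eq, card_ofMask],
    by rw [← h8.card_fixSet_conj, (h6.mul h6).fixSet_eq, card_ofMask]⟩

end NM

namespace JM

variable [Finite G] (M : JM G)

theorem exists_conj_N {u : G} {k : ℕ} (h : orderOf u = 2 ^ (k + 1)) :
    ∃ g, g * u * g⁻¹ ∈ M.N ∧ (g * u * g⁻¹) ^ 2 ^ k ∈ M.V := by
  have h1 : orderOf (u ^ 2 ^ k) = 2 := by
    rw [orderOf_pow_of_dvd (by positivity) (h ▸ pow_dvd_pow 2 k.le_succ), h, pow_succ', Nat.mul_div_cancel _ (by positivity)]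
  rcases M.two _ h1 with e | e <;> obtain ⟨g, e⟩ := isConj_iff.1 e.symm <;> rw [← conj_pow] at e
  · obtain ⟨T, hT⟩ := Fus.exists_sylIn 2 (M.H ⊓ M.N)
    obtain ⟨c, hc, h2⟩ := exists_conj_mem_sylIn Nat.prime_two ((M.sylIn_top hT).mono (hT.le.trans inf_le_left) le_top)
      (NM.mem_H_of_conj e e (mul_inv_cancel_right _ _)) ((Fgs.orderOf_conj' g u).trans h)
    refine ⟨c * g, ?_⟩
    rw [show c * g * u * (c * g)⁻¹ = c * (g * u * g⁻¹) * c⁻¹ by group]
    exact ⟨(hT.le h2).2, by rw [conj_pow, e, M.mem_H.1 hc, mul_inv_cancel_right]; exact M.toNM.z_mem_V⟩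
  · exact ⟨g, M.centT (mem_centralizer_singleton_iff.2 (e ▸ (Commute.self_pow _ _).eq)), e ▸ M.t_mem_V⟩

include M in
theorem kPi_two : kPi {2} G = 10 := by
  rw [← kPi_equiv _ topEquiv]
  refine NM.kPi_codes (M := M.toNM) (l := R2) R2_ok (fun e he => ⟨?_, fun _ _ => mem_top _⟩) ?_ fun y _ h => ?_
  · exact (isPiNum_singleton_pow Nat.prime_two 4).of_dvd ((by decide : ∀ e ∈ R2, e.1 ∣ 2 ^ 4) e he)
  · simp only [R2, List.pairwise_cons, List.forall_mem_cons, List.not_mem_nil, Nat.reduceEqDiff,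
      false_imp_iff, true_imp_iff, implies_true, true_and, and_true, List.Pairwise.nil, OfNat.one_ne_ofNat]
    exact ⟨ncW 1 (by decide +kernel), ⟨NM.ncH 2 (by decide +kernel), ncW 2 (by decide +kernel)⟩, ncW 2 (by decide +kernel),
      ⟨NM.ncH 4 (by decide +kernel), NM.ncH 4 (by decide +kernel)⟩, NM.ncH 4 (by decide +kernel)⟩
  · simp only [mem_top, true_and]
    obtain ⟨_ | k, hk⟩ := (isPiElt_singleton_iff Nat.prime_two).1 h
    · exact ⟨(1, 0, pone), by decide, 1, by simpa [orderOf_eq_one_iff.1 hk] using M.rn_one⟩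
    obtain ⟨g, h1, h2⟩ := M.exists_conj_N hk
    rw [← Fgs.orderOf_conj' g] at hk
    suffices ∃ e ∈ R2, ∃ c, M.RN e.2 (c * (g * y * g⁻¹) * c⁻¹) from
      this.imp fun e ⟨he, c, h⟩ => ⟨he, c * g, by simpa [mul_assoc] using h⟩
    generalize g * y * g⁻¹ = u at *
    obtain ⟨x, hx⟩ := NM.exists_pr h1
    have key : ∀ {r m n mvs fs c}, orbN r m n mvs fs = true → Rep r (c * x * c⁻¹) →
        ∃ e ∈ R2, ∃ c, M.RN e.2 (c * u * c⁻¹) := fun {r m n mvs fs c} h hr => by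
      obtain ⟨a, ha⟩ := Ten.pr_rn (Ten.pr_conj (Ten.pr_μ M.toNM c) hx) hr
      obtain ⟨e, he, d, hd⟩ := NM.orbN_spec h ha (k := 2 ^ k) (by rw [conj_pow]; exact M.conj_mem_V c h2) (by
        rw [Fgs.orderOf_conj', hk, Nat.pow_dvd_pow_iff_le_right one_lt_two]; omega)
      exact ⟨e, he, d * M.μ c, by simpa [mul_assoc] using hd⟩
    by_cases h3 : x = 1
    · have h4 : orderOf u = 2 := orderOf_eq_prime (by rw [pow_two, M.V_sq (hx.mem_iff.2 h3)]) fun e => by
        rw [e, orderOf_one, pow_succ] at hk; omega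
      rcases M.two u h4 with e | e <;> obtain ⟨c, e⟩ := isConj_iff.1 e.symm
      exacts [⟨(2, 1441, pone), by decide, c, e ▸ M.rn_z⟩, ⟨(2, 1141, pone), by decide, c, e ▸ M.rn_t⟩]
    by_cases h4 : x * x = 1
    · rcases class_two (orderOf_eq_prime ((pow_two x).trans h4) h3) with ⟨c, e⟩ | ⟨c, e⟩
      exacts [key orb2A (e ▸ rep_r2A), key orb2B (e ▸ rep_r2B)]
    obtain ⟨j, -, hj⟩ := (Nat.dvd_prime_pow Nat.prime_two).1 (orderOf_dvd_of_pow_eq_one
      ((Ten.pr_pow hx (2 ^ (k + 1))).mem_iff.1 (by rw [← hk, pow_orderOf_eq_one]; exact one_mem _)))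
    obtain ⟨c, r, hr, e⟩ := cover24 hj h4
    simp only [r24, List.mem_cons, List.not_mem_nil, or_false] at hr
    rcases hr with rfl | rfl | rfl | rfl
    exacts [key orb4B e, key orb8A e, key orb4A e, key orb4C e]

include M in
/-- The number of conjugacy classes. -/
theorem card_classes : Nat.card (ConjClasses G) = 62 := by
  have h : ∀ x : G, IsPiElt (((((((((Set.univ \ {43}) \ {37}) \ {31}) \ {29}) \ {23}) \ {11}) \ {7}) \ {5}) \ {3}) x ↔ IsPiElt {2} x :=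
    fun x => ⟨fun h q hq hd => by
      have h1 := h q hq hd
      have h2 := hd.trans (orderOf_dvd_natCard x)
      rw [M.card_G, show 86775571046077562880 = 2 ^ 21 * (3 ^ 3 * (5 * (7 * (11 ^ 3 * (23 * (29 * (31 * (37 * 43))))))))
        from rfl] at h2
      have h3 : ∀ p : ℕ, p.Prime → (q ∣ p ↔ q = p) := fun p hp => Nat.prime_dvd_prime_iff_eq hq hp
      simp only [hq.dvd_mul, hq.prime.dvd_pow_iff_dvd (by norm_num : 21 ≠ 0), hq.prime.dvd_pow_iff_dvd (by norm_num : 3 ≠ 0),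
        h3 2 (by norm_num), h3 3 (by norm_num), h3 5 (by norm_num), h3 7 (by norm_num), h3 11 (by norm_num),
        h3 23 (by norm_num), h3 29 (by norm_num), h3 31 (by norm_num), h3 37 (by norm_num), h3 43 (by norm_num)] at h2
      simp only [Set.mem_sdiff, Set.mem_singleton_iff] at h1 ⊢
      tauto, fun h => h.mono (by simp)⟩
  rw [← kPi_univ, step_big M (p := 43) (e := 14) (by simp) (by simp), step_big M (p := 37) (e := 12) (by simp) (by simp),
    step_big M (p := 31) (e := 10) (by simp) (by simp), step_big M (p := 29) (e := 28) (by simp) (by simp),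
    step_big M (p := 23) (e := 22) (by simp) (by simp), step_11 M (by simp) (by simp) (by simp),
    step_7 M (by simp) (by simp) (by simp) (by simp), step_5 M (by simp), M.kPi_J5 (by simp) (by simp) (by simp),
    step_3 M (by simp), kPi_congr h, kPi_congr (G := M.Cp) fun x => isPiElt_coe_iff.symm.trans ((h x).trans isPiElt_coe_iff),
    M.kPi_two, M.kPi_Cp]

end JM

end CL.J4
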