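/-
Maximal subgroups of a group of Janko-four type: the normaliser `2 ^ 10 : L₅(2)` is maximal.
-/
import Cfsg.Agent.Spor.J4X1

set_option autoImplicit false

namespace CL.J4X

open Cfsg Subgroup CL.J4 CL.Fus
open scoped commutatorElement

variable {G : Type*} [Group G] [Finite G]

theorem xa_fact {B : Type*} [Group B] [Finite B] [IsSimpleGroup B] {M : Subgroup B} (h : M ≠ ⊤) :
    Nat.card B ∣ (M.index).factorial := by
  have h1 : (MulAction.toPermHom B (B ⧸ M)).ker = ⊥ := normalCore_eq_ker M ▸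
    (M.normalCore_normal.eq_bot_or_eq_top).resolve_right fun e => h (top_le_iff.1 (e ▸ M.normalCore_le))
  have : Fintype (B ⧸ M) := Fintype.ofFinite _
  classical
  rw [index_eq_card, Nat.card_eq_fintype_card (α := B ⧸ M), ← Fintype.card_perm, ← Nat.card_eq_fintype_card]
  exact card_dvd_of_injective _ ((MonoidHom.ker_eq_bot_iff _).1 h1)

theorem xa_small {A B W : Subgroup G} [IsSimpleGroup B] (h31 : 31 ∣ Nat.card B) (hc : Nat.card A = 2 ^ 10)
    (hC : centralizer (A : Set G) = A) (h3 : B ⊔ A = normalizer (A : Set G))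
    (irr : ∀ V ≤ A, normalizer (A : Set G) ≤ normalizer (V : Set G) → V = ⊥ ∨ V = A) (h : normalizer (A : Set G) < W)
    (hi : (normalizer (A : Set G)).relIndex W ≤ 33) : False := by
  set X := normalizer (A : Set G) with hX
  have hB : B ≤ X := h3 ▸ le_sup_left
  have hA : A ≤ X := le_normalizer
  have cj : ∀ {H : Subgroup G} {g x : G}, g ∈ normalizer (H : Set G) → x ∈ H → g * x * g⁻¹ ∈ H :=
    conj_mem_of_mem_normalizer
  have nrm : ∀ {H K : Subgroup G}, (∀ g ∈ H, ∀ x ∈ K, g * x * g⁻¹ ∈ K) → H ≤ normalizer (K : Set G) :=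
    fun k g hg => mem_normalizer_of_finite (k g hg)
  by_cases hg : ∀ g ∈ W, A ≤ X.comap (MulAut.conj g).toMonoidHom
  · let N : Subgroup G := ⨅ g ∈ W, X.comap (MulAut.conj g).toMonoidHom
    have mN : ∀ {x}, x ∈ N ↔ ∀ g ∈ W, g * x * g⁻¹ ∈ X := by simp [N, mem_iInf]
    have nN : W ≤ normalizer (N : Set G) := nrm fun g hg x hx => mN.2 fun k hk => by
      simpa [mul_assoc] using mN.1 hx _ (mul_mem hk hg)
    have NX : N ≤ X := fun x hx => by simpa using mN.1 hx 1 (one_mem W)
    have AN : A ≤ N := fun x hx => mN.2 fun g k => hg g k hx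
    rcases (normal_subgroupOf_of_le_normalizer (hB.trans (h.le.trans nN))).eq_bot_or_eq_top with k | k
    · refine h.not_ge (hX ▸ (le_antisymm (fun x hx => ?_) AN : N = A) ▸ nN)
      obtain ⟨b, hb, a, ha, rfl⟩ := (mem_sup_of_le_normalizer hB).1 (h3.ge (NX hx))
      have : (⟨b, hb⟩ : B) = 1 := k.le ((mul_mem_cancel_right (AN ha)).1 hx : b ∈ N)
      rwa [show b = 1 from congrArg Subtype.val this, one_mul]
    · have nX : W ≤ normalizer (X : Set G) := le_antisymm NX (h3.ge.trans (sup_le (subgroupOf_eq_top.1 k) AN)) ▸ nN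
      refine h.not_ge fun g hg => ?_
      have n1 : X ≤ normalizer ((A.comap (MulAut.conj g).toMonoidHom : Subgroup G) : Set G) := nrm fun x hx a ha => by
        have := cj (cj (nX hg) hx) (show g * a * g⁻¹ ∈ A from ha)
        change g * (x * a * x⁻¹) * g⁻¹ ∈ A
        convert this using 1; group
      rcases irr (A ⊓ A.comap (MulAut.conj g).toMonoidHom) inf_le_left (nrm fun x hx a ha =>
        ⟨cj hx ha.1, cj (n1 hx) ha.2⟩) with e | e
      · refine inv_mem_iff.1 (mem_normalizer_of_finite fun a ha => hC.le fun b hb => ?_)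
        have a1 : g⁻¹ * a * g⁻¹⁻¹ ∈ A.comap (MulAut.conj g).toMonoidHom := by simpa [mul_assoc] using ha
        have a2 : g⁻¹ * a * g⁻¹⁻¹ ∈ X := cj (nX (inv_mem hg)) (hA ha)
        refine commutatorElement_eq_one_iff_mul_comm.1 (e.le ⟨?_, Subgroup.mul_mem _ (cj (n1 (hA hb)) a1) (Subgroup.inv_mem _ a1)⟩)
        rw [commutatorElement_def, mul_assoc b, mul_assoc b]
        exact mul_mem hb (cj a2 (A.inv_mem hb))
      · exact mem_normalizer_of_finite fun a ha => (e.ge ha).2
  · push Not at hg
    obtain ⟨g, hg, k⟩ := hg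
    have i1 : (X.comap (MulAut.conj g).toMonoidHom).relIndex W ≤ 33 := by
      rwa [relIndex_comap, show W.map (MulAut.conj g).toMonoidHom = W from
        mem_normalizer_iff_map_conj_eq.1 (le_normalizer hg)]
    generalize X.comap (MulAut.conj g).toMonoidHom = Y at *
    have i2 : ∀ H ≤ W, Y.relIndex H ≤ 33 := fun H hH => (relIndex_le_of_le_right hH index_ne_zero_of_finite).trans i1
    let M := normalizer ((A ⊓ Y : Subgroup G) : Set G) ⊓ X
    have AM : A ≤ M := le_inf (nrm fun a ha x hx => by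
      rwa [hC.ge hx.1 a ha |>.trans rfl, mul_assoc, mul_inv_cancel, mul_one]) hA
    have YM : Y ⊓ X ≤ M := le_inf (nrm fun y hy x hx => ⟨cj hy.2 hx.1, Y.mul_mem (Y.mul_mem hy.1 hx.2) (Y.inv_mem hy.1)⟩)
      inf_le_right
    have i3 := relIndex_mul_relIndex (Y ⊓ X) M X YM inf_le_right
    have i4 : (Y ⊓ X).relIndex M ≠ 1 := fun e => k fun a ha => (relIndex_eq_one.1 e (AM ha)).1
    have i5 : (Y ⊓ X).relIndex M ≠ 0 := index_ne_zero_of_finite
    have i6 : M.relIndex B ≤ 16 := (relIndex_le_of_le_right hB index_ne_zero_of_finite).trans (by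
      have := i2 X h.le
      rw [← inf_relIndex_right, ← i3] at this
      nlinarith [show 2 ≤ (Y ⊓ X).relIndex M by omega])
    have BM : B ≤ M := subgroupOf_eq_top.1 (by_contra fun e => absurd ((h31.trans (xa_fact e)).trans
      (Nat.factorial_dvd_factorial i6)) (by norm_num [Nat.factorial]))
    rcases irr _ inf_le_left ((h3.ge.trans (sup_le BM AM)).trans inf_le_left) with e | e
    · have := i2 A (hA.trans h.le)
      rw [← inf_relIndex_right, inf_comm, e, relIndex_bot_left, hc] at this
      omega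
    · exact k (e.ge.trans inf_le_right)

theorem thmA [IsSimpleGroup G] (J : JM G) (h29 : MaxP G 29) (h43 : MaxP G 43) {A W : Subgroup G}
    (hA : IsElementaryAbelian 2 A) (hc : Nat.card A = 2 ^ 10) (hC : centralizer (A : Set G) = A)
    (h : normalizer (A : Set G) < W) : W = ⊤ := by
  obtain ⟨⟨B, h1, h2, h3, ⟨e⟩⟩, irr⟩ := Ten.ten_split J A hA hc hC
  have cB : Nat.card B = 9999360 := by
    rw [Nat.card_congr e.toEquiv, SLn.card_SL]; simp [Finset.prod_range_succ]
  have : IsSimpleGroup (Matrix.SpecialLinearGroup (Fin 5) (ZMod 2)) := by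
    have : Nontrivial (Matrix.SpecialLinearGroup (Fin 5) (ZMod 2)) := Finite.one_lt_card_iff_nontrivial.1 (by
      rw [← Nat.card_congr e.toEquiv, cB]; norm_num)
    refine ⟨fun N hN => (SLn.normal_le_center_or_eq_top (Or.inl (by simp)) N).imp_left fun h => eq_bot_iff.2 fun x hx => ?_⟩
    obtain ⟨r, h1, h2⟩ := Matrix.SpecialLinearGroup.mem_center_iff.1 (h hx)
    rw [(by decide : ∀ r : ZMod 2, r ^ Fintype.card (Fin 5) = 1 → r = 1) r h1, map_one] at h2
    exact Subtype.ext h2.symm
  have : IsSimpleGroup B := e.isSimpleGroup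
  have cX : Nat.card (normalizer (A : Set G)) = 10239344640 := by
    rw [← h3, Grp.card_sup_of_inf_eq_bot h1 h2, cB, hc]; norm_num
  have key := xa_small (cB ▸ by norm_num) hc hC h3 irr h
  have i := Grp.card_mul_relIndex h.le
  have lt := card_lt_of_lt h
  rw [cX] at i lt
  rcases arA (card_dvd J W) (ok_card J W) (cX ▸ card_dvd_of_le h.le) with k | k | k | k | k | k | k
  · omega
  · exact eq_top J k
  · exact (key (by omega)).elim
  · exact (key (by omega)).elim
  · have i2 : W.index = 2 := by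
      have := card_mul_index W
      rw [J.card_G] at this
      refine Nat.eq_of_mul_eq_mul_left Nat.card_pos (this.trans k.symm)
    exact (normal_of_index_eq_two i2).eq_bot_or_eq_top.resolve_left fun e => by simp [e] at lt
  · exact top_of_full J (by decide) h29 k.1 k.2 (by omega)
  · exact top_of_full J (by decide) h43 k.1 k.2 (by omega)

end CL.J4X
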