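/-
Hyperovals in projective planes of order 4.
-/
import Cfsg.Agent.Spor.DesignUniq

set_option autoImplicit false
set_option linter.unusedSectionVars false

namespace CL.Spor.Des
open Cfsg Finset

variable {α β : Type*} [Fintype α] [DecidableEq α] [Fintype β] [DecidableEq β]

/-- No line meets `S` in more than two points. -/
def Indep (L : Set (Finset α)) (S : Finset α) : Prop := ∀ l ∈ L, (l ∩ S).card ≤ 2

theorem Indep.mono {L : Set (Finset α)} {S T : Finset α} (h : Indep L T) (hST : S ⊆ T) : Indep L S :=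
  fun l hl => (card_le_card (inter_subset_inter_left hST)).trans (h l hl)

theorem indep_sysMap (e : α ≃ β) {L : Set (Finset α)} {S : Finset α} :
    Indep (sysMap e L) (S.image e) ↔ Indep L S := by
  constructor
  · intro h l hl
    have := h _ (image_mem_sysMap.2 hl)
    rwa [← image_inter _ _ e.injective, card_image_equiv] at this
  · rintro h _ ⟨l, hl, rfl⟩
    rw [← image_inter _ _ e.injective, card_image_equiv]; exact h l hl

/-- The hyperovals of the standard plane. -/
def hyp21 : List ℕ := [590883, 1067043, 299043, 1081923, 198723, 536643, 328323, 1057923, 151683, 541443, 165123, 272643, 279077, 534565, 200741, 140357, 297029, 1069125, 164485, 541829, 1116293, 1057541, 328965, 561413, 557609, 148521, 1060905, 270921, 1115209, 542793, 296073, 141449, 594057, 197385, 1083657, 282889, 1114673, 271409, 165937, 148049, 558161, 331857, 533137, 280721, 1085585, 1066257, 592145, 143633, 6246, 82086, 786726, 1179846, 41286, 1926, 1313286, 53766, 76806, 660486, 1597446, 491526, 1572970,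 5290, 49450, 73930, 2890, 393610, 99850, 791050, 1182730, 30730, 1351690, 737290, 98418, 1310898, 3378, 4818, 655698, 24978, 1574418, 84498, 46098, 399378, 860178, 1228818, 24684, 655532, 4908, 3276, 1311052, 98700, 394764, 43532, 87052, 1579020, 1253388, 835596, 393332, 2740, 74036, 49364, 5460, 1573268, 26132, 1184276, 789524, 104468, 696340, 1392660, 1656, 41144, 1179960, 786648, 82264, 6552, 657944, 78360, 52248, 1315864, 417816, 1671192, 51808, 1315424, 658528, 78944, 827488, 1261664, 788128, 103072, 27808, 1185952, 1646752, 442528, 83744, 1575712, 398624, 47392, 1335584, 753952, 42688, 395968, 1578176, 88256, 680128, 1409216, 1181504, 29504, 101696, 792896, 467264, 1622336, 76672, 660352, 1314176, 54656, 1220992, 868736, 1385984, 706048, 813568, 1280512, 1618432, 479744, 437248, 1657856, 1209344, 889856, 735232, 1366016]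

/-- Independence test in the standard plane. -/
def indep21 (m : ℕ) : Bool := allL (fun l => Nat.ble (pc24 (Nat.land l m)) 2) p21b_std

theorem indep21_iff {m : ℕ} (hm : m < 2 ^ 21) : indep21 m = true ↔ Indep (sysOf 21 p21b_std) (fs 21 m) := by
  rw [indep21, allL_iff]
  constructor
  · rintro h _ ⟨l, hl, rfl⟩
    rw [← fs_and, card_fs (by norm_num) (Nat.and_lt_two_pow _ hm)]
    exact Nat.le_of_ble_eq_true (h l hl)
  · intro h l hl
    have := h _ ⟨l, hl, rfl⟩
    rw [← fs_and, card_fs (by norm_num) (Nat.and_lt_two_pow _ hm)] at this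
    exact Nat.ble_eq_true_of_le this

theorem hyp21_ok : ∀ m ∈ hyp21, m < 2 ^ 21 ∧ pc24 m = 6 ∧ indep21 m = true := by decide +kernel
theorem hyp21_nodup : hyp21.Nodup := by decide +kernel
theorem hyp21_length : hyp21.length = 168 := by decide +kernel

theorem hyp21_four : allSubL (fun S => or (not (indep21 S))
    (and (Nat.beq (Nat.land (Nat.lor (Nat.xor 2097151 (stFrb 3 p21b_std S)) S) S) S)
      (memL (Nat.lor (Nat.xor 2097151 (stFrb 3 p21b_std S)) S) hyp21))) (freeL 0 21) 4 0 = true := by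
  decide +kernel

theorem std_four {S : Finset (Fin 21)} (h4 : S.card = 4) (hS : Indep (sysOf 21 p21b_std) S) :
    ∃ m ∈ hyp21, S ⊆ fs 21 m ∧ ∀ H, Indep (sysOf 21 p21b_std) H → S ⊆ H → H ⊆ fs 21 m := by
  obtain ⟨s, hs, rfl⟩ := exists_fs S
  have key := allSubL_spec _ _ _ _ hyp21_four s (by simp)
    (fun i hi => Or.inr (mem_freeL.2 ⟨testBit_lt hs hi, by simp⟩))
    (by rw [countP_freeL, ← h4, card_fs_range]; simp)
  rw [(indep21_iff hs).2 hS] at key
  simp only [Bool.not_true, Bool.false_or, Bool.and_eq_true] at key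
  refine ⟨_, memL_iff.1 key.2, (fs_subset_iff hs).2 (Nat.eq_of_beq_eq_true key.1), fun H hH hSH i hi => ?_⟩
  show i ∈ fs 21 ((2097151 ^^^ stFrb 3 p21b_std s) ||| s)
  rw [fs_or, mem_union]
  by_cases his : i ∈ fs 21 s
  · exact Or.inr his
  refine Or.inl ?_
  rw [mem_fs, Nat.testBit_xor]
  have h1 : ∀ i : Fin 21, Nat.testBit 2097151 i = true := by decide +kernel
  rw [h1]
  cases h2 : (stFrb 3 p21b_std s).testBit i
  · rfl
  exfalso
  obtain ⟨b, hb, h3, h5⟩ := testBit_stFrb h2
  rw [← card_fs (by norm_num) (Nat.and_lt_two_pow _ hs), fs_and] at h3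
  have h6 := hH _ ⟨b, hb, rfl⟩
  have h7 : insert i (fs 21 b ∩ fs 21 s) ⊆ fs 21 b ∩ H :=
    insert_subset (mem_inter.2 ⟨mem_fs.2 h5, hi⟩) (inter_subset_inter_left hSH)
  have := card_le_card h7
  rw [card_insert_of_notMem fun h => his (mem_inter.1 h).2] at this
  omega

theorem std_hyp {m : ℕ} (hm : m ∈ hyp21) : (fs 21 m).card = 6 ∧ Indep (sysOf 21 p21b_std) (fs 21 m) := by
  obtain ⟨h1, h2, h3⟩ := hyp21_ok m hm
  exact ⟨by rw [card_fs (by norm_num) h1, h2], (indep21_iff h1).1 h3⟩

theorem exists_iso_std21 (hα : Fintype.card α = 21) {L : Set (Finset α)} (hL : IsSteinerSystem 2 5 L) :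
    ∃ e : α ≃ Fin 21, sysMap e L = sysOf 21 p21b_std := by
  obtain ⟨τ, -, h⟩ := iso_of_stCheck p21b_check hL (ok21 hα hL) (Fintype.equivFinOfCardEq hα)
  exact ⟨_, h⟩

theorem existsUnique_hyperoval (hα : Fintype.card α = 21) {L : Set (Finset α)}
    (hL : IsSteinerSystem 2 5 L) {S : Finset α} (h4 : S.card = 4) (hS : Indep L S) :
    ∃! H : Finset α, (H.card = 6 ∧ Indep L H) ∧ S ⊆ H := by
  obtain ⟨e, he⟩ := exists_iso_std21 hα hL
  obtain ⟨m, hm, h1, h2⟩ := std_four (S := S.image e) (by rw [card_image_equiv, h4])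
    (he ▸ (indep_sysMap e).2 hS)
  obtain ⟨h3, h5⟩ := std_hyp hm
  refine ⟨(fs 21 m).image e.symm, ⟨⟨by rw [card_image_equiv, h3], ?_⟩, (image_subset_iff_symm e).1 h1⟩, ?_⟩
  · rw [← indep_sysMap e, image_image_symm, he]; exact h5
  · rintro H ⟨⟨h6, h7⟩, h8⟩
    have := h2 (H.image e) (he ▸ (indep_sysMap e).2 h7) (image_subset_image h8)
    rw [← eq_of_subset_of_card_le this (by rw [card_image_equiv, h3, h6]), image_symm_image]

theorem ncard_hyperovals (hα : Fintype.card α = 21) {L : Set (Finset α)}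
    (hL : IsSteinerSystem 2 5 L) : {H : Finset α | H.card = 6 ∧ Indep L H}.ncard = 168 := by
  obtain ⟨e, he⟩ := exists_iso_std21 hα hL
  rw [← hyp21_length, ← ncard_sysOf hyp21_nodup (fun m hm => (hyp21_ok m hm).1),
    ← Set.ncard_image_of_injective _ (image_injective e.injective)]
  congr 1
  ext H
  constructor
  · rintro ⟨H, ⟨h6, hH⟩, rfl⟩
    obtain ⟨S, hS, h4⟩ := exists_subset_card_eq (s := H.image e) (n := 4) (by
      rw [card_image_equiv, h6]; norm_num)
    have hH' : Indep (sysOf 21 p21b_std) (H.image e) := he ▸ (indep_sysMap e).2 hH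
    obtain ⟨m, hm, -, h2⟩ := std_four h4 (hH'.mono hS)
    exact ⟨m, hm, (eq_of_subset_of_card_le (h2 _ hH' hS) (by
      rw [card_image_equiv, (std_hyp hm).1, h6])).symm⟩
  · rintro ⟨m, hm, rfl⟩
    refine ⟨(fs 21 m).image e.symm, ⟨by rw [card_image_equiv, (std_hyp hm).1], ?_⟩, image_image_symm e _⟩
    rw [← indep_sysMap e, image_image_symm, he]; exact (std_hyp hm).2

theorem ncard_quadrangles (hα : Fintype.card α = 21) {L : Set (Finset α)}
    (hL : IsSteinerSystem 2 5 L) : {S : Finset α | S.card = 4 ∧ Indep L S}.ncard = 2520 := by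
  classical
  set A : Finset (Finset α) := univ.filter fun H => H.card = 6 ∧ Indep L H with hA
  set Q : Finset (Finset α) := univ.filter fun H => H.card = 4 ∧ Indep L H with hQ
  have h1 : A.card = 168 := by
    rw [← ncard_hyperovals hα hL, ← Set.ncard_coe_finset]; congr 1; ext; simp [hA]
  have h2 : {S : Finset α | S.card = 4 ∧ Indep L S}.ncard = Q.card := by
    rw [← Set.ncard_coe_finset]; congr 1; ext; simp [hQ]
  have := Finset.card_mul_eq_card_mul (s := A) (t := Q) (fun H S => S ⊆ H) (m := 15) (n := 1) ?_ ?_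
  · omega
  · intro H hH
    have hH' : H.card = 6 ∧ Indep L H := by simpa [hA] using hH
    have : Q.bipartiteAbove (fun H S => S ⊆ H) H = powersetCard 4 H := by
      ext S
      simp only [hQ, mem_bipartiteAbove, mem_filter, mem_univ, true_and, mem_powersetCard]
      exact ⟨fun h => ⟨h.2, h.1.1⟩, fun h => ⟨⟨h.2, hH'.2.mono h.1⟩, h.1⟩⟩
    rw [this, card_powersetCard, hH'.1]; rfl
  · intro S hS
    have hS' : S.card = 4 ∧ Indep L S := by simpa [hQ] using hS
    obtain ⟨H, hH, hu⟩ := existsUnique_hyperoval hα hL hS'.1 hS'.2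
    rw [card_eq_one]
    refine ⟨H, ?_⟩
    ext H'
    simp only [hA, mem_bipartiteBelow, mem_filter, mem_univ, true_and, mem_singleton]
    exact ⟨fun h => hu H' h, fun h => h ▸ hH⟩

/-- A line through a point of a hyperoval holds a second point of it. -/
theorem hyperoval_secant (hα : Fintype.card α = 21) {L : Set (Finset α)} (hL : IsSteinerSystem 2 5 L)
    {H : Finset α} (h6 : H.card = 6) (hH : Indep L H) {p : α} (hp : p ∈ H) {l : Finset α} (hl : l ∈ L)
    (hpl : p ∈ l) : ∃ q ∈ H, q ≠ p ∧ q ∈ l := by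
  classical
  by_contra hn
  push Not at hn
  set T : Finset (Finset α) := univ.filter fun l => l ∈ L ∧ p ∈ l with hT
  have h5 : T.card = 5 := by
    have := cnt_small hL hα lamOK21 {p} (by simp)
    rw [card_singleton, cntIO] at this
    have e : blkIO L {p} ∅ = T := by ext; simp [hT, mem_blkIO]
    rw [e, Set.ncard_coe_finset, show lam21 1 = 5 from rfl] at this
    exact_mod_cast this
  have hsub : H.erase p ⊆ (T.erase l).biUnion fun m => m ∩ H.erase p := by
    intro q hq
    rw [mem_erase] at hq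
    obtain ⟨m, hm, hs⟩ := steiner_exists hL (s := {q, p}) (card_pair hq.1)
    rw [insert_subset_iff, singleton_subset_iff] at hs
    refine mem_biUnion.2 ⟨m, mem_erase.2 ⟨?_, by simp [hT, hm, hs.2]⟩, mem_inter.2 ⟨hs.1, mem_erase.2 hq⟩⟩
    rintro rfl; exact hn q hq.2 hq.1 hs.1
  have h1 := (card_le_card hsub).trans (card_biUnion_le_card_mul _ _ 1 (by
    intro m hm
    have hm' : m ∈ L ∧ p ∈ m := by simpa [hT] using (mem_erase.1 hm).2
    have := hH m hm'.1
    rw [inter_erase, card_erase_of_mem (mem_inter.2 ⟨hm'.2, hp⟩)]; omega))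
  rw [card_erase_of_mem hp, card_erase_of_mem (by simp [hT, hl, hpl]), h6, h5] at h1
  omega

/-- A collineation fixing every point of a hyperoval is trivial. -/
theorem eq_one_of_fix_hyperoval (hα : Fintype.card α = 21) {L : Set (Finset α)}
    (hL : IsSteinerSystem 2 5 L) {H : Finset α} (h6 : H.card = 6) (hH : Indep L H) {g : Equiv.Perm α}
    (hg : g ∈ setSystemAut L) (hfix : ∀ p ∈ H, g p = p) : g = 1 := by
  ext q
  show g q = q
  by_cases hq : q ∈ H
  · exact hfix q hq
  have key : ∀ p ∈ H, ∃ l ∈ L, p ∈ l ∧ q ∈ l ∧ g q ∈ l := by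
    intro p hp
    obtain ⟨l, hl, hs⟩ := steiner_exists hL (s := {p, q}) (card_pair fun e => hq (e ▸ hp))
    rw [insert_subset_iff, singleton_subset_iff] at hs
    obtain ⟨r, hr, hrp, hrl⟩ := hyperoval_secant hα hL h6 hH hp hl hs.1
    have : l.image g = l := steiner_eq_of_subset hL ((mem_aut_iff'.1 hg l).2 hl) hl (s := {r, p})
      (card_pair hrp).ge (by
        rw [insert_subset_iff, singleton_subset_iff]
        exact ⟨mem_image.2 ⟨r, hrl, hfix r hr⟩, mem_image.2 ⟨p, hs.1, hfix p hp⟩⟩)
      (by rw [insert_subset_iff, singleton_subset_iff]; exact ⟨hrl, hs.1⟩)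
    exact ⟨l, hl, hs.1, hs.2, this ▸ mem_image_of_mem g hs.2⟩
  obtain ⟨p, hp⟩ : H.Nonempty := card_pos.1 (by omega)
  obtain ⟨l, hl, h1, h2, h3⟩ := key p hp
  obtain ⟨r, hr, hrl⟩ : ∃ r ∈ H, r ∉ l := by
    by_contra hn
    push Not at hn
    have := hH l hl
    rw [inter_eq_right.2 hn] at this; omega
  obtain ⟨m, hm, h4, h5, h7⟩ := key r hr
  by_contra hne
  exact hrl (steiner_eq_of_subset hL hl hm (s := {g q, q}) (card_pair hne).ge
    (by rw [insert_subset_iff, singleton_subset_iff]; exact ⟨h3, h2⟩)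
    (by rw [insert_subset_iff, singleton_subset_iff]; exact ⟨h7, h5⟩) ▸ h4)

/-- Every permutation of a hyperoval extends to a collineation. -/
theorem exists_ext_hyperoval (hα : Fintype.card α = 21) {L : Set (Finset α)}
    (hL : IsSteinerSystem 2 5 L) {H : Finset α} (h6 : H.card = 6) (hH : Indep L H) (σ : Equiv.Perm H) :
    ∃ g ∈ setSystemAut L, ∀ p : H, g p = σ p := by
  let e : Fin 6 ≃ H := (H.equivFinOfCardEq h6).symm
  have hmap : ∀ f : Fin 6 ≃ H, univ.map (f.toEmbedding.trans (Function.Embedding.subtype _)) = H := by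
    intro f; ext p
    simp only [mem_map, mem_univ, true_and]
    exact ⟨fun ⟨i, hi⟩ => hi ▸ (f i).2, fun hp => ⟨f.symm ⟨p, hp⟩, by simp⟩⟩
  obtain ⟨g, hg, hg'⟩ := strong_iso_hyperoval hα hα hL hL
    (e.toEmbedding.trans (Function.Embedding.subtype _))
    ((e.trans σ).toEmbedding.trans (Function.Embedding.subtype _))
    (by rw [hmap]; exact hH) (by rw [hmap]; exact hH)
  refine ⟨g, mem_aut_iff.2 hg, fun p => ?_⟩
  simpa using hg' (e.symm p)

end CL.Spor.Des
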