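/-
Groups of Janko-four type: transport of the suborbits from the presented group.
-/
import Cfsg.Agent.Spor.J4U2

set_option autoImplicit false

namespace CL.J4.Un

open Cfsg CL.Spor Subgroup MulAction
open scoped Pointwise

theorem rank_of {A G ι : Type*} [Group A] [Group G] (φ : A ≃* G) {K : Subgroup A} {N : Subgroup G}
    (hN : K.map φ.toMonoidHom = N) (c : ι → A) (s : ι → ℕ) (hs : Function.Injective s)
    (hc : ∀ g, ∃ i, ∃ h ∈ K, ∃ k ∈ K, g = h * c i * k) (ho : ∀ i, (orbit K (c i : A ⧸ K)).ncard = s i) :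
    ∃ d : ι → G ⧸ N, (∀ i j, i ≠ j → orbit N (d i) ≠ orbit N (d j)) ∧ (∀ q, ∃ i, q ∈ orbit N (d i)) ∧
      ∀ i, (orbit N (d i)).ncard = s i := by
  have mem : ∀ a, φ a ∈ N ↔ a ∈ K := fun a => hN ▸ mem_map_iff_mem φ.injective
  let ψ : A ⧸ K → G ⧸ N := Quotient.map' φ fun a b h => by
    rw [QuotientGroup.leftRel_apply] at h ⊢
    rwa [← map_inv, ← map_mul, mem]
  have h0 : ∀ a : A, ψ a = (φ a : G ⧸ N) := fun _ => rfl
  have h1 : Function.Injective ψ := fun a b => by
    induction a using QuotientGroup.induction_on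
    induction b using QuotientGroup.induction_on
    rw [h0, h0, QuotientGroup.eq, QuotientGroup.eq, ← map_inv, ← map_mul, mem]
    exact id
  have h2 : ∀ i, (orbit N (φ (c i) : G ⧸ N)).ncard = s i := fun i => by
    rw [← ho i, ← Set.ncard_image_of_injective _ h1]
    congr 1
    ext q
    constructor
    · rintro ⟨⟨n, hn⟩, rfl⟩
      obtain ⟨a, rfl⟩ := φ.surjective n
      exact ⟨_, ⟨⟨a, (mem a).1 hn⟩, rfl⟩, (h0 (a * c i)).trans (by rw [map_mul]; rfl)⟩
    · rintro ⟨_, ⟨⟨a, ha⟩, rfl⟩, rfl⟩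
      exact ⟨⟨φ a, (mem a).2 ha⟩, ((h0 (a * c i)).trans (by rw [map_mul]; rfl)).symm⟩
  refine ⟨fun i => φ (c i), fun i j hij e => hij (hs (by rw [← h2, ← h2, e])), fun q => ?_, h2⟩
  induction q using QuotientGroup.induction_on with | H g => ?_
  obtain ⟨a, rfl⟩ := φ.surjective g
  obtain ⟨i, h, hh, k, hk, rfl⟩ := hc a
  refine ⟨i, ⟨φ h, (mem h).2 hh⟩, ?_⟩
  show ((φ h * φ (c i) : G) : G ⧸ N) = _
  rw [QuotientGroup.eq, ← map_mul, ← map_inv, ← map_mul, mem, inv_mul_cancel_left]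
  exact hk

variable {G : Type*} [Group G] (M : JM G) [Finite G]

theorem index_N : M.N.index = 173067389 := by
  have := M.N.index_mul_card
  rw [M.card_N, M.card_G] at this
  omega

/-- The subgroup of index `173067389` of the presented group maps into `N`. -/
theorem map_le : ((closure ({Spor.J4.x, Spor.J4.y, (Spor.J4.y * ((Spor.J4.y * Spor.J4.x) ^ 4 * Spor.J4.y⁻¹ *
    Spor.J4.x)⁻¹ * Spor.J4.t * ((Spor.J4.y * Spor.J4.x) ^ 4 * Spor.J4.y⁻¹ * Spor.J4.x)) ^ 3} :
      Set (FreeGroup Spor.J4.Gen))).map (PresentedGroup.mk (Spor.coxRelators Spor.J4.edges ∪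
        {r | r ∈ Spor.J4.extra}))).map (φ M) ≤ M.N := by
  rw [map_map, map_le_iff_le_comap, closure_le]
  rintro _ (rfl | rfl | rfl) <;> rw [SetLike.mem_coe, mem_comap, MonoidHom.comp_apply, φ_mk]
  · rw [FreeGroup.lift_apply_of]; exact ν_mem _
  · rw [FreeGroup.lift_apply_of]; exact ν_mem _
  · have := M.V_le_N (gen3_mem M)
    simp only [map_mul, map_pow, map_inv, FreeGroup.lift_apply_of] at this ⊢
    exact this

theorem rank_seven (h : IsJ4 Spor.J4) {K : Subgroup Spor.J4} (hK : K.map (φ M) ≤ M.N) (hi : K.index = 173067389)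
    (c : Fin 7 → Spor.J4) (hc : ∀ g, ∃ i, ∃ h ∈ K, ∃ k ∈ K, g = h * c i * k)
    (ho : ∀ i, (orbit K (c i : Spor.J4 ⧸ K)).ncard = ![1, 15180, 28336, 3400320, 32643072, 54405120, 82575360] i)
    (V : Subgroup G) (hV : IsElementaryAbelian 2 V) (hcard : Nat.card V = 2 ^ 11) :
    (normalizer (V : Set G)).index = 173067389 ∧ ∃ c : Fin 7 → G ⧸ normalizer (V : Set G),
      (∀ i j : Fin 7, i ≠ j → orbit (normalizer (V : Set G)) (c i) ≠ orbit (normalizer (V : Set G)) (c j)) ∧
      (∀ q : G ⧸ normalizer (V : Set G), ∃ i : Fin 7, q ∈ orbit (normalizer (V : Set G)) (c i)) ∧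
      (List.ofFn fun i => (orbit (normalizer (V : Set G)) (c i)).ncard) =
        [1, 15180, 28336, 3400320, 32643072, 54405120, 82575360] := by
  obtain ⟨g, rfl⟩ := M.uniqG V hV hcard
  have h1 : K.map (φ M) = M.N := by
    have h2 := relIndex_mul_index hK
    rw [index_map_of_bijective (φ_bij M h), hi, index_N] at h2
    exact le_antisymm hK (relIndex_eq_one.1 (by omega))
  have h2 : K.map ((MulEquiv.ofBijective _ (φ_bij M h)).trans (MulAut.conj g)).toMonoidHom =
      normalizer (M.V.map (MulAut.conj g).toMonoidHom : Set G) := by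
    rw [← map_equiv_normalizer_eq, ← show M.N = normalizer (M.V : Set G) from rfl, ← h1, map_map]; rfl
  obtain ⟨d, h3, h4, h5⟩ := rank_of _ h2 c _ (by decide) hc ho
  refine ⟨?_, d, h3, h4, by simp only [h5]; rfl⟩
  rw [← h2, index_map_of_bijective (MulEquiv.bijective _), hi]

end CL.J4.Un
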