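/-
The Monster amalgam, part 0: covers of the graph on the class of `z`; definitions and the statements of the steps.
-/
import Cfsg.Agent.Spor.InH0
import Cfsg.Agent.Spor.IN1

set_option autoImplicit false
set_option linter.unusedSectionVars false

namespace CL.AM

open Cfsg Cfsg.Spor Subgroup CL.BM CL.Mj CL.Even CL.Spor.Leech CL.Spor.Mon CL.IN Relation

universe u

theorem rtg_lift {α β : Type*} {r : α → α → Prop} {r' : β → β → Prop} (f : α → β) (h : ∀ a b, r a b → r' (f a) (f b))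
    {a b : α} (k : ReflTransGen r a b) : ReflTransGen r' (f a) (f b) := by
  induction k with
  | refl => exact .refl
  | tail _ e ih => exact ih.tail (h _ _ e)

theorem rtg_mono {α : Type*} {r r' : α → α → Prop} (h : ∀ a b, r a b → r' a b) {a b : α} (k : ReflTransGen r a b) :
    ReflTransGen r' a b := rtg_lift id h k

theorem rtg_symm {α : Type*} {r : α → α → Prop} (h : ∀ a b, r a b → r b a) {a b : α} (k : ReflTransGen r a b) :
    ReflTransGen r b a := by
  induction k with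
  | refl => exact .refl
  | tail _ e ih => exact ih.head (h _ _ e)

/-! ### Covers of the point graph -/

/-- a cover of the graph `C` in which the triangles lift -/
structure Cov {P W : Type*} (C : P → P → Prop) (adj : W → W → Prop) (q : W → P) : Prop where
  symm : ∀ {v w}, adj v w → adj w v
  map : ∀ {v w}, adj v w → C (q v) (q w)
  inj : ∀ {v w w'}, adj v w → adj v w' → q w = q w' → w = w'
  surj : ∀ v t, C (q v) t → ∃ w, adj v w ∧ q w = t
  tri : ∀ {v w u}, adj v w → adj v u → C (q w) (q u) → adj w u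

/-- distinct, and in neither relation -/
def Sp {P : Type} (C A : P → P → Prop) (x x' : P) : Prop := x ≠ x' ∧ ¬ C x x' ∧ ¬ A x x'

/-- no pentagon all of whose diagonals are special -/
def NP5 {P : Type} (C A : P → P → Prop) : Prop := ∀ a b c d e : P, C a b → C b c → C c d → C d e → C e a →
  Sp C A a c → Sp C A b d → Sp C A c e → Sp C A d a → Sp C A e b → False

/-- (AM-LP) every line through `y` is near the quad of `t, y` -/
def LemP : Prop := ∀ (P : Type) [Finite P] (C A : P → P → Prop) (th : P → P → P), MS C A th →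
  ∀ t y x, A t y → C y x → C x t ∨ ∃ b, C b t ∧ C b x ∧ C b y

/-- (AM-C5) paths of length at most 5 over closed paths are closed -/
def Cl5 : Prop := ∀ (P : Type) [Finite P] (C A : P → P → Prop) (th : P → P → P), MS C A th → NP5 C A →
  ∀ (W : Type) (adj : W → W → Prop) (q : W → P), Cov C adj q → ∀ a b c d e f : W, ReflGen adj a b → ReflGen adj b c →
    ReflGen adj c d → ReflGen adj d e → ReflGen adj e f → q a = q f → a = f

/-- (AM-MSC) simple connectivity -/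
def MSC : Prop := ∀ (P : Type) [Finite P] (C A : P → P → Prop) (th : P → P → P), MS C A th → NP5 C A →
  ∀ (W : Type) (adj : W → W → Prop) (q : W → P), Cov C adj q → ∀ v w, ReflTransGen adj v w → q v = q w → v = w

/-! ### Covers of the graph on the class of `z` -/

section
variable {H : Type*} [Group H] (z : H) (Q : Subgroup H)

/-- adjacency -/
def Ad (u u' : H) : Prop := InQ z Q u u' ∧ IsConj z u' ∧ u' ≠ u

/-- the points of `S` -/
def Pt (S : Set H) (u : H) : Prop := IsConj z u ∧ ∀ x ∈ S, InQ z Q u x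

/-- the points of `S` are connected -/
def Cn (S : Set H) : Prop := ∀ u u', Pt z Q S u → Pt z Q S u' →
  ReflTransGen (fun a b => Ad z Q a b ∧ Pt z Q S a ∧ Pt z Q S b) u u'

/-- what is used about one level: `X` is a class of `C(S)`, `ρ` an orbital -/
structure LV (S X : Set H) (ρ : H → H → Prop) (x₀ x₁ : H) : Prop where
  m0 : x₀ ∈ X
  r01 : ρ x₀ x₁
  mρ : ∀ {x x'}, x ∈ X → ρ x x' → x' ∈ X
  tX : ∀ x ∈ X, ∃ c ∈ centralizer S, c * x₀ * c⁻¹ = x
  cX : ∀ c ∈ centralizer S, ∀ x ∈ X, c * x * c⁻¹ ∈ X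
  tρ : ∀ x, ρ x₀ x → ∃ c ∈ centralizer (insert x₀ S), c * x₁ * c⁻¹ = x
  cρ : ∀ c ∈ centralizer S, ∀ {x x'}, ρ x x' → ρ (c * x * c⁻¹) (c * x' * c⁻¹)
  tP : ∀ u u', Pt z Q (insert x₀ S) u → Pt z Q (insert x₀ S) u' → ∃ c ∈ centralizer (insert x₀ S), c * u * c⁻¹ = u'
  cn1 : Cn z Q (insert x₀ S)
  cn2 : Cn z Q (insert x₁ (insert x₀ S))
  loc : ∀ u, Pt z Q S u → ∀ x ∈ X, ∀ x' ∈ X, InQ z Q u x → InQ z Q u x' →
    ReflTransGen (fun a b => ρ a b ∧ InQ z Q u b) x x'
  edge : ∀ u u', Pt z Q S u → Pt z Q S u' → Ad z Q u u' → ∃ b ∈ X, InQ z Q u b ∧ InQ z Q u' b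
  ex : ∀ u, Pt z Q S u → ∃ x ∈ X, InQ z Q u x

/-- the elements used to lift the new node `ε` -/
structure NV (S : Set H) (ρ : H → H → Prop) (x₀ x₁ a₁ a₂ ε : H) : Prop where
  r1 : ρ x₀ a₁
  r2 : ρ x₀ a₂
  r12 : ρ a₁ a₂
  r1x : ρ a₁ x₁
  p2 : ∃ u, Pt z Q (insert a₂ (insert a₁ (insert x₀ S))) u
  px : ∃ u, Pt z Q (insert x₁ (insert a₁ (insert x₀ S))) u
  c : ε ∈ centralizer (insert a₂ (insert a₁ S))
  gen : centralizer (insert x₀ S) ⊔ zpowers ε = centralizer S

variable {U W : Type*} [Group U] [MulAction U W] (φ : U →* H) (p : W → H) (adj : W → W → Prop)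

/-- an equivariant connected cover; the stabilisers map isomorphically to the centralisers -/
structure CV : Prop where
  cov : Cov (Ad z Q) adj p
  dsymm : ∀ {u u'}, Ad z Q u u' → Ad z Q u' u
  conj : ∀ v, IsConj z (p v)
  smul : ∀ (g : U) (v : W), p (g • v) = φ g * p v * (φ g)⁻¹
  adj_smul : ∀ (g : U) {v w : W}, adj v w → adj (g • v) (g • w)
  stab : ∀ (v : W) c, c * p v = p v * c → ∃ g : U, g • v = v ∧ φ g = c
  fth : ∀ (v : W) (g : U), g • v = v → φ g = 1 → g = 1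
  tr : ∀ v w : W, ∃ g : U, g • v = w
  conn : ∀ v w, ReflTransGen adj v w
  ne : Nonempty W

/-- paths over the points of `S` -/
def Re (S : Set H) (v w : W) : Prop := ReflTransGen (fun a b => adj a b ∧ Pt z Q S (p a) ∧ Pt z Q S (p b)) v w

/-- closed paths through the points of `S` lift to closed paths -/
def II (S : Set H) : Prop := ∀ v w, Re z Q p adj S v w → p v = p w → v = w

variable {z Q φ p adj} {S T : Set H} {v w v' : W} {u u' c : H}

theorem Pt.mono (h : Pt z Q T u) (e : S ⊆ T) : Pt z Q S u := ⟨h.1, fun x hx => h.2 x (e hx)⟩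

theorem Pt.insert_iff {x : H} : Pt z Q (insert x S) u ↔ InQ z Q u x ∧ Pt z Q S u := by
  simp only [Pt, Set.forall_mem_insert]; tauto

theorem Pt.conj (h : Pt z Q S u) (c : H) : Pt z Q ((fun x => c * x * c⁻¹) '' S) (c * u * c⁻¹) :=
  ⟨isConj_conj h.1 c, by rintro _ ⟨x, hx, rfl⟩; exact GD.inQ_conj c (h.2 x hx)⟩

theorem image_cent (hc : c ∈ centralizer S) : (fun x => c * x * c⁻¹) '' S = S := by
  rw [Set.image_congr (g := id) fun x hx => by rw [← hc x hx, mul_inv_cancel_right, id], Set.image_id]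

theorem Pt.cent (h : Pt z Q S u) (hc : c ∈ centralizer S) : Pt z Q S (c * u * c⁻¹) := image_cent hc ▸ h.conj c

theorem Ad.conj (h : Ad z Q u u') (c : H) : Ad z Q (c * u * c⁻¹) (c * u' * c⁻¹) :=
  ⟨GD.inQ_conj c h.1, isConj_conj h.2.1 c, fun e => h.2.2 (by simpa using e)⟩

theorem Cn.conj (h : Cn z Q S) (c : H) : Cn z Q ((fun x => c * x * c⁻¹) '' S) := fun u u' hu hu' => by
  have e : ∀ {u}, Pt z Q ((fun x => c * x * c⁻¹) '' S) u → Pt z Q S (c⁻¹ * u * c⁻¹⁻¹) := fun hu => by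
    simpa [Set.image_image, mul_assoc] using hu.conj c⁻¹
  have := rtg_lift (r' := fun a b => Ad z Q a b ∧ Pt z Q ((fun x => c * x * c⁻¹) '' S) a ∧
    Pt z Q ((fun x => c * x * c⁻¹) '' S) b) (fun x => c * x * c⁻¹)
    (fun a b k => ⟨k.1.conj c, k.2.1.conj c, k.2.2.conj c⟩) (h _ _ (e hu) (e hu'))
  simpa [mul_assoc] using this

theorem Re.refl : Re z Q p adj S v v := ReflTransGen.refl

theorem Re.trans (h : Re z Q p adj S v w) (h' : Re z Q p adj S w v') : Re z Q p adj S v v' := ReflTransGen.trans h h'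

theorem Re.mono (h : Re z Q p adj T v w) (e : S ⊆ T) : Re z Q p adj S v w :=
  rtg_mono (fun _ _ k => ⟨k.1, k.2.1.mono e, k.2.2.mono e⟩) h

theorem Re.pt (h : Re z Q p adj S v w) (hv : Pt z Q S (p v)) : Pt z Q S (p w) := by
  induction h with
  | refl => exact hv
  | tail _ e _ => exact e.2.2

namespace CV

variable (h : CV z Q φ p adj)
include h

theorem re_symm (k : Re z Q p adj S v w) : Re z Q p adj S w v :=
  rtg_symm (fun _ _ e => ⟨h.cov.symm e.1, e.2.2, e.2.1⟩) k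

theorem re_smul (g : U) (k : Re z Q p adj S v w) :
    Re z Q p adj ((fun x => φ g * x * (φ g)⁻¹) '' S) (g • v) (g • w) :=
  rtg_lift (fun a => g • a) (fun a b e => ⟨h.adj_smul g e.1, h.smul g a ▸ e.2.1.conj _,
    h.smul g b ▸ e.2.2.conj _⟩) k

theorem re_cent {g : U} (hg : φ g ∈ centralizer S) (k : Re z Q p adj S v w) : Re z Q p adj S (g • v) (g • w) :=
  image_cent hg ▸ h.re_smul g k

theorem ii_smul (g : U) (k : II z Q p adj S) : II z Q p adj ((fun x => φ g * x * (φ g)⁻¹) '' S) := fun v w e e' => by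
  have := k _ _ (by simpa [Set.image_image, mul_assoc] using h.re_smul g⁻¹ e) (by rw [h.smul, h.smul, e'])
  simpa using this

/-- lifting of paths -/
theorem lift (k : ReflTransGen (fun a b => Ad z Q a b ∧ Pt z Q S a ∧ Pt z Q S b) (p v) u) :
    ∃ w, Re z Q p adj S v w ∧ p w = u := by
  induction k with
  | refl => exact ⟨v, .refl, rfl⟩
  | tail _ e ih =>
    obtain ⟨w, h1, rfl⟩ := ih
    obtain ⟨w', h2, rfl⟩ := h.cov.surj w _ e.1
    exact ⟨w', ReflTransGen.tail h1 ⟨h2, e.2⟩, rfl⟩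

/-- an element with prescribed image that moves `v` to `w` -/
theorem move (e : c * p v * c⁻¹ = p w) : ∃ g : U, g • v = w ∧ φ g = c := by
  obtain ⟨g, rfl⟩ := h.tr v w
  obtain ⟨k, h1, h2⟩ := h.stab v ((φ g)⁻¹ * c) (by
    rw [h.smul] at e
    calc _ = (φ g)⁻¹ * (c * p v * c⁻¹) * c := by group
      _ = _ := by rw [e]; group)
  exact ⟨g * k, by rw [mul_smul, h1], by rw [map_mul, h2, mul_inv_cancel_left]⟩

/-- the stabiliser of the component of `v` -/
def Gs (S : Set H) (v : W) : Subgroup U where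
  carrier := {g | φ g ∈ centralizer S ∧ Re z Q p adj S v (g • v)}
  one_mem' := ⟨by rw [map_one]; exact one_mem _, by rw [one_smul]; exact .refl⟩
  mul_mem' := fun {a b} ha hb => ⟨by rw [map_mul]; exact mul_mem ha.1 hb.1,
    ha.2.trans (by rw [mul_smul]; exact h.re_cent ha.1 hb.2)⟩
  inv_mem' := fun {a} ha => by
    have : φ a⁻¹ ∈ centralizer S := by rw [map_inv]; exact inv_mem ha.1
    exact ⟨this, h.re_symm (by simpa using h.re_cent this ha.2)⟩

theorem mem_Gs {g : U} : g ∈ h.Gs S v ↔ φ g ∈ centralizer S ∧ Re z Q p adj S v (g • v) := Iff.rfl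

theorem Gs_congr (k : Re z Q p adj S v w) : h.Gs S v = h.Gs S w := Subgroup.ext fun _ => and_congr_right fun hg =>
  ⟨fun e => ((h.re_symm k).trans e).trans (h.re_cent hg k), fun e => (k.trans e).trans (h.re_cent hg (h.re_symm k))⟩

theorem Gs_inj (k : II z Q p adj S) {g : U} (hg : g ∈ h.Gs S v) (e : φ g = 1) : g = 1 :=
  h.fth v g (k _ _ hg.2 (by rw [h.smul, e]; simp)).symm e

theorem Gs_onto (k : Cn z Q S) (hv : Pt z Q S (p v)) (hc : c ∈ centralizer S) : ∃ g ∈ h.Gs S v, φ g = c := by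
  obtain ⟨w, h1, h2⟩ := h.lift (k _ _ hv (hv.cent hc))
  obtain ⟨g, rfl, rfl⟩ := h.move h2.symm
  exact ⟨g, ⟨hc, h1⟩, rfl⟩

theorem Gs_empty : h.Gs ∅ v = ⊤ := eq_top_iff.2 fun g _ => ⟨by simp [mem_centralizer_iff],
  rtg_mono (fun a b e => ⟨e, ⟨h.conj a, by simp⟩, h.conj b, by simp⟩) (h.conn _ _)⟩

theorem surj (k : Cn z Q ∅) : Function.Surjective φ := fun c =>
  let ⟨v⟩ := h.ne
  let ⟨g, _, e⟩ := h.Gs_onto (v := v) (c := c) k ⟨h.conj v, by simp⟩ (by simp [mem_centralizer_iff])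
  ⟨g, e⟩

theorem inj (k : II z Q p adj ∅) : Function.Injective φ := (injective_iff_map_eq_one φ).2 fun _ e =>
  let ⟨v⟩ := h.ne
  h.Gs_inj (v := v) k (h.Gs_empty ▸ mem_top _) e

theorem exists_over (hs : Function.Surjective φ) (hu : IsConj z u) : ∃ v, p v = u := by
  obtain ⟨v⟩ := h.ne
  obtain ⟨c, rfl⟩ := isConj_iff.1 ((h.conj v).symm.trans hu)
  obtain ⟨g, rfl⟩ := hs c
  exact ⟨g • v, h.smul g v⟩

/-- the points of `T` in a component for `S ⊆ T` lie in one component for `T` -/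
theorem one (k : II z Q p adj S) (k' : Cn z Q T) (e : S ⊆ T) (r : Re z Q p adj S v w) (hv : Pt z Q T (p v))
    (hw : Pt z Q T (p w)) : Re z Q p adj T v w := by
  obtain ⟨w', h1, h2⟩ := h.lift (k' _ _ hv hw)
  rwa [k _ _ ((h.re_symm (h1.mono e)).trans r) h2] at h1

end CV

end

/-- (AM-STEP) one level up, in the cover -/
def Step : Prop := ∀ (H U W : Type) [Group H] [Group U] [MulAction U W] (z : H) (Q : Subgroup H) (φ : U →* H)
  (p : W → H) (adj : W → W → Prop) (h : CV z Q φ p adj) (S X : Set H) (ρ : H → H → Prop) (x₀ x₁ : H),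
  LV z Q S X ρ x₀ x₁ → II z Q p adj (insert x₀ S) → ∀ (Y : Subgroup U) (v₀ : W), Pt z Q (insert x₀ S) (p v₀) →
  (∀ g ∈ Y, φ g = 1 → g = 1) → Y.map φ = centralizer S → h.Gs (insert x₀ S) v₀ ≤ Y →
  (∃ τ ∈ Y, φ τ * x₀ * (φ τ)⁻¹ = x₁ ∧ ∃ v, Re z Q p adj (insert x₀ S) v₀ v ∧ Pt z Q (insert x₁ S) (p v) ∧
    Re z Q p adj (insert x₁ S) v (τ • v)) → II z Q p adj S

/-- (AM-STEP) one level up, downstairs -/
def CnUp : Prop := ∀ (H : Type) [Group H] (z : H) (Q : Subgroup H) (S X : Set H) (ρ : H → H → Prop)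
  (x₀ x₁ a₁ a₂ ε : H), (∀ {u u'}, Ad z Q u u' → Ad z Q u' u) → LV z Q S X ρ x₀ x₁ → NV z Q S ρ x₀ x₁ a₁ a₂ ε → Cn z Q S

/-- (AM-IND) the lift of the new node -/
def Ind : Prop := ∀ (H U W : Type) [Group H] [Group U] [MulAction U W] (z : H) (Q : Subgroup H) (φ : U →* H)
  (p : W → H) (adj : W → W → Prop) (h : CV z Q φ p adj) (S X : Set H) (ρ : H → H → Prop) (x₀ x₁ a₁ a₂ ε : H),
  Function.Surjective φ → LV z Q S X ρ x₀ x₁ → NV z Q S ρ x₀ x₁ a₁ a₂ ε → II z Q p adj (insert x₀ S) →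
  ∃ (v₀ : W) (X₁ X₂ : Subgroup U) (e : U), Pt z Q (insert x₀ S) (p v₀) ∧ φ e = ε ∧ e ∈ X₁ ∧ e ∈ X₂ ∧
    (∀ g ∈ X₁, φ g = 1 → g = 1) ∧ (∀ g ∈ X₂, φ g = 1 → g = 1) ∧
    (∀ g ∈ h.Gs (insert x₀ S) v₀, φ g * a₁ = a₁ * φ g → g ∈ X₁) ∧
    (∀ g ∈ h.Gs (insert x₀ S) v₀, φ g * a₂ = a₂ * φ g → g ∈ X₂) ∧
    ∀ τ ∈ X₁, φ τ * x₀ * (φ τ)⁻¹ = x₁ → ∃ v, Re z Q p adj (insert x₀ S) v₀ v ∧ Pt z Q (insert x₁ S) (p v) ∧
      Re z Q p adj (insert x₁ S) v (τ • v)

/-- a statement about all models -/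
def AllMD (F : ∀ (H : Type) [Group H] [Finite H], (Nd → H) → H → Subgroup H → H → H → Prop) : Prop :=
  ∀ (H : Type) [Group H] [Finite H] (V : Type) [AddCommGroup V] [Module ℝ V] (y : Nd → H) (z : H)
  (Q : Subgroup H) (π : centralizer ({z} : Set H) →* Co1) (R : leechLattice → H → Prop) (s s1 : H)
  (mul : V →ₗ[ℝ] V →ₗ[ℝ] V) (bil : LinearMap.BilinForm ℝ V) (ρ : H →* (V ≃ₗ[ℝ] V)) (ax : H → V),
  MD y z Q π R s s1 mul bil ρ ax → F H y z Q s s1

/-- (AM-L2) the level `s, s₁` -/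
def Lev2 : Prop := AllMD fun H _ _ _ z Q s s1 => ∀ (U W : Type) [Group U] [MulAction U W] (φ : U →* H) (p : W → H)
  (adj : W → W → Prop), CV z Q φ p adj → II z Q p adj {s1, s}

/-- (AM-LV3) the facts for the level `s` -/
def LV3 : Prop := AllMD fun _ _ _ y z Q s s1 => LV z Q {s} (Df s) (fun x x' => x' ∈ Pi2 s x) s1 (y .d2) ∧
  NV z Q {s} (fun x x' => x' ∈ Pi2 s x) s1 (y .d2) (y .c1) (y .c3) (y .e2)

/-- (AM-LV4) the facts for the top level -/
def LV4 : Prop := AllMD fun _ _ _ y z Q s s1 => Cn z Q {s1, s} → Cn z Q {s} →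
  LV z Q ∅ (Tf s) (fun x x' => x' ∈ Df x) s (y .d3) ∧ NV z Q ∅ (fun x x' => x' ∈ Df x) s (y .d3) (y .c1) (y .c2) (y .e3)

/-- (AM-NODE) the covers are trivial -/
def CovM : Prop := AllMD fun H _ _ _ z Q _ _ => ∀ (U W : Type) [Group U] [MulAction U W] (φ : U →* H) (p : W → H)
  (adj : W → W → Prop), CV z Q φ p adj → Function.Bijective φ

end CL.AM
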