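/-
The Monster amalgam, part 1: the local data; definitions, basic lemmas and the statements of the steps.
-/
import Cfsg.Agent.Spor.Am0
import Cfsg.Agent.Spor.MonD

set_option autoImplicit false
set_option linter.unusedSectionVars false

namespace CL.AM

open Cfsg Cfsg.Spor Subgroup CL.Mj CL.Even CL.Spor.Leech CL.Spor.Mon CL.IN
open scoped Pointwise

universe u v

/-! ### The lattice -/

/-- the class is `0` or that of the standard frame -/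
def E1 (w : leechLattice) : Prop := Dbl w ∨ Dbl (w - e8 none)
/-- the class contains a vector with coordinates divisible by `4` -/
def Fr (w : leechLattice) : Prop := ∃ x : leechLattice, Dbl (w - x) ∧ ∀ i, (4 : ℤ) ∣ (x : GolayPt → ℤ) i
/-- even coordinates -/
def Ev (w : leechLattice) : Prop := (2 : ℤ) ∣ (w : GolayPt → ℤ) none

theorem lrep (f : leechLattice →+ ZMod 2) : ∃ x : leechLattice, ∀ w, f w = 0 ↔ (16 : ℤ) ∣ dt w x := by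
  classical
  refine ⟨∑ k ∈ Finset.univ.filter fun k => f (basL k) = 1, duaL k, fun w => ?_⟩
  have h1 : f w = ∑ k, co w k * f (basL k) := by
    obtain ⟨a, ha⟩ : Dbl (w - ∑ k, (co w k).val • basL k) := co_eq_iff.1 (by
      funext j
      simp only [map_sum, map_nsmul, co_basL, Finset.sum_apply, Pi.smul_apply]
      simp [Pi.single_apply])
    have := congrArg f ha
    rw [map_add, CharTwo.add_self_eq_zero, map_sub, sub_eq_zero, map_sum] at this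
    simp [this]
  choose a ha using fun k => eight_dvd_dot w.2 (duaL k).2
  have h2 : ∀ k, co w k = (a k : ZMod 2) := fun k => by
    change ((dotInt (w : GolayPt → ℤ) (duaL k) / 8 : ℤ) : ZMod 2) = _
    rw [ha, Int.mul_ediv_cancel_left _ (by norm_num)]
  have h3 : dt w (∑ k ∈ Finset.univ.filter fun k => f (basL k) = 1, duaL k) =
      8 * ∑ k ∈ Finset.univ.filter fun k => f (basL k) = 1, a k := by
    rw [Finset.mul_sum, ← Finset.sum_congr rfl fun k _ => ha k]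
    exact map_sum (leechForm w) _ _
  have h4 : f w = ((∑ k ∈ Finset.univ.filter fun k => f (basL k) = 1, a k : ℤ) : ZMod 2) := by
    rw [h1, Int.cast_sum, Finset.sum_filter]
    refine Finset.sum_congr rfl fun k _ => ?_
    rw [h2]
    generalize f (basL k) = b
    revert b; generalize (a k : ZMod 2) = c; revert c; decide
  rw [h3, h4, ZMod.intCast_zmod_eq_zero_iff_dvd]
  omega

/-- separation by the bilinear form -/
theorem lnd (M : AddSubgroup leechLattice) (hM : ∀ w, Dbl w → w ∈ M) {w : leechLattice} (hw : w ∉ M) :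
    ∃ x : leechLattice, (∀ a ∈ M, (16 : ℤ) ∣ dt a x) ∧ ¬ (16 : ℤ) ∣ dt w x := by
  obtain ⟨f, h1, h2⟩ := Submodule.exists_dual_map_eq_bot_of_notMem
    (p := AddSubgroup.toZModSubmodule 2 (M.map co)) (x := co w) (by
      rintro ⟨a, ha, e⟩
      exact hw (by simpa using M.sub_mem ha (hM _ (co_eq_iff.1 e)))) inferInstance
  obtain ⟨x, hx⟩ := lrep (f.toAddMonoidHom.comp co)
  exact ⟨x, fun a ha => (hx a).1 (h2.le ⟨co a, ⟨a, ha, rfl⟩, rfl⟩), fun e => h1 ((hx w).2 e)⟩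

/-- (AM-LF) an invariant subgroup with an odd vector -/
def LUni : Prop := ∀ M : AddSubgroup leechLattice, (∀ w, Dbl w → w ∈ M) → (∀ g ∈ Nsub, ∀ w ∈ M, g • w ∈ M) →
  (∃ w ∈ M, ¬ Ev w) → M = ⊤
/-- (AM-LF) the even classes fixed by an element of order 23 -/
def L23 : Prop := ∀ g ∈ Nsub, orderOf g = 23 → ∀ w : leechLattice, Dbl (g • w - w) → Ev w → E1 w
/-- (AM-LF) the classes fixed by the sign changes -/
def LA0 : Prop := ∀ w : leechLattice, (∀ c hc, Dbl (eps c hc • w - w)) → E1 w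
/-- (AM-LF) the centraliser of the classes of the frame -/
def LcE : Prop := ∀ g : Co0, (∀ w : leechLattice, (∀ i, (4 : ℤ) ∣ (w : GolayPt → ℤ) i) → Dbl (g • w - w)) → mk1 g = 1
/-- (AM-LF) transitivity on the sextet classes -/
def LTT : Prop := ∀ w : leechLattice, sqNorm (w : GolayPt → ℤ) = 64 → Fr w → ¬ E1 w → ∃ g ∈ Nsub, Dbl (g • w - vB0)
/-- (AM-HZ) no equivariant map from the code to the even cocode -/
def HZ : Prop := ∀ f : Finset GolayPt → leechLattice, (∀ c ∈ Cset, Fr (f c)) →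
  (∀ c ∈ Cset, ∀ d ∈ Cset, E1 (f (symmDiff c d) - f c - f d)) → E1 (f Finset.univ) →
  (∀ (σ : M24), ∀ c ∈ Cset, E1 (f (σ • c) - pm σ • f c)) → ∀ c ∈ Cset, E1 (f c)
/-- (AM-K1) the subgroups `2 ^ a . M24` of `Co1` -/
def K1 : Prop := ∀ (X : Subgroup Co1) (f : X →* M24), Function.Surjective f → IsPGroup 2 f.ker → f.ker ≠ ⊥ →
  ∃ k : Co0, X.comap mk1 = Nsub.map (MulAut.conj k).toMonoidHom

/-! ### The group `C` -/

section
variable {G : Type u} [Group G]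

/-- `c ∈ C` lies over `g` -/
def Lf {C : Subgroup G} (π : C →* Co1) (c : G) (g : Co0) : Prop := ∃ hc : c ∈ C, π ⟨c, hc⟩ = mk1 g

/-- `C = 2 ^ (1 + 24) . Co1` -/
structure M1 (C : Subgroup G) (z : G) (Q : Subgroup G) (π : C →* Co1) (R : leechLattice → G → Prop) : Prop where
  fin : Finite C
  ord : orderOf z = 2
  le : Q ≤ C
  cz : ∀ c ∈ C, c * z = z * c
  card : Nat.card Q = 2 ^ 25
  surj : Function.Surjective π
  ker : ∀ c : C, π c = 1 ↔ (c : G) ∈ Q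
  mem : ∀ {w x}, R w x → x ∈ Q
  exL : ∀ x ∈ Q, ∃ w, R w x
  exR : ∀ w, ∃ x, R w x
  mul : ∀ {w w' x y}, R w x → R w' y → R (w + w') (x * y)
  inv : ∀ {w x}, R w x → R (-w) x⁻¹
  zero : ∀ {w x}, R w x → (Dbl w ↔ x = 1 ∨ x = z)
  ofZero : ∀ {w x}, Dbl w → x = 1 ∨ x = z → R w x
  conj : ∀ {c g}, Lf π c g → ∀ {w x}, R w x → R (g • w) (c * x * c⁻¹)
  sq : ∀ {w x}, R w x → (x * x = 1 ↔ (32 : ℤ) ∣ sqNorm (w : GolayPt → ℤ))
  comm : ∀ {w w' x y}, R w x → R w' y → (x * y = y * x ↔ (16 : ℤ) ∣ dt w w')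

section
variable {C : Subgroup G} {z : G} {Q : Subgroup G} {π : C →* Co1} {R : leechLattice → G → Prop} {c d x y : G}
  {g k : Co0} {w w' : leechLattice}

theorem lf (π : C →* Co1) (hc : c ∈ C) : ∃ g, Lf π c g := let ⟨g, e⟩ := mk1_surjective (π ⟨c, hc⟩); ⟨g, hc, e.symm⟩
theorem Lf.mem (h : Lf π c g) : c ∈ C := h.1
theorem Lf.one : Lf π 1 1 := ⟨one_mem _, (map_one π).trans (map_one _).symm⟩
theorem Lf.mul (h : Lf π c g) (h' : Lf π d k) : Lf π (c * d) (g * k) :=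
  ⟨mul_mem h.1 h'.1, by rw [map_mul, ← h.2, ← h'.2, ← map_mul]; rfl⟩
theorem Lf.inv (h : Lf π c g) : Lf π c⁻¹ g⁻¹ := ⟨inv_mem h.1, by rw [map_inv, ← h.2, ← map_inv]; rfl⟩
theorem Lf.pow (h : Lf π c g) (n : ℕ) : Lf π (c ^ n) (g ^ n) :=
  ⟨pow_mem h.1 n, by rw [map_pow, ← h.2, ← map_pow]; rfl⟩
theorem Lf.uniq (h : Lf π c g) (h' : Lf π c k) : mk1 g = mk1 k := h.2.symm.trans h'.2
theorem Lf.congr (h : Lf π c g) (e : mk1 g = mk1 k) : Lf π c k := ⟨h.1, h.2.trans e⟩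

namespace M1

variable (h : M1 C z Q π R)
include h

theorem zz : z * z = 1 := mul_self_of_orderOf_two h.ord
theorem z_ne : z ≠ 1 := fun e => by simpa [e] using h.ord
theorem z_inv : z⁻¹ = z := inv_eq_of_mul_eq_one_right h.zz
theorem R_one : R 0 1 := h.ofZero Dbl.zero (.inl rfl)
theorem R_z : R 0 z := h.ofZero Dbl.zero (.inr rfl)
theorem zQ : z ∈ Q := h.mem h.R_z
theorem finQ : Finite Q := Nat.finite_of_card_ne_zero (by rw [h.card]; norm_num)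
theorem two : IsPGroup 2 Q := IsPGroup.of_card h.card
theorem lift (g : Co0) : ∃ c, Lf π c g := let ⟨c, e⟩ := h.surj (mk1 g); ⟨c, c.2, e⟩
theorem lf_ker (k : Lf π c g) : mk1 g = 1 ↔ c ∈ Q := k.2 ▸ h.ker _
theorem lf_Q (hx : x ∈ Q) : Lf π x 1 := ⟨h.le hx, ((h.ker _).2 hx).trans (map_one _).symm⟩
theorem lf_eq (k : Lf π c g) (k' : Lf π d g) : c⁻¹ * d ∈ Q := (h.lf_ker (k.inv.mul k')).1 (by simp)
theorem norm (hc : c ∈ C) (hx : x ∈ Q) : c * x * c⁻¹ ∈ Q :=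
  let ⟨_, k⟩ := lf π hc; let ⟨_, e⟩ := h.exL x hx; h.mem (h.conj k e)
theorem congr (hx : R w x) (hd : Dbl (w' - w)) : R w' x := by simpa using h.mul hx (h.ofZero hd (.inl rfl))
theorem neg (hx : R w x) : R (-w) x := h.congr hx (Dbl.neg_sub w)
theorem zmul (hx : R w x) : R w (z * x) := by simpa using h.mul h.R_z hx
theorem dbl_iff (hx : R w x) (hy : R w' y) : Dbl (w - w') ↔ x = y ∨ x = z * y := by
  rw [sub_eq_add_neg, h.zero (h.mul hx (h.inv hy)), mul_inv_eq_one, mul_inv_eq_iff_eq_mul]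
theorem same (hx : R w x) (hy : R w y) : x = y ∨ x = z * y := (h.dbl_iff hx hy).1 (Dbl.refl w)
theorem conj_or (hx : x ∈ Q) (hy : y ∈ Q) : x * y * x⁻¹ = y ∨ x * y * x⁻¹ = z * y :=
  let ⟨_, e⟩ := h.exL y hy; h.same (by simpa using h.conj (h.lf_Q hx) e) e
theorem sq_or (hx : x ∈ Q) : x * x = 1 ∨ x * x = z :=
  let ⟨w, e⟩ := h.exL x hx; (h.zero (h.mul e e)).1 ⟨w, rfl⟩
theorem conj_of_not (hx : R w x) (hy : R w' y) (e : ¬ (16 : ℤ) ∣ dt w w') : x * y * x⁻¹ = z * y :=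
  (h.conj_or (h.mem hx) (h.mem hy)).resolve_left fun k => e ((h.comm hx hy).1 (mul_inv_eq_iff_eq_mul.1 k))

/-- an element of `Q` that centralises the elements over `M` and not `y` -/
theorem sep (M : AddSubgroup leechLattice) (hM : ∀ w, Dbl w → w ∈ M) (hw : w ∉ M) (hy : R w y) :
    ∃ q ∈ Q, (∀ a ∈ M, ∀ x, R a x → q * x = x * q) ∧ q * y * q⁻¹ = z * y := by
  obtain ⟨b, h1, h2⟩ := lnd M hM hw
  obtain ⟨q, hq⟩ := h.exR b
  exact ⟨q, h.mem hq, fun a ha x hx => ((h.comm hx hq).2 (h1 a ha)).symm,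
    h.conj_of_not hq hy (by rwa [dt, dot_comm])⟩

theorem sign (hx : R w x) (hy : R w' y) (h1 : ¬ Dbl w') (h2 : ¬ Dbl (w' - w)) :
    ∃ q ∈ Q, q * x * q⁻¹ = x ∧ q * y * q⁻¹ = z * y := by
  let M : AddSubgroup leechLattice :=
    { carrier := {a | Dbl a ∨ Dbl (a - w)}
      add_mem' := by
        rintro a b (ha | ha) (hb | hb)
        exacts [.inl (ha.add hb), .inr ((ha.add hb).of_eq (by abel)), .inr ((ha.add hb).of_eq (by abel)),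
          .inl (((ha.add hb).add ⟨w, rfl⟩).of_eq (by abel))]
      zero_mem' := .inl Dbl.zero
      neg_mem' := by
        rintro a (ha | ha)
        exacts [.inl ha.neg, .inr ((ha.neg.sub ⟨w, rfl⟩).of_eq (by abel))] }
  obtain ⟨q, hq, e1, e2⟩ := h.sep M (fun _ => .inl) (fun e => e.elim h1 h2) hy
  exact ⟨q, hq, by rw [e1 w (.inr (Dbl.refl w)) x hx, mul_inv_cancel_right], e2⟩

theorem pair {x' y' : G} (hx : R w x) (hy : R w' y) (hx' : R w x') (hy' : R w' y') (h0 : ¬ Dbl w) (h1 : ¬ Dbl w')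
    (h2 : ¬ Dbl (w' - w)) : ∃ q ∈ Q, q * x * q⁻¹ = x' ∧ q * y * q⁻¹ = y' := by
  obtain ⟨a, ha, a1, a2⟩ := h.sign hx hy h1 h2
  obtain ⟨b, hb, b1, b2⟩ := h.sign hy hx h0 fun e => h2 e.symm
  rcases h.same hx' hx with rfl | rfl <;> rcases h.same hy' hy with rfl | rfl
  · exact ⟨1, one_mem _, by simp, by simp⟩
  · exact ⟨a, ha, a1, a2⟩
  · exact ⟨b, hb, b2, b1⟩
  · refine ⟨b * a, mul_mem hb ha, ?_, ?_⟩
    · rw [← b2, ← congrArg (b * · * b⁻¹) a1]; group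
    · calc _ = b * (a * y * a⁻¹) * b⁻¹ := by group
        _ = z * (b * y * b⁻¹) := by rw [a2, ← mul_assoc, h.cz b (h.le hb)]; group
        _ = _ := by rw [b1]

/-- the centre of `Q` -/
theorem cent (hx : x ∈ Q) (e : ∀ q ∈ Q, q * x = x * q) : x = 1 ∨ x = z := by
  obtain ⟨w, hw⟩ := h.exL x hx
  refine (h.zero hw).1 (by_contra fun k => ?_)
  obtain ⟨q, hq, -, e2⟩ := h.sign h.R_one hw k (by rwa [sub_zero])
  rw [e q hq, mul_inv_cancel_right] at e2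
  exact h.z_ne (by simpa using e2.symm)

/-- faithfulness -/
theorem faith (hc : c ∈ C) (e : ∀ x ∈ Q, c * x * c⁻¹ = x ∨ c * x * c⁻¹ = z * x) : c ∈ Q := by
  obtain ⟨g, k⟩ := lf π hc
  refine (h.lf_ker k).1 (co1_faithful fun a => ?_)
  obtain ⟨w, rfl⟩ := co_surjective a
  obtain ⟨x, hx⟩ := h.exR w
  rw [mk1_smul_co, co_eq_iff]
  exact (h.dbl_iff (h.conj k hx) hx).2 (e x (h.mem hx))

theorem conj_of_dbl (hx : R w x) (hy : R w' y) (hw : ¬ Dbl w') (hg : Dbl (g • w - w')) :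
    ∃ c, Lf π c g ∧ c * x * c⁻¹ = y := by
  obtain ⟨c, hc⟩ := h.lift g
  rcases (h.dbl_iff (h.conj hc hx) hy).1 hg with h1 | h1
  · exact ⟨c, hc, h1⟩
  · obtain ⟨q, hq, -, e⟩ := h.sign h.R_one hy hw (by rwa [sub_zero])
    refine ⟨q⁻¹ * c, by simpa using (h.lf_Q hq).inv.mul hc, ?_⟩
    calc _ = q⁻¹ * (c * x * c⁻¹) * q := by group
      _ = y := by rw [h1, ← e]; group

theorem twist (k : Co0) : M1 C z Q ((MulAut.conj (mk1 k)).toMonoidHom.comp π) (fun w x => R (k⁻¹ • w) x) := by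
  refine ⟨h.fin, h.ord, h.le, h.cz, h.card, (MulAut.conj (mk1 k)).surjective.comp h.surj, fun c => ?_, h.mem,
    fun x hx => ?_, fun w => h.exR _, fun h1 h2 => ?_, fun h1 => ?_, fun h1 => ?_, fun h1 h2 => ?_,
    fun {c g} hg w x h1 => ?_, fun h1 => ?_, fun h1 h2 => ?_⟩
  · rw [← h.ker, MonoidHom.comp_apply, MulEquiv.coe_toMonoidHom, MulEquiv.map_eq_one_iff]
  · obtain ⟨w, hw⟩ := h.exL x hx
    exact ⟨k • w, by rwa [inv_smul_smul]⟩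
  · rw [smul_add]; exact h.mul h1 h2
  · rw [smul_neg]; exact h.inv h1
  · rw [← h.zero h1, dbl_smul_iff]
  · exact h.ofZero (h1.smul _) h2
  · have := h.conj (g := k⁻¹ * g * k) ⟨hg.1, by rw [map_mul, map_mul, map_inv, ← hg.2]; simp [mul_assoc]⟩ h1
    rwa [mul_smul, smul_inv_smul, mul_smul] at this
  · rw [h.sq h1, sqNorm_smul]
  · rw [h.comm h1 h2, dt, dot_smul]

theorem card_C : Nat.card C = 2 ^ 25 * 4157776806543360000 := by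
  rw [← π.ker.card_mul_index, index_ker, MonoidHom.range_eq_top.2 h.surj, card_top, card_Co1,
    show π.ker = Q.subgroupOf _ from ext h.ker, Nat.card_congr (subgroupOfEquivOfLe h.le).toEquiv, h.card]

end M1

end

/-! ### The groups `C` and `N` -/

/-- the data of one side -/
structure Dat (G : Type u) [Group G] where
  /-- `2 ^ (1 + 24) . Co1` -/
  C : Subgroup G
  /-- `2 ^ (2 + 11 + 22) . (M24 × S3)` -/
  N : Subgroup G
  /-- `2 ^ (1 + 24)` -/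
  Q : Subgroup G
  /-- the central involution -/
  z : G
  /-- its neighbour -/
  v : G
  /-- conjugates `z` to `v` -/
  m : G
  /-- the map to `Co1` -/
  π : C →* Co1
  /-- the identification of `Q / z` -/
  R : leechLattice → G → Prop

namespace Dat
variable (D : Dat G)
/-- `Q_v` -/
abbrev Qv : Subgroup G := cj D.m D.Q
/-- `Q ∩ Q_v` -/
abbrev E : Subgroup G := D.Q ⊓ D.Qv
/-- `C(z, v)` -/
abbrev D0 : Subgroup G := D.C ⊓ centralizer {D.v}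
/-- the four-group -/
def V (x : G) : Prop := x = 1 ∨ x = D.z ∨ x = D.v ∨ x = D.z * D.v
/-- its involutions -/
def V3 (x : G) : Prop := x = D.z ∨ x = D.v ∨ x = D.z * D.v
/-- the class of `v` -/
def T4 (x : G) : Prop := ∃ c ∈ D.C, c * D.v * c⁻¹ = x
/-- the complement of `V` in `E` -/
abbrev E0 (a u : G) : Subgroup G := D.E ⊓ centralizer {a} ⊓ centralizer {u}
/-- the centraliser of the element of order 3 -/
abbrev L0 (a u : G) : Subgroup G := D.D0 ⊓ centralizer {a * u}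
end Dat

/-- the amalgam of `C` and `N` -/
structure Sd (D : Dat G) : Prop extends M1 D.C D.z D.Q D.π D.R where
  hv : D.R (e8 none) D.v
  QN : D.Q ≤ D.N
  DN : D.D0 ≤ D.N
  NC : ∀ n ∈ D.N, n * D.z = D.z * n → n ∈ D.C
  nV : ∀ n ∈ D.N, D.V3 (n * D.z * n⁻¹) ∧ D.V3 (n * D.v * n⁻¹)
  mN : D.m ∈ D.N
  mz : D.m * D.z * D.m⁻¹ = D.v

/-- (AM-SF) the structure of `Q ∩ Q_v` -/
structure SF (D : Dat G) : Prop where
  finN : Finite D.N
  cjQ : ∀ n ∈ D.N, n * D.z * n⁻¹ = D.v → cj n D.Q = D.Qv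
  QvN : D.Qv ≤ D.N
  nQv : ∀ d ∈ D.D0, ∀ x ∈ D.Qv, d * x * d⁻¹ ∈ D.Qv
  nD : ∀ n ∈ D.N, ∀ d ∈ D.D0, n * d * n⁻¹ ∈ D.D0
  zQv : D.z ∈ D.Qv
  vQv : D.v ∈ D.Qv
  sw : ∃ t ∈ D.N, t * D.z * t⁻¹ = D.v ∧ t * D.v * t⁻¹ = D.z
  gen : ∀ t ∈ D.N, t * D.z * t⁻¹ = D.v → D.N ≤ D.C ⊔ zpowers t
  conj_or : ∀ x ∈ D.Qv, ∀ y ∈ D.Qv, x * y * x⁻¹ = y ∨ x * y * x⁻¹ = D.v * y
  E_iff : ∀ {w x}, D.R w x → (x ∈ D.Qv ↔ Fr w)
  lift : ∀ c hc, ∃ b ∈ D.Qv ⊓ D.D0, Lf D.π b (eps c hc)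
  eps : ∀ b ∈ D.Qv ⊓ D.D0, ∃ c hc, Lf D.π b (eps c hc)
  EE : ∀ e ∈ D.E, e * e = 1 ∧ ∀ e' ∈ D.E, e * e' = e' * e
  cE : ∀ c ∈ D.C, (∀ e ∈ D.E, c * e = e * c) → c ∈ D.E
  D0N : ∀ {d g}, d ∈ D.D0 → Lf D.π d g → g ∈ Nsub
  ND0 : ∀ g ∈ Nsub, ∃ d ∈ D.D0, Lf D.π d g

/-- (AM-SG) transitivity, centralisers, perfectness -/
structure SG (D : Dat G) : Prop where
  TT : ∀ x ∈ D.E, ∀ x' ∈ D.E, D.T4 x → D.T4 x' → ¬ D.V x → ¬ D.V x' → ∃ d ∈ D.D0, d * x * d⁻¹ = x'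
  SW : ∀ x ∈ D.E, D.T4 x → ¬ D.V x → ∃ n ∈ D.C, n * D.v * n⁻¹ = x ∧ n * x * n⁻¹ = D.v
  CW : ∀ x ∈ D.E, ¬ D.V x → ∀ k ∈ D.C, (∀ d ∈ D.D0, d * x = x * d → k * d = d * k) → D.V k ∨ D.V (k * x)
  PF : ∀ K ≤ D.D0, (∀ a ∈ D.D0, ∀ b ∈ D.D0, a ∈ K ∨ b ∈ K ∨ a * b ∈ K) → D.D0 ≤ K
  idx : Odd (D.N.relIndex D.C)
  cjP : ∀ a ∈ D.Q, a * a = 1 → ∃ c ∈ D.C, c * a * c⁻¹ ∈ D.D0

/-- a frame: two involutions generating a complement `S₃` -/
structure Fm (D : Dat G) (a u : G) : Prop where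
  aQ : a ∈ D.Q
  aa : a * a = 1
  av : a * D.v * a⁻¹ = D.z * D.v
  uQ : u ∈ D.Qv
  uu : u * u = 1
  uz : u * D.z * u⁻¹ = D.z * D.v
  br : (a * u) ^ 3 = 1

/-- (AM-FM) the consequences -/
structure FF (D : Dat G) (a u : G) : Prop where
  yN : a * u ∈ D.N
  yz : a * u * D.z * (a * u)⁻¹ = D.v
  yv : a * u * D.v * (a * u)⁻¹ = D.z * D.v
  V0 : ∀ x ∈ D.E0 a u, D.V x → x = 1
  dec : ∀ e ∈ D.E, ∃ x, D.V x ∧ e * x ∈ D.E0 a u
  DL : ∀ d ∈ D.D0, ∃ p ∈ D.Q ⊓ D.D0, ∃ b ∈ D.Qv ⊓ D.D0, ∃ l ∈ D.L0 a u, d = p * b * l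
  La : ∀ l ∈ D.L0 a u, l * a * l⁻¹ * a⁻¹ ∈ D.E0 a u ∧ ∀ e ∈ D.E0 a u, l * e * l⁻¹ ∈ D.E0 a u
  Lc : ∀ p ∈ D.Q ⊓ D.D0, ∀ b ∈ D.Qv ⊓ D.D0, (∀ e ∈ D.E0 a u, p * b * e * (p * b)⁻¹ ∈ D.E0 a u) →
    p * b * a * (p * b)⁻¹ * a⁻¹ ∈ D.E0 a u → p * b ∈ D.E0 a u ∨ p * b * D.z ∈ D.E0 a u

/-- a triangle closes -/
def TRI (D : Dat G) : Prop := ∃ t ∈ D.N, ∃ c ∈ D.C, ∃ c' ∈ D.C, t * D.z * t⁻¹ = D.v ∧ t * D.v * t⁻¹ = D.z ∧
  c * D.v * c⁻¹ = t * (c' * D.v * c'⁻¹) * t⁻¹ ∧ ¬ D.V (c * D.v * c⁻¹) ∧ (c * t)⁻¹ * (t * c' * t) ∈ D.C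

/-! ### Two sides -/

variable {G' : Type v} [Group G']

/-- an isomorphism `Q ≃ Q'` over the identity of the lattice -/
structure Th (D : Dat G) (D' : Dat G') (θ : G → G') : Prop where
  mul : ∀ {x y}, x ∈ D.Q → y ∈ D.Q → θ (x * y) = θ x * θ y
  R : ∀ {w x}, D.R w x → D'.R w (θ x)
  inj : ∀ {x}, x ∈ D.Q → θ x = 1 → x = 1
  sur : ∀ x' ∈ D'.Q, ∃ x ∈ D.Q, θ x = x'
  hz : θ D.z = D'.z
  hv : θ D.v = D'.v

/-- the compatible pairs -/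
def Mr (D : Dat G) (D' : Dat G') (θ : G → G') : Subgroup (G × G') where
  carrier := {x | x.1 ∈ D.C ⊓ normalizer (D.Q : Set G) ∧ x.2 ∈ D'.C ∧
    ∀ q ∈ D.Q, θ (x.1 * q * x.1⁻¹) = x.2 * θ q * x.2⁻¹}
  one_mem' := ⟨one_mem _, one_mem _, by simp⟩
  mul_mem' := fun {a b} ha hb => ⟨mul_mem ha.1 hb.1, mul_mem ha.2.1 hb.2.1, fun q hq => by
    have := ha.2.2 _ (conj_mem hb.1.2 hq)
    rw [hb.2.2 q hq] at this
    simpa [mul_assoc] using this⟩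
  inv_mem' := fun {a} ha => ⟨inv_mem ha.1, inv_mem ha.2.1, fun q hq => by
    have := ha.2.2 _ (conj_mem' ha.1.2 hq)
    simp only [mul_assoc, mul_inv_cancel_left, mul_inv_cancel, mul_one] at this
    simp [this, mul_assoc]⟩

theorem Sd.mem_Mr {D : Dat G} (h : Sd D) {D' : Dat G'} {θ : G → G'} {x : G × G'} : x ∈ Mr D D' θ ↔
    x.1 ∈ D.C ∧ x.2 ∈ D'.C ∧ ∀ q ∈ D.Q, θ (x.1 * q * x.1⁻¹) = x.2 * θ q * x.2⁻¹ :=
  and_congr_left' ⟨fun k => k.1, fun k => ⟨k, mem_normalizer_iff.2 fun q => ⟨h.norm k, fun e => by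
    simpa [mul_assoc] using h.norm (inv_mem k) e⟩⟩⟩

/-- (AM-TH) the compatible pairs form a double cover of both sides -/
structure TM (D : Dat G) (D' : Dat G') (θ : G → G') : Prop where
  exR : ∀ c ∈ D.C, ∃ c', (c, c') ∈ Mr D D' θ
  lf : ∀ x ∈ Mr D D' θ, ∀ {g}, Lf D.π x.1 g → Lf D'.π x.2 g
  k1 : ∀ x ∈ Mr D D' θ, x.1 = 1 → x.2 = 1 ∨ x.2 = D'.z
  k2 : ∀ x ∈ Mr D D' θ, x.2 = 1 → x.1 = 1 ∨ x.1 = D.z
  q : ∀ x ∈ D.Q, (x, θ x) ∈ Mr D D' θ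
  z1 : ((1 : G), D'.z) ∈ Mr D D' θ

/-- everything about two sides with compatible frames -/
structure Two (D : Dat G) (D' : Dat G') (θ : G → G') (a u : G) (a' u' : G') : Prop where
  sd : Sd D
  sd' : Sd D'
  sf : SF D
  sf' : SF D'
  th : Th D D' θ
  tm : TM D D' θ
  fm : Fm D a u
  fm' : Fm D' a' u'
  ff : FF D a u
  ff' : FF D' a' u'
  ha : θ a = a'
  hE : ∀ e ∈ D.E, e ∈ D.E0 a u ↔ θ e ∈ D'.E0 a' u'

/-- (AM-GA1) -/
def G1 (D : Dat G) (D' : Dat G') (θ : G → G') (a u : G) (a' u' : G') : Prop :=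
  ∀ l ∈ D.L0 a u, ∃ l' ∈ D'.L0 a' u', (l, l') ∈ Mr D D' θ

/-- (AM-GA2) -/
def G2 (D : Dat G) (D' : Dat G') (θ : G → G') (a u : G) (a' u' : G') : Prop :=
  ∀ p ∈ D.Q ⊓ D.D0, (a * u * p * (a * u)⁻¹, a' * u' * θ p * (a' * u')⁻¹) ∈ Mr D D' θ

/-- the isomorphism of the amalgams, as a graph -/
structure Iso (D : Dat G) (D' : Dat G') (K : Subgroup (G × G')) (t : G × G') : Prop where
  mem : ∀ x ∈ K, x.1 ∈ D.C ∧ x.2 ∈ D'.C
  exR : ∀ c ∈ D.C, ∃ c', (c, c') ∈ K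
  exL : ∀ c' ∈ D'.C, ∃ c, (c, c') ∈ K
  k1 : ∀ x ∈ K, x.1 = 1 → x = 1
  k2 : ∀ x ∈ K, x.2 = 1 → x = 1
  zz : (D.z, D'.z) ∈ K
  vv : (D.v, D'.v) ∈ K
  hQ : ∀ x ∈ K, x.1 ∈ D.Q ↔ x.2 ∈ D'.Q
  t1 : t.1 ∈ D.N
  t2 : t.2 ∈ D'.N
  tt : t * t = 1
  tz : t * (D.z, D'.z) * t⁻¹ = (D.v, D'.v)
  tD : ∀ x ∈ K, x.1 ∈ D.D0 → t * x * t⁻¹ ∈ K
  br : ∃ a ∈ K, a.1 ∈ D.Q ∧ a * a = 1 ∧ a * (D.v, D'.v) * a⁻¹ = (D.z * D.v, D'.z * D'.v) ∧ (a * t) ^ 3 = 1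

/-- the triangles close in the product -/
def T3 (D' : Dat G') (K : Subgroup (G × G')) (t : G × G') : Prop := ∀ c ∈ K, c.2 * D'.v * c.2⁻¹ ∈ D'.Qv →
  c.2 * D'.v * c.2⁻¹ ≠ D'.v → ∃ c₁ ∈ K, ∃ c₂ ∈ K, t * c * t = c₁ * t * c₂

/-! ### The hypotheses on `N` and `L` -/

/-- `N / O₂(N) = S₃ × M24` -/
structure NS (C N : Subgroup G) (ρ : N →* Equiv.Perm (Fin 3) × M24) (i : Fin 3) : Prop where
  fin : Finite N
  surj : Function.Surjective ρ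
  two : IsPGroup 2 ρ.ker
  mem : ∀ n : N, (n : G) ∈ C ↔ (ρ n).1 i = i

/-- `L₃(2)` -/
abbrev L32 : Type := Matrix.SpecialLinearGroup (Fin 3) (ZMod 2)

/-- the quotient `L₃(2)` of `L` -/
structure LS (C N L : Subgroup G) (ψ : L →* L32) : Prop where
  fin : Finite L
  surj : Function.Surjective ψ
  ker : ∀ l : L, ψ l = 1 → (l : G) ∈ C ∧ (l : G) ∈ N
  c27 : 27 ∣ Nat.card ψ.ker
  iN : N.relIndex L = 7
  iC : C.relIndex L = 7
  iNC : (N ⊓ C).relIndex L = 21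

/-- the element of order 3 -/
structure YS (C N L Q : Subgroup G) (ρ : N →* Equiv.Perm (Fin 3) × M24) (y : N) : Prop where
  yL : (y : G) ∈ L
  ord : orderOf y = 3
  nC : (y : G) ∉ C
  r2 : (ρ y).2 = 1
  y1 : ∃ r : N, ρ r = 1 ∧ y * r ≠ r * y
  y2 : ∃ r : N, ρ r = 1 ∧ (r : G) ∉ Q

/-- the image of `N ∩ C` is the standard `2 ^ 11 : M24` -/
structure ND {C N : Subgroup G} (π : C →* Co1) (ρ : N →* Equiv.Perm (Fin 3) × M24) : Prop where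
  piD : ∀ g : Co0, g ∈ Nsub ↔ ∃ c ∈ N, Lf π c g
  piO : ∀ (n : N) (g : Co0), Lf π n g → ((ρ n).2 = 1 ↔ g ∈ Eps)

/-- all of it -/
structure Pre (C N L Q : Subgroup G) (z : G) (π : C →* Co1) (R : leechLattice → G → Prop)
    (ρ : N →* Equiv.Perm (Fin 3) × M24) (i : Fin 3) (y : N) : Prop where
  m1 : M1 C z Q π R
  ns : NS C N ρ i
  ys : YS C N L Q ρ y
  nd : ND π ρ

/-- (AM-C1A) elements of `O₂(N)` that commute with the elements of order 23 -/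
def KJ {N : Subgroup G} (R : leechLattice → G → Prop) (ρ : N →* Equiv.Perm (Fin 3) × M24) : Prop :=
  ∀ x : N, ρ x = 1 → (∀ g : N, orderOf g = 23 → g * x = x * g) → ∃ w, R w x ∧ E1 w

/-- (AM-C1A) normal subgroups that cover `S₃` -/
def NK {N : Subgroup G} (ρ : N →* Equiv.Perm (Fin 3) × M24) (y : N) : Prop :=
  ∀ K : Subgroup N, K.Normal → ∀ b ∈ K, (ρ b).2 = 1 → ρ b ≠ 1 → y ∈ K

end

/-! ### The steps -/

/-- (AM-M1) -/
def M1Ex : Prop := ∀ (G : Type u) [Group G] (C : Subgroup G), IsExtraspecial 2 ((pCore 2 C).map C.subtype) →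
  Nat.card ((pCore 2 C).map C.subtype) = 2 ^ 25 →
  C ⊓ centralizer (((pCore 2 C).map C.subtype : Subgroup G) : Set G) ≤ (pCore 2 C).map C.subtype →
  IsoCo1 (C ⧸ pCore 2 C) → ∃ z π R, M1 C z ((pCore 2 C).map C.subtype) π R

/-- (AM-M1) -/
def HSd : Prop := ∀ (H : Type) [Group H] [Finite H] (z : H) (Q : Subgroup H) (π : centralizer ({z} : Set H) →* Co1)
  (R : leechLattice → H → Prop), MT z Q π R → ∃ N v m, Sd ⟨centralizer {z}, N, Q, z, v, m, π, R⟩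

/-- (AM-NL) -/
def NSEx : Prop := ∀ (G : Type u) [Group G] (C N : Subgroup G), Finite C →
  Nonempty (N ⧸ pCore 2 N ≃* Equiv.Perm (Fin 3) × M24) → C.relIndex N = 3 → ∃ ρ i, NS C N ρ i

/-- (AM-NL) -/
def LSEx : Prop := ∀ (G : Type u) [Group G] (C N L : Subgroup G) (A B : Subgroup (L ⧸ pCore 2 L)), Finite C →
  A.Normal → B.Normal → A ⊓ B = ⊥ → A ⊔ B = ⊤ → Nonempty (A ≃* L32) → Nat.card B = 2160 → N.relIndex L = 7 →
  C.relIndex L = 7 → (N ⊓ C).relIndex L = 21 → (∃ ψ, LS C N L ψ) ∧ L ≤ C ⊔ N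

/-- (AM-LA) -/
def YSEx : Prop := ∀ (G : Type u) [Group G] (C N L Q : Subgroup G) (ρ : N →* Equiv.Perm (Fin 3) × M24) (i : Fin 3)
  (ψ : L →* L32), NS C N ρ i → LS C N L ψ → Q ≤ C → IsPGroup 2 Q → (∀ c ∈ C, ∀ x ∈ Q, c * x * c⁻¹ ∈ Q) →
  ∃ y, YS C N L Q ρ y

/-- (AM-LA) -/
def TREx : Prop := ∀ (G : Type u) [Group G] (D : Dat G) (L : Subgroup G) (ψ : L →* L32), Sd D → LS D.C D.N L ψ →
  D.m ∈ L → orderOf D.m = 3 → TRI D

/-- (AM-ND) -/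
def NDEx : Prop := ∀ (G : Type u) [Group G] (C N L Q : Subgroup G) (z : G) (π : C →* Co1)
  (R : leechLattice → G → Prop) (ρ : N →* Equiv.Perm (Fin 3) × M24) (i : Fin 3) (y : N), M1 C z Q π R → NS C N ρ i →
  YS C N L Q ρ y → ∃ π' R', Pre C N L Q z π' R' ρ i y

/-- (AM-C1A) -/
def C1A : Prop := ∀ (G : Type u) [Group G] (C N L Q : Subgroup G) (z : G) (π : C →* Co1)
  (R : leechLattice → G → Prop) (ρ : N →* Equiv.Perm (Fin 3) × M24) (i : Fin 3) (y : N), Pre C N L Q z π R ρ i y →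
  KJ R ρ ∧ NK ρ y ∧ Q ≤ N ∧ ∃ b : N, (b : G) ∈ Q ∧ ρ b ≠ 1

/-- (AM-C1B) -/
def C1B : Prop := ∀ (G : Type u) [Group G] (C N L Q : Subgroup G) (z : G) (π : C →* Co1)
  (R : leechLattice → G → Prop) (ρ : N →* Equiv.Perm (Fin 3) × M24) (i : Fin 3) (y : N), Pre C N L Q z π R ρ i y →
  KJ R ρ → NK ρ y → Q ≤ N → (∃ b : N, (b : G) ∈ Q ∧ ρ b ≠ 1) → ∃ v, Sd ⟨C, N, Q, z, v, y, π, R⟩

/-- (AM-SF) -/
def SFEx : Prop := ∀ (G : Type u) [Group G] (D : Dat G), Sd D → SF D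

/-- (AM-SG) -/
def SGEx : Prop := ∀ (G : Type u) [Group G] (D : Dat G), Sd D → SF D → SG D

/-- (AM-FM) -/
def FmEx : Prop := ∀ (G : Type u) [Group G] (D : Dat G), Sd D → SF D →
  (∃ a ∈ D.Q, a * a = 1 ∧ a * D.v * a⁻¹ = D.z * D.v) ∧
  (∀ a ∈ D.Q, a * a = 1 → a * D.v * a⁻¹ = D.z * D.v → ∀ F ≤ D.E ⊓ centralizer {a}, D.z ∉ F →
    ∃ u, Fm D a u ∧ F ≤ centralizer {u}) ∧ ∀ a u, Fm D a u → FF D a u

/-- (AM-TH) -/
def ThEx : Prop := ∀ (G : Type u) [Group G] (G' : Type v) [Group G'] (D : Dat G) (D' : Dat G'), Sd D → Sd D' →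
  ∃ θ, Th D D' θ ∧ TM D D' θ

/-- (AM-GA1) -/
def GA1 : Prop := ∀ (G : Type u) [Group G] (G' : Type v) [Group G'] (D : Dat G) (D' : Dat G'), Sd D → Sd D' →
  ∃ θ a u a' u', Two D D' θ a u a' u' ∧ G1 D D' θ a u a' u'

/-- (AM-GA2) -/
def GA2 : Prop := ∀ (G : Type u) [Group G] (G' : Type v) [Group G'] (D : Dat G) (D' : Dat G') (θ : G → G') (a u : G)
  (a' u' : G'), Two D D' θ a u a' u' → G1 D D' θ a u a' u' → G2 D D' θ a u a' u'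

/-- (AM-GA3) -/
def GA3 : Prop := ∀ (G : Type u) [Group G] (G' : Type v) [Group G'] (D : Dat G) (D' : Dat G') (θ : G → G') (a u : G)
  (a' u' : G'), Two D D' θ a u a' u' → SG D → G1 D D' θ a u a' u' → G2 D D' θ a u a' u' → ∃ K t, Iso D D' K t

/-- (AM-U3) -/
def U3 : Prop := ∀ (G : Type u) [Group G] (G' : Type v) [Group G'] (D : Dat G) (D' : Dat G') (K : Subgroup (G × G'))
  (t : G × G'), Sd D → Sd D' → SF D → SF D' → SG D → centralizer {D'.z} ≤ D'.C → Iso D D' K t → TRI D → T3 D' K t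

/-- (AM-CV) -/
def CVT : Prop := ∀ (G : Type u) [Group G] (H : Type) [Group H] [Finite H] (z : H) (Q : Subgroup H)
  (π : centralizer ({z} : Set H) →* Co1) (R : leechLattice → H → Prop) (s s1 : H) (N : Subgroup H) (v m : H)
  (D : Dat G) (K : Subgroup (G × H)) (t : G × H), GD z Q π R s s1 → Sd ⟨centralizer {z}, N, Q, z, v, m, π, R⟩ →
  SF ⟨centralizer {z}, N, Q, z, v, m, π, R⟩ → Iso D ⟨centralizer {z}, N, Q, z, v, m, π, R⟩ K t →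
  T3 ⟨centralizer {z}, N, Q, z, v, m, π, R⟩ K t → D.C ⊔ zpowers t.1 = ⊤ →
  (∀ (U W : Type) [Group U] [MulAction U W] (φ : U →* H) (p : W → H) (adj : W → W → Prop), CV z Q φ p adj →
    Function.Bijective φ) → ∃ f : H →* G, Function.Surjective f

end CL.AM
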