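/-
The Monster amalgam: paths of length at most five over closed paths are closed.
-/
import Cfsg.Agent.Spor.Am0
import Cfsg.Agent.Spor.InHMu

set_option autoImplicit false
set_option linter.unusedSectionVars false

namespace CL.AM

open CL.IN Relation

namespace C5

variable {P : Type} [Fintype P] {C A : P → P → Prop} {th : P → P → P} {W : Type} {adj : W → W → Prop} {q : W → P}

theorem tri (h : MS C A th) {y x x' : P} (hx : C y x) (hx' : C y x') :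
    x = x' ∨ C x x' ∨ A x x' ∨ ∀ y', C y' x → C y' x' → y' = y := by
  obtain ⟨F, S, r, φ, l⟩ := h.muL y
  have k := l.dp.le _ (l.mem hx) _ (l.mem hx')
  obtain e | e | e | e : r (φ x) (φ x') = 0 ∨ r (φ x) (φ x') = 1 ∨ r (φ x) (φ x') = 2 ∨ r (φ x) (φ x') = 3 := by
    omega
  · rcases (l.eq hx hx').1 ((l.dp.zero _ (l.mem hx) _ (l.mem hx')).1 e) with e | e
    · exact Or.inl e.symm
    · exact Or.inr (Or.inl (by rw [e, h.th_comm hx]; exact h.th_C (h.symm hx)))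
  · exact Or.inr (Or.inl ((l.one hx hx').1 e).1)
  · exact Or.inr (Or.inr (Or.inl ((l.two hx hx').1 e)))
  · exact Or.inr (Or.inr (Or.inr (l.three hx hx' e)))

variable (h : MS C A th) (c : Cov C adj q) {v0 v1 v2 v3 v4 v5 : W}
include h c

theorem p1 (a1 : adj v0 v1) (e : q v0 = q v1) : v0 = v1 := absurd (e ▸ c.map a1) (h.irr _)

theorem p2 (a1 : adj v0 v1) (a2 : adj v1 v2) (e : q v0 = q v2) : v0 = v2 := c.inj (c.symm a1) a2 e

theorem p3 (a1 : adj v0 v1) (a2 : adj v1 v2) (a3 : adj v2 v3) (e : q v0 = q v3) : v0 = v3 :=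
  p2 h c (c.tri (c.symm a1) a2 (e ▸ h.symm (c.map a3))) a3 e

theorem p4 (a1 : adj v0 v1) (a2 : adj v1 v2) (a3 : adj v2 v3) (a4 : adj v3 v4) (e : q v0 = q v4) : v0 = v4 := by
  classical
  have c30 : C (q v3) (q v0) := e ▸ c.map a4
  have c32 : C (q v3) (q v2) := c.map (c.symm a3)
  have c10 : C (q v1) (q v0) := c.map (c.symm a1)
  have c12 : C (q v1) (q v2) := c.map a2
  rcases tri h c10 c12 with k | k | k | k
  · obtain rfl := p2 h c a1 a2 k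
    exact p2 h c a3 a4 e
  · exact p3 h c (c.tri (c.symm a1) a2 k) a3 a4 e
  · have step : ∀ {w : W} {b : P}, adj v0 w → adj w v2 → C (q w) b → C b (q v0) → C b (q v2) →
        ∃ w', adj v0 w' ∧ adj w' v2 ∧ q w' = b := by
      intro w b w0 w2 k1 k2 k3
      obtain ⟨w', h1, rfl⟩ := c.surj v0 b (h.symm k2)
      exact ⟨w', h1, c.tri (c.tri w0 h1 k1) w2 k3, rfl⟩
    have good : ∃ w', adj v0 w' ∧ adj w' v2 ∧ q w' = q v3 := by
      by_cases n : q v3 = q v1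
      · exact ⟨v1, a1, a2, n.symm⟩
      by_cases n' : C (q v1) (q v3)
      · exact step a1 a2 n' c30 c32
      have t := h.mu_five k c10 c12 c30 c32 n n'
      obtain ⟨b, hb⟩ := Finset.card_pos.1 (lt_of_lt_of_eq (by norm_num) t.symm)
      simp only [Finset.mem_filter, Finset.mem_univ, true_and] at hb
      obtain ⟨w, w0, w2, rfl⟩ := step a1 a2 hb.1.1 hb.1.2.1 hb.1.2.2
      exact step w0 w2 hb.2 c30 c32
    obtain ⟨w, w0, w2, e'⟩ := good
    obtain rfl := p2 h c w2 a3 e'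
    exact p2 h c w0 a4 e
  · obtain rfl := p2 h c a2 a3 (k _ c30 c32).symm
    exact p2 h c a1 a4 e

theorem p5a (hP : ∀ t y x, A t y → C y x → C x t ∨ ∃ b, C b t ∧ C b x ∧ C b y) (a1 : adj v0 v1) (a2 : adj v1 v2)
    (a3 : adj v2 v3) (a4 : adj v3 v4) (a5 : adj v4 v5) (e : q v0 = q v5) (n : v0 ≠ v5) : Sp C A (q v0) (q v2) := by
  refine ⟨fun k => ?_, fun k => ?_, fun k => ?_⟩
  · obtain rfl := p2 h c a1 a2 k
    exact n (p3 h c a3 a4 a5 e)
  · exact n (p4 h c (c.tri (c.symm a1) a2 k) a3 a4 a5 e)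
  · rcases hP _ _ _ k (c.map a3) with k' | ⟨b, b0, b3, b2⟩
    · obtain ⟨w, h1, h2⟩ := c.surj v3 _ k'
      obtain rfl := p4 h c a1 a2 a3 h1 h2.symm
      exact n (p3 h c (c.symm h1) a4 a5 e)
    · obtain ⟨u, u2, rfl⟩ := c.surj v2 b (h.symm b2)
      obtain ⟨w, h1, h2⟩ := c.surj u _ b0
      obtain rfl := p4 h c a1 a2 u2 h1 h2.symm
      exact n (p4 h c (c.symm h1) (c.tri u2 a3 b3) a4 a5 e)

theorem rot (a1 : adj v0 v1) (e : q v0 = q v5) (n : v0 ≠ v5) : ∃ v6, adj v5 v6 ∧ q v1 = q v6 ∧ v1 ≠ v6 := by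
  obtain ⟨w, h1, h2⟩ := c.surj v5 (q v1) (e ▸ c.map a1)
  exact ⟨w, h1, h2.symm, fun k => n (p2 h c a1 (k ▸ c.symm h1) e)⟩

theorem p5 (hP : ∀ t y x, A t y → C y x → C x t ∨ ∃ b, C b t ∧ C b x ∧ C b y) (h5 : NP5 C A) (a1 : adj v0 v1)
    (a2 : adj v1 v2) (a3 : adj v2 v3) (a4 : adj v3 v4) (a5 : adj v4 v5) (e : q v0 = q v5) : v0 = v5 := by
  by_contra n
  obtain ⟨v6, a6, e1, n1⟩ := rot h c a1 e n
  obtain ⟨v7, a7, e2, n2⟩ := rot h c a2 e1 n1
  obtain ⟨v8, a8, e3, n3⟩ := rot h c a3 e2 n2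
  obtain ⟨v9, a9, e4, n4⟩ := rot h c a4 e3 n3
  exact h5 _ _ _ _ _ (c.map a1) (c.map a2) (c.map a3) (c.map a4) (e ▸ c.map a5) (p5a h c hP a1 a2 a3 a4 a5 e n)
    (p5a h c hP a2 a3 a4 a5 a6 e1 n1) (p5a h c hP a3 a4 a5 a6 a7 e2 n2) (e ▸ p5a h c hP a4 a5 a6 a7 a8 e3 n3)
    (e1 ▸ p5a h c hP a5 a6 a7 a8 a9 e4 n4)

theorem r1 (a1 : ReflGen adj v0 v1) (e : q v0 = q v1) : v0 = v1 := by
  cases a1 with
  | refl => rfl
  | single a1 => exact p1 h c a1 e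

theorem r2 (a1 : ReflGen adj v0 v1) (a2 : ReflGen adj v1 v2) (e : q v0 = q v2) : v0 = v2 := by
  rcases (reflGen_iff _ _ _).1 a1 with rfl | b1
  · exact r1 h c a2 e
  rcases (reflGen_iff _ _ _).1 a2 with rfl | b2
  · exact r1 h c a1 e
  exact p2 h c b1 b2 e

theorem r3 (a1 : ReflGen adj v0 v1) (a2 : ReflGen adj v1 v2) (a3 : ReflGen adj v2 v3) (e : q v0 = q v3) :
    v0 = v3 := by
  rcases (reflGen_iff _ _ _).1 a1 with rfl | b1
  · exact r2 h c a2 a3 e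
  rcases (reflGen_iff _ _ _).1 a2 with rfl | b2
  · exact r2 h c a1 a3 e
  rcases (reflGen_iff _ _ _).1 a3 with rfl | b3
  · exact r2 h c a1 a2 e
  exact p3 h c b1 b2 b3 e

theorem r4 (a1 : ReflGen adj v0 v1) (a2 : ReflGen adj v1 v2) (a3 : ReflGen adj v2 v3) (a4 : ReflGen adj v3 v4)
    (e : q v0 = q v4) : v0 = v4 := by
  rcases (reflGen_iff _ _ _).1 a1 with rfl | b1
  · exact r3 h c a2 a3 a4 e
  rcases (reflGen_iff _ _ _).1 a2 with rfl | b2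
  · exact r3 h c a1 a3 a4 e
  rcases (reflGen_iff _ _ _).1 a3 with rfl | b3
  · exact r3 h c a1 a2 a4 e
  rcases (reflGen_iff _ _ _).1 a4 with rfl | b4
  · exact r3 h c a1 a2 a3 e
  exact p4 h c b1 b2 b3 b4 e

end C5

open C5 in
theorem cl5 (hP : LemP) : Cl5 := by
  intro P _ C A th h h5 W adj q c v0 v1 v2 v3 v4 v5 a1 a2 a3 a4 a5 e
  have := Fintype.ofFinite P
  rcases (reflGen_iff _ _ _).1 a1 with rfl | b1
  · exact r4 h c a2 a3 a4 a5 e
  rcases (reflGen_iff _ _ _).1 a2 with rfl | b2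
  · exact r4 h c a1 a3 a4 a5 e
  rcases (reflGen_iff _ _ _).1 a3 with rfl | b3
  · exact r4 h c a1 a2 a4 a5 e
  rcases (reflGen_iff _ _ _).1 a4 with rfl | b4
  · exact r4 h c a1 a2 a3 a5 e
  rcases (reflGen_iff _ _ _).1 a5 with rfl | b5
  · exact r4 h c a1 a2 a3 a4 e
  exact p5 h c (hP P C A th h) h5 b1 b2 b3 b4 b5 e

end CL.AM
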