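/-
The Monster amalgam: frames.
-/
import Cfsg.Agent.Spor.Am1

set_option autoImplicit false
set_option linter.unusedSectionVars false

namespace CL.AM

open Cfsg Cfsg.Spor Subgroup CL.Mj CL.Even CL.Spor.Leech CL.Spor.Mon CL.IN
open scoped Pointwise

universe u v

namespace FM

variable {G : Type u} [Group G] {D : Dat G} {a u x e : G}

theorem mc {x y : G} : x ∈ centralizer ({y} : Set G) ↔ y * x * y⁻¹ = x := by
  rw [mem_centralizer_singleton_iff, mul_inv_eq_iff_eq_mul, eq_comm]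

theorem cm (a x y : G) : a * (x * y) * a⁻¹ = a * x * a⁻¹ * (a * y * a⁻¹) := by group

theorem nd8 : ¬ Dbl (e8 none) := not_dbl_of_short (by rw [sqNorm_e8]) (by rw [sqNorm_e8]; norm_num)

section
variable (h : Sd D)
include h

theorem vv : D.v * D.v = 1 := by
  rw [← h.mz, ← cm, h.zz]; group

theorem vQ : D.v ∈ D.Q := h.mem h.hv
theorem vz : D.v * D.z = D.z * D.v := h.cz _ (h.le (vQ h))
theorem v1 : D.v ≠ 1 := fun k => nd8 ((h.zero h.hv).2 (.inl k))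
theorem vnz : D.v ≠ D.z := fun k => nd8 ((h.zero h.hv).2 (.inr k))
theorem cz' (hx : x ∈ D.C) : x * D.z * x⁻¹ = D.z := by rw [h.cz x hx, mul_inv_cancel_right]

theorem cv (hx : x ∈ D.Qv) : x * D.v = D.v * x := by
  have := h.cz _ (h.le (mem_cj.1 hx))
  rw [← h.mz]
  calc x * (D.m * D.z * D.m⁻¹) = D.m * (D.m⁻¹ * x * D.m * D.z) * D.m⁻¹ := by group
    _ = _ := by rw [this]; group

theorem cv' (hx : x ∈ D.Qv) : x * D.v * x⁻¹ = D.v := by rw [cv h hx, mul_inv_cancel_right]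

theorem ED (he : e ∈ D.E) : e ∈ D.D0 := ⟨h.le he.1, mem_centralizer_singleton_iff.2 (cv h he.2)⟩

theorem zvz : D.z * (D.z * D.v) = D.v := by rw [← mul_assoc, h.zz, one_mul]

/-- elements that commute with `z` and `v` -/
theorem cV {c : G} (h1 : c * D.z = D.z * c) (h2 : c * D.v = D.v * c) (hx : D.V x) : c * x = x * c := by
  rcases hx with rfl | rfl | rfl | rfl
  exacts [by simp, h1, h2, by rw [← mul_assoc, h1, mul_assoc, h2, mul_assoc]]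

variable (f : SF D)
include f

theorem zE : D.z ∈ D.E := ⟨h.zQ, f.zQv⟩
theorem vE : D.v ∈ D.E := ⟨vQ h, f.vQv⟩

theorem dec (aQ : a ∈ D.Q) (av : a * D.v * a⁻¹ = D.z * D.v) (uQ : u ∈ D.Qv) (uz : u * D.z * u⁻¹ = D.z * D.v)
    (he : e ∈ D.E) : ∃ x, D.V x ∧ e * x ∈ D.E0 a u := by
  have az := cz' h (h.le aQ)
  have uv := cv' h uQ
  have ez : e * D.z = D.z * e := h.cz _ (h.le he.1)
  have ev : e * D.v = D.v * e := cv h he.2
  have k1 : D.z * e * (D.z * D.v) = e * D.v := by rw [← ez, mul_assoc, zvz h]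
  have k2 : D.v * e * (D.z * D.v) = e * D.z := by rw [← ev, mul_assoc, ← vz h, ← mul_assoc D.v, vv h, one_mul]
  rcases h.conj_or aQ he.1 with h1 | h1 <;> rcases f.conj_or u uQ e he.2 with h2 | h2
  · exact ⟨1, .inl rfl, by rw [mul_one]; exact ⟨⟨he, mc.2 h1⟩, mc.2 h2⟩⟩
  · exact ⟨D.z, .inr (.inl rfl), ⟨mul_mem he (zE h f), mc.2 (by rw [cm, h1, az])⟩, mc.2 (by rw [cm, h2, uz, k2])⟩
  · exact ⟨D.v, .inr (.inr (.inl rfl)), ⟨mul_mem he (vE h f), mc.2 (by rw [cm, h1, av, k1])⟩,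
      mc.2 (by rw [cm, h2, uv])⟩
  · refine ⟨D.z * D.v, .inr (.inr (.inr rfl)), ⟨mul_mem he (mul_mem (zE h f) (vE h f)), mc.2 ?_⟩, mc.2 ?_⟩
    · rw [cm, cm, h1, az, av, zvz h, ← ez, mul_assoc]
    · rw [cm, cm, h2, uz, uv, ← mul_assoc, k2, mul_assoc]

/-- an element that centralises `z`, `v` and `E0` lies in `E` -/
theorem toE (aQ : a ∈ D.Q) (av : a * D.v * a⁻¹ = D.z * D.v) (uQ : u ∈ D.Qv) (uz : u * D.z * u⁻¹ = D.z * D.v)
    {c : G} (hc : c ∈ D.D0) (k : ∀ e ∈ D.E0 a u, c * e = e * c) : c ∈ D.E := by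
  refine f.cE c hc.1 fun e he => ?_
  obtain ⟨x, hx, hx'⟩ := dec h f aQ av uQ uz he
  have h1 := k _ hx'
  have h2 := cV h (h.cz c hc.1) (mem_centralizer_singleton_iff.1 hc.2) hx
  rw [mul_assoc, ← h2, ← mul_assoc, ← mul_assoc] at h1
  exact mul_right_cancel h1

omit f in
theorem yz (aQ : a ∈ D.Q) (av : a * D.v * a⁻¹ = D.z * D.v) (uz : u * D.z * u⁻¹ = D.z * D.v) :
    a * u * D.z * (a * u)⁻¹ = D.v := by
  calc _ = a * (u * D.z * u⁻¹) * a⁻¹ := by group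
    _ = _ := by rw [uz, cm, cz' h (h.le aQ), av, zvz h]

omit f in
theorem yv (av : a * D.v * a⁻¹ = D.z * D.v) (uQ : u ∈ D.Qv) : a * u * D.v * (a * u)⁻¹ = D.z * D.v := by
  calc _ = a * (u * D.v * u⁻¹) * a⁻¹ := by group
    _ = _ := by rw [cv' h uQ, av]

omit f in
theorem part1 : ∃ a ∈ D.Q, a * a = 1 ∧ a * D.v * a⁻¹ = D.z * D.v := by
  obtain ⟨a, ha⟩ := h.exR ⟨vecW, vecW_mem⟩
  refine ⟨a, h.mem ha, (h.sq ha).2 ?_, h.conj_of_not ha h.hv ?_⟩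
  · rw [show sqNorm ((⟨vecW, vecW_mem⟩ : leechLattice) : GolayPt → ℤ) = 32 by decide +kernel]
  · simp [dt, dotInt, coe_e8, Pi.single_apply, vecW]

theorem part2 (aQ : a ∈ D.Q) (aa : a * a = 1) (av : a * D.v * a⁻¹ = D.z * D.v) {F : Subgroup G}
    (hF : F ≤ D.E ⊓ centralizer {a}) (zF : D.z ∉ F) : ∃ u, Fm D a u ∧ F ≤ centralizer {u} := by
  obtain ⟨t, tN, tz, tv⟩ := f.sw
  have m1 : ∀ {x}, x ∈ D.Qv ↔ t⁻¹ * x * t ∈ D.Q := by intro x; rw [← f.cjQ t tN tz, mem_cj]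
  have tz' : t⁻¹ * D.z * t⁻¹⁻¹ = D.v := by rw [← tv]; group
  have m2 : ∀ {x}, x ∈ D.Qv ↔ t * x * t⁻¹ ∈ D.Q := by intro x; rw [← f.cjQ _ (inv_mem tN) tz', mem_cj, inv_inv]
  let M : AddSubgroup leechLattice :=
    { carrier := {w | ∃ x, t * x * t⁻¹ ∈ F ∧ D.R w x}
      add_mem' := fun ⟨x, h1, h2⟩ ⟨y, h3, h4⟩ => ⟨x * y, by rw [cm]; exact mul_mem h1 h3, h.mul h2 h4⟩
      zero_mem' := ⟨1, by simp, h.R_one⟩
      neg_mem' := fun ⟨x, h1, h2⟩ => ⟨x, h1, h.neg h2⟩ }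
  obtain ⟨q, hq, q1, q2⟩ := h.sep M (fun w hw => ⟨1, by simp, h.ofZero hw (.inl rfl)⟩) (w := e8 none) (by
    rintro ⟨x, h1, h2⟩
    rcases h.same h2 h.hv with rfl | rfl
    · exact zF (tv ▸ h1)
    · rw [cm, tz, tv, vz h] at h1
      have := mc.1 (hF h1).2
      rw [cm, cz' h (h.le aQ), av, zvz h] at this
      exact h.z_ne (by simpa using this.symm)) h.hv
  obtain ⟨q, hq, qq, q1, q2⟩ : ∃ q ∈ D.Q, q * q = 1 ∧ (∀ φ ∈ F, q * (t⁻¹ * φ * t) = t⁻¹ * φ * t * q) ∧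
      q * D.v * q⁻¹ = D.z * D.v := by
    have q3 : ∀ φ ∈ F, q * (t⁻¹ * φ * t) = t⁻¹ * φ * t * q := fun φ hφ => by
      obtain ⟨w, hw⟩ := h.exL _ (m1.1 (hF hφ).1.2)
      exact q1 w ⟨_, by simpa [mul_assoc] using hφ, hw⟩ _ hw
    rcases h.sq_or hq with k | k
    · exact ⟨q, hq, k, q3, q2⟩
    · refine ⟨q * D.v, mul_mem hq (vQ h), ?_, fun φ hφ => ?_, by rw [← q2]; group⟩
      · calc _ = q * D.v * q⁻¹ * (q * q) * D.v := by group
          _ = 1 := by rw [q2, k, ← vz h, mul_assoc D.v, h.zz, mul_one, vv h]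
      · rw [mul_assoc, ← cv h (m2.2 (by simpa [mul_assoc] using (hF hφ).1.1)), ← mul_assoc, q3 φ hφ, mul_assoc _ q]
  obtain ⟨u, hu⟩ : ∃ u, u = t * q * t⁻¹ := ⟨_, rfl⟩
  have uQ : u ∈ D.Qv := m1.2 (by simpa [hu, mul_assoc] using hq)
  have uu : u * u = 1 := by rw [hu, ← cm, qq]; group
  have uz : u * D.z * u⁻¹ = D.z * D.v := by
    calc _ = t * (q * (t⁻¹ * D.z * t⁻¹⁻¹) * q⁻¹) * t⁻¹ := by rw [hu]; group
      _ = _ := by rw [tz', q2, cm, tz, tv, vz h]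
  have uF : ∀ φ ∈ F, φ * u = u * φ := fun φ hφ => by
    calc _ = t * (t⁻¹ * φ * t * q) * t⁻¹ := by rw [hu]; group
      _ = _ := by rw [← q1 φ hφ, hu]; group
  have y1 := yz h aQ av uz
  have y2 := yv h av uQ
  have y3 : a * u * (D.z * D.v) * (a * u)⁻¹ = D.z := by rw [cm, y1, y2, ← vz h, ← mul_assoc, vv h, one_mul]
  obtain ⟨τ, hτ⟩ : ∃ τ, τ = (a * u) ^ 3 := ⟨_, rfl⟩
  have c3 : ∀ x, τ * x * τ⁻¹ = a * u * (a * u * (a * u * x * (a * u)⁻¹) * (a * u)⁻¹) * (a * u)⁻¹ := fun x => by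
    rw [hτ]; generalize a * u = y; simp [pow_succ, mul_assoc]
  have τz : τ * D.z = D.z * τ := mul_inv_eq_iff_eq_mul.1 (by rw [c3, y1, y2, y3])
  have τv : τ * D.v = D.v * τ := mul_inv_eq_iff_eq_mul.1 (by rw [c3, y2, y3, y1])
  have τE : τ ∈ D.E := toE h f aQ av uQ uz
    ⟨h.NC _ (hτ ▸ pow_mem (mul_mem (h.QN aQ) (f.QvN uQ)) _) τz, mem_centralizer_singleton_iff.2 τv⟩ fun e he => by
      rw [hτ]
      exact (((Commute.symm (mem_centralizer_singleton_iff.1 he.1.2)).mul_left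
        (Commute.symm (mem_centralizer_singleton_iff.1 he.2))).pow_left 3).eq
  have ττ := (f.EE τ τE).1
  have τy : Commute (a * u) τ := hτ ▸ (Commute.refl _).pow_right 3
  have τa : Commute a τ := by
    have : a * τ * a⁻¹ = τ⁻¹ := by
      rw [hτ, ← conj_pow, ← inv_pow, ← mul_assoc, aa, one_mul, mul_inv_rev, inv_eq_of_mul_eq_one_right uu]
    rw [inv_eq_of_mul_eq_one_right ττ] at this
    exact mul_inv_eq_iff_eq_mul.1 this
  have τu : Commute u τ := by simpa using τa.inv_left.mul_left τy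
  refine ⟨u * τ, ⟨aQ, aa, av, mul_mem uQ τE.2, ?_, ?_, ?_⟩, fun φ hφ => mem_centralizer_singleton_iff.2 ?_⟩
  · rw [τu.symm.mul_mul_mul_comm, uu, ττ, mul_one]
  · calc _ = u * (τ * D.z) * τ⁻¹ * u⁻¹ := by group
      _ = _ := by rw [τz, ← uz]; group
  · rw [← mul_assoc, τy.mul_pow, ← hτ, pow_succ, pow_two, ττ, one_mul, ττ]
  · rw [← mul_assoc, uF φ hφ, mul_assoc, (f.EE φ (hF hφ).1).2 τ τE, mul_assoc]

omit f in
theorem V0 (m : Fm D a u) (hx : x ∈ D.E0 a u) (hV : D.V x) : x = 1 := by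
  rcases hV with rfl | rfl | rfl | rfl
  · rfl
  · exact (v1 h (by simpa using m.uz.symm.trans (mc.1 hx.2))).elim
  · exact (h.z_ne (by simpa using m.av.symm.trans (mc.1 hx.1.2))).elim
  · have := mc.1 hx.1.2
    rw [cm, cz' h (h.le m.aQ), m.av, zvz h] at this
    exact (h.z_ne (by simpa using this.symm)).elim

theorem E0y (m : Fm D a u) (he : e ∈ D.E) (hy : a * u * e * (a * u)⁻¹ = e) : e ∈ D.E0 a u := by
  obtain ⟨x, hx, hx'⟩ := dec h f m.aQ m.av m.uQ m.uz he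
  have y1 := yz h m.aQ m.av m.uz
  have y2 := yv h m.av m.uQ
  have k : a * u * x * (a * u)⁻¹ = x := by
    have : a * u * (e * x) * (a * u)⁻¹ = e * x := by
      calc _ = a * (u * (e * x) * u⁻¹) * a⁻¹ := by group
        _ = _ := by rw [mc.1 hx'.2, mc.1 hx'.1.2]
    rw [cm, hy] at this
    exact mul_left_cancel this
  rcases hx with rfl | rfl | rfl | rfl
  · simpa using hx'
  · exact (vnz h (y1.symm.trans k)).elim
  · exact (h.z_ne (by simpa using y2.symm.trans k)).elim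
  · rw [cm, y1, y2, ← vz h, ← mul_assoc, vv h, one_mul] at k
    exact (v1 h (by simpa using k.symm)).elim

omit f in
/-- the preimage of the sign changes -/
def O : Subgroup G where
  carrier := {o | o ∈ D.D0 ∧ ∃ g ∈ Eps, Lf D.π o g}
  one_mem' := ⟨one_mem _, 1, one_mem _, Lf.one⟩
  mul_mem' := fun ⟨h1, _, h2, h3⟩ ⟨h4, _, h5, h6⟩ => ⟨mul_mem h1 h4, _, mul_mem h2 h5, h3.mul h6⟩
  inv_mem' := fun ⟨h1, _, h2, h3⟩ => ⟨inv_mem h1, _, inv_mem h2, h3.inv⟩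

omit f in
theorem O1 (hx : x ∈ D.Q ⊓ D.D0) : x ∈ O (D := D) := ⟨hx.2, 1, one_mem _, h.lf_Q hx.1⟩

omit h in
theorem O2 (hx : x ∈ D.Qv ⊓ D.D0) : x ∈ O (D := D) :=
  let ⟨c, hc, k⟩ := f.eps x hx; ⟨hx.2, _, eps_mem_Eps c hc, k⟩

theorem O3 (hx : x ∈ O (D := D)) : ∃ p ∈ D.Q ⊓ D.D0, ∃ b ∈ D.Qv ⊓ D.D0, x = p * b := by
  obtain ⟨h1, _, ⟨c, hc, rfl⟩, h3⟩ := hx
  obtain ⟨b, hb, k⟩ := f.lift c hc
  exact ⟨x * b⁻¹, ⟨(h.lf_ker (h3.mul k.inv)).1 (by simp), mul_mem h1 (D.D0.inv_mem hb.2)⟩, b, hb, by simp⟩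

omit f in
theorem O8 (hx : x ∈ O (D := D)) : x ^ 2 ^ 3 = 1 := by
  obtain ⟨-, _, ⟨c, hc, rfl⟩, h3⟩ := hx
  have := h.sq_or ((h.lf_ker (h3.mul h3)).1 (by rw [eps_mul_self, map_one]))
  rw [show x ^ 2 ^ 3 = (x * x * (x * x)) * (x * x * (x * x)) by simp [pow_succ, mul_assoc]]
  rcases this with k | k <;> rw [k]
  exacts [mul_one 1, h.zz]

theorem Oa (aQ : a ∈ D.Q) (hx : x ∈ O (D := D)) : a * x * a⁻¹ ∈ O (D := D) := by
  obtain ⟨h1, g, h2, h3⟩ := hx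
  exact ⟨f.nD a (h.QN aQ) x h1, g, h2, by simpa using ((h.lf_Q aQ).mul h3).mul (h.lf_Q aQ).inv⟩

theorem Ot {t : G} (tN : t ∈ D.N) (tz : t * D.z * t⁻¹ = D.v) (tv : t * D.v * t⁻¹ = D.z) (hx : x ∈ O (D := D)) :
    t * x * t⁻¹ ∈ O (D := D) := by
  obtain ⟨p, hp, b, hb, rfl⟩ := O3 h f hx
  have tz' : t⁻¹ * D.z * t⁻¹⁻¹ = D.v := by rw [← tv]; group
  rw [cm]
  refine mul_mem (O2 f ⟨?_, f.nD t tN p hp.2⟩) (O1 h ⟨?_, f.nD t tN b hb.2⟩)
  · change _ ∈ D.Qv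
    rw [← f.cjQ t tN tz, mem_cj]; simpa [mul_assoc] using hp.1
  · have : b ∈ D.Qv := hb.1
    rw [← f.cjQ _ (inv_mem tN) tz', mem_cj, inv_inv] at this
    exact this

theorem Ou (uQ : u ∈ D.Qv) (hx : x ∈ O (D := D)) : u * x * u⁻¹ ∈ O (D := D) := by
  obtain ⟨t, tN, tz, tv⟩ := f.sw
  have := Ot h f tN tz tv (Oa h f (a := t⁻¹ * u * t) (by rwa [← f.cjQ t tN tz, mem_cj] at uQ)
    (Ot h f (inv_mem tN) (by rw [← tv]; group) (by rw [← tz]; group) hx))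
  simpa [mul_assoc] using this

theorem part3 (m : Fm D a u) : FF D a u := by
  have uN := f.QvN m.uQ
  have aN := h.QN m.aQ
  have yN : a * u ∈ D.N := mul_mem aN uN
  have y1 := yz h m.aQ m.av m.uz
  have ai : a⁻¹ = a := inv_eq_of_mul_eq_one_right m.aa
  have ui : u⁻¹ = u := inv_eq_of_mul_eq_one_right m.uu
  refine ⟨yN, y1, yv h m.av m.uQ, fun x => V0 h m, fun e => dec h f m.aQ m.av m.uQ m.uz, fun d hd => ?_,
    fun l hl => ⟨?_, fun e he => ?_⟩, fun p hp b hb h1 h2 => ?_⟩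
  · have := f.finN
    have dN := h.DN hd
    obtain ⟨x, hx, k⟩ := conj_of_coset (G := D.N) (K := (O (D := D)).subgroupOf D.N)
      (fun x => ⟨3, Subtype.ext (Subtype.ext (O8 h x.2))⟩) (a := ⟨a * u, yN⟩)
      (y := ⟨d, dN⟩ * ⟨a * u, yN⟩ * ⟨d, dN⟩⁻¹) (n := 3) (by decide)
      (mem_normalizer_iff.2 fun o => ⟨fun ho => by
        have := Oa h f m.aQ (Ou h f m.uQ ho)
        rw [mem_subgroupOf]; simpa [mul_assoc] using this, fun ho => by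
        have := Ou h f (inv_mem m.uQ) (Oa h f (inv_mem m.aQ) ho)
        rw [mem_subgroupOf]; simpa [mul_assoc] using this⟩)
      (Subtype.ext m.br) (by rw [conj_pow, show (⟨a * u, yN⟩ : D.N) ^ 3 = 1 from Subtype.ext m.br]; simp) (by
        have := mul_mem (O1 h (x := d * a * d⁻¹ * a⁻¹) ⟨D.Q.mul_mem (h.norm hd.1 m.aQ) (inv_mem m.aQ), by
          rw [mul_assoc d, mul_assoc d]; exact mul_mem hd (f.nD a aN _ (inv_mem hd))⟩)
          (Oa h f m.aQ (O2 f (x := d * u * d⁻¹ * u⁻¹) ⟨D.Qv.mul_mem (f.nQv d hd u m.uQ) (inv_mem m.uQ), by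
          rw [mul_assoc d, mul_assoc d]; exact mul_mem hd (f.nD u uN _ (inv_mem hd))⟩))
        rw [mem_subgroupOf]; simpa [mul_assoc] using this)
    have hx' : (x : G) ∈ O (D := D) := hx
    obtain ⟨p, hp, b, hb, e⟩ := O3 h f (inv_mem hx')
    refine ⟨p, hp, b, hb, x * d, ⟨mul_mem hx'.1 hd, mem_centralizer_singleton_iff.2 ?_⟩, by rw [← e]; group⟩
    have k' : (x : G) * (d * (a * u) * d⁻¹) * (x : G)⁻¹ = a * u := congrArg Subtype.val k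
    nth_rw 2 [← k']; group
  · have ly : l * (a * u) = a * u * l := mem_centralizer_singleton_iff.1 hl.2
    have ay : a * (a * u) * a⁻¹ = (a * u)⁻¹ := by rw [← mul_assoc, m.aa, one_mul, mul_inv_rev, ui]
    have ay' : a⁻¹ * (a * u) * a = (a * u)⁻¹ := by rw [← ay, ai]
    have ky : a * u * (l * a * l⁻¹ * a⁻¹) * (a * u)⁻¹ = l * a * l⁻¹ * a⁻¹ := by
      generalize a * u = y at *
      have e1 : y * l = l * y := ly.symm
      have e2 : y * a = a * y⁻¹ := by rw [← ay']; group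
      have e3 : y⁻¹ * l⁻¹ = l⁻¹ * y⁻¹ := by rw [← mul_inv_rev, ly, mul_inv_rev]
      have e4 : y⁻¹ * a⁻¹ = a⁻¹ * y := by rw [← ay]; rw [ai, ← ai]; simp [mul_assoc, ai, m.aa]
      rw [← mul_assoc, ← mul_assoc, ← mul_assoc, e1, mul_assoc l y a, e2, ← mul_assoc, mul_assoc _ y⁻¹ l⁻¹, e3,
        ← mul_assoc, mul_assoc _ y⁻¹ a⁻¹, e4, ← mul_assoc, mul_inv_cancel_right]
    have kQ : l * a * l⁻¹ * a⁻¹ ∈ D.Q := mul_mem (h.norm hl.1.1 m.aQ) (inv_mem m.aQ)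
    refine E0y h f m ⟨kQ, ?_⟩ ky
    change _ ∈ D.Qv
    rw [← f.cjQ _ yN y1, mem_cj, ← ky]
    simpa [mul_assoc] using kQ
  · have ly : l * (a * u) = a * u * l := mem_centralizer_singleton_iff.1 hl.2
    refine E0y h f m ⟨h.norm hl.1.1 he.1.1.1, f.nQv l hl.1 e he.1.1.2⟩ ?_
    have ey : a * u * e * (a * u)⁻¹ = e := by
      calc _ = a * (u * e * u⁻¹) * a⁻¹ := by group
        _ = _ := by rw [mc.1 he.2, mc.1 he.1.2]
    calc _ = (a * u * l) * e * (a * u * l)⁻¹ := by group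
      _ = l * (a * u * e * (a * u)⁻¹) * l⁻¹ := by rw [← ly]; group
      _ = _ := by rw [ey]
  · have oE : p * b ∈ D.E := toE h f m.aQ m.av m.uQ m.uz (mul_mem hp.2 hb.2) fun e he => by
      have pv : p * D.v * p⁻¹ = D.v := by rw [mem_centralizer_singleton_iff.1 hp.2.2, mul_inv_cancel_right]
      have := V0 h m (mul_mem (h1 e he) (inv_mem he)) (by
        rw [show p * b * e * (p * b)⁻¹ = p * (b * e * b⁻¹) * p⁻¹ by group]
        rcases f.conj_or b hb.1 e he.1.1.2 with k | k <;> rcases h.conj_or hp.1 he.1.1.1 with k' | k'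
        · left; rw [k, k', mul_inv_cancel]
        · right; left; rw [k, k', mul_inv_cancel_right]
        · right; right; left; rw [k, cm, k', pv, mul_inv_cancel_right]
        · right; right; right; rw [k, cm, k', pv, ← mul_assoc, mul_inv_cancel_right, vz h])
      rwa [mul_inv_eq_one, mul_inv_eq_iff_eq_mul] at this
    generalize p * b = o at *
    have oa : a * o * a⁻¹ = o := by
      rcases h.conj_or oE.1 m.aQ with k | k
      · rw [← mul_inv_eq_iff_eq_mul.1 k, mul_inv_cancel_right]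
      · rw [k, mul_inv_cancel_right] at h2
        exact (h.z_ne (V0 h m h2 (.inr (.inl rfl)))).elim
    rcases f.conj_or u m.uQ o oE.2 with k | k
    · exact .inl ⟨⟨oE, mc.2 oa⟩, mc.2 k⟩
    · refine .inr ⟨⟨mul_mem oE (zE h f), mc.2 (by rw [cm, oa, cz' h (h.le m.aQ)])⟩, mc.2 ?_⟩
      rw [cm, k, m.uz, ← cv h oE.2, mul_assoc, ← vz h, ← mul_assoc D.v, vv h, one_mul]

end

end FM

theorem fmEx : FmEx.{u} := fun _ _ _ h f =>
  ⟨FM.part1 h, fun _ h1 h2 h3 _ h4 h5 => FM.part2 h f h1 h2 h3 h4 h5, fun _ _ m => FM.part3 h f m⟩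

end CL.AM
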