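/-
The Monster amalgam: every line through `y` is near the quad of `t, y`.
-/
import Cfsg.Agent.Spor.Am0
import Cfsg.Agent.Spor.InHMu
import Cfsg.Agent.Spor.InHDpi

set_option autoImplicit false

namespace CL.AM

open CL.IN Finset

namespace Lp

variable {P : Type} [Fintype P] {C A : P → P → Prop} {th : P → P → P}

theorem not_th (h : MS C A th) {t y b : P} (a : A t y) (h1 : C b t) (h2 : C b y) : ¬ C (th y b) t := fun c => by
  obtain ⟨F, S, r, φ, l⟩ := h.muL b
  have e := (l.two h1 h2).2 a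
  rw [h.th_comm (h.symm h2)] at c
  rw [← l.th_eq h h2] at e
  by_cases k : th b y = th b t
  · rw [k, l.th_eq h h1, (l.dp.zero _ (l.mem h1) _ (l.mem h1)).2 rfl] at e
    omega
  · rw [(l.one h1 (h.th_C h2)).2 ⟨h.symm c, k⟩] at e
    omega

end Lp

theorem lemP : LemP := by
  classical
  intro P _ C A th h t y x a hx
  have := Fintype.ofFinite P
  by_contra! hc
  obtain ⟨F, S, r, φ, l⟩ := h.muL y
  set M := univ.filter fun b => C b t ∧ C b y with hM
  have mM : ∀ {b}, b ∈ M ↔ C b t ∧ C b y := by simp [hM]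
  have cM : M.card = 27 := by
    rw [← muThm P C A th h t y a, ← Set.ncard_coe_finset]
    congr 1
    ext b
    simp [hM]
  have mS : ∀ {b}, b ∈ M → φ b ∈ S := fun hb => l.mem (h.symm (mM.1 hb).2)
  have ne : ∀ {b b'}, b ∈ M → b' ∈ M → b' ≠ th y b := fun hb hb' e =>
    Lp.not_th h a (mM.1 hb).1 (mM.1 hb).2 (e ▸ (mM.1 hb').1)
  have inj : Set.InjOn φ M := fun b hb b' hb' e =>
    (((l.eq (h.symm (mM.1 hb).2) (h.symm (mM.1 hb').2)).1 e).resolve_right (ne hb hb')).symm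
  have adj : ∀ {b b'}, b ∈ M → b' ∈ M → C b b' → r (φ b) (φ b') = 1 := fun hb hb' c =>
    (l.one (h.symm (mM.1 hb).2) (h.symm (mM.1 hb').2)).2 ⟨c, ne hb hb'⟩
  have hxT : φ x ∈ S \ M.image φ := mem_sdiff.2 ⟨l.mem hx, fun e => by
    obtain ⟨b, hb, e⟩ := mem_image.1 e
    obtain ⟨b1, b2⟩ := mM.1 hb
    rcases (l.eq (h.symm b2) hx).1 e with e | e
    · exact hc.1 (e ▸ b1)
    · exact hc.2 b b1 (by rw [e, h.th_comm (h.symm b2)]; exact h.th_C b2) b2⟩
  have key := card_mul_le_card_mul (s := M) (t := (S \ M.image φ).erase (φ x)) (fun b g => r (φ b) g = 1)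
    (m := 32) (n := 1) (fun b hb => ?_) fun g hg => card_le_one.2 fun b1 hb1 b2 hb2 => ?_
  · rw [card_erase_of_mem hxT, card_sdiff_of_subset (image_subset_iff.2 fun b hb => mS hb),
      card_image_of_injOn inj, cM, (dpThm F S r l.dp).card] at key
    omega
  · obtain ⟨b1, b2⟩ := mM.1 hb
    have t1 := l.dp.tab _ (mS hb) _ (mS hb) 1
    rw [(l.dp.zero _ (mS hb) _ (mS hb)).2 rfl] at t1
    have t2 := (card_image_le (f := φ)).trans (h.mu_ten a b1 b2).le
    have t3 := (card_le_card (show S.filter (fun u => r (φ b) u = 1 ∧ r u (φ b) = 1) ⊆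
        ((S \ M.image φ).erase (φ x)).bipartiteAbove (fun b g => r (φ b) g = 1) b ∪
          (univ.filter fun b' => C b b' ∧ C b' t ∧ C b' y).image φ from fun u hu => by
      obtain ⟨u1, u2, -⟩ := mem_filter.1 hu
      by_cases e : u ∈ M.image φ
      · obtain ⟨b', hb', rfl⟩ := mem_image.1 e
        exact mem_union_right _ (mem_image_of_mem _ (mem_filter.2 ⟨mem_univ _,
          ((l.one (h.symm b2) (h.symm (mM.1 hb').2)).1 u2).1, mM.1 hb'⟩))
      · refine mem_union_left _ (mem_filter.2 ⟨mem_erase.2 ⟨?_, mem_sdiff.2 ⟨u1, e⟩⟩, u2⟩)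
        rintro rfl
        exact hc.2 b b1 ((l.one (h.symm b2) hx).1 u2).1 b2)).trans (card_union_le _ _)
    rw [t1, show dpT 0 1 = 42 from rfl] at t3
    omega
  · obtain ⟨g1, g2⟩ := mem_sdiff.1 (mem_erase.1 hg).2
    obtain ⟨m1, r1⟩ := mem_filter.1 hb1
    obtain ⟨m2, r2⟩ := mem_filter.1 hb2
    obtain ⟨p1, p2⟩ := mM.1 m1
    obtain ⟨q1, q2⟩ := mM.1 m2
    rw [l.dp.symm _ (mS m2) _ g1] at r2
    by_contra n
    by_cases c : C b1 b2
    · have m3 := mM.2 (h.mu_th (b := y) a p1 p2 c q1 q2).1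
      refine g2 (mem_image.2 ⟨_, m3, (l.dp.mu_uniq (mS m1) (mS m2) g1 (mS m3) (adj m1 m2 c) r1 r2
        (adj m1 m3 (h.th_C c)) (adj m3 m2 (h.symm ?_))).symm⟩)
      rw [h.th_comm c]
      exact h.th_C (h.symm c)
    · have t1 := l.dp.tab _ (mS m1) _ (mS m2) 1
      rw [(l.two (h.symm p2) (h.symm q2)).2 (h.mu_A a p1 p2 q1 q2 (Ne.symm n) c)] at t1
      have t2 := h.mu_five a p1 p2 q1 q2 (Ne.symm n) c
      set E := (univ.filter fun b => C b1 b ∧ C b t ∧ C b y).filter fun b => C b b2 with hE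
      have s1 : E ⊆ M := fun b hb => mM.2 (mem_filter.1 (mem_filter.1 hb).1).2.2
      have t3 : E.image φ = S.filter fun u => r (φ b1) u = 1 ∧ r u (φ b2) = 1 :=
        eq_of_subset_of_card_le (image_subset_iff.2 fun b hb => mem_filter.2 ⟨mS (s1 hb),
          adj m1 (s1 hb) (mem_filter.1 (mem_filter.1 hb).1).2.1, adj (s1 hb) m2 (mem_filter.1 hb).2⟩)
          (by rw [t1, card_image_of_injOn (inj.mono s1), t2]; rfl)
      exact g2 (image_subset_image s1 (t3 ▸ mem_filter.2 ⟨g1, r1, r2⟩))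

end CL.AM
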