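/-
The Monster amalgam: simple connectivity of the point graph by the spectral two-sheet argument.
-/
import Cfsg.Agent.Spor.Am0
import Cfsg.Agent.Spor.InHGap
import Cfsg.Agent.Spor.InHDpi

set_option autoImplicit false

namespace CL.AM

open CL.IN Relation Finset

namespace Msc

/-- Two disjoint sets of the same size without edges between them. -/
theorem sheets {V : Type*} [DecidableEq V] {k m : ℕ} (X : Cx V k m) (hk : 0 < k) (hm : 0 < m) (hc : X.Conn) {γ : ℝ}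
    (h0 : 0 ≤ γ) (h1 : γ < 1 / 2) (hL : ∀ v, Gap (X.N v) (X.L v) k m γ) {S S' : Finset V} (hd : Disjoint S S')
    (hS : S'.card = S.card) (hne : S.Nonempty) {a : ℕ} (ha : ∀ v ∈ S, a ≤ (X.N v ∩ S).card)
    (ha' : ∀ v ∈ S', a ≤ (X.N v ∩ S').card) (hb : ∀ v ∈ S, ∀ w ∈ S', w ∉ X.N v) : (a : ℝ) ≤ k * (γ / (1 - γ)) := by
  have h := X.gap hk hm hc h0 h1 hL (f := ind S - ind S') (by rw [map_sub, tot_ind, tot_ind, hS, sub_self])
  have e1 : ∀ (T : Finset V) (g : V →₀ ℝ), ip (ind T) g = ∑ v ∈ T, g v := fun T g => by simp [ind, ip_single]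
  have e2 : ∀ (T : Finset V) v, X.adj (ind T) v = (X.N v ∩ T).card := fun T v => by simp [X.adj_apply, ind_apply]
  have e4 : ip (ind S - ind S') (ind S - ind S') = 2 * S.card := by
    simp only [map_sub (ip (V := V)), LinearMap.sub_apply, e1, Finsupp.sub_apply, ind_apply]
    simp [hS, disjoint_iff_inter_eq_empty.1 hd, disjoint_iff_inter_eq_empty.1 hd.symm]; ring
  rw [X.ip_adj, e4] at h
  simp only [map_sub (ip (V := V)), LinearMap.sub_apply, e1, map_sub X.adj, Finsupp.sub_apply, e2] at h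
  have a1 := card_nsmul_le_sum S (fun v => ((X.N v ∩ S).card - (X.N v ∩ S').card : ℝ)) a fun v hv => by
    rw [disjoint_iff_inter_eq_empty.1 (disjoint_right.2 (hb v hv))]
    simpa using ha v hv
  have a2 := sum_le_card_nsmul S' (fun v => ((X.N v ∩ S).card - (X.N v ∩ S').card : ℝ)) (-a) fun v hv => by
    rw [disjoint_iff_inter_eq_empty.1 (disjoint_right.2 fun w hw e => hb w hw v hv (X.symm e))]
    simpa using ha' v hv
  rw [nsmul_eq_mul] at a1 a2
  rw [hS] at a2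
  have hp : (0 : ℝ) < S.card := Nat.cast_pos.2 hne.card_pos
  refine le_of_mul_le_mul_left (a := 2 * (S.card : ℝ)) ?_ (by positivity)
  linarith

variable {P : Type} [Fintype P] {C A : P → P → Prop} {th : P → P → P} (h : MS C A th)
include h

omit [Fintype P] in
theorem symmA {x y : P} (a : A y x) : A x y := by
  obtain ⟨z, h1, h2⟩ := h.ex a
  obtain ⟨F, S, r, φ, d, m, -, l⟩ := h.loc z
  exact (l x y h2 h1).2.2.1.1 ((d.symm _ (m x h2) _ (m y h1)).trans ((l y x h1 h2).2.2.1.2 a))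

theorem gapY (y : P) : Gap (gapN C y) (gapL C th y) 1782 84 (3 / 14) := fun g => by
  classical
  have inv : ∀ u : P → ℝ, ∑ x ∈ gapN C y, u (th y x) = ∑ x ∈ gapN C y, u x := fun u =>
    sum_nbij' (th y) (th y) (fun _ a => mem_gapN.2 (h.th_C (mem_gapN.1 a))) (fun _ a => mem_gapN.2 (h.th_C (mem_gapN.1 a)))
      (fun _ a => h.th_th (mem_gapN.1 a)) (fun _ a => h.th_th (mem_gapN.1 a)) fun _ _ => rfl
  have a := ((h.gap_loc dpThm y).2.2 g _ _ _ rfl rfl rfl).1
  have b : ∑ x ∈ gapN C y, (g x ^ 2 + g x * g (th y x)) ≤ ∑ x ∈ gapN C y, (3 / 2 * g x ^ 2 + 1 / 2 * g (th y x) ^ 2) :=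
    sum_le_sum fun x _ => by nlinarith [sq_nonneg (g x - g (th y x))]
  rw [sum_add_distrib (f := fun x => 3 / 2 * g x ^ 2), inv fun x => 1 / 2 * g x ^ 2, ← mul_sum, ← mul_sum] at b
  push_cast; linarith

theorem deg (hP : LemP) {x y z : P} (h1 : ReflGen C x y) (h2 : ReflGen C y z) :
    ∃ T ⊆ gapN C z, 672 ≤ T.card ∧ ∀ t ∈ T, ∃ b, ReflGen C x b ∧ ReflGen C b t := by
  classical
  by_cases e : ReflGen C x z
  · exact ⟨_, Subset.rfl, by rw [(h.gap_loc dpThm z).1]; omega, fun t ht => ⟨z, e, .single (mem_gapN.1 ht)⟩⟩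
  rcases h1 with _ | h1
  · exact absurd h2 e
  rcases h2 with _ | h2
  · exact absurd (.single h1) e
  refine ⟨_, filter_subset (A y) _, ((h.gap_loc dpThm z).2.1 y (mem_gapN.2 (h.symm h2))).2.ge, fun t ht => ?_⟩
  rcases hP P C A th h t y x (symmA h (mem_filter.1 ht).2) (h.symm h1) with a | ⟨b, a, c, -⟩
  exacts [⟨x, .refl, .single a⟩, ⟨b, .single (h.symm c), .single a⟩]

theorem conn (hP : LemP) {W : Type} {adj : W → W → Prop} {q : W → P} (c : Cov C adj q)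
    (h5 : ∀ a b c d e f : W, ReflGen adj a b → ReflGen adj b c → ReflGen adj c d → ReflGen adj d e →
      ReflGen adj e f → q a = q f → a = f) (hc : ∀ v w, ReflTransGen adj v w) {v w : W} (e : q v = q w) : v = w := by
  classical
  have l := h.gap_loc dpThm
  choose! σ σ1 σ2 using fun u t (a : C (q u) t) => c.surj u t a
  have σ3 : ∀ {u w}, adj u w → σ u (q w) = w := fun a => c.inj (σ1 _ _ (c.map a)) a (σ2 _ _ (c.map a))
  have σ4 : ∀ u, Set.InjOn (σ u) (gapN C (q u)) := fun u a ha b hb e => by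
    rw [← σ2 u a (mem_gapN.1 ha), e, σ2 u b (mem_gapN.1 hb)]
  have sub : ∀ y x, gapL C th y x ⊆ gapN C y := fun y x z a => mem_gapN.2 (mem_gapL.1 a).2.1
  let N : W → Finset W := fun u => (gapN C (q u)).image (σ u)
  have mN : ∀ {u w}, w ∈ N u ↔ adj u w := ⟨fun a => by
    obtain ⟨t, b, rfl⟩ := mem_image.1 a
    exact σ1 _ _ (mem_gapN.1 b), fun a => mem_image.2 ⟨_, mem_gapN.2 (c.map a), σ3 a⟩⟩
  let L : W → W → Finset W := fun u w => (N u).filter fun x => adj u w ∧ q x ∈ gapL C th (q u) (q w)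
  have mL : ∀ {u w x}, x ∈ L u w ↔ adj u x ∧ adj u w ∧ q x ∈ gapL C th (q u) (q w) := by
    simp only [L, mem_filter, mN, implies_true]
  have eL : ∀ {u w}, adj u w → L u w = (gapL C th (q u) (q w)).image (σ u) := fun {u w} a => by
    ext x
    rw [mL, mem_image]
    exact ⟨fun b => ⟨_, b.2.2, σ3 b.1⟩, fun ⟨t, b, e⟩ => have b' := (mem_gapL.1 b).2.1
      e ▸ ⟨σ1 _ _ b', a, (σ2 _ _ b').symm ▸ b⟩⟩
  let X : Cx W 1782 84 :=
    { N := N
      L := L
      symm := fun a => mN.2 (c.symm (mN.1 a))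
      card_N := fun u => (card_image_of_injOn (σ4 u)).trans (l _).1
      L_adj := fun a => mN.2 (mL.1 a).1
      L_swap := fun a => by
        rw [mL, mem_gapL] at a ⊢
        obtain ⟨a1, a2, a⟩ := a
        exact ⟨a2, a1, a.2.1, a.1, h.symm a.2.2.1, fun e => a.2.2.2 (by rw [e, h.th_th a.2.1])⟩
      L_symm := fun a => by
        rw [mL, mem_gapL] at a ⊢
        obtain ⟨a1, a2, a⟩ := a
        exact ⟨c.tri a2 a1 a.2.2.1, c.symm a2, h.symm a.1, a.2.2.1, a.2.1, h.th_comm a.1 ▸ a.2.2.2⟩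
      card_L := fun a => by
        rw [eL (mN.1 a), card_image_of_injOn ((σ4 _).mono (sub _ _)), ((l _).2.1 _ (mem_gapN.2 (c.map (mN.1 a)))).1] }
  have hL : ∀ u, Gap (X.N u) (X.L u) 1782 84 (3 / 14) := fun u g => by
    simp only [X, N, sum_image (σ4 u)]
    rw [sum_congr rfl fun t ht => by
      rw [eL (σ1 _ _ (mem_gapN.1 ht)), σ2 _ _ (mem_gapN.1 ht), sum_image ((σ4 _).mono (sub _ _))]]
    exact gapY h (q u) fun t => g (σ u t)
  have rs : ∀ {a b}, ReflGen adj a b → ReflGen adj b a := fun a => by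
    rcases a with _ | a
    exacts [.refl, .single (c.symm a)]
  have rm : ∀ {a b}, ReflGen adj a b → ReflGen C (q a) (q b) := fun a => by
    rcases a with _ | a
    exacts [.refl, .single (c.map a)]
  have rl : ∀ {u t}, ReflGen C (q u) t → ∃ w, ReflGen adj u w ∧ q w = t := fun a => by
    rcases a with _ | a
    exacts [⟨_, .refl, rfl⟩, ⟨_, .single (σ1 _ _ a), σ2 _ _ a⟩]
  let B : W → Finset W := fun u => (insert u (N u)).biUnion fun b => insert b (N b)
  have mB : ∀ {u a}, a ∈ B u ↔ ∃ b, ReflGen adj u b ∧ ReflGen adj b a := by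
    simp only [B, mem_biUnion, mem_insert, mN, reflGen_iff, implies_true]
  have b1 : ∀ {u t}, (∃ b, ReflGen C (q u) b ∧ ReflGen C b t) → ∃ a ∈ B u, q a = t := fun ⟨b, a1, a2⟩ => by
    obtain ⟨b, a3, rfl⟩ := rl a1
    obtain ⟨a, a4, rfl⟩ := rl a2
    exact ⟨a, mB.2 ⟨b, a3, a4⟩, rfl⟩
  have b2 : ∀ {u a a' a''}, a ∈ B u → a'' ∈ B u → ReflGen adj a a' → q a'' = q a' → a'' = a' := fun a1 a2 a3 e =>
    let ⟨_, a4, a5⟩ := mB.1 a1
    let ⟨_, a6, a7⟩ := mB.1 a2
    h5 _ _ _ _ _ _ (rs a7) (rs a6) a4 a5 a3 e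
  have b3 : ∀ {u u'}, q u = q u' → (B u).card ≤ (B u').card := fun {u u'} e => by
    rw [← card_image_of_injOn (f := q) fun a a1 a' a2 => b2 a2 a1 .refl]
    refine (card_le_card fun t ht => ?_).trans (card_image_le (f := q))
    obtain ⟨a, a1, rfl⟩ := mem_image.1 ht
    obtain ⟨b, a2, a3⟩ := mB.1 a1
    exact mem_image.2 (b1 ⟨_, e ▸ rm a2, rm a3⟩)
  have b4 : ∀ u, ∀ a ∈ B u, 672 ≤ (X.N a ∩ B u).card := fun u a a1 => by
    obtain ⟨b, a2, a3⟩ := mB.1 a1
    obtain ⟨T, t1, t2, t3⟩ := deg h hP (rm a2) (rm a3)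
    refine t2.trans ((card_le_card fun t ht => ?_).trans (card_image_le (f := q)))
    obtain ⟨a', a4, a5⟩ := b1 (t3 t ht)
    have a6 := mem_gapN.1 (t1 ht)
    rw [b2 a1 a4 (.single (σ1 _ _ a6)) (a5.trans (σ2 _ _ a6).symm)] at a4
    exact mem_image.2 ⟨_, mem_inter.2 ⟨mN.2 (σ1 _ _ a6), a4⟩, σ2 _ _ a6⟩
  by_contra n
  have b5 : ∀ a ∈ B v, ∀ a' ∈ B w, ¬ ReflGen adj a a' := fun a a1 a' a2 a3 =>
    let ⟨_, a4, a5⟩ := mB.1 a1
    let ⟨_, a6, a7⟩ := mB.1 a2
    n (h5 _ _ _ _ _ _ a4 a5 a3 (rs a7) (rs a6) e)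
  have := sheets X (by omega) (by omega) (fun a b => rtg_mono (fun _ _ => mN.2) (hc a b)) (by norm_num) (by norm_num) hL
    (disjoint_left.2 fun a a1 a2 => b5 a a1 a a2 .refl) (le_antisymm (b3 e.symm) (b3 e)) ⟨v, mB.2 ⟨v, .refl, .refl⟩⟩
    (b4 v) (b4 w) fun a a1 a' a2 a3 => b5 a a1 a' a2 (.single (mN.1 a3))
  norm_num at this

end Msc

theorem msc (hP : LemP) (h5 : Cl5) : MSC := fun P _ C A th h np W adj q c v w k e => by
  have := Fintype.ofFinite P
  have c' : Cov C (fun a b : {u // ReflTransGen adj v u} => adj a b) (fun a => q a) :=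
    ⟨c.symm, c.map, fun a b e => Subtype.ext (c.inj a b e), fun u t a =>
      let ⟨w, b, e⟩ := c.surj u t a; ⟨⟨w, u.2.tail b⟩, b, e⟩, c.tri⟩
  have key : ∀ u (k : ReflTransGen adj v u),
      ReflTransGen (fun a b : {u // ReflTransGen adj v u} => adj a b) ⟨v, .refl⟩ ⟨u, k⟩ := fun u k => by
    induction k with
    | refl => exact .refl
    | tail _ e ih => exact ih.tail e
  exact congrArg Subtype.val (Msc.conn h hP c' (h5 P C A th h np _ _ _ c')
    (fun a b => (rtg_symm (fun _ _ => c.symm) (key a a.2)).trans (key b b.2)) (v := ⟨v, .refl⟩) (w := ⟨w, k⟩) e)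

end CL.AM
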