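/-
The Monster amalgam: the structure of `Q ∩ Q_v`.
-/
import Cfsg.Agent.Spor.AmFM

set_option autoImplicit false
set_option linter.unusedSectionVars false

namespace CL.AM

open Cfsg Cfsg.Spor Subgroup CL.Mj CL.Even CL.Spor.Leech CL.Spor.Mon CL.IN
open scoped Pointwise

universe u v

namespace SFx

open FM

theorem dp (x : leechLattice) (a b : GolayPt) :
    dt x (p2f a b) = (x : GolayPt → ℤ) a * 4 + (x : GolayPt → ℤ) b * 4 := by
  simp [dt, dotInt, p2f, Pi.single_apply, mul_add, Finset.sum_add_distrib]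

theorem p4 (a b i : GolayPt) : (4 : ℤ) ∣ (p2f a b : GolayPt → ℤ) i := by
  simp only [p2f, Pi.add_apply, Pi.single_apply]
  split_ifs <;> omega

theorem fr4 {w : leechLattice} (hw : ∀ i, (4 : ℤ) ∣ (w : GolayPt → ℤ) i) : Fr w := ⟨w, Dbl.refl w, hw⟩

variable {G : Type u} [Group G] {D : Dat G} {n t x y d b e : G} {w : leechLattice} {g : Co0} (h : Sd D)
include h

theorem sameC (ht : t ∈ D.N) (hn : n ∈ D.N) (k : t * D.z * t⁻¹ = n * D.z * n⁻¹) : t⁻¹ * n ∈ D.C :=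
  h.NC _ (mul_mem (inv_mem ht) hn) (by
    calc t⁻¹ * n * D.z = t⁻¹ * (n * D.z * n⁻¹) * n := by group
      _ = _ := by rw [← k]; group)

theorem tri (ht : t ∈ D.N) (tz : t * D.z * t⁻¹ = D.v) :
    ∃ a ∈ D.Q, ∀ n ∈ D.N, n ∈ D.C ∨ t⁻¹ * n ∈ D.C ∨ (a * t)⁻¹ * n ∈ D.C := by
  obtain ⟨a, aQ, -, av⟩ := part1 h
  refine ⟨a, aQ, fun n hn => ?_⟩
  rcases (h.nV n hn).1 with k | k | k
  · exact .inl (h.NC n hn (mul_inv_eq_iff_eq_mul.1 k))
  · exact .inr (.inl (sameC h ht hn (tz.trans k.symm)))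
  · exact .inr (.inr (sameC h (mul_mem (h.QN aQ) ht) hn (by rw [k, ← av, ← tz]; group)))

theorem finN : Finite D.N := by
  obtain ⟨a, -, k⟩ := tri h h.mN h.mz
  have h1 : (D.C : Set G).Finite := h.fin
  refine Set.Finite.subset (h1.union ((h1.image (D.m * ·)).union (h1.image (a * D.m * ·)))) fun n hn => ?_
  rcases k n hn with k | k | k
  exacts [.inl k, .inr (.inl ⟨_, k, by simp⟩), .inr (.inr ⟨_, k, by simp [mul_assoc]⟩)]

theorem cjQ (hn : n ∈ D.N) (nz : n * D.z * n⁻¹ = D.v) : cj n D.Q = D.Qv := by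
  have hc := sameC h h.mN hn (h.mz.trans nz.symm)
  ext x
  rw [mem_cj, mem_cj]
  exact ⟨fun k => by simpa [mul_assoc] using h.norm hc k, fun k => by simpa [mul_assoc] using h.norm (inv_mem hc) k⟩

theorem QvN : D.Qv ≤ D.N := fun x hx => by
  simpa [mul_assoc] using mul_mem (mul_mem h.mN (h.QN (mem_cj.1 hx))) (inv_mem h.mN)

theorem dv (hd : d ∈ D.D0) : d * D.v * d⁻¹ = D.v := by
  rw [mem_centralizer_singleton_iff.1 hd.2, mul_inv_cancel_right]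

theorem nQv (hd : d ∈ D.D0) (hx : x ∈ D.Qv) : d * x * d⁻¹ ∈ D.Qv := by
  rw [← cjQ h (mul_mem (h.DN hd) h.mN) (by rw [← dv h hd, ← h.mz]; group), mem_cj]
  simpa [mul_assoc] using mem_cj.1 hx

theorem nD (hn : n ∈ D.N) (hd : d ∈ D.D0) : n * d * n⁻¹ ∈ D.D0 := by
  have k : ∀ x, D.V3 (n⁻¹ * x * n⁻¹⁻¹) → n * d * n⁻¹ * x = x * (n * d * n⁻¹) := fun x hx => by
    have := cV h (h.cz d hd.1) (mem_centralizer_singleton_iff.1 hd.2) (.inr hx)
    calc _ = n * (d * (n⁻¹ * x * n⁻¹⁻¹)) * n⁻¹ := by group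
      _ = _ := by rw [this]; group
  exact ⟨h.NC _ (mul_mem (mul_mem hn (h.DN hd)) (inv_mem hn)) (k _ (h.nV _ (inv_mem hn)).1),
    mem_centralizer_singleton_iff.2 (k _ (h.nV _ (inv_mem hn)).2)⟩

theorem zQv : D.z ∈ D.Qv := by
  have := (h.nV _ (inv_mem h.mN)).1
  rw [inv_inv] at this
  rw [mem_cj]
  rcases this with k | k | k <;> rw [k]
  exacts [h.zQ, vQ h, mul_mem h.zQ (vQ h)]

theorem vQv : D.v ∈ D.Qv := mem_cj.2 (by rw [← h.mz]; simpa [mul_assoc] using h.zQ)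

theorem sw : ∃ t ∈ D.N, t * D.z * t⁻¹ = D.v ∧ t * D.v * t⁻¹ = D.z := by
  rcases (h.nV _ h.mN).2 with k | k | k
  · exact ⟨_, h.mN, h.mz, k⟩
  · exact (vnz h (by simpa using k.trans h.mz.symm)).elim
  · obtain ⟨a, aQ, -, av⟩ := part1 h
    refine ⟨D.m * a, mul_mem h.mN (h.QN aQ), by
      rw [← h.mz, mul_assoc _ a, h.cz a (h.le aQ)]; group, ?_⟩
    calc _ = D.m * (a * D.v * a⁻¹) * D.m⁻¹ := by group
      _ = _ := by rw [av, cm, h.mz, k, ← vz h, ← mul_assoc, vv h, one_mul]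

theorem gen (ht : t ∈ D.N) (tz : t * D.z * t⁻¹ = D.v) : D.N ≤ D.C ⊔ zpowers t := fun n hn => by
  obtain ⟨a, aQ, k⟩ := tri h ht tz
  have h1 : t ∈ D.C ⊔ zpowers t := mem_sup_right (mem_zpowers t)
  rcases k n hn with k | k | k
  · exact mem_sup_left k
  · exact (mul_mem_cancel_left (inv_mem h1)).1 (mem_sup_left k)
  · exact (mul_mem_cancel_left (inv_mem (mul_mem (mem_sup_left (h.le aQ)) h1))).1 (mem_sup_left k)

theorem conj_or (hx : x ∈ D.Qv) (hy : y ∈ D.Qv) : x * y * x⁻¹ = y ∨ x * y * x⁻¹ = D.v * y :=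
  (h.conj_or (mem_cj.1 hx) (mem_cj.1 hy)).imp (fun k => by
    calc _ = D.m * (D.m⁻¹ * x * D.m * (D.m⁻¹ * y * D.m) * (D.m⁻¹ * x * D.m)⁻¹) * D.m⁻¹ := by group
      _ = _ := by rw [k]; group) fun k => by
    rw [← h.mz]
    calc _ = D.m * (D.m⁻¹ * x * D.m * (D.m⁻¹ * y * D.m) * (D.m⁻¹ * x * D.m)⁻¹) * D.m⁻¹ := by group
      _ = _ := by rw [k]; group

theorem sq_or (hx : x ∈ D.Qv) : x * x = 1 ∨ x * x = D.v :=
  (h.sq_or (mem_cj.1 hx)).imp (fun k => by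
    calc _ = D.m * (D.m⁻¹ * x * D.m * (D.m⁻¹ * x * D.m)) * D.m⁻¹ := by group
      _ = _ := by rw [k]; group) fun k => by rw [← h.mz, ← k]; group

theorem EE (he : e ∈ D.E) : e * e = 1 ∧ ∀ e' ∈ D.E, e * e' = e' * e := by
  refine ⟨(h.sq_or he.1).elim id fun k => (sq_or h he.2).resolve_right fun k' => vnz h (k'.symm.trans k),
    fun e' he' => mul_inv_eq_iff_eq_mul.1 ((h.conj_or he.1 he'.1).elim id fun k =>
      (conj_or h he.2 he'.2).resolve_right fun k' => vnz h (mul_right_cancel (k'.symm.trans k)))⟩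

theorem D0N (hd : d ∈ D.D0) (k : Lf D.π d g) : g ∈ Nsub := by
  rw [← clsStab_e8 none, mem_clsStab]
  exact (h.dbl_iff (h.conj k h.hv) h.hv).2 (.inl (dv h hd))

theorem ND0 (hg : g ∈ Nsub) : ∃ d ∈ D.D0, Lf D.π d g := by
  rw [← clsStab_e8 none, mem_clsStab] at hg
  obtain ⟨c, h1, h2⟩ := h.conj_of_dbl h.hv h.hv nd8 hg
  exact ⟨c, ⟨h1.mem, mem_centralizer_singleton_iff.2 (mul_inv_eq_iff_eq_mul.1 h2)⟩, h1⟩

theorem evD (hx : D.R w x) : x ∈ D.D0 ↔ (w : GolayPt → ℤ) none % 2 = 0 := by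
  have : x * D.v = D.v * x ↔ _ := h.comm hx h.hv
  rw [dt, dot_e8] at this
  exact ⟨fun k => by have := this.1 (mem_centralizer_singleton_iff.1 k.2); omega,
    fun k => ⟨h.le (h.mem hx), mem_centralizer_singleton_iff.2 (this.2 (by omega))⟩⟩

omit h in
/-- the image of `Q_v ∩ C(z, v)` -/
def K (D : Dat G) : Subgroup Co0 where
  carrier := {g | ∃ b ∈ D.Qv ⊓ D.D0, Lf D.π b g}
  one_mem' := ⟨1, one_mem _, Lf.one⟩
  mul_mem' := fun ⟨_, h1, h2⟩ ⟨_, h3, h4⟩ => ⟨_, mul_mem h1 h3, h2.mul h4⟩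
  inv_mem' := fun ⟨_, h1, h2⟩ => ⟨_, inv_mem h1, h2.inv⟩

theorem Kle : K D ≤ Nsub := fun _ ⟨_, h1, h2⟩ => D0N h h1.2 h2

theorem Kn : ∀ n ∈ Nsub, ∀ g ∈ K D, n * g * n⁻¹ ∈ K D := fun _ hn _ ⟨_, h1, h2⟩ =>
  let ⟨_, hd, k⟩ := ND0 h hn
  ⟨_, ⟨nQv h hd h1.1, nD h (h.DN hd) h1.2⟩, (k.mul h2).mul k.inv⟩

theorem eps' (hb : b ∈ D.Qv ⊓ D.D0) : ∃ c hc, Lf D.π b (eps c hc) := by
  obtain ⟨g, k⟩ := lf D.π hb.2.1
  obtain ⟨c, hc, rfl⟩ := le_Eps_of_normal (Kle h) (fun ⟨g, b, hb, k⟩ => ⟨3, Subtype.ext (by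
    have b4 : b ^ 4 = 1 := by
      rw [show b ^ 4 = b * b * (b * b) by simp [pow_succ, mul_assoc]]
      rcases sq_or h hb.1 with e | e <;> rw [e]
      exacts [mul_one 1, vv h]
    have := k.pow 4
    rw [b4] at this
    change g ^ (4 * 2) = 1
    rcases Spor.Leech.mem_center_iff.1 (mk1_eq_one.1 ((this.uniq Lf.one).trans (map_one _))) with e | e <;>
      rw [pow_mul, e, pow_two]
    exacts [mul_one 1, negOne_mul_self])⟩) (Kn h) (show g ∈ K D from ⟨b, hb, k⟩)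
  exact ⟨c, hc, k⟩

theorem lift' (c : Finset GolayPt) (hc : c ∈ Cset) : ∃ b ∈ D.Qv ⊓ D.D0, Lf D.π b (eps c hc) := by
  obtain ⟨g, h1, h2⟩ : ∃ g ∈ K D, g ∉ center Co0 := by
    by_contra! hn
    obtain ⟨t, tN, tz, -⟩ := sw h
    have k1 : ∀ p ∈ D.Q, p ∈ D.D0 → t * p * t⁻¹ ∈ D.E := fun p hp hp' => by
      have e1 : t * p * t⁻¹ ∈ D.Qv := by rw [← cjQ h tN tz, mem_cj]; simpa [mul_assoc] using hp
      have e2 := nD h tN hp'
      obtain ⟨g, k⟩ := lf D.π e2.1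
      exact ⟨(h.lf_ker k).1 (mk1_eq_one.2 (hn g ⟨_, ⟨e1, e2⟩, k⟩)), e1⟩
    obtain ⟨o, ho, e⟩ := exists_Cset_inter_of_card_le (S := {none, some 0}) (A := {none}) (by simp)
      (Finset.card_le_two.trans (by norm_num))
    have o1 : none ∈ o := (Finset.mem_inter.1 (e ▸ Finset.mem_singleton_self _)).1
    have o2 : some 0 ∉ o := fun k => by
      have : some 0 ∈ o ∩ {none, some 0} := Finset.mem_inter.2 ⟨k, by simp⟩
      simp [e] at this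
    obtain ⟨p, hp⟩ := h.exR ⟨_, indZ_two_mem ho⟩
    obtain ⟨q, hq⟩ := h.exR (p2f none (some 0))
    have := (EE h (k1 p (h.mem hp) ((evD h hp).2 (by simp [indZ, o1])))).2 _
      (k1 q (h.mem hq) ((evD h hq).2 (by have := p4 none (some 0) none; omega)))
    rw [← cm, ← cm, mul_left_inj, mul_right_inj, h.comm hp hq, dp] at this
    simp [indZ, o1, o2] at this
  exact eps_mem_of_normal (Kn h) ⟨1, one_mem _, Lf.one.congr (by rw [map_one, mk1_eq_one.2 negOne_mem_center])⟩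
    h1 (Kle h h1) h2 c hc

theorem E_of (hx : D.R w x) (hw : Fr w) : x ∈ D.Qv := by
  obtain ⟨w0, h1, h2⟩ := hw
  let P : AddSubgroup leechLattice :=
    { carrier := {v | ∃ x ∈ D.Qv, D.R v x}
      add_mem' := fun ⟨_, a1, a2⟩ ⟨_, b1, b2⟩ => ⟨_, mul_mem a1 b1, h.mul a2 b2⟩
      zero_mem' := ⟨1, one_mem _, h.R_one⟩
      neg_mem' := fun ⟨_, a1, a2⟩ => ⟨_, a1, h.neg a2⟩ }
  obtain ⟨y, y1, y2⟩ := p2_span (P := P) ⟨_, vQv h, h.hv⟩ (fun i hi => by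
    obtain ⟨y, c, hc, h1, h2⟩ := p2f_diff hi
    obtain ⟨r, hr, e⟩ := lift' h c hc
    obtain ⟨q, hq⟩ := h.exR y
    have h3 := h.mul hq (h.conj e (h.inv hq))
    rw [smul_neg, ← sub_eq_add_neg, h2, ← mul_assoc, ← mul_assoc] at h3
    exact ⟨_, mul_mem (nQv h ((evD h hq).2 h1) hr.1) (D.Qv.inv_mem hr.1), h3⟩) h2
  rcases h.same hx (h.congr y2 h1) with e | e <;> rw [e]
  exacts [y1, mul_mem (zQv h) y1]

theorem FR (hx : D.R w x) (k : ∀ e ∈ D.E, x * e = e * x) : Fr w := by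
  have h1 : ∀ i, (16 : ℤ) ∣ (w : GolayPt → ℤ) i * 4 + (w : GolayPt → ℤ) none * 4 := fun i => by
    obtain ⟨q, hq⟩ := h.exR (p2f i none)
    rw [← dp]
    exact (h.comm hx hq).1 (k q ⟨h.mem hq, E_of h hq (fr4 (p4 _ _))⟩)
  have h2 := h1 none
  by_cases e : (w : GolayPt → ℤ) none % 4 = 0
  · exact fr4 fun i => by have := h1 i; omega
  · refine ⟨w - (lW + lW), ⟨lW, by abel⟩, fun i => ?_⟩
    have hW : ∀ k, (lW : GolayPt → ℤ) k % 4 = 1 := by decide +kernel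
    have := h1 i
    have := hW i
    simp only [AddSubgroup.coe_sub, AddSubgroup.coe_add, Pi.add_apply, Pi.sub_apply]
    omega

theorem cE (hc : LcE) (hx : x ∈ D.C) (k : ∀ e ∈ D.E, x * e = e * x) : x ∈ D.E := by
  obtain ⟨g, hg⟩ := lf D.π hx
  have xQ := (h.lf_ker hg).1 (hc g fun w hw => by
    obtain ⟨q, hq⟩ := h.exR w
    exact (h.dbl_iff (h.conj hg hq) hq).2 (.inl (by
      rw [k q ⟨h.mem hq, E_of h hq (fr4 hw)⟩, mul_inv_cancel_right])))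
  obtain ⟨w, hw⟩ := h.exL x xQ
  exact ⟨xQ, E_of h hw (FR h hw k)⟩

end SFx

open SFx in
theorem sfEx (hc : LcE) : SFEx.{u} := fun _ _ _ h =>
  ⟨finN h, fun _ => cjQ h, QvN h, fun _ hd _ => nQv h hd, fun _ hn _ => nD h hn, zQv h, vQv h, sw h, fun _ => gen h,
    fun _ hx _ => conj_or h hx, fun hx => ⟨fun k => FR h hx (EE h ⟨h.mem hx, k⟩).2, E_of h hx⟩, lift' h,
    fun _ => eps' h, fun _ => EE h, fun _ => cE h hc, D0N h, fun _ => ND0 h⟩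

end CL.AM
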