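/-
The Monster amalgam: transitivity, centralisers, perfectness.
-/
import Cfsg.Agent.Spor.AmSF

set_option autoImplicit false
set_option linter.unusedSectionVars false

namespace CL.AM

open Cfsg Cfsg.Spor Subgroup CL.Mj CL.Even CL.Spor.Leech CL.Spor.Mon CL.IN
open scoped Pointwise

universe u v

namespace SGx

open FM SFx

theorem E1add {a b : leechLattice} (ha : E1 a) (hb : E1 b) : E1 (a + b) := by
  rcases ha with ha | ha <;> rcases hb with hb | hb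
  exacts [.inl (ha.add hb), .inr ((ha.add hb).of_eq (by abel)), .inr ((ha.add hb).of_eq (by abel)),
    .inl (((ha.add hb).add ⟨e8 none, rfl⟩).of_eq (by abel))]

theorem E1neg {a : leechLattice} (ha : E1 a) : E1 (-a) := by
  simpa using E1add ha (.inl (show Dbl (-a + -a) from ⟨_, rfl⟩))

theorem exij {i j : GolayPt} (h : i ≠ j) : ∃ c ∈ Cset, i ∈ c ∧ j ∉ c := by
  obtain ⟨o, ho, e⟩ := exists_Cset_inter_of_card_le (S := {i, j}) (A := {i}) (by simp)
    (Finset.card_le_two.trans (by norm_num))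
  refine ⟨o, ho, (Finset.mem_inter.1 (e ▸ Finset.mem_singleton_self _)).1, fun k => ?_⟩
  have : j ∈ o ∩ {i, j} := Finset.mem_inter.2 ⟨k, by simp⟩
  exact h (by simpa [e, eq_comm] using this)

/-- a subgroup that contains the differences `y - g y` of even vectors contains all even vectors -/
theorem even_mem (M : AddSubgroup leechLattice) (hD : ∀ w, Dbl w → w ∈ M)
    (hM : ∀ y : leechLattice, (y : GolayPt → ℤ) none % 2 = 0 → ∀ g ∈ Nsub, y - g • y ∈ M) {w : leechLattice}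
    (hw : (w : GolayPt → ℤ) none % 2 = 0) : w ∈ M := by
  have h4 : ∀ v : leechLattice, (∀ i, (4 : ℤ) ∣ (v : GolayPt → ℤ) i) → v ∈ M := fun v hv => p2_span (by
    obtain ⟨c, hc, c1, c2⟩ := exij (show (none : GolayPt) ≠ some 0 by simp)
    convert hM (p2f none (some 0)) (by have := p4 none (some 0) none; omega) _ (eps_mem c hc) using 1
    refine Subtype.ext (funext fun k => ?_)
    simp only [AddSubgroup.coe_sub, Pi.sub_apply, eps_apply, coe_e8, p2f, Pi.add_apply, Pi.single_apply]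
    grind) (fun i hi => by
    obtain ⟨y, c, hc, h1, h2⟩ := p2f_diff hi
    exact h2 ▸ hM y h1 _ (eps_mem c hc)) hv
  have k4 : ∀ {a b : leechLattice}, a ∈ M → (∀ i, (4 : ℤ) ∣ (b : GolayPt → ℤ) i - (a : GolayPt → ℤ) i) → b ∈ M :=
    fun {a b} ha hb => by simpa using add_mem (h4 (b - a) hb) ha
  let P : Finset GolayPt → Prop := fun c => ∃ hc : c ∈ Cset, (⟨_, indZ_two_mem hc⟩ : leechLattice) ∈ M
  have p1 : ∀ s t, P s → P t → P (symmDiff s t) := fun s t ⟨hs, h1⟩ ⟨ht, h2⟩ =>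
    ⟨Cset_symmDiff hs ht, k4 (add_mem h1 h2) fun i => by
      simp only [AddSubgroup.coe_add, Pi.add_apply, indZ, Finset.mem_symmDiff]
      grind⟩
  have p2 : ∀ (σ : M24), ∀ s ∈ Cset, P (symmDiff (σ • s) s) := fun σ s hs =>
    ⟨Cset_symmDiff (image_mem_Cset σ.2 hs) hs, k4 (hM ⟨_, indZ_two_mem hs⟩ (by simp only [indZ]; grind) _ (pm_mem σ))
      fun i => by
      simp only [AddSubgroup.coe_sub, Pi.sub_apply, pm_apply, indZ, Finset.mem_symmDiff, Finset.inv_smul_mem_iff]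
      grind⟩
  have := Spor.M24_simple
  obtain ⟨σ, hσ⟩ := exists_ne (1 : M24)
  obtain ⟨d, hd, d1, d2⟩ := exists_moved_word hσ
  have ev := (parity_cases w.2).resolve_right fun e => by have := e none; omega
  obtain ⟨hc, k⟩ := code_irreducible p1 (fun σ s hs => by simpa using p1 _ _ (p2 σ s hs.1) hs)
    ⟨Cset_univ, k4 (hD (lW + lW) ⟨lW, rfl⟩) fun i => by
      have hW : ∀ k, (lW : GolayPt → ℤ) k % 4 = 1 := by decide +kernel
      have := hW i
      simp only [AddSubgroup.coe_add, Pi.add_apply, indZ, Finset.mem_univ, if_true]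
      omega⟩ (p2 σ d hd).1 d1 d2 (p2 σ d hd) _
    (cres_mem w.2 (r := 2) (by norm_num) (by norm_num))
  exact k4 k fun i => by
    have := ev i
    simp only [indZ, cres, Finset.mem_filter, Finset.mem_univ, true_and]
    split_ifs <;> omega

variable {G : Type u} [Group G] {D : Dat G} {x x' y k : G} {w : leechLattice} (h : Sd D)
include h

theorem V1 (hx : D.R w x) : D.V x ↔ E1 w := by
  rw [E1, h.zero hx, h.dbl_iff hx h.hv, or_assoc]; rfl

variable (f : SF D)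
include f

theorem std (hT : LTT) (hx : x ∈ D.E) (h4 : D.T4 x) (hV : ¬ D.V x) :
    ∃ w, D.R w x ∧ ¬ E1 w ∧ ∃ g ∈ Nsub, Dbl (g • w - vB0) := by
  obtain ⟨c, hc, rfl⟩ := h4
  obtain ⟨g, k⟩ := lf D.π hc
  have h1 := h.conj k h.hv
  have h2 := mt (V1 h h1).2 hV
  exact ⟨_, h1, h2, hT _ (by rw [sqNorm_smul, sqNorm_e8]) ((f.E_iff h1).1 hx.2) h2⟩

theorem TT (hT : LTT) (hx : x ∈ D.E) (hx' : x' ∈ D.E) (h4 : D.T4 x) (h4' : D.T4 x') (hV : ¬ D.V x)
    (hV' : ¬ D.V x') : ∃ d ∈ D.D0, d * x * d⁻¹ = x' := by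
  obtain ⟨w, h1, -, g, hg, e⟩ := std h f hT hx h4 hV
  obtain ⟨w', h1', h2', g', hg', e'⟩ := std h f hT hx' h4' hV'
  obtain ⟨d, hd, k⟩ := f.ND0 _ (mul_mem (inv_mem hg') hg)
  obtain ⟨q, hq, q1, q2⟩ := h.pair h.hv (h.congr (h.conj k h1) (w' := w') (((e'.sub e).smul g'⁻¹).of_eq (by
    simp [smul_sub, mul_smul]))) h.hv h1' nd8 (fun e => h2' (.inl e)) fun e => h2' (.inr e)
  exact ⟨q * d, mul_mem ⟨h.le hq, mem_centralizer_singleton_iff.2 (mul_inv_eq_iff_eq_mul.1 q1)⟩ hd, by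
    rw [← q2]; group⟩

theorem SW (hT : LTT) (hx : x ∈ D.E) (h4 : D.T4 x) (hV : ¬ D.V x) :
    ∃ n ∈ D.C, n * D.v * n⁻¹ = x ∧ n * x * n⁻¹ = D.v := by
  obtain ⟨w, h1, h2, g, hg, e⟩ := std h f hT hx h4 hV
  rw [← clsStab_e8 none, mem_clsStab] at hg
  obtain ⟨c, k⟩ := h.lift (g⁻¹ * xi * g)
  have e2 : xi • vB0 = e8 none := by rw [← xi_e8, ← mul_smul, xi_mul_self, one_smul]
  obtain ⟨q, hq, q1, q2⟩ := h.pair (h.congr (h.conj k h.hv) (w' := w) (((e.sub (hg.smul xi)).smul g⁻¹).of_eq (by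
      simp [smul_sub, mul_smul, xi_e8])))
    (h.congr (h.conj k h1) (w' := e8 none) (((hg.sub (e.smul xi)).smul g⁻¹).of_eq (by
      simp [smul_sub, mul_smul, e2]))) h1 h.hv (fun e => h2 (.inl e)) nd8 fun e => h2 (.inr e.symm)
  exact ⟨q * c, mul_mem (h.le hq) k.mem, by rw [← q1]; group, by rw [← q2]; group⟩

theorem CW (hx : x ∈ D.E) (hk : k ∈ D.C) (e : ∀ d ∈ D.D0, d * x = x * d → k * d = d * k) :
    D.V k ∨ D.V (k * x) := by
  have kE := f.cE k hk fun a ha => e a (ED h ha) ((f.EE a ha).2 x hx)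
  obtain ⟨w, hw⟩ := h.exL x hx.1
  obtain ⟨w', hw'⟩ := h.exL k kE.1
  let M : AddSubgroup leechLattice :=
    { carrier := {a | E1 a ∨ E1 (a - w)}
      add_mem' := by
        rintro a b (ha | ha) (hb | hb)
        exacts [.inl (E1add ha hb), .inr (by convert E1add ha hb using 1; abel),
          .inr (by convert E1add ha hb using 1; abel),
          .inl (by convert E1add (E1add ha hb) (.inl ⟨w, rfl⟩) using 1; abel)]
      zero_mem' := .inl (.inl Dbl.zero)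
      neg_mem' := by
        rintro a (ha | ha)
        exacts [.inl (E1neg ha), .inr (by convert E1add (E1neg ha) (.inl ⟨-w, rfl⟩) using 1; abel)] }
  rcases (show w' ∈ M by
    by_contra hn
    obtain ⟨q, hq, q1, q2⟩ := h.sep M (fun _ a => .inl (.inl a)) hn hw'
    rw [← e q ⟨h.le hq, mem_centralizer_singleton_iff.2 (q1 _ (.inl (.inr (Dbl.refl _))) _ h.hv)⟩
      (q1 _ (.inr (.inl (Dbl.refl _))) _ hw), mul_inv_cancel_right] at q2
    exact h.z_ne (by simpa using q2.symm)) with k | k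
  · exact .inl ((V1 h hw').2 k)
  · exact .inr ((V1 h (h.mul hw' (h.neg hw))).2 (by rwa [← sub_eq_add_neg]))

omit h f in
theorem sqK {K : Subgroup G} (hK : ∀ a ∈ D.D0, ∀ b ∈ D.D0, a ∈ K ∨ b ∈ K ∨ a * b ∈ K) (hx : x ∈ D.D0) :
    x * x ∈ K := by
  rcases hK x hx x hx with k | k | k
  exacts [mul_mem k k, mul_mem k k, k]

theorem key {K : Subgroup G} (hK : ∀ a ∈ D.D0, ∀ b ∈ D.D0, a ∈ K ∨ b ∈ K ∨ a * b ∈ K) : D.Q ⊓ D.D0 ≤ K := by
  have h2 : ∀ a ∈ D.D0, ∀ b ∈ D.D0, a * b * a⁻¹ * b⁻¹ ∈ K := fun a ha b hb => by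
    simpa [mul_assoc] using
      mul_mem (mul_mem (sqK hK ha) (sqK hK (mul_mem (inv_mem ha) hb))) (sqK hK (inv_mem hb))
  have zK : D.z ∈ K := by
    obtain ⟨o, ho, o1, o2⟩ := exij (show (none : GolayPt) ≠ some 0 by simp)
    obtain ⟨p, hp⟩ := h.exR ⟨_, indZ_two_mem ho⟩
    obtain ⟨q, hq⟩ := h.exR (p2f none (some 0))
    have := h2 p ((evD h hp).2 (by simp [indZ, o1])) q ((evD h hq).2 (by have := p4 none (some 0) none; omega))
    rwa [h.conj_of_not hp hq (by rw [dp]; simp [indZ, o1, o2]), mul_inv_cancel_right] at this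
  let M : AddSubgroup leechLattice :=
    { carrier := {v | ∃ x ∈ K, D.R v x}
      add_mem' := fun ⟨_, a1, a2⟩ ⟨_, b1, b2⟩ => ⟨_, mul_mem a1 b1, h.mul a2 b2⟩
      zero_mem' := ⟨1, one_mem _, h.R_one⟩
      neg_mem' := fun ⟨_, a1, a2⟩ => ⟨_, a1, h.neg a2⟩ }
  intro x hx
  obtain ⟨w, hw⟩ := h.exL x hx.1
  obtain ⟨y, y1, y2⟩ := even_mem M (fun w hw => ⟨1, one_mem _, h.ofZero hw (.inl rfl)⟩) (fun y hy g hg => by
    obtain ⟨p, hp⟩ := h.exR y
    obtain ⟨d, hd, k⟩ := f.ND0 g hg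
    have h3 := h.mul hp (h.conj k (h.inv hp))
    rw [smul_neg, ← sub_eq_add_neg, ← mul_assoc, ← mul_assoc] at h3
    exact ⟨_, h2 p ((evD h hp).2 hy) d hd, h3⟩) ((evD h hw).1 hx.2)
  rcases h.same hw y2 with e | e <;> rw [e]
  exacts [y1, mul_mem zK y1]

theorem PF {K : Subgroup G} (hle : K ≤ D.D0) (hK : ∀ a ∈ D.D0, ∀ b ∈ D.D0, a ∈ K ∨ b ∈ K ∨ a * b ∈ K) :
    D.D0 ≤ K := by
  have k2 : D.Qv ⊓ D.D0 ≤ K := fun b hb => by
    obtain ⟨t, tN, tz, -⟩ := f.sw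
    have := key h f (K := K.comap (MulAut.conj t).toMonoidHom) (fun a ha b hb => by
      simpa [mul_assoc] using hK _ (f.nD t tN a ha) _ (f.nD t tN b hb)) (x := t⁻¹ * b * t)
      ⟨by have : b ∈ D.Qv := hb.1
          rwa [← f.cjQ t tN tz, mem_cj] at this, by simpa using f.nD _ (inv_mem tN) b hb.2⟩
    simpa [mul_assoc] using this
  let S : Subgroup M24 :=
    { carrier := {σ | ∃ d ∈ K, ∃ g : Nsub, Lf D.π d g ∧ nu g = σ}
      one_mem' := ⟨1, one_mem _, 1, Lf.one, map_one _⟩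
      mul_mem' := fun ⟨_, a1, g, a2, a3⟩ ⟨_, b1, k, b2, b3⟩ =>
        ⟨_, mul_mem a1 b1, g * k, a2.mul b2, by rw [map_mul, a3, b3]⟩
      inv_mem' := fun ⟨_, a1, g, a2, a3⟩ => ⟨_, inv_mem a1, g⁻¹, a2.inv, by rw [map_inv, a3]⟩ }
  have s1 : ∀ σ, σ * σ ∈ S := fun σ => by
    obtain ⟨g, rfl⟩ := nu_surjective σ
    obtain ⟨d, hd, k⟩ := f.ND0 g g.2
    exact ⟨_, sqK hK hd, g * g, k.mul k, map_mul ..⟩
  have s2 : S.Normal := ⟨fun s hs τ => by
    simpa [mul_assoc] using mul_mem (mul_mem (mul_mem (s1 τ) (s1 (τ⁻¹ * s))) (s1 s⁻¹)) hs⟩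
  have s3 : S = ⊤ := (Spor.M24_simple.eq_bot_or_eq_top_of_normal S s2).resolve_left fun e => by
    obtain ⟨σ, hσ⟩ := exists_prime_orderOf_dvd_card' (G := M24) 3 (by rw [Spor.card_M24]; norm_num)
    have := orderOf_dvd_of_pow_eq_one ((pow_two σ).trans (mem_bot.1 (e ▸ s1 σ)))
    rw [hσ] at this
    omega
  intro d hd
  obtain ⟨g, hg⟩ := lf D.π hd.1
  obtain ⟨k, hk, g', k1, k3⟩ : nu ⟨g, f.D0N hd hg⟩ ∈ S := s3 ▸ mem_top _
  obtain ⟨c, hc, e⟩ := (nu_eq_one (g := ⟨g, f.D0N hd hg⟩ * g'⁻¹)).1 (by rw [map_mul, map_inv, k3, mul_inv_cancel])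
  obtain ⟨b, hb, b1⟩ := f.lift c hc
  have := key h f hK ⟨h.lf_eq b1 (e ▸ hg.mul k1.inv), D.D0.mul_mem (D.D0.inv_mem hb.2) (mul_mem hd (inv_mem (hle hk)))⟩
  rwa [mul_mem_cancel_left (inv_mem (k2 hb)), mul_mem_cancel_right (inv_mem hk)] at this

theorem idx : Odd (D.N.relIndex D.C) := by
  rw [relIndex, show D.N.subgroupOf D.C = Nb.comap D.π from ext fun c => ?_, index_comap_of_surjective _ h.surj,
    ← index_comap_of_surjective _ mk1_surjective, comap_Nb, clsStab_e8, index_Nsub]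
  · decide
  obtain ⟨g, k⟩ := lf D.π c.2
  rw [mem_subgroupOf, mem_comap, k.2, ← mem_comap, comap_Nb]
  refine ⟨fun hc => mem_clsStab.2 ((h.dbl_iff (h.conj k h.hv) h.hv).2 ((h.nV _ hc).2.resolve_left fun e => ?_)),
    fun hg => ?_⟩
  · exact vnz h (by simpa using e.trans (cz' h c.2).symm)
  · obtain ⟨d, hd, k'⟩ := f.ND0 g (clsStab_e8 none ▸ hg)
    exact (mul_mem_cancel_left (inv_mem (h.DN hd))).1 (h.QN (h.lf_eq k' k))

omit f in
theorem cjP (hx : x ∈ D.Q) (e : x * x = 1) : ∃ c ∈ D.C, c * x * c⁻¹ ∈ D.D0 := by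
  obtain ⟨w, hw⟩ := h.exL x hx
  obtain ⟨w, h1, h2⟩ := exists_short' w
  have h3 := h.congr hw h1.symm
  have h4 := (h.sq h3).1 e
  obtain ⟨g, hg⟩ : ∃ g : Co0, ((g • w : leechLattice) : GolayPt → ℤ) none % 2 = 0 := by
    rcases h2 with rfl | h2 | h2 | h2
    · exact ⟨1, by simp⟩
    · obtain ⟨g, hg⟩ := trans32 h2 (w := p2f none (some 0)) (by decide +kernel)
      exact ⟨g, by have := p4 none (some 0) none; rw [hg]; omega⟩
    · omega
    · obtain ⟨g, hg⟩ := trans64 h2 (sqNorm_e8 none)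
      exact ⟨g, by rw [hg]; simp [coe_e8]⟩
  obtain ⟨c, k⟩ := h.lift g
  exact ⟨c, k.mem, (evD h (h.conj k h3)).2 hg⟩

end SGx

open SGx in
theorem sgEx (hT : LTT) : SGEx.{u} := fun _ _ _ h f =>
  ⟨fun _ hx _ => TT h f hT hx, fun _ => SW h f hT, fun _ hx _ _ => CW h f hx, fun _ => PF h f, idx h f,
    fun _ => cjP h⟩

end CL.AM
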