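/-
The Monster amalgam: one level up.
-/
import Cfsg.Agent.Spor.Am0

set_option autoImplicit false
set_option linter.unusedSectionVars false

namespace CL.AM

open Cfsg Cfsg.Spor Subgroup CL.BM CL.Mj CL.Even CL.Spor.Leech CL.Spor.Mon CL.IN Relation

namespace St

variable {H : Type*} [Group H] {z : H} {Q : Subgroup H} {S X : Set H} {ρ : H → H → Prop} {x₀ x₁ c x : H}

theorem img (hc : c ∈ centralizer S) (x : H) : (fun y => c * y * c⁻¹) '' insert x S = insert (c * x * c⁻¹) S := by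
  rw [Set.image_insert_eq, image_cent hc]

theorem cent_ins (hc : c ∈ centralizer S) (e : c * x * c⁻¹ = x) : c ∈ centralizer (insert x S) := by
  rintro y (rfl | hy)
  · exact (mul_inv_eq_iff_eq_mul.1 e).symm
  · exact hc y hy

theorem exists_conj (lv : LV z Q S X ρ x₀ x₁) {u₀ u : H} (h₀ : Pt z Q (insert x₀ S) u₀) (hu : Pt z Q S u) :
    ∃ c ∈ centralizer S, c * u₀ * c⁻¹ = u := by
  obtain ⟨x, hx, a⟩ := lv.ex u hu
  obtain ⟨c, hc, rfl⟩ := lv.tX x hx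
  have b := (Pt.insert_iff.2 ⟨a, hu⟩).conj c⁻¹
  rw [img (inv_mem hc), show c⁻¹ * (c * x₀ * c⁻¹) * c⁻¹⁻¹ = x₀ by group] at b
  obtain ⟨d, hd, e⟩ := lv.tP _ _ h₀ b
  refine ⟨c * d, mul_mem hc (centralizer_le (Set.subset_insert _ _) hd), ?_⟩
  calc c * d * u₀ * (c * d)⁻¹ = c * (d * u₀ * d⁻¹) * c⁻¹ := by group
    _ = u := by rw [e]; group

end St

open St

theorem step : Step := by
  intro H U W _ _ _ z Q φ p adj h S X ρ x₀ x₁ lv ii Y v₀ pv₀ inj onto GY ⟨τ, τY, τx, vs, t1, t2, t3⟩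
  have cent : ∀ η ∈ Y, φ η ∈ centralizer S := fun η hη => onto ▸ mem_map_of_mem φ hη
  have stab : ∀ η ∈ Y, φ η ∈ centralizer (insert x₀ S) → η ∈ h.Gs (insert x₀ S) v₀ := fun η hη hc => by
    obtain ⟨g, hg, e⟩ := h.Gs_onto lv.cn1 pv₀ hc
    rwa [← inv_mul_eq_one.1 (inj _ (mul_mem (inv_mem (GY hg)) hη) (by rw [map_mul, map_inv, e, inv_mul_cancel]))]
  have ins : ∀ η ∈ Y, ∀ {x v w}, Re z Q p adj (insert x S) v w →
      Re z Q p adj (insert (φ η * x * (φ η)⁻¹) S) (η • v) (η • w) :=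
    fun η hη x v w k => img (cent η hη) x ▸ h.re_smul η k
  let M : W → H → Prop := fun v x => ∃ η ∈ Y, φ η * x₀ * (φ η)⁻¹ = x ∧ Re z Q p adj (insert x S) (η • v₀) v
  have a : ∀ v x, M v x → ∀ θ ∈ Y, M (θ • v) (φ θ * x * (φ θ)⁻¹) := by
    rintro v _ ⟨η, hη, rfl, k⟩ θ hθ
    exact ⟨θ * η, mul_mem hθ hη, by rw [map_mul]; group, mul_smul θ η v₀ ▸ ins θ hθ k⟩
  have b : ∀ v v' x, M v x → M v' x → Re z Q p adj (insert x S) v v' := by
    rintro v v' _ ⟨η, hη, rfl, k⟩ ⟨η', hη', e, k'⟩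
    have m := mul_mem (inv_mem hη) hη'
    have k1 := ins η hη (stab _ m (cent_ins (cent _ m) (by
      rw [map_mul, map_inv]
      calc _ = (φ η)⁻¹ * (φ η' * x₀ * (φ η')⁻¹) * φ η := by group
        _ = x₀ := by rw [e]; group))).2
    rw [smul_smul, mul_inv_cancel_left] at k1
    exact ((h.re_symm k).trans k1).trans k'
  have c : ∀ v x, M v x → II z Q p adj (insert x S) ∧ x ∈ X ∧ Pt z Q (insert x S) (p v) := by
    rintro v _ ⟨η, hη, rfl, k⟩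
    exact ⟨img (cent η hη) x₀ ▸ h.ii_smul η ii, lv.cX _ (cent η hη) _ lv.m0,
      k.pt (by rw [h.smul, ← img (cent η hη)]; exact pv₀.conj _)⟩
  have d : ∀ v, Re z Q p adj (insert x₀ S) v₀ v → InQ z Q (p v) x₁ → M v x₁ := fun v k q =>
    ⟨τ, τY, τx, ((τx ▸ ins τ τY t1 : Re z Q p adj (insert x₁ S) _ _).trans (h.re_symm t3)).trans
      ((h.one ii lv.cn2 (Set.subset_insert _ _) ((h.re_symm t1).trans k)
        (Pt.insert_iff.2 ⟨(Pt.insert_iff.1 t2).1, t1.pt pv₀⟩) (Pt.insert_iff.2 ⟨q, k.pt pv₀⟩)).mono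
          (Set.insert_subset_insert (Set.subset_insert _ _)))⟩
  have inq : ∀ (g : U) v x, InQ z Q (p v) x → InQ z Q (p (g • v)) (φ g * x * (φ g)⁻¹) :=
    fun g v x q => h.smul g v ▸ GD.inQ_conj _ q
  have e0 : ∀ v x', Re z Q p adj (insert x₀ S) v₀ v → ρ x₀ x' → InQ z Q (p v) x' → M v x' := fun v x' k r q => by
    obtain ⟨c, hc, rfl⟩ := lv.tρ x' r
    obtain ⟨g, hg, rfl⟩ := h.Gs_onto lv.cn1 pv₀ hc
    have q' := inq g⁻¹ v _ q
    rw [map_inv, show (φ g)⁻¹ * (φ g * x₁ * (φ g)⁻¹) * (φ g)⁻¹⁻¹ = x₁ by group] at q'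
    simpa using a _ _ (d _ ((inv_mem hg).2.trans (h.re_cent (inv_mem hg).1 k)) q') g (GY hg)
  have e : ∀ v x x', M v x → ρ x x' → InQ z Q (p v) x' → M v x' := by
    rintro v _ x' ⟨η, hη, rfl, k⟩ r q
    have k' := ins η⁻¹ (inv_mem hη) k
    have r' := lv.cρ _ (cent _ (inv_mem hη)) r
    have e1 : φ η⁻¹ * (φ η * x₀ * (φ η)⁻¹) * (φ η⁻¹)⁻¹ = x₀ := by rw [map_inv]; group
    rw [e1] at k' r'
    rw [inv_smul_smul] at k'
    simpa [mul_assoc] using a _ _ (e0 _ _ k' r' (inq η⁻¹ v _ q)) η hη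
  have f : ∀ v x, M v x → ∀ x' ∈ X, InQ z Q (p v) x' → M v x' := fun v x m x' hx' q => by
    obtain ⟨-, c1, c2⟩ := c v x m
    have := lv.loc _ (Pt.insert_iff.1 c2).2 x c1 x' hx' (Pt.insert_iff.1 c2).1 q
    clear hx' q
    induction this with
    | refl => exact m
    | tail _ k ih => exact e _ _ _ ih k.1 k.2
  have g : ∀ w, Re z Q p adj S v₀ w → ∃ x, M w x := fun w k => by
    induction k with
    | refl => exact ⟨x₀, 1, one_mem _, by simp, by rw [one_smul]; exact .refl⟩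
    | tail _ k ih =>
      obtain ⟨x, m⟩ := ih
      obtain ⟨y, hy, q1, q2⟩ := lv.edge _ _ k.2.1 k.2.2 (h.cov.map k.1)
      obtain ⟨η, hη, e1, k1⟩ := f _ x m y hy q1
      exact ⟨y, η, hη, e1, ReflTransGen.tail k1 ⟨k.1, Pt.insert_iff.2 ⟨q1, k.2.1⟩, Pt.insert_iff.2 ⟨q2, k.2.2⟩⟩⟩
  intro v w k e1
  rcases ReflTransGen.cases_head k with rfl | ⟨_, k1, -⟩
  · rfl
  obtain ⟨c', hc, e2⟩ := exists_conj lv pv₀ k1.2.1
  obtain ⟨γ, rfl, rfl⟩ := h.move e2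
  have k2 := h.re_cent (g := γ⁻¹) (by rw [map_inv]; exact inv_mem hc) k
  rw [inv_smul_smul] at k2
  have e3 : p v₀ = p (γ⁻¹ • w) := by rw [h.smul, ← e1, h.smul, map_inv]; group
  obtain ⟨x, m⟩ := g v₀ .refl
  obtain ⟨x', m'⟩ := g _ k2
  obtain ⟨c0, c1, c2⟩ := c _ x m
  rw [c0 _ _ (b _ _ x m (f _ x' m' x c1 (e3 ▸ (Pt.insert_iff.1 c2).1))) e3, smul_inv_smul]

theorem cnUp : CnUp := by
  intro H _ z Q S X ρ x₀ x₁ a₁ a₂ ε sy lv nv
  obtain ⟨u₀, h₀⟩ := nv.p2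
  have sym : ∀ {a b}, ReflTransGen (fun a b => Ad z Q a b ∧ Pt z Q S a ∧ Pt z Q S b) a b →
      ReflTransGen (fun a b => Ad z Q a b ∧ Pt z Q S a ∧ Pt z Q S b) b a :=
    rtg_symm fun _ _ e => ⟨sy e.1, e.2.2, e.2.1⟩
  have cj' : ∀ c ∈ centralizer S, ∀ {a b}, ReflTransGen (fun a b => Ad z Q a b ∧ Pt z Q S a ∧ Pt z Q S b) a b →
      ReflTransGen (fun a b => Ad z Q a b ∧ Pt z Q S a ∧ Pt z Q S b) (c * a * c⁻¹) (c * b * c⁻¹) := fun c hc _ _ =>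
    rtg_lift (fun x => c * x * c⁻¹) fun _ _ e => ⟨e.1.conj c, e.2.1.cent hc, e.2.2.cent hc⟩
  let K : Subgroup H :=
    { carrier := {c | c ∈ centralizer S ∧
        ReflTransGen (fun a b => Ad z Q a b ∧ Pt z Q S a ∧ Pt z Q S b) u₀ (c * u₀ * c⁻¹)}
      one_mem' := ⟨one_mem _, by simpa using ReflTransGen.refl⟩
      mul_mem' := fun {a b} ha hb => ⟨mul_mem ha.1 hb.1, ha.2.trans (by simpa [mul_assoc] using cj' a ha.1 hb.2)⟩
      inv_mem' := fun {a} ha => ⟨inv_mem ha.1, sym (by simpa [mul_assoc] using cj' a⁻¹ (inv_mem ha.1) ha.2)⟩ }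
  have key : ∀ x, Cn z Q (insert x S) → Pt z Q (insert x S) u₀ → centralizer (insert x S) ≤ K := fun x cn pt c hc =>
    ⟨centralizer_le (Set.subset_insert _ _) hc, rtg_mono
      (fun _ _ e => ⟨e.1, e.2.1.mono (Set.subset_insert _ _), e.2.2.mono (Set.subset_insert _ _)⟩)
      (cn _ _ pt (pt.cent hc))⟩
  have p0 : Pt z Q (insert x₀ S) u₀ := h₀.mono ((Set.subset_insert _ _).trans (Set.subset_insert _ _))
  have p1 : Pt z Q (insert a₁ S) u₀ :=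
    h₀.mono ((Set.insert_subset_insert (Set.subset_insert _ _)).trans (Set.subset_insert _ _))
  obtain ⟨c, hc, e⟩ := lv.tX a₁ (lv.mρ lv.m0 nv.r1)
  have all : centralizer S ≤ K := nv.gen ▸ sup_le (key x₀ lv.cn1 p0) (zpowers_le.2
    (key a₁ (e ▸ img hc x₀ ▸ lv.cn1.conj c) p1 (centralizer_le (Set.subset_insert _ _) nv.c)))
  intro u u' hu hu'
  obtain ⟨d, hd, rfl⟩ := exists_conj lv p0 hu
  obtain ⟨d', hd', rfl⟩ := exists_conj lv p0 hu'
  exact (sym (all hd).2).trans (all hd').2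

end CL.AM
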