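/-
Weight spaces of 2-subgroups in representations over a field of characteristic not 2.
-/
import Cfsg.Agent.Spor.IncE1
import Cfsg.Agent.Even.XS3

set_option autoImplicit false
set_option linter.unusedSectionVars false

namespace CL.RB
open Cfsg Subgroup CL.Even CL.Grp Module
open CL.INC (fs mem_fs card_fs sum_fs_mul)
open scoped commutatorElement

variable {G : Type*} [Group G] {F V V' : Type*} [Field F] [AddCommGroup V] [Module F V] [AddCommGroup V']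
  [Module F V']

/-- `ρ` is a representation of the subgroup `K` (values outside `K` are irrelevant), `2 ≠ 0` in `F`. -/
structure Rp (K : Subgroup G) (ρ : G → End F V) : Prop where
  two : (2 : F) ≠ 0
  one : ρ 1 = 1
  mul : ∀ a ∈ K, ∀ b ∈ K, ρ (a * b) = ρ a * ρ b

/-- The eigenspace of `ρ g` for `e`. -/
def Ev (ρ : G → End F V) (g : G) (e : F) : Submodule F V where
  carrier := {v | ρ g v = e • v}
  add_mem' {a b} ha hb := by
    simp only [Set.mem_ofPred_eq] at *; rw [map_add, ha, hb, smul_add]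
  zero_mem' := by simp
  smul_mem' c a ha := by simp only [Set.mem_ofPred_eq] at *; rw [map_smul, ha, smul_comm]

/-- The weight space of the subgroup `X` for the function `l`. -/
def Wt (ρ : G → End F V) (X : Subgroup G) (l : G → F) : Submodule F V where
  carrier := {v | ∀ x ∈ X, ρ x v = l x • v}
  add_mem' {a b} ha hb x hx := by rw [map_add, ha x hx, hb x hx, smul_add]
  zero_mem' x _ := by simp
  smul_mem' c a ha x hx := by rw [map_smul, ha x hx, smul_comm]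

/-- `T` is invariant under `X`. -/
def Inv (ρ : G → End F V) (X : Subgroup G) (T : Submodule F V) : Prop := ∀ x ∈ X, ∀ v ∈ T, ρ x v ∈ T

/-- `l` is a sign character of `X`. -/
structure Ch (X : Subgroup G) (l : G → F) : Prop where
  mul : ∀ a ∈ X, ∀ b ∈ X, l (a * b) = l a * l b
  pm : ∀ a ∈ X, l a = 1 ∨ l a = -1

/-- `T` is a line or zero. -/
def Ln (T : Submodule F V) : Prop := ∀ a ∈ T, a ≠ 0 → ∀ b ∈ T, ∃ c : F, b = c • a

open Classical in
/-- The commutation sign. -/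
noncomputable def sg (F : Type*) [Field F] (y x : G) : F := if x * y = y * x then 1 else -1

/-- The product of two representations. -/
def pd (ρ : G → End F V) (ρ' : G → End F V') (g : G) : End F (V × V') := (ρ g).prodMap (ρ' g)

variable {K X Y L N : Subgroup G} {ρ : G → End F V} {ρ' : G → End F V'} {l m : G → F} {a b g x y : G} {v : V}
  {T T' M : Submodule F V} {e : F}

theorem mem_Ev : v ∈ Ev ρ g e ↔ ρ g v = e • v := Iff.rfl
theorem mem_Ev_one : v ∈ Ev ρ g 1 ↔ ρ g v = v := by rw [mem_Ev, one_smul]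
theorem mem_Ev_neg : v ∈ Ev ρ g (-1) ↔ ρ g v = -v := by rw [mem_Ev, neg_one_smul]
theorem mem_Wt : v ∈ Wt ρ X l ↔ ∀ x ∈ X, ρ x v = l x • v := Iff.rfl
theorem mem_Wt_one : v ∈ Wt ρ X (fun _ => 1) ↔ ∀ x ∈ X, ρ x v = v := by simp only [mem_Wt, one_smul]
theorem Wt_congr (h : Set.EqOn l m X) : Wt ρ X l = Wt ρ X m :=
  Submodule.ext fun _ => forall₂_congr fun _ hx => by rw [h hx]
theorem Wt_mono (h : X ≤ Y) : Wt ρ Y l ≤ Wt ρ X l := fun _ hv x hx => hv x (h hx)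
theorem Wt_le_Ev (hx : x ∈ X) : Wt ρ X l ≤ Ev ρ x (l x) := fun _ hv => hv x hx
theorem inv_Wt : Inv ρ X (Wt ρ X l) := fun x hx _ hv => by rw [hv x hx]; exact Submodule.smul_mem _ _ hv
theorem inv_of_le_Wt (h : T ≤ Wt ρ X l) : Inv ρ X T := fun x hx _ hv => by
  rw [h hv x hx]; exact T.smul_mem _ hv
theorem Inv.mono (h : Inv ρ Y T) (hX : X ≤ Y) : Inv ρ X T := fun x hx => h x (hX hx)
theorem Inv.inf (h : Inv ρ X T) (h' : Inv ρ X T') : Inv ρ X (T ⊓ T') := fun x hx v hv =>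
  ⟨h x hx v hv.1, h' x hx v hv.2⟩
theorem maps_sup {f : End F V} (h : ∀ v ∈ T, f v ∈ M) (h' : ∀ v ∈ T', f v ∈ M) : ∀ v ∈ T ⊔ T', f v ∈ M :=
  fun _ hv => (sup_le (c := M.comap f) h h') hv
theorem maps_iSup {ι : Sort*} {f : End F V} {S : ι → Submodule F V} (h : ∀ i, ∀ v ∈ S i, f v ∈ M) :
    ∀ v ∈ ⨆ i, S i, f v ∈ M := fun _ hv => (iSup_le (a := M.comap f) h) hv
theorem maps_biSup {ι : Type*} {I : Set ι} {f : End F V} {S : ι → Submodule F V}
    (h : ∀ i ∈ I, ∀ v ∈ S i, f v ∈ M) : ∀ v ∈ ⨆ i ∈ I, S i, f v ∈ M := fun _ hv => (iSup₂_le (a := M.comap f) h) hv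
theorem maps_span {f : End F V} {S : Set V} (h : ∀ v ∈ S, f v ∈ M) : ∀ v ∈ Submodule.span F S, f v ∈ M :=
  fun _ hv => (Submodule.span_le (p := M.comap f)).2 h hv
theorem Inv.sup (h : Inv ρ X T) (h' : Inv ρ X T') : Inv ρ X (T ⊔ T') := fun x hx =>
  maps_sup (fun v hv => Submodule.mem_sup_left (h x hx v hv)) fun v hv => Submodule.mem_sup_right (h' x hx v hv)
theorem inv_top : Inv ρ X ⊤ := fun _ _ _ _ => trivial

/-- A nonzero vector determines its weight. -/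
theorem eqOn_of_mem (h1 : v ∈ Wt ρ X l) (h2 : v ∈ Wt ρ X m) (h0 : v ≠ 0) : Set.EqOn l m X := fun x hx =>
  smul_left_injective F h0 ((h1 x hx).symm.trans (h2 x hx))

theorem one_ne_neg (h : (2 : F) ≠ 0) : (1 : F) ≠ -1 := fun e => h (by linear_combination e)

theorem eq_zero_of_eq_neg (h : (2 : F) ≠ 0) (e : v = -v) : v = 0 :=
  (smul_eq_zero.1 (show (2 : F) • v = 0 by rw [two_smul]; exact add_eq_zero_iff_eq_neg.2 e)).resolve_left h

theorem disjoint_Ev (h : (2 : F) ≠ 0) : Disjoint (Ev ρ g 1) (Ev ρ g (-1)) :=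
  Submodule.disjoint_def.2 fun _ h1 h2 => eq_zero_of_eq_neg h ((mem_Ev_one.1 h1).symm.trans (mem_Ev_neg.1 h2))

/-- An invariant subspace on which `ρ g` is an involution is the sum of the two eigenspaces. -/
theorem le_Ev_sup (h : (2 : F) ≠ 0) (h1 : ∀ v ∈ T, ρ g v ∈ T) (h2 : ∀ v ∈ T, ρ g (ρ g v) = v) :
    T ≤ T ⊓ Ev ρ g 1 ⊔ T ⊓ Ev ρ g (-1) := fun v hv => by
  have e : v = (2 : F)⁻¹ • (v + ρ g v) + (2 : F)⁻¹ • (v - ρ g v) := by
    rw [← smul_add, add_add_sub_cancel, ← two_smul F, smul_smul, inv_mul_cancel₀ h, one_smul]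
  rw [e]
  refine Submodule.add_mem_sup (Submodule.smul_mem _ _ ⟨add_mem hv (h1 v hv), mem_Ev_one.2 ?_⟩)
    (Submodule.smul_mem _ _ ⟨sub_mem hv (h1 v hv), mem_Ev_neg.2 ?_⟩)
  · rw [map_add, h2 v hv, add_comm]
  · rw [map_sub, h2 v hv, neg_sub]

/-- Selection of the component in an eigenspace. -/
theorem sel_Ev (h : (2 : F) ≠ 0) (h1 : T ≤ Ev ρ g e) (h2 : T' ≤ Ev ρ g (-e)) (he : e ≠ 0) (hv : v ∈ T ⊔ T')
    (hv' : v ∈ Ev ρ g e) : v ∈ T := by
  obtain ⟨a, ha, b, hb, rfl⟩ := Submodule.mem_sup.1 hv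
  have h3 : ρ g b = e • b := by
    have := mem_Ev.1 hv'
    rwa [map_add, h1 ha, smul_add, add_right_inj] at this
  have h4 : e • b = 0 := eq_zero_of_eq_neg h (h3.symm.trans ((h2 hb).trans (neg_smul _ _)))
  rwa [(smul_eq_zero.1 h4).resolve_left he, add_zero]

/-! ### Lines -/

theorem Ln.mono (h : Ln T') (hT : T ≤ T') : Ln T := fun a ha h0 b hb => h a (hT ha) h0 b (hT hb)
theorem Ln.le (h : Ln T') (hv : v ∈ T') (h0 : v ≠ 0) (hv' : v ∈ T) : T' ≤ T := fun b hb => by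
  obtain ⟨c, rfl⟩ := h v hv h0 b hb
  exact T.smul_mem c hv'
theorem Ln.eq_of_le (h : Ln T') (hT : T ≤ T') (h0 : T ≠ ⊥) : T = T' := by
  obtain ⟨v, hv, h1⟩ := Submodule.exists_mem_ne_zero_of_ne_bot h0
  exact le_antisymm hT (h.le (hT hv) h1 hv)
theorem Ln.of_map {f : V →ₗ[F] V'} {S : Submodule F V'} (h : Ln S) (hf : ∀ v ∈ T, f v = 0 → v = 0)
    (hT : ∀ v ∈ T, f v ∈ S) : Ln T := fun a ha h0 b hb => by
  obtain ⟨c, hc⟩ := h _ (hT a ha) (fun e => h0 (hf a ha e)) _ (hT b hb)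
  exact ⟨c, sub_eq_zero.1 (hf _ (sub_mem hb (T.smul_mem c ha)) (by rw [map_sub, map_smul, hc, sub_self]))⟩
theorem ln_of_finrank [Module.Finite F V] (h : finrank F T ≤ 1) : Ln T := fun a ha h0 b hb => by
  have h1 : Submodule.span F {a} = T := Submodule.eq_of_le_of_finrank_le
    ((Submodule.span_singleton_le_iff_mem _ _).2 ha) (by rwa [finrank_span_singleton h0])
  obtain ⟨c, hc⟩ := Submodule.mem_span_singleton.1 (h1.ge hb)
  exact ⟨c, hc.symm⟩
theorem one_le_finrank [Module.Finite F V] (h : T ≠ ⊥) : 1 ≤ finrank F T :=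
  Nat.one_le_iff_ne_zero.2 fun e => h (Submodule.finrank_eq_zero.1 e)
theorem finrank_add_le [Module.Finite F V] (h : Disjoint T T') (h1 : T ≤ M) (h2 : T' ≤ M) :
    finrank F T + finrank F T' ≤ finrank F M := by
  rw [← Submodule.finrank_sup_add_finrank_inf_eq, h.eq_bot, finrank_bot, add_zero]
  exact Submodule.finrank_mono (sup_le h1 h2)

/-! ### Signs -/

theorem sg_pos (h : x * y = y * x) : sg F y x = 1 := if_pos h
theorem sg_neg (h : x * y ≠ y * x) : sg F y x = -1 := if_neg h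
theorem sg_pm (y x : G) : sg F y x = 1 ∨ sg F y x = -1 := by
  by_cases h : x * y = y * x
  exacts [Or.inl (sg_pos h), Or.inr (sg_neg h)]
theorem sg_iff (h : x * y = y * x ↔ a * b = b * a) : sg F y x = sg F b a := by
  by_cases e : x * y = y * x
  · rw [sg_pos e, sg_pos (h.1 e)]
  · rw [sg_neg e, sg_neg fun e' => e (h.2 e')]
theorem sg_comm (x y : G) : sg F y x = sg F x y := sg_iff eq_comm
theorem sg_eq_one (h2 : (2 : F) ≠ 0) : sg F y x = 1 ↔ x * y = y * x :=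
  ⟨fun h => by_contra fun e => one_ne_neg h2 (h.symm.trans (sg_neg e)), sg_pos⟩
theorem sg_eq_iff (h2 : (2 : F) ≠ 0) : sg F y x = sg F b a ↔ (x * y = y * x ↔ a * b = b * a) :=
  ⟨fun h => by rw [← sg_eq_one h2, h, sg_eq_one h2], sg_iff⟩
theorem sg_one (x : G) : sg F 1 x = 1 := sg_pos (by simp)
theorem sg_conj (g x y : G) : sg F (g * y * g⁻¹) x = sg F y (g⁻¹ * x * g) :=
  sg_iff ⟨fun h => by
    calc _ = g⁻¹ * (x * (g * y * g⁻¹)) * g := by group
      _ = _ := by rw [h]; group, fun h => by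
    calc _ = g * (g⁻¹ * x * g * y) * g⁻¹ := by group
      _ = _ := by rw [h]; group⟩
/-- Multiplying `y` by an element commuting with `x`. -/
theorem sg_mul_of_comm (h : x * a = a * x) (y : G) : sg F (a * y) x = sg F y x :=
  sg_iff (by rw [← mul_assoc, h, mul_assoc, mul_assoc, mul_right_inj])

namespace Ch
variable (h : Ch X l)
include h
theorem sq (hx : x ∈ X) : l x * l x = 1 := by rcases h.pm x hx with e | e <;> simp [e]
theorem one : l 1 = 1 := by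
  have := h.mul 1 (one_mem _) 1 (one_mem _)
  rwa [h.sq (one_mem _), one_mul] at this
theorem inv (hx : x ∈ X) : l x⁻¹ = l x := by
  have := h.mul x hx x⁻¹ (inv_mem hx)
  rw [mul_inv_cancel, h.one] at this
  rw [← one_mul (l x⁻¹), ← h.sq hx, mul_assoc, ← this, mul_one]
theorem ne_zero (hx : x ∈ X) : l x ≠ 0 := fun e => by simpa [e] using h.sq hx
theorem mono (hY : Y ≤ X) : Ch Y l := ⟨fun a ha b hb => h.mul a (hY ha) b (hY hb), fun a ha => h.pm a (hY ha)⟩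
theorem prod (h' : Ch X m) : Ch X fun x => l x * m x :=
  ⟨fun a ha b hb => by rw [h.mul a ha b hb, h'.mul a ha b hb]; ring, fun a ha => by
    rcases h.pm a ha with e | e <;> rcases h'.pm a ha with e' | e' <;> simp [e, e']⟩
theorem conj (hg : ∀ y ∈ Y, g⁻¹ * y * g ∈ X) : Ch Y fun y => l (g⁻¹ * y * g) :=
  ⟨fun a ha b hb => by
    rw [← h.mul _ (hg a ha) _ (hg b hb)]; congr 1; group, fun a ha => h.pm _ (hg a ha)⟩
theorem eq_iff (hx : x ∈ X) : l x * m x = 1 ↔ l x = m x :=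
  ⟨fun e => by rw [← one_mul (m x), ← h.sq hx, mul_assoc, e, mul_one], fun e => by rw [← e, h.sq hx]⟩
end Ch

theorem ch_one : Ch X fun _ => (1 : F) := ⟨fun _ _ _ _ => (one_mul _).symm, fun _ _ => Or.inl rfl⟩

section XE
variable {z : G} {Q : Subgroup G} (h : XE z Q)
include h

theorem conj_cases (hx : x ∈ Q) (hy : y ∈ Q) : x * y * x⁻¹ = y ∨ x * y * x⁻¹ = z * y :=
  (h.mem_Z.1 (h.comm_mem hx hy)).imp (fun e => by
    rwa [commutatorElement_def, mul_inv_eq_one] at e) fun e => by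
    rwa [commutatorElement_def, mul_inv_eq_iff_eq_mul] at e

theorem conj_eq_of_ne (hx : x ∈ Q) (hy : y ∈ Q) (hn : x * y ≠ y * x) : x * y * x⁻¹ = z * y :=
  (conj_cases h hx hy).resolve_left fun e => hn (mul_inv_eq_iff_eq_mul.1 e)

/-- The commutation sign with an element of `Q` is a character of `Q`. -/
theorem ch_sg (hy : y ∈ Q) : Ch Q (sg F y) := by
  refine ⟨fun a ha b hb => ?_, fun a _ => sg_pm y a⟩
  by_cases h1 : b * y = y * b
  · rw [sg_pos h1, mul_one]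
    exact sg_iff (by rw [mul_assoc, h1, ← mul_assoc, ← mul_assoc, mul_left_inj])
  by_cases h2 : a * y = y * a
  · rw [sg_pos h2, one_mul]
    exact sg_iff (by rw [← mul_assoc y, ← h2, mul_assoc, mul_assoc, mul_right_inj])
  rw [sg_neg h1, sg_neg h2, neg_mul_neg, one_mul]
  exact sg_pos (mem_cent_singleton.1 (h.mul_mem_cent hy ha hb (fun e => h2 (mem_cent_singleton.1 e))
    fun e => h1 (mem_cent_singleton.1 e)))

theorem sg_mul (ha : a ∈ Q) (hb : b ∈ Q) (hx : x ∈ Q) : sg F (a * b) x = sg F a x * sg F b x := by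
  rw [sg_comm, (ch_sg h hx).mul a ha b hb, sg_comm x, sg_comm x]

/-- Every character of a subgroup of `Q`, trivial on `z`, is a commutation sign. -/
theorem exists_sg [Finite G] (h2 : (2 : F) ≠ 0) (hY : Y ≤ Q) (hz : z ∈ Y) (hl : Ch Y l) (h1 : l z = 1) :
    ∃ x ∈ Q, Set.EqOn l (sg F x) Y := by
  classical
  obtain ⟨d, H, -, h0, -⟩ := h.exists_model
  have hk : ∀ a ∈ Y, ∀ b ∈ Y, ∀ ha hb, H.π ⟨a, ha⟩ = H.π ⟨b, hb⟩ → l a = l b := fun a ha b hb ha' hb' e => by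
    have h3 : H.π (⟨a, ha'⟩ * (⟨b, hb'⟩ : Q)⁻¹) = 0 := by rw [H.π_mul, H.π_inv, e, add_neg_cancel]
    rcases h.mem_Z.1 ((h0 _).1 h3) with e | e
    · rw [show a = b from mul_inv_eq_one.1 e]
    · rw [show a = z * b from mul_inv_eq_iff_eq_mul.1 e, hl.mul z hz b hb, h1, one_mul]
  let S : Submodule (ZMod 2) (Fin d → ZMod 2) := AddSubgroup.toZModSubmodule 2
    { carrier := {w | ∃ a, ∃ ha : a ∈ Y, H.π ⟨a, hY ha⟩ = w}
      add_mem' := by
        rintro _ _ ⟨a, ha, rfl⟩ ⟨b, hb, rfl⟩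
        exact ⟨a * b, mul_mem ha hb, H.π_mul ⟨a, hY ha⟩ ⟨b, hY hb⟩⟩
      zero_mem' := ⟨1, one_mem _, (h0 1).2 (one_mem _)⟩
      neg_mem' := by
        rintro _ ⟨a, ha, rfl⟩
        exact ⟨a⁻¹, inv_mem ha, H.π_inv ⟨a, hY ha⟩⟩ }
  let f : S → ZMod 2 := fun w => if l w.2.choose = 1 then 0 else 1
  have hf : ∀ a (ha : a ∈ Y), f ⟨_, a, ha, rfl⟩ = if l a = 1 then 0 else 1 := fun a ha => by
    have h3 := (show (⟨_, a, ha, rfl⟩ : S).1 ∈ S from (⟨_, a, ha, rfl⟩ : S).2).choose_spec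
    simp only [f]
    rw [hk _ h3.1 a ha _ _ h3.2]
  let φ : S →ₗ[ZMod 2] ZMod 2 := AddMonoidHom.toZModLinearMap 2 (AddMonoidHom.mk' f (by
    rintro ⟨_, a, ha, rfl⟩ ⟨_, b, hb, rfl⟩
    have h3 : (⟨_, a, ha, rfl⟩ + ⟨_, b, hb, rfl⟩ : S) = ⟨_, a * b, mul_mem ha hb, rfl⟩ :=
      Subtype.ext (H.π_mul ⟨a, hY ha⟩ ⟨b, hY hb⟩).symm
    have h4 := (one_ne_neg h2).symm
    rw [h3, hf _ (mul_mem ha hb), hf _ ha, hf _ hb, hl.mul a ha b hb]
    rcases hl.pm a ha with e | e <;> rcases hl.pm b hb with e' | e' <;> simp [e, e', h4]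
    rfl))
  obtain ⟨ψ, hψ⟩ := φ.exists_extend
  have hN : H.B.Nondegenerate := by
    have h3 : H.B.SeparatingLeft := fun r hr => by
      obtain ⟨x, rfl⟩ := H.π_surj r
      exact (h0 x).2 (h.cent_eq ▸ fun y hy =>
        (congrArg Subtype.val (H.B_eq_zero_iff.1 (hr (H.π ⟨y, hy⟩)))).symm)
    exact LinearMap.BilinForm.Nondegenerate.ofSeparatingLeft h3
  obtain ⟨x, hx⟩ := H.π_surj ((H.B.toDual hN).symm ψ)
  refine ⟨x, x.2, fun a ha => ?_⟩
  have h3 : H.B (H.π x) (H.π ⟨a, hY ha⟩) = if l a = 1 then 0 else 1 := by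
    rw [hx, LinearMap.BilinForm.apply_toDual_symm_apply, ← hf a ha]
    exact LinearMap.congr_fun hψ ⟨_, a, ha, rfl⟩
  rcases hl.pm a ha with e | e
  · rw [if_pos e] at h3
    rw [e, sg_pos (congrArg Subtype.val (H.B_eq_zero_iff.1 h3)).symm]
  · rw [if_neg (e ▸ (one_ne_neg h2).symm)] at h3
    rw [e, sg_neg fun e' => ?_]
    rw [H.B_eq_zero_iff.2 (Subtype.ext e'.symm)] at h3
    exact absurd h3 (by decide)

end XE

/-! ### Representations -/

namespace Rp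
variable (h : Rp K ρ)
include h

theorem app (ha : a ∈ K) (hb : b ∈ K) (v : V) : ρ (a * b) v = ρ a (ρ b v) := by rw [h.mul a ha b hb]; rfl
theorem one_app (v : V) : ρ 1 v = v := by rw [h.one]; rfl
theorem inv_app (ha : a ∈ K) (v : V) : ρ a⁻¹ (ρ a v) = v := by
  rw [← h.app (inv_mem ha) ha, inv_mul_cancel, h.one_app]
theorem app_inv (ha : a ∈ K) (v : V) : ρ a (ρ a⁻¹ v) = v := by
  rw [← h.app ha (inv_mem ha), mul_inv_cancel, h.one_app]
theorem inj (ha : a ∈ K) : Function.Injective (ρ a) := fun u v e => by rw [← h.inv_app ha u, e, h.inv_app ha]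
theorem eq_zero (ha : a ∈ K) (e : ρ a v = 0) : v = 0 := h.inj ha (e.trans (map_zero _).symm)
theorem ne_zero (ha : a ∈ K) (h0 : v ≠ 0) : ρ a v ≠ 0 := fun e => h0 (h.eq_zero ha e)
theorem sq (ha : a ∈ K) (e : a * a = 1) (v : V) : ρ a (ρ a v) = v := by rw [← h.app ha ha, e, h.one_app]
theorem comm (ha : a ∈ K) (hb : b ∈ K) (e : a * b = b * a) (v : V) : ρ a (ρ b v) = ρ b (ρ a v) := by
  rw [← h.app ha hb, e, h.app hb ha]
/-- `ρ x (ρ g v) = ρ g (ρ (g⁻¹ x g) v)`. -/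
theorem conj (hg : g ∈ K) (hx : x ∈ K) (v : V) : ρ x (ρ g v) = ρ g (ρ (g⁻¹ * x * g) v) := by
  rw [← h.app hx hg, ← h.app hg (mul_mem (mul_mem (inv_mem hg) hx) hg)]; congr 2; group
theorem mono (hL : L ≤ K) : Rp L ρ := ⟨h.two, h.one, fun a ha b hb => h.mul a (hL ha) b (hL hb)⟩
theorem prod (h' : Rp K ρ') : Rp K (pd ρ ρ') :=
  ⟨h.two, by rw [pd, h.one, h'.one]; rfl, fun a ha b hb => by rw [pd, h.mul a ha b hb, h'.mul a ha b hb]; rfl⟩

theorem ev_map (hg : g ∈ K) (hx : x ∈ K) (hv : v ∈ Ev ρ (g⁻¹ * x * g) e) : ρ g v ∈ Ev ρ x e := by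
  rw [mem_Ev, h.conj hg hx, hv, map_smul]
theorem ev_map' (hg : g ∈ K) (hx : x ∈ K) (hv : v ∈ Ev ρ x e) : ρ g v ∈ Ev ρ (g * x * g⁻¹) e :=
  h.ev_map hg (mul_mem (mul_mem hg hx) (inv_mem hg)) (by simpa [mul_assoc] using hv)
theorem ev_comm (hg : g ∈ K) (hx : x ∈ K) (hc : g * x = x * g) (hv : v ∈ Ev ρ x e) : ρ g v ∈ Ev ρ x e := by
  simpa [hc] using h.ev_map' hg hx hv
/-- Transport of weight vectors. -/
theorem wt_map (hg : g ∈ K) (hY : Y ≤ K) (hc : ∀ y ∈ Y, g⁻¹ * y * g ∈ X ∧ l (g⁻¹ * y * g) = m y)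
    (hv : v ∈ Wt ρ X l) : ρ g v ∈ Wt ρ Y m := fun y hy => by
  rw [h.conj hg (hY hy), hv _ (hc y hy).1, (hc y hy).2, map_smul]
theorem wt_sg (hg : g ∈ K) (hY : Y ≤ K) (hc : ∀ y ∈ Y, g⁻¹ * y * g ∈ X) (hv : v ∈ Wt ρ X (sg F a)) :
    ρ g v ∈ Wt ρ Y (sg F (g * a * g⁻¹)) := h.wt_map hg hY (fun y hy => ⟨hc y hy, (sg_conj g y a).symm⟩) hv
theorem finrank_le [Module.Finite F V] (hg : g ∈ K) (hT : ∀ v ∈ T, ρ g v ∈ T') : finrank F T ≤ finrank F T' :=
  LinearMap.finrank_le_finrank_of_injective (f := (ρ g).restrict hT) fun _ _ e =>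
    Subtype.ext (h.inj hg (congrArg Subtype.val e))
theorem ln (hg : g ∈ K) (hT : ∀ v ∈ T, ρ g v ∈ T') (h' : Ln T') : Ln T :=
  h'.of_map (fun _ _ => h.eq_zero hg) hT
theorem ne_bot (hg : g ∈ K) (hT : ∀ v ∈ T, ρ g v ∈ T') (h0 : T ≠ ⊥) : T' ≠ ⊥ := by
  obtain ⟨v, hv, h1⟩ := Submodule.exists_mem_ne_zero_of_ne_bot h0
  exact (Submodule.ne_bot_iff _).2 ⟨_, hT v hv, h.ne_zero hg h1⟩
/-- A weight that occurs is a character. -/
theorem ch (hX : X ≤ K) (hv : v ∈ Wt ρ X l) (h0 : v ≠ 0) (hp : ∀ x ∈ X, l x = 1 ∨ l x = -1) : Ch X l :=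
  ⟨fun a ha b hb => smul_left_injective F h0 (by
    simp only
    rw [← hv _ (mul_mem ha hb), h.app (hX ha) (hX hb), hv b hb, map_smul, hv a ha, smul_smul, mul_comm]), hp⟩

/-- The elements of `K` preserving `T`. -/
def St [Finite G] (T : Submodule F V) : Subgroup G where
  carrier := {g | g ∈ K ∧ ∀ v ∈ T, ρ g v ∈ T}
  one_mem' := ⟨one_mem _, fun v hv => by rwa [h.one_app]⟩
  mul_mem' ha hb := ⟨mul_mem ha.1 hb.1, fun v hv => by rw [h.app ha.1 hb.1]; exact ha.2 _ (hb.2 v hv)⟩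
  inv_mem' {a} ha := by
    have h1 : ∀ n : ℕ, ∀ v ∈ T, ρ (a ^ n) v ∈ T := fun n => by
      induction n with
      | zero => exact fun v hv => by rwa [pow_zero, h.one_app]
      | succ n ih => exact fun v hv => by rw [pow_succ, h.app (pow_mem ha.1 n) ha.1]; exact ih _ (ha.2 v hv)
    obtain ⟨n, hn⟩ := (mem_powers_iff_mem_zpowers.2 (inv_mem (mem_zpowers a)) : a⁻¹ ∈ Submonoid.powers a)
    exact ⟨inv_mem ha.1, hn ▸ h1 n⟩

theorem mem_St [Finite G] : g ∈ h.St T ↔ g ∈ K ∧ ∀ v ∈ T, ρ g v ∈ T := Iff.rfl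
theorem inv_iff [Finite G] (hX : X ≤ K) : Inv ρ X T ↔ X ≤ h.St T :=
  ⟨fun h1 x hx => ⟨hX hx, h1 x hx⟩, fun h1 _ hx => (h1 hx).2⟩

/-- The elements of `K` fixing all vectors of `T`. -/
def Fx (T : Submodule F V) : Subgroup G where
  carrier := {g | g ∈ K ∧ ∀ v ∈ T, ρ g v = v}
  one_mem' := ⟨one_mem _, fun v _ => h.one_app v⟩
  mul_mem' ha hb := ⟨mul_mem ha.1 hb.1, fun v hv => by rw [h.app ha.1 hb.1, hb.2 v hv, ha.2 v hv]⟩
  inv_mem' {a} ha := ⟨inv_mem ha.1, fun v hv => by conv_lhs => rw [← ha.2 v hv]; rw [h.inv_app ha.1]⟩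

theorem mem_Fx : g ∈ h.Fx T ↔ g ∈ K ∧ ∀ v ∈ T, ρ g v = v := Iff.rfl

/-- A subgroup acting by scalars acts trivially if it is generated by commutators and trivial elements. -/
theorem triv (hL : L ≤ K) (hs : ∀ c ∈ L, ∃ e : F, ∀ v ∈ T, ρ c v = e • v) (hN : ∀ n ∈ N, ∀ v ∈ T, ρ n v = v)
    (hNK : N ≤ K) (hg : L ≤ N ⊔ ⁅L, L⁆) : ∀ c ∈ L, ∀ v ∈ T, ρ c v = v := fun c hc => by
  refine (hg.trans (sup_le (c := h.Fx T) (fun n hn => ⟨hNK hn, hN n hn⟩) (commutator_le.2 fun a ha b hb =>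
    ⟨hL (mul_mem (mul_mem (mul_mem ha hb) (inv_mem ha)) (inv_mem hb)), fun v hv => ?_⟩)) hc).2
  obtain ⟨e, he⟩ := hs a ha
  obtain ⟨e', he'⟩ := hs b hb
  have hK := hL ha
  have hK' := hL hb
  have h1 : ρ (a * b) v = ρ (b * a) v := by
    rw [h.app hK hK', h.app hK' hK, he' v hv, he v hv, map_smul, map_smul, he v hv, he' v hv, smul_comm]
  obtain ⟨e1, h2⟩ := hs (a⁻¹ * b⁻¹) (mul_mem (inv_mem ha) (inv_mem hb))
  rw [commutatorElement_def, mul_assoc, h.app (mul_mem hK hK') (mul_mem (inv_mem hK) (inv_mem hK')), h2 v hv,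
    map_smul, h1, ← map_smul, ← h2 v hv, ← h.app (mul_mem hK' hK) (mul_mem (inv_mem hK) (inv_mem hK'))]
  simp [h.one_app]

/-- **Gluing lemma**: a braid relation transports invariance. -/
theorem glue [Finite G] {σ q p : G} (hσ : σ ∈ K) (hb : σ * q * σ = q * σ * q * p) (hq : q ∈ h.St T)
    (hp : p ∈ h.St T) (h2 : σ * σ ∈ h.St T) (hq' : ∀ v ∈ T, ∃ w ∈ T, ρ q (ρ σ v) = ρ σ w) :
    ∀ v ∈ T, ρ σ v ∈ T := fun v hv => by
  have h1 := (inv_mem (mul_mem hq hp)).2 v hv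
  obtain ⟨w, hw, e⟩ := hq' _ h1
  have h3 : ρ q (ρ σ v) = ρ (σ * σ) w := by
    rw [h.app hσ hσ, ← e, ← h.app hq.1 hσ (ρ _ v), ← h.app hσ (mul_mem hq.1 hσ), ← mul_assoc, hb,
      ← h.app (mul_mem (mul_mem (mul_mem hq.1 hσ) hq.1) hp.1) (inv_mem (mul_mem hq.1 hp.1)), ← h.app hq.1 hσ]
    congr 2; group
  rw [← h.inv_app hq.1 (ρ σ v), h3]
  exact (inv_mem hq).2 _ (h2.2 w hw)

end Rp

theorem pd_apply (g : G) (u : V × V') : pd ρ ρ' g u = (ρ g u.1, ρ' g u.2) := rfl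
theorem mem_Ev_pd {u : V × V'} : u ∈ Ev (pd ρ ρ') g e ↔ u.1 ∈ Ev ρ g e ∧ u.2 ∈ Ev ρ' g e := Prod.ext_iff
theorem mem_Wt_pd {u : V × V'} : u ∈ Wt (pd ρ ρ') X l ↔ u.1 ∈ Wt ρ X l ∧ u.2 ∈ Wt ρ' X l :=
  ⟨fun h => ⟨fun x hx => congrArg Prod.fst (h x hx), fun x hx => congrArg Prod.snd (h x hx)⟩,
    fun h x hx => Prod.ext (h.1 x hx) (h.2 x hx)⟩
theorem Wt_pd : Wt (pd ρ ρ') X l = (Wt ρ X l).prod (Wt ρ' X l) := Submodule.ext fun _ => mem_Wt_pd

/-! ### Decompositions -/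

variable [Finite G]

/-- A subspace on which `X` acts through commuting involutions is the sum of its weight spaces. -/
theorem Rp.decomp (h : Rp K ρ) (hX : X ≤ K) (hT : Inv ρ X T) (h1 : ∀ x ∈ X, ∀ v ∈ T, ρ x (ρ x v) = v)
    (h2 : ∀ x ∈ X, ∀ y ∈ X, ∀ v ∈ T, ρ x (ρ y v) = ρ y (ρ x v)) :
    T ≤ ⨆ l ∈ {l : G → F | Ch X l}, T ⊓ Wt ρ X l := by
  classical
  have key : ∀ S : Finset G, (∀ x ∈ S, x ∈ X) → T ≤ ⨆ l ∈ {l : G → F | ∀ x, l x = 1 ∨ l x = -1},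
      T ⊓ ⨅ x ∈ S, Ev ρ x (l x) := fun S => by
    induction S using Finset.induction_on with
    | empty => exact fun _ => le_iSup₂_of_le (fun _ => 1) (fun _ => Or.inl rfl) (by simp)
    | insert a S ha ih =>
      intro hS
      have haX := hS a (Finset.mem_insert_self _ _)
      refine (ih fun x hx => hS x (Finset.mem_insert_of_mem hx)).trans (iSup₂_le fun l hl => ?_)
      have h3 : ∀ e : F, e = 1 ∨ e = -1 → (T ⊓ ⨅ x ∈ S, Ev ρ x (l x)) ⊓ Ev ρ a e ≤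
          ⨆ l ∈ {l : G → F | ∀ x, l x = 1 ∨ l x = -1}, T ⊓ ⨅ x ∈ insert a S, Ev ρ x (l x) := fun e he => by
        refine le_iSup₂_of_le (Function.update l a e) (fun x => ?_) ?_
        · by_cases e' : x = a
          · rw [e', Function.update_self]; exact he
          · rw [Function.update_of_ne e']; exact hl x
        · rw [Finset.iInf_insert, Function.update_self, inf_assoc, inf_comm (Ev ρ a e)]
          refine inf_le_inf_left _ (inf_le_inf_right _ (iInf₂_mono fun x hx => ?_))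
          rw [Function.update_of_ne (ne_of_mem_of_not_mem hx ha)]
      refine (le_Ev_sup (T := T ⊓ ⨅ x ∈ S, Ev ρ x (l x)) (ρ := ρ) (g := a) h.two
        (fun v hv => ⟨hT a haX v hv.1, ?_⟩) fun v hv => h1 a haX v hv.1).trans
        (sup_le (h3 _ (Or.inl rfl)) (h3 _ (Or.inr rfl)))
      have h4 := hv.2
      simp only [SetLike.mem_coe, Submodule.mem_iInf] at h4 ⊢
      intro x hx
      rw [mem_Ev, h2 x (hS x (Finset.mem_insert_of_mem hx)) a haX v hv.1, h4 x hx, map_smul]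
  refine (key (fs X) fun _ => mem_fs.1).trans (iSup₂_le fun l hl => ?_)
  have h3 : (T ⊓ ⨅ x ∈ fs X, Ev ρ x (l x)) ≤ T ⊓ Wt ρ X l := inf_le_inf_left _ fun v hv x hx => by
    simp only [Submodule.mem_iInf] at hv
    exact hv x (mem_fs.2 hx)
  by_cases h0 : T ⊓ Wt ρ X l = ⊥
  · exact h3.trans (h0.le.trans bot_le)
  obtain ⟨v, hv, h4⟩ := Submodule.exists_mem_ne_zero_of_ne_bot h0
  exact h3.trans (le_iSup₂_of_le l (h.ch hX hv.2 h4 fun x _ => hl x) le_rfl)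

/-- A nonzero subspace as in `decomp` contains a weight vector. -/
theorem Rp.exists_wt (h : Rp K ρ) (hX : X ≤ K) (hT : Inv ρ X T) (h1 : ∀ x ∈ X, ∀ v ∈ T, ρ x (ρ x v) = v)
    (h2 : ∀ x ∈ X, ∀ y ∈ X, ∀ v ∈ T, ρ x (ρ y v) = ρ y (ρ x v)) (h0 : T ≠ ⊥) :
    ∃ l, Ch X l ∧ ∃ v ∈ T, v ≠ 0 ∧ v ∈ Wt ρ X l := by
  by_contra! h3
  exact h0 (eq_bot_iff.2 ((h.decomp hX hT h1 h2).trans (iSup₂_le fun l hl v hv =>
    by_contra fun e => h3 l hl v hv.1 e hv.2)))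

/-- The projection to a weight space. -/
noncomputable def pr (ρ : G → End F V) (X : Subgroup G) (l : G → F) : End F V :=
  (Nat.card X : F)⁻¹ • ∑ x ∈ fs X, l x • ρ x

theorem pr_apply (v : V) : pr ρ X l v = (Nat.card X : F)⁻¹ • ∑ x ∈ fs X, l x • ρ x v := by
  simp [pr, LinearMap.sum_apply]

theorem pr_mem (hT : Inv ρ X T) (hv : v ∈ T) : pr ρ X l v ∈ T := by
  rw [pr_apply]
  exact T.smul_mem _ (T.sum_mem fun x hx => T.smul_mem _ (hT x (mem_fs.1 hx) v hv))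

theorem pr_eq (h2 : (2 : F) ≠ 0) (hX : IsPGroup 2 X) (hl : Ch X l) (hv : v ∈ Wt ρ X l) : pr ρ X l v = v := by
  obtain ⟨n, hn⟩ := IsPGroup.iff_card.1 hX
  rw [pr_apply, Finset.sum_congr rfl fun x hx => by
    rw [hv x (mem_fs.1 hx), smul_smul, hl.sq (mem_fs.1 hx), one_smul], Finset.sum_const, card_fs,
    ← Nat.cast_smul_eq_nsmul F, smul_smul, inv_mul_cancel₀, one_smul]
  rw [hn]; push_cast; exact pow_ne_zero _ h2

theorem pr_ne (h2 : (2 : F) ≠ 0) (hl : Ch X l) (hm : Ch X m) (hn : ¬ Set.EqOn m l X) (hv : v ∈ Wt ρ X m) :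
    pr ρ X l v = 0 := by
  obtain ⟨y, hy, hne⟩ : ∃ y ∈ X, m y ≠ l y := by by_contra! h; exact hn h
  have h1 : l y * m y = -1 := ((hl.prod hm).pm y hy).resolve_left fun e => hne ((hl.eq_iff hy).1 e).symm
  have h3 := sum_fs_mul hy fun x => l x * m x
  rw [Finset.sum_congr rfl fun x hx => (hl.prod hm).mul y hy x (mem_fs.1 hx), ← Finset.mul_sum, h1] at h3
  have h4 : ∑ x ∈ fs X, l x * m x = 0 :=
    (mul_eq_zero.1 (show (2 : F) * _ = 0 by linear_combination -h3)).resolve_left h2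
  rw [pr_apply, Finset.sum_congr rfl fun x hx => by rw [hv x (mem_fs.1 hx), smul_smul], ← Finset.sum_smul, h4,
    zero_smul, smul_zero]

section
variable {ι : Type*} {I : Set ι} {w : ι → G → F} {S : ι → Submodule F V} (h2 : (2 : F) ≠ 0) (hX : IsPGroup 2 X)
  (hw : ∀ i ∈ I, Ch X (w i)) (hS : ∀ i ∈ I, S i ≤ Wt ρ X (w i))
include h2 hX hw hS

theorem pr_biSup (hl : Ch X l) (hv : v ∈ ⨆ i ∈ I, S i) :
    pr ρ X l v ∈ (⨆ i ∈ {i ∈ I | Set.EqOn (w i) l X}, S i) ∧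
      v - pr ρ X l v ∈ ⨆ i ∈ {i ∈ I | ¬ Set.EqOn (w i) l X}, S i := by
  refine ⟨maps_biSup (fun i hi v hv => ?_) v hv, maps_biSup (f := 1 - pr ρ X l) (fun i hi v hv => ?_) v hv⟩
  · by_cases e : Set.EqOn (w i) l X
    · rw [pr_eq h2 hX hl ((Wt_congr e).le (hS i hi hv))]
      exact (le_biSup S (show i ∈ {i ∈ I | Set.EqOn (w i) l X} from ⟨hi, e⟩)) hv
    · rw [pr_ne h2 hl (hw i hi) e (hS i hi hv)]; exact zero_mem _
  · change v - pr ρ X l v ∈ _
    by_cases e : Set.EqOn (w i) l X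
    · rw [pr_eq h2 hX hl ((Wt_congr e).le (hS i hi hv)), sub_self]; exact zero_mem _
    · rw [pr_ne h2 hl (hw i hi) e (hS i hi hv), sub_zero]
      exact (le_biSup S (show i ∈ {i ∈ I | ¬ Set.EqOn (w i) l X} from ⟨hi, e⟩)) hv

/-- **Selection**: a weight vector in a sum of weight spaces lies in the sum of those with the same weight. -/
theorem sel (hl : Ch X l) (hv : v ∈ ⨆ i ∈ I, S i) (hv' : v ∈ Wt ρ X l) :
    v ∈ ⨆ i ∈ {i ∈ I | Set.EqOn (w i) l X}, S i :=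
  pr_eq h2 hX hl hv' ▸ (pr_biSup h2 hX hw hS hl hv).1

/-- **Splitting**: an invariant subspace is the sum of its intersections with the isotypic parts. -/
theorem split (hM : Inv ρ X M) :
    M ⊓ ⨆ i ∈ I, S i ≤ ⨆ i ∈ I, M ⊓ ⨆ j ∈ {j ∈ I | Set.EqOn (w j) (w i) X}, S j := by
  classical
  have key : ∀ (n : ℕ) (J : Finset ι), J.card ≤ n → (J : Set ι) ⊆ I → ∀ v ∈ M, v ∈ ⨆ i ∈ (J : Set ι), S i →
      v ∈ ⨆ i ∈ I, M ⊓ ⨆ j ∈ {j ∈ I | Set.EqOn (w j) (w i) X}, S j := fun n => by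
    induction n with
    | zero =>
      intro J h1 _ v _ hv
      rw [Finset.card_eq_zero.1 (Nat.le_zero.1 h1)] at hv
      rw [show v = 0 by simpa using hv]; exact zero_mem _
    | succ n ih =>
      intro J h1 hJ v hM' hv
      rcases J.eq_empty_or_nonempty with rfl | ⟨i, hi⟩
      · rw [show v = 0 by simpa using hv]; exact zero_mem _
      obtain ⟨h3, h4⟩ := pr_biSup h2 hX (fun i hi => hw i (hJ hi)) (fun i hi => hS i (hJ hi)) (hw i (hJ hi)) hv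
      rw [← sub_add_cancel v (pr ρ X (w i) v)]
      refine add_mem (ih (J.filter fun j => ¬ Set.EqOn (w j) (w i) X) ?_ (fun j hj => hJ (Finset.mem_filter.1 hj).1) _
        (sub_mem hM' (pr_mem hM hM')) (by rwa [Finset.coe_filter]))
        ((le_biSup (fun i => M ⊓ ⨆ j ∈ {j ∈ I | Set.EqOn (w j) (w i) X}, S j) (hJ hi)) ⟨pr_mem hM hM',
          (iSup₂_le (a := ⨆ j ∈ {j ∈ I | Set.EqOn (w j) (w i) X}, S j) fun j hj =>
            le_biSup S (show j ∈ {j ∈ I | Set.EqOn (w j) (w i) X} from ⟨hJ hj.1, hj.2⟩)) h3⟩)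
      exact Nat.lt_succ_iff.1 ((Finset.card_lt_card (Finset.filter_ssubset.2 ⟨i, hi, fun e => e fun _ _ => rfl⟩)).trans_le h1)
  rintro v ⟨hv, hv'⟩
  rw [SetLike.mem_coe, iSup_subtype', Submodule.mem_iSup_iff_exists_finset] at hv'
  obtain ⟨J, hJ⟩ := hv'
  refine key _ (J.image Subtype.val) le_rfl (fun i hi => ?_) v hv
    ((iSup₂_le (a := ⨆ i ∈ (J.image Subtype.val : Set ι), S i) fun i hi => ?_) hJ)
  · obtain ⟨j, -, rfl⟩ := Finset.mem_image.1 hi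
    exact j.2
  · exact le_biSup S (Finset.mem_coe.2 (Finset.mem_image_of_mem _ hi))

/-- An operator which is a scalar depending only on the weight preserves every invariant subspace. -/
theorem maps_of_scalar {f : End F V} {c : ι → F} (hf : ∀ i ∈ I, ∀ v ∈ S i, f v = c i • v)
    (hc : ∀ i ∈ I, ∀ j ∈ I, Set.EqOn (w j) (w i) X → c j = c i) (hM : Inv ρ X M) (hle : M ≤ ⨆ i ∈ I, S i) :
    ∀ v ∈ M, f v ∈ M := fun v hv => by
  refine maps_biSup (fun i hi v hv => ?_) v (split h2 hX hw hS hM ⟨hv, hle hv⟩)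
  have h1 : (f - c i • 1) v ∈ (⊥ : Submodule F V) := maps_biSup (fun j hj u hu => by
    change f u - c i • u ∈ _
    rw [hf j hj.1 u hu, hc i hi j hj.1 hj.2, sub_self]; exact zero_mem _) v hv.2
  rw [show f v = c i • v from sub_eq_zero.1 h1]
  exact M.smul_mem _ hv.1

end

open Classical in
/-- **Dimension count**: every weight occurs at most `k` times in the family. -/
theorem sum_le [Module.Finite F V] {ι : Type*} {w : ι → G → F} {S : ι → Submodule F V} (h2 : (2 : F) ≠ 0)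
    (hX : IsPGroup 2 X) {k : ℕ} (J : Finset ι) (hw : ∀ i ∈ J, Ch X (w i)) (hS : ∀ i ∈ J, S i ≤ Wt ρ X (w i))
    (hk : ∀ i ∈ J, (J.filter fun j => Set.EqOn (w j) (w i) X).card ≤ k) (hM : ∀ i ∈ J, S i ≤ M) :
    ∑ i ∈ J, finrank F (S i) ≤ k * finrank F M := by
  induction J using Finset.strongInduction generalizing M with
  | H J ih =>
  rcases J.eq_empty_or_nonempty with rfl | ⟨i, hi⟩
  · simp
  let J' := J.filter fun j => ¬ Set.EqOn (w j) (w i) X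
  have hJ : ∀ j ∈ J', j ∈ J := fun j hj => (Finset.mem_filter.1 hj).1
  have h1 := ih J' (Finset.filter_ssubset.2 ⟨i, hi, fun e => e fun _ _ => rfl⟩) (M := ⨆ j ∈ (J' : Set ι), S j)
    (fun j hj => hw j (hJ j hj)) (fun j hj => hS j (hJ j hj))
    (fun j hj => (Finset.card_le_card (Finset.monotone_filter_left _ (Finset.filter_subset _ _))).trans
      (hk j (hJ j hj))) fun j hj => le_biSup S (Finset.mem_coe.2 hj)
  have h3 : ∑ j ∈ J.filter fun j => Set.EqOn (w j) (w i) X, finrank F (S j) ≤ k * finrank F ↥(M ⊓ Wt ρ X (w i)) :=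
    (Finset.sum_le_card_nsmul _ _ _ fun j hj => Submodule.finrank_mono (le_inf (hM j (Finset.mem_filter.1 hj).1)
      (Wt_congr (ρ := ρ) (Finset.mem_filter.1 hj).2 ▸ hS j (Finset.mem_filter.1 hj).1))).trans
      (Nat.mul_le_mul_right _ (hk i hi))
  have h4 : finrank F ↥(M ⊓ Wt ρ X (w i)) + finrank F ↥(⨆ j ∈ (J' : Set ι), S j) ≤ finrank F M := by
    refine finrank_add_le (Submodule.disjoint_def.2 fun v hv hv' => ?_) inf_le_left
      (iSup₂_le fun j hj => hM j (hJ j hj))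
    rw [← pr_eq h2 hX (hw i hi) hv.2]
    exact maps_biSup (M := ⊥) (fun j hj u hu => pr_ne h2 (hw i hi) (hw j (hJ j hj)) (Finset.mem_filter.1 hj).2
      (hS j (hJ j hj) hu)) v hv'
  rw [← Finset.sum_filter_add_sum_filter_not J fun j => Set.EqOn (w j) (w i) X]
  exact (add_le_add h3 h1).trans (by rw [← mul_add]; exact Nat.mul_le_mul_left _ h4)

end CL.RB
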