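/-
Extensions of the Baby Monster by the 4371-dimensional module, part E: extensions of a subgroup by a module, lifts.
-/
import Cfsg.Agent.Spor.RbW

set_option autoImplicit false
set_option linter.unusedSectionVars false

namespace CL.BX
open Subgroup CL.Even CL.Grp CL.RB Module

variable {G : Type*} [Group G] {F V : Type*} [Field F] [AddCommGroup V] [Module F V] {E : Type*} [Group E]

/-- no nonzero fixed vector -/
def Rg (ρ : G → End F V) (R : Subgroup G) : Prop := ∀ v, (∀ r ∈ R, ρ r v = v) → v = 0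

theorem Rg.mono {ρ : G → End F V} {R R' : Subgroup G} (h : Rg ρ R) (e : R ≤ R') : Rg ρ R' :=
  fun v hv => h v fun r hr => hv r (e hr)

theorem Rg.cnj {K R : Subgroup G} {ρ : G → End F V} (h : Rg ρ R) (hρ : Rp K ρ) (hR : R ≤ K) {g : G} (hg : g ∈ K) :
    Rg ρ (cj g R) := fun v hv => hρ.eq_zero (inv_mem hg) (h _ fun r hr => by
  rw [hρ.conj (inv_mem hg) (hR hr), inv_inv, hv _ (conj_mem_cj g hr)])

/-- An extension of `K` by the module `V`. -/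
structure Ext (K : Subgroup G) (ρ : G → End F V) (E : Type*) [Group E] where
  φ : E →* G
  ι : V → E
  rp : Rp K ρ
  add : ∀ u v, ι (u + v) = ι u * ι v
  inj : ∀ v, ι v = 1 → v = 0
  ker : ∀ e, φ e = 1 ↔ ∃ v, ι v = e
  mem : ∀ e, φ e ∈ K
  surj : ∀ g ∈ K, ∃ e, φ e = g
  conj : ∀ e v, e * ι v * e⁻¹ = ι (ρ (φ e) v)

namespace Ext
variable {K : Subgroup G} {ρ : G → End F V} (X : Ext K ρ E)

/-- `L` is a lift of `P` -/
def Lf (P : Subgroup G) (L : Subgroup E) : Prop := L.map X.φ = P ∧ ∀ v, X.ι v ∈ L → v = 0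
/-- the part of `L` over `J` -/
def rs (L : Subgroup E) (J : Subgroup G) : Subgroup E := L ⊓ J.comap X.φ
/-- any two lifts are conjugate under the module -/
def H1 (P : Subgroup G) : Prop := ∀ L L', X.Lf P L → X.Lf P L' → ∃ v, L' = cj (X.ι v) L
/-- lifts exist and form a torsor -/
def HP (P : Subgroup G) : Prop := (∃ L, X.Lf P L) ∧ X.H1 P ∧ Rg ρ P
/-- finite `2`-groups lift, uniquely up to conjugacy -/
def Avg : Prop := ∀ P ≤ K, Finite P → IsPGroup 2 P → (∃ L, X.Lf P L) ∧ X.H1 P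

/-- The hypotheses of the transfer argument. -/
structure TD (ρ : G → End F V) (K P P1 R : Subgroup G) (e : G) : Prop where
  fin : Finite P
  le1 : R ≤ P1
  le2 : P1 ≤ P
  le3 : P ≤ K
  two : IsPGroup 2 R
  nR : P ≤ normalizer (R : Set G)
  n1 : P ≤ normalizer (P1 : Set G)
  fix : ∀ c ∈ P1, ∀ v, (∀ r ∈ R, ρ r v = v) → ρ c v = v
  eP : e ∈ P
  e1 : e ∉ P1
  two' : ∀ c ∈ P, c ∈ P1 ∨ e⁻¹ * c ∈ P1
  neg : ∀ v, (∀ r ∈ R, ρ r v = v) → ρ e v = -v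
  perf : P1 ≤ R ⊔ ⁅P1, P1⁆
  cyc : ∃ g ∈ P1, (((R ⊔ zpowers g).relIndex P1 : ℕ) : F) ≠ 0

variable {P J : Subgroup G} {L L' : Subgroup E} {e e' : E} {u v : V}

theorem ι_zero : X.ι 0 = 1 := by simpa using X.add 0 0
theorem ι_neg (v : V) : X.ι (-v) = (X.ι v)⁻¹ :=
  eq_inv_of_mul_eq_one_left (by rw [← X.add, neg_add_cancel, X.ι_zero])
theorem ι_sub (u v : V) : X.ι (u - v) = X.ι u * (X.ι v)⁻¹ := by rw [sub_eq_add_neg, X.add, X.ι_neg]
theorem ι_inj (h : X.ι u = X.ι v) : u = v := sub_eq_zero.1 (X.inj _ (by rw [X.ι_sub, h, mul_inv_cancel]))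
theorem ι_comm (u v : V) : X.ι u * X.ι v = X.ι v * X.ι u := by rw [← X.add, ← X.add, add_comm]
theorem ι_pow (v : V) (n : ℕ) : X.ι (n • v) = X.ι v ^ n := by
  induction n with
  | zero => rw [zero_smul, X.ι_zero, pow_zero]
  | succ n ih => rw [succ_nsmul, X.add, ih, pow_succ]
theorem φ_ι (v : V) : X.φ (X.ι v) = 1 := (X.ker _).2 ⟨v, rfl⟩
theorem mul_ι (e : E) (v : V) : e * X.ι v = X.ι (ρ (X.φ e) v) * e := by rw [← X.conj, inv_mul_cancel_right]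
/-- conjugation by an element of the module -/
theorem ι_conj (v : V) (e : E) : X.ι v * e * (X.ι v)⁻¹ = X.ι (v - ρ (X.φ e) v) * e := by
  rw [X.ι_sub, ← X.conj]; group
theorem comm_iff : e * X.ι v = X.ι v * e ↔ ρ (X.φ e) v = v := by
  rw [X.mul_ι, mul_left_inj]; exact ⟨X.ι_inj, fun h => by rw [h]⟩
theorem exists_ι (h : X.φ e = X.φ e') : ∃ v, e = X.ι v * e' :=
  let ⟨v, hv⟩ := (X.ker (e * e'⁻¹)).1 (by rw [map_mul, map_inv, h, mul_inv_cancel]); ⟨v, by rw [hv, inv_mul_cancel_right]⟩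
/-- the kernel has no involutions -/
theorem eq_one_of_sq (h : X.φ e = 1) (h2 : e * e = 1) : e = 1 := by
  obtain ⟨v, rfl⟩ := (X.ker e).1 h
  rw [eq_zero_of_eq_neg X.rp.two (eq_neg_of_add_eq_zero_left (X.inj _ ((X.add v v).trans h2))), X.ι_zero]
theorem mem_rs : e ∈ X.rs L J ↔ e ∈ L ∧ X.φ e ∈ J := Iff.rfl
theorem rs_rs {J' : Subgroup G} (h : J' ≤ J) : X.rs (X.rs L J) J' = X.rs L J' :=
  Subgroup.ext fun _ => ⟨fun e => ⟨e.1.1, e.2⟩, fun e => ⟨⟨e.1, h e.2⟩, e.2⟩⟩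
theorem rs_mono {J' : Subgroup G} (h : J' ≤ J) (e : X.rs L J = X.rs L' J) : X.rs L J' = X.rs L' J' := by
  rw [← X.rs_rs h, e, X.rs_rs h]
theorem map_cj (e : E) (L : Subgroup E) : (cj e L).map X.φ = cj (X.φ e) (L.map X.φ) := by
  ext g
  constructor
  · rintro ⟨a, ha, rfl⟩
    exact mem_cj.2 ⟨_, mem_cj.1 ha, by simp⟩
  · intro hg
    obtain ⟨a, ha, h⟩ := mem_cj.1 hg
    exact ⟨_, conj_mem_cj e ha, by rw [map_mul, map_mul, map_inv, h]; group⟩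
theorem cj_rs (e : E) : cj e (X.rs L J) = X.rs (cj e L) (cj (X.φ e) J) := by
  ext a
  simp only [mem_cj, mem_rs, map_mul, map_inv]
theorem cj_rs_ι (v : V) : cj (X.ι v) (X.rs L J) = X.rs (cj (X.ι v) L) J := by rw [X.cj_rs, X.φ_ι, cj_one]
theorem norm_rs (h : e ∈ normalizer (L : Set E)) (hJ : X.φ e ∈ normalizer (J : Set G)) :
    e ∈ normalizer (X.rs L J : Set E) := cj_eq_iff_mem.1 (by rw [X.cj_rs, cj_eq h, cj_eq hJ])

variable {X}

namespace Lf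
variable (h : X.Lf P L)
include h

theorem le : P ≤ K := by rw [← h.1]; rintro _ ⟨e, -, rfl⟩; exact X.mem e
theorem mem (he : e ∈ L) : X.φ e ∈ P := h.1.le ⟨e, he, rfl⟩
theorem ex {g : G} (hg : g ∈ P) : ∃ e ∈ L, X.φ e = g := h.1.ge hg
theorem eq_one (he : e ∈ L) (h1 : X.φ e = 1) : e = 1 := by
  obtain ⟨v, rfl⟩ := (X.ker e).1 h1
  rw [h.2 v he, X.ι_zero]
theorem eq (he : e ∈ L) (he' : e' ∈ L) (h1 : X.φ e = X.φ e') : e = e' :=
  mul_inv_eq_one.1 (h.eq_one (mul_mem he (inv_mem he')) (by rw [map_mul, map_inv, h1, mul_inv_cancel]))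
theorem rs (hJ : J ≤ P) : X.Lf J (X.rs L J) :=
  ⟨le_antisymm (by rintro _ ⟨e, he, rfl⟩; exact he.2) fun g hg =>
    let ⟨e, he, h1⟩ := h.ex (hJ hg); ⟨e, ⟨he, show X.φ e ∈ J from h1 ▸ hg⟩, h1⟩, fun v hv => h.2 v hv.1⟩
theorem rs_self : X.rs L P = L := le_antisymm inf_le_left fun _ he => ⟨he, h.mem he⟩
theorem eq_of_le (h' : X.Lf P L') (hL : L ≤ L') : L = L' := le_antisymm hL fun e he => by
  obtain ⟨a, ha, h1⟩ := h.ex (h'.mem he)
  exact h'.eq (hL ha) he h1 ▸ ha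
theorem cnj (e : E) : X.Lf (cj (X.φ e) P) (cj e L) := ⟨by rw [X.map_cj, h.1], fun v hv => by
  have h1 := mem_cj.1 hv
  rw [show e⁻¹ * X.ι v * e = e⁻¹ * X.ι v * e⁻¹⁻¹ by rw [inv_inv], X.conj] at h1
  exact X.rp.eq_zero (X.mem _) (h.2 _ h1)⟩
theorem cj_ι (v : V) : X.Lf P (cj (X.ι v) L) := by simpa only [X.φ_ι, cj_one] using h.cnj (X.ι v)
/-- a vector normalising a lift is fixed -/
theorem fix (hv : X.ι v ∈ normalizer (L : Set E)) : ∀ r ∈ P, ρ r v = v := fun r hr => by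
  obtain ⟨e, he, rfl⟩ := h.ex hr
  have h1 := mul_mem (conj_mem hv he) (inv_mem he)
  rw [X.ι_conj, mul_inv_cancel_right] at h1
  exact (sub_eq_zero.1 (h.2 _ h1)).symm
/-- a fixed vector centralises the lift -/
theorem cj_fix (hv : ∀ r ∈ P, ρ r v = v) : cj (X.ι v) L = L :=
  (h.cj_ι v).eq_of_le h (by
    rintro _ ⟨e, he, rfl⟩
    show X.ι v * e * (X.ι v)⁻¹ ∈ L
    rwa [X.ι_conj, hv _ (h.mem he), sub_self, X.ι_zero, one_mul])
theorem map_norm (he : e ∈ normalizer (L : Set E)) : X.φ e ∈ normalizer (P : Set G) :=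
  cj_eq_iff_mem.1 (by rw [← h.1, ← X.map_cj, cj_eq he])
/-- `φ` is injective on the normaliser of a lift of a group without fixed vectors -/
theorem norm_eq (hP : Rg ρ P) (he : e ∈ normalizer (L : Set E)) (he' : e' ∈ normalizer (L : Set E))
    (h1 : X.φ e = X.φ e') : e = e' := by
  obtain ⟨v, rfl⟩ := X.exists_ι h1
  rw [hP v (h.fix ((mul_mem_cancel_right he').1 he)), X.ι_zero, one_mul]
/-- elements normalising `P` lift to elements normalising `L` -/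
theorem ex_norm (h1 : X.H1 P) {g : G} (hg : g ∈ K) (hn : g ∈ normalizer (P : Set G)) :
    ∃ e ∈ normalizer (L : Set E), X.φ e = g := by
  obtain ⟨a, rfl⟩ := X.surj g hg
  obtain ⟨v, hv⟩ := h1 _ _ (by simpa only [cj_eq hn] using h.cnj a) h
  exact ⟨X.ι v * a, cj_eq_iff_mem.1 (by rw [cj_mul, ← hv]), by rw [map_mul, X.φ_ι, one_mul]⟩
theorem norm (hP : X.HP P) : X.Lf (K ⊓ normalizer (P : Set G)) (normalizer (L : Set E)) :=
  ⟨le_antisymm (by rintro _ ⟨e, he, rfl⟩; exact ⟨X.mem e, h.map_norm he⟩) fun _ hg => h.ex_norm hP.2.1 hg.1 hg.2,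
    fun v hv => hP.2.2 v (h.fix hv)⟩
/-- two lifts which agree on a normal subgroup without fixed vectors are equal -/
theorem eq_of_rs (h' : X.Lf P L') (hJ : J ≤ P) (hn : P ≤ normalizer (J : Set G)) (hR : Rg ρ J)
    (h1 : X.rs L J = X.rs L' J) : L = L' := h.eq_of_le h' fun e he => by
  obtain ⟨a, ha, h2⟩ := h'.ex (h.mem he)
  exact (h'.rs hJ).norm_eq hR (X.norm_rs (le_normalizer ha) (hn (h'.mem ha)))
    (h1 ▸ X.norm_rs (le_normalizer he) (hn (h.mem he))) h2 ▸ ha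
/-- two conjugate lifts which agree on a subgroup without fixed vectors are equal -/
theorem eq_of_H1 (h' : X.Lf P L') (hJ : J ≤ P) (hP : X.H1 P) (hR : Rg ρ J) (h1 : X.rs L J = X.rs L' J) : L = L' := by
  obtain ⟨v, rfl⟩ := hP _ _ h h'
  rw [hR v ((h.rs hJ).fix (cj_eq_iff_mem.1 (by rw [X.cj_rs_ι, ← h1]))), X.ι_zero, cj_one]

end Lf

theorem H1.cnj (h : X.H1 P) {g : G} (hg : g ∈ K) : X.H1 (cj g P) := fun L L' h1 h2 => by
  obtain ⟨a, rfl⟩ := X.surj g hg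
  have k : ∀ {M}, X.Lf (cj (X.φ a) P) M → X.Lf P (cj a⁻¹ M) := fun hM => by
    have := hM.cnj a⁻¹
    rwa [map_inv X.φ, cj_inv_cj] at this
  obtain ⟨v, hv⟩ := h _ _ (k h1) (k h2)
  exact ⟨ρ (X.φ a) v, by rw [← X.conj, cj_mul, cj_mul, ← hv, cj_cj_inv]⟩

theorem HP.cnj (h : X.HP P) {g : G} (hg : g ∈ K) : X.HP (cj g P) := by
  obtain ⟨⟨L, hL⟩, h1, h2⟩ := h
  obtain ⟨a, rfl⟩ := X.surj g hg
  exact ⟨⟨_, hL.cnj a⟩, h1.cnj hg, h2.cnj X.rp hL.le hg⟩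

end Ext

end CL.BX
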