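/-
The 4371-dimensional representation of the Baby Monster, part 0: the setting inside a group of Monster type, the
subgroups, and the statements of the steps.
-/
import Cfsg.Agent.Spor.RbW
import Cfsg.Agent.Spor.IncE5
import Cfsg.Agent.Spor.MjBS
import Cfsg.Agent.Spor.MjLC

set_option autoImplicit false
set_option linter.unusedSectionVars false

namespace CL.RB
open Cfsg Cfsg.Spor Subgroup CL.Even CL.Grp CL.Spor.Leech CL.Spor.Mon CL.Mj Module MulAction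
open scoped commutatorElement

/-- The setting: Monster type, `s` over `U`, `t` over `8 e_∞`, `σ ∈ C(s)` swaps `z` and `t`, `q ∈ C_Q(s)` moves `t`. -/
structure Su (G : Type*) [Group G] where
  z : G
  Q : Subgroup G
  π : centralizer ({z} : Set G) →* Co1
  R : leechLattice → G → Prop
  s : G
  s1 : G
  t : G
  σ : G
  q : G
  gd : GD z Q π R s s1
  ht : R (e8 none) t
  σs : σ * s = s * σ
  σz : σ * z * σ⁻¹ = t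
  σt : σ * t * σ⁻¹ = z
  qQ : q ∈ Q
  qs : q * s = s * q
  qt : q * t * q⁻¹ = z * t

variable {G : Type*} [Group G] {F V V' : Type*} [Field F] [AddCommGroup V] [Module F V] [AddCommGroup V']
  [Module F V']

/-- sign changes fixing `U` -/
noncomputable def EE : Subgroup Co0 := Eps ⊓ stabilizer Co0 leechU
/-- monomial elements fixing `U` -/
noncomputable def N2 : Subgroup Co0 := Nsub ⊓ stabilizer Co0 leechU
open Classical in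
/-- the sign of `g` at the coordinate `i` -/
noncomputable def kap (F : Type*) [Field F] (i : GolayPt) (g : Co0) : F := if g • e8 i = e8 i then 1 else -1
open Classical in
/-- the sign of `g` on `U'` -/
noncomputable def eN (F : Type*) [Field F] (g : Co0) : F := if g • leechU' = leechU' then 1 else -1

namespace Su
variable (S : Su G)

def K : Subgroup G := centralizer {S.s}
def C : Subgroup G := centralizer {S.z} ⊓ centralizer {S.s}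
def Q1 : Subgroup G := S.Q ⊓ centralizer {S.s}
def P0 : Subgroup G := S.C ⊓ centralizer {S.t}
def Y : Subgroup G := S.Q ⊓ cj S.σ S.Q
def R1 : Subgroup G := S.Q1 ⊓ centralizer {S.t}
def R2 : Subgroup G := cj S.σ S.R1
/-- the elements of `Q` over the vectors with inner product `16` with `U` -/
def SY : Set G := {y | y ∈ S.Q ∧ IsConj S.s y ∧ y * S.s = S.s * y ∧ IsConj S.s (y * S.s)}
/-- odd vectors -/
def OY : Set G := {y | y ∈ S.SY ∧ y * S.t ≠ S.t * y}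
/-- octad vectors -/
def XY : Set G := {y | y ∈ S.SY ∧ y * S.t = S.t * y ∧ y ∉ S.Y}
/-- vectors of shape `(4, 4)` -/
def TY : Set G := {y | y ∈ S.SY ∧ y ∈ S.Y}
/-- the same class modulo `⟨z, s⟩` -/
def Cl (y y' : G) : Prop := y' = y ∨ y' = S.z * y ∨ y' = S.s * y ∨ y' = S.z * S.s * y
/-- `c` lies over `k` -/
def Im (c : G) (k : Co0) : Prop := ∃ h : c ∈ centralizer ({S.z} : Set G), S.π ⟨c, h⟩ = mk1 k

/-- The group-theoretic facts. -/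
structure GF : Prop where
  gen : ∀ L : Subgroup G, S.C ≤ L → S.σ ∈ L → S.K ≤ L
  perfC : S.C ≤ S.Q1 ⊔ ⁅S.C, S.C⁆
  perfU : ∀ y ∈ S.SY, S.C ⊓ centralizer {y} ≤ S.Q1 ⊓ centralizer {y} ⊔ ⁅S.C ⊓ centralizer {y}, S.C ⊓ centralizer {y}⁆
  trans : ∀ y ∈ S.SY, ∀ y' ∈ S.SY, ∃ c ∈ S.C, c * y * c⁻¹ = y'
  odd : ∀ y ∈ S.OY, ∀ y' ∈ S.OY, ∃ r ∈ S.R2, S.Cl (r * y * r⁻¹) y'
  outer : ∀ y ∈ S.OY, ∃ g ∈ S.P0, g * y * g⁻¹ = S.s * y ∨ g * y * g⁻¹ = S.z * S.s * y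
  ty : ∀ y ∈ S.SY, y * S.t = S.t * y → S.t * y ∈ S.SY → y ∈ S.Y
  img2 : ∀ r ∈ S.R2, ∃ k ∈ EE, S.Im r k
  lift2 : ∀ k ∈ EE, ∃ r ∈ S.R2, S.Im r k
  imgP : ∀ c ∈ S.P0, ∃ k ∈ N2, S.Im c k
  liftP : ∀ k ∈ N2, ∃ c ∈ S.P0, S.Im c k
  tyi : ∀ y ∈ S.TY, ∃ i ∈ rest, ∀ r ∈ S.R2, ∀ k ∈ EE, S.Im r k → (r * y = y * r ↔ k • e8 i = e8 i)
  ity : ∀ i ∈ rest, ∃ y ∈ S.TY, ∀ r ∈ S.R2, ∀ k ∈ EE, S.Im r k → (r * y = y * r ↔ k • e8 i = e8 i)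
  supp : ∀ A : Set G, A ⊆ S.Q1 → (∀ c ∈ S.C, ∀ y ∈ A, c * y * c⁻¹ ∈ A) → (∀ y ∈ A, S.z * y ∈ A ∧ S.s * y ∈ A) →
    (∀ y ∈ A, ∀ y' ∈ A, y * S.t ≠ S.t * y → y' * S.t ≠ S.t * y' → ∃ r ∈ S.R2, S.Cl (r * y * r⁻¹) y') →
    ∀ y ∈ A, S.Cl 1 y ∨ y ∈ S.SY

variable (ρ : G → End F V)

/-- the weight space of `C_Q(s)` belonging to `y` -/
noncomputable def W (y : G) : Submodule F V := Wt ρ S.Q1 (sg F y)
/-- the fixed space of `C_Q(s)` -/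
def D : Submodule F V := Wt ρ S.Q1 fun _ => 1
def D0 : Submodule F V := S.D ρ ⊓ Wt ρ S.R2 fun _ => 1
noncomputable def DD : Submodule F V := ⨆ y ∈ S.TY, S.D ρ ⊓ Wt ρ S.R2 (sg F y)

/-- The properties of a module which pass to direct sums. -/
structure Gd : Prop where
  rp : Rp S.K ρ
  hs : ρ S.s = 1
  dec : Ev ρ S.z 1 ≤ ⨆ y ∈ insert 1 S.SY, S.W ρ y
  fix : ∀ y ∈ S.SY, ∀ c ∈ S.C, c * y = y * c → ∀ v ∈ S.W ρ y, ρ c v = v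

/-- The multiplicities in a small module. -/
structure Sm : Prop where
  nz : ρ S.z ≠ 1
  lnA : ∀ l, Ch S.Y l → l S.z = -1 → Ln (Wt ρ S.Y l)
  lnB : ∀ y ∈ S.SY, Ln (S.W ρ y)
  neB : ∀ y ∈ S.SY, S.W ρ y ≠ ⊥
  dimD : finrank F (S.D ρ) ≤ 23

def E0 : Prop := ∀ c ∈ S.P0, ∀ k ∈ N2, S.Im c k → ∀ v ∈ S.D0 ρ, ρ c v = eN F k • v
def DFix : Prop := ∀ v ∈ S.D ρ, (∀ c ∈ S.C, ρ c v = v) → v = 0
def DIrr : Prop := ∀ T ≤ S.D ρ, Inv ρ S.C T → (∃ y ∈ S.TY, T ⊓ Wt ρ S.R2 (sg F y) ≠ ⊥) → S.D ρ ≤ T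
def DGl : Prop := ∀ Γ ≤ S.DD ρ, Inv ρ S.P0 Γ → ∃ Γ0 ≤ S.D0 ρ, Inv ρ S.C (Γ ⊔ Γ0)
def Irr : Prop := ∀ T, Inv ρ S.K T → T = ⊥ ∨ T = ⊤

/-- The starting data of the gluing. -/
structure GA (Γ : Submodule F V) (y : G) (γ : V) : Prop where
  le : Γ ≤ Ev ρ S.z (-1)
  inv : Inv ρ S.C Γ
  oy : y ∈ S.OY
  mem : γ ∈ (Γ ⊓ Ev ρ S.t 1).map (ρ S.σ) ⊓ S.W ρ y
  ln : Ln ((Γ ⊓ Ev ρ S.t 1).map (ρ S.σ) ⊓ S.W ρ y)
  span : (Γ ⊓ Ev ρ S.t 1).map (ρ S.σ) ≤ Submodule.span F {u | ∃ r ∈ S.R2, ρ r γ = u}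

end Su

/-! ### The level of `Co₂` -/

/-- Elements of the stabiliser of `U`: `x` is the involution of a sextet with the tetrad `{∞, 0, a, b}`. -/
structure CF (x e q : Co0) (j : Fin 4 → Co0) (a b : GolayPt) : Prop where
  xU : x • leechU = leechU
  xx : x * x = 1
  eE : e ∈ EE
  qE : q ∈ EE
  jE : ∀ k, j k ∈ EE
  xj : ∀ k, x * j k = j k * x
  ha : a ∈ rest
  hb : b ∈ rest
  ab : a ≠ b
  ja : ∀ k, j k • e8 a = e8 a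
  jb : ∀ k, j k • e8 b = e8 b
  jo : ∀ i ∈ rest, i ≠ a → i ≠ b → ∃ k, j k • e8 i ≠ e8 i
  ea : e • e8 a ≠ e8 a
  eb : e • e8 b ≠ e8 b
  qa : q • e8 a ≠ e8 a
  qb : q • e8 b = e8 b
  gN : x * e * x ∈ Nsub
  ga : (x * e * x) • e8 a = e8 b ∨ (x * e * x) • e8 a = -e8 b
  gU : (x * e * x) • leechU' = -leechU'
  br : ∃ p ∈ N2, x * q * x = q * x * q * p
  sep : ∀ i ∈ rest, ∀ i' ∈ rest, i ≠ a → i ≠ b → i' ≠ a → i' ≠ b → i ≠ i' →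
    ∃ c ∈ EE, x * c * x ∈ Nsub ∧ c • e8 i ≠ e8 i ∧ c • e8 i' = e8 i'
  gen : ∀ L : Subgroup Co0, N2 ≤ L → x ∈ L → stabilizer Co0 leechU ≤ L
  perf : N2 ⊓ stabilizer Co0 leechU' ≤ EE ⊔ ⁅N2, N2⁆

section
variable (τ : Co0 → End F V)

/-- A module for the stabiliser of `U` whose weights for the sign changes are trivial or coordinate signs. -/
structure Dm : Prop where
  rp : Rp (stabilizer Co0 leechU) τ
  dec : ⊤ ≤ Wt τ EE (fun _ => 1) ⊔ ⨆ i ∈ rest, Wt τ EE (kap F i)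

def CE0 : Prop := ∀ k ∈ N2, ∀ v ∈ Wt τ EE (fun _ => 1), τ k v = eN F k • v
def CFix : Prop := ∀ v, (∀ k ∈ stabilizer Co0 leechU, τ k v = v) → v = 0
def CIrr : Prop := ∀ T, Inv τ (stabilizer Co0 leechU) T → (∃ i ∈ rest, T ⊓ Wt τ EE (kap F i) ≠ ⊥) → T = ⊤
def CGl : Prop := ∀ Γ ≤ ⨆ i ∈ rest, Wt τ EE (kap F i), Inv τ N2 Γ →
  ∃ Γ0 ≤ Wt τ EE (fun _ => 1), Inv τ (stabilizer Co0 leechU) (Γ ⊔ Γ0)
end

/-- small modules of `Co₂` -/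
def CoS (F V : Type*) [Field F] [AddCommGroup V] [Module F V] : Prop :=
  ∀ τ : Co0 → End F V, Dm τ → Module.Finite F V → finrank F V ≤ 23 → (∃ i ∈ rest, Wt τ EE (kap F i) ≠ ⊥) →
    CE0 τ ∧ CFix τ ∧ CIrr τ
/-- gluing for `Co₂` -/
def CoG (F V : Type*) [Field F] [AddCommGroup V] [Module F V] : Prop := ∀ τ : Co0 → End F V, Dm τ → CE0 τ → CGl τ

/-! ### Elementary facts -/

namespace Su
variable [Finite G] (S : Su G) {a c g r x y y' : G}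

theorem mt : MT S.z S.Q S.π S.R := S.gd.mt
theorem xe : XE S.z S.Q := S.gd.mt.xe
theorem sw : CL.INC.Sw S.z S.R S.σ S.t := ⟨S.ht, S.σz, S.σt⟩
theorem xe' : XE S.t (cj S.σ S.Q) :=
  ⟨S.σz ▸ S.xe.toXS.conj S.σ, extra_of_mulEquiv S.xe.extra (S.Q.equivMapOfInjective _ (MulAut.conj S.σ).injective)⟩
theorem mem_K : g ∈ S.K ↔ g * S.s = S.s * g := mem_cent_singleton
theorem mem_C : g ∈ S.C ↔ g * S.z = S.z * g ∧ g * S.s = S.s * g :=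
  and_congr mem_cent_singleton mem_cent_singleton
theorem mem_Q1 : g ∈ S.Q1 ↔ g ∈ S.Q ∧ g * S.s = S.s * g := and_congr_right' mem_cent_singleton
theorem mem_P0 : g ∈ S.P0 ↔ g ∈ S.C ∧ g * S.t = S.t * g := and_congr_right' mem_cent_singleton
theorem mem_Y : g ∈ S.Y ↔ g ∈ S.Q ∧ S.σ⁻¹ * g * S.σ ∈ S.Q := and_congr_right' mem_cj
theorem mem_R1 : g ∈ S.R1 ↔ g ∈ S.Q1 ∧ g * S.t = S.t * g := and_congr_right' mem_cent_singleton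
theorem mem_R2 : g ∈ S.R2 ↔ S.σ⁻¹ * g * S.σ ∈ S.R1 := mem_cj
theorem zz : S.z * S.z = 1 := S.xe.mul_self
theorem tt : S.t * S.t = 1 := S.xe'.mul_self
theorem tQ : S.t ∈ S.Q := S.mt.mem S.ht
theorem sQ : S.s ∈ S.Q := S.mt.mem S.gd.hs
theorem tz : S.t * S.z = S.z * S.t := S.xe.comm S.tQ
theorem sz : S.s * S.z = S.z * S.s := S.xe.comm S.sQ
theorem C_le_K : S.C ≤ S.K := inf_le_right
theorem Q1_le_C : S.Q1 ≤ S.C := inf_le_inf_right _ S.xe.le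
theorem Q1_le_K : S.Q1 ≤ S.K := inf_le_right
theorem Q1_le_Q : S.Q1 ≤ S.Q := inf_le_left
theorem P0_le_C : S.P0 ≤ S.C := inf_le_left
theorem P0_le_K : S.P0 ≤ S.K := S.P0_le_C.trans S.C_le_K
theorem R1_le_Q1 : S.R1 ≤ S.Q1 := inf_le_left
theorem R1_le_P0 : S.R1 ≤ S.P0 := inf_le_inf_right _ S.Q1_le_C
theorem R1_le_K : S.R1 ≤ S.K := S.R1_le_Q1.trans S.Q1_le_K
theorem Y_le_Q : S.Y ≤ S.Q := inf_le_left
theorem σK : S.σ ∈ S.K := S.mem_K.2 S.σs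
theorem qQ1 : S.q ∈ S.Q1 := S.mem_Q1.2 ⟨S.qQ, S.qs⟩
theorem qC : S.q ∈ S.C := S.Q1_le_C S.qQ1
theorem qK : S.q ∈ S.K := S.Q1_le_K S.qQ1
theorem zQ1 : S.z ∈ S.Q1 := S.mem_Q1.2 ⟨S.xe.mem, S.sz.symm⟩
theorem zK : S.z ∈ S.K := S.Q1_le_K S.zQ1
theorem sQ1 : S.s ∈ S.Q1 := S.mem_Q1.2 ⟨S.sQ, rfl⟩
theorem σz' : S.σ⁻¹ * S.z * S.σ = S.t := by rw [← S.σt]; group
theorem σt' : S.σ⁻¹ * S.t * S.σ = S.z := by rw [← S.σz]; group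
theorem σs' : S.σ⁻¹ * S.s * S.σ = S.s := by rw [mul_assoc, ← S.σs, inv_mul_cancel_left]
theorem σs'' : S.σ * S.s * S.σ⁻¹ = S.s := by rw [S.σs, mul_inv_cancel_right]
theorem comm_conj (g : G) : g⁻¹ * x * g * (g⁻¹ * y * g) = g⁻¹ * y * g * (g⁻¹ * x * g) ↔ x * y = y * x := by
  rw [show g⁻¹ * x * g * (g⁻¹ * y * g) = g⁻¹ * (x * y) * g by group,
    show g⁻¹ * y * g * (g⁻¹ * x * g) = g⁻¹ * (y * x) * g by group, mul_left_inj, mul_right_inj]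
theorem conj_fix (h : g * a = a * g) : g⁻¹ * a * g = a := by rw [mul_assoc, ← h, inv_mul_cancel_left]
theorem σP0 : S.σ⁻¹ * g * S.σ ∈ S.P0 ↔ g ∈ S.P0 := by
  have h1 := comm_conj (x := g) (y := S.t) S.σ
  have h2 := comm_conj (x := g) (y := S.s) S.σ
  have h3 := comm_conj (x := g) (y := S.z) S.σ
  rw [S.σt'] at h1; rw [S.σs'] at h2; rw [S.σz'] at h3
  rw [mem_P0, mem_P0, mem_C, mem_C, h1, h2, h3]
  tauto
theorem σP0' : S.σ * g * S.σ⁻¹ ∈ S.P0 ↔ g ∈ S.P0 := by rw [← S.σP0]; simp [mul_assoc]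
theorem R2_le_P0 : S.R2 ≤ S.P0 := fun _ h => S.σP0.1 (S.R1_le_P0 (S.mem_R2.1 h))
theorem R2_le_C : S.R2 ≤ S.C := S.R2_le_P0.trans S.P0_le_C
theorem R2_le_K : S.R2 ≤ S.K := S.R2_le_P0.trans S.P0_le_K
theorem R2_le_Q' : S.R2 ≤ cj S.σ S.Q := cj_mono _ (S.R1_le_Q1.trans S.Q1_le_Q)
theorem mem_P0_of (h1 : g * S.z * g⁻¹ = S.z) (h2 : g ∈ S.K) (h3 : g * S.t * g⁻¹ = S.t) : g ∈ S.P0 :=
  S.mem_P0.2 ⟨S.mem_C.2 ⟨mul_inv_eq_iff_eq_mul.1 h1, S.mem_K.1 h2⟩, mul_inv_eq_iff_eq_mul.1 h3⟩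
theorem σσ : S.σ * S.σ ∈ S.P0 := S.mem_P0_of
  ((show _ = S.σ * (S.σ * S.z * S.σ⁻¹) * S.σ⁻¹ by group).trans (by rw [S.σz, S.σt])) (mul_mem S.σK S.σK)
  ((show _ = S.σ * (S.σ * S.t * S.σ⁻¹) * S.σ⁻¹ by group).trans (by rw [S.σt, S.σz]))
theorem qz : S.q * S.z * S.q⁻¹ = S.z := by rw [S.xe.comm S.qQ, mul_inv_cancel_right]
theorem qt' : S.q⁻¹ * S.t * S.q = S.z * S.t := by
  have h1 : S.q⁻¹ * S.z * S.q = S.z := conj_fix (S.xe.comm S.qQ)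
  calc _ = S.q⁻¹ * (S.z * (S.q * S.t * S.q⁻¹)) * S.q := by rw [S.qt, ← mul_assoc S.z, S.zz, one_mul]
    _ = S.q⁻¹ * S.z * S.q * S.t := by group
    _ = _ := by rw [h1]
theorem qt_ne : S.q * S.t ≠ S.t * S.q := fun e => S.xe.ne_one (by
  have := S.qt; rwa [e, mul_inv_cancel_right, eq_comm, mul_eq_right] at this)
/-- The braid relation. -/
theorem braid : ∃ p ∈ S.P0, S.σ * S.q * S.σ = S.q * S.σ * S.q * p := by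
  have k : ∀ {a u v : G}, a * u * a⁻¹ = v → ∀ b, b * a * u * (b * a)⁻¹ = b * v * b⁻¹ := fun h b => by
    rw [← h]; group
  have c1 : S.σ * (S.z * S.t) * S.σ⁻¹ = S.z * S.t := by rw [← conj_mul, S.σz, S.σt, S.tz]
  have e1 : S.σ * S.q * S.σ * S.z * (S.σ * S.q * S.σ)⁻¹ = S.q * S.σ * S.q * S.z * (S.q * S.σ * S.q)⁻¹ := by
    rw [k S.σz, k S.qt, c1, k S.qz, k S.σz, S.qt]
  have e2 : S.σ * S.q * S.σ * S.t * (S.σ * S.q * S.σ)⁻¹ = S.q * S.σ * S.q * S.t * (S.q * S.σ * S.q)⁻¹ := by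
    rw [k S.σt, k S.qz, S.σz, k S.qt, k c1, ← conj_mul, S.qz, S.qt, ← mul_assoc, S.zz, one_mul]
  refine ⟨(S.q * S.σ * S.q)⁻¹ * (S.σ * S.q * S.σ), S.mem_P0_of ?_ (mul_mem (inv_mem (mul_mem (mul_mem S.qK S.σK) S.qK))
    (mul_mem (mul_mem S.σK S.qK) S.σK)) ?_, by group⟩
  · rw [k e1]; group
  · rw [k e2]; group
theorem conj_Q (hc : c ∈ S.C) : c⁻¹ * x * c ∈ S.Q ↔ x ∈ S.Q := by
  rw [mem_normalizer_iff.1 (S.xe.norm hc.1) (c⁻¹ * x * c)]; simp [mul_assoc]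
theorem conj_Q1 (hc : c ∈ S.C) : c⁻¹ * x * c ∈ S.Q1 ↔ x ∈ S.Q1 := by
  have h1 := comm_conj (x := x) (y := S.s) c
  rw [conj_fix (S.mem_C.1 hc).2] at h1
  rw [mem_Q1, mem_Q1, S.conj_Q hc, h1]
theorem conj_Q1' (hc : c ∈ S.C) : c * x * c⁻¹ ∈ S.Q1 ↔ x ∈ S.Q1 := by simpa using S.conj_Q1 (inv_mem hc)
theorem conj_R1 (hc : c ∈ S.P0) : c⁻¹ * x * c ∈ S.R1 ↔ x ∈ S.R1 := by
  have h1 := comm_conj (x := x) (y := S.t) c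
  rw [conj_fix (S.mem_P0.1 hc).2] at h1
  rw [mem_R1, mem_R1, S.conj_Q1 hc.1, h1]
theorem conj_R2 (hc : c ∈ S.P0) : c⁻¹ * x * c ∈ S.R2 ↔ x ∈ S.R2 := by
  rw [mem_R2, mem_R2, ← S.conj_R1 (x := S.σ⁻¹ * x * S.σ) (S.σP0.2 hc)]
  exact iff_of_eq (congrArg (· ∈ S.R1) (by group))
theorem σR1 : S.σ⁻¹ * x * S.σ ∈ S.R2 ↔ x ∈ S.R1 := by
  rw [mem_R2, ← S.conj_R1 (x := x) S.σσ]
  exact iff_of_eq (congrArg (· ∈ S.R1) (by group))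
theorem conj_Q' (hc : c ∈ S.P0) : c⁻¹ * x * c ∈ cj S.σ S.Q ↔ x ∈ cj S.σ S.Q := by
  rw [mem_cj, mem_cj, ← S.conj_Q (x := S.σ⁻¹ * x * S.σ) (S.σP0.2 hc).1]
  exact iff_of_eq (congrArg (· ∈ S.Q) (by group))
theorem conj_Y (hc : c ∈ S.P0) : c⁻¹ * x * c ∈ S.Y ↔ x ∈ S.Y := and_congr (S.conj_Q hc.1) (S.conj_Q' hc)
theorem σY : S.σ⁻¹ * x * S.σ ∈ S.Y ↔ x ∈ S.Y := by
  rw [mem_Y, mem_Y, and_comm, ← S.conj_Q (x := x) S.σσ.1]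
  exact and_congr_left' (iff_of_eq (congrArg (· ∈ S.Q) (by group)))
theorem σY' : S.σ * x * S.σ⁻¹ ∈ S.Y ↔ x ∈ S.Y := by rw [← S.σY]; simp [mul_assoc]
theorem zY : S.z ∈ S.Y := S.mem_Y.2 ⟨S.xe.mem, S.σz' ▸ S.tQ⟩
theorem tY : S.t ∈ S.Y := S.mem_Y.2 ⟨S.tQ, S.σt' ▸ S.xe.mem⟩
theorem sY : S.s ∈ S.Y := S.mem_Y.2 ⟨S.sQ, S.σs'.symm ▸ S.sQ⟩
/-- conjugation by `Q` preserves `Y` -/
theorem conj_Y_Q (hx : x ∈ S.Q) (hy : y ∈ S.Y) : x⁻¹ * y * x ∈ S.Y := by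
  rcases conj_cases S.xe (inv_mem hx) hy.1 with e | e <;> rw [inv_inv] at e <;> rw [e]
  exacts [hy, mul_mem S.zY hy]
theorem p2Q1 : IsPGroup 2 S.Q1 := S.xe.isPGroup.to_le S.Q1_le_Q
theorem p2Y : IsPGroup 2 S.Y := S.xe.isPGroup.to_le S.Y_le_Q
theorem p2R1 : IsPGroup 2 S.R1 := S.p2Q1.to_le S.R1_le_Q1
theorem p2R2 : IsPGroup 2 S.R2 := S.xe'.isPGroup.to_le S.R2_le_Q'
theorem ch_Q (hy : y ∈ S.Q) {X : Subgroup G} (hX : X ≤ S.Q) : Ch X (sg F y) := (ch_sg S.xe hy).mono hX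
theorem ch_Q1 (hy : y ∈ S.Q) : Ch S.Q1 (sg F y) := S.ch_Q hy S.Q1_le_Q
theorem ch_R1 (hy : y ∈ S.Q) : Ch S.R1 (sg F y) := (S.ch_Q1 hy).mono S.R1_le_Q1
theorem ch_Y (hy : y ∈ S.Q) : Ch S.Y (sg F y) := S.ch_Q hy S.Y_le_Q
theorem ch_R2 (hy : y ∈ S.Y) : Ch S.R2 (sg F y) := (ch_sg S.xe' hy.2).mono S.R2_le_Q'
theorem SY_Q1 (hy : y ∈ S.SY) : y ∈ S.Q1 := S.mem_Q1.2 ⟨hy.1, hy.2.2.1⟩
theorem ins_Q1 (hy : y ∈ insert 1 S.SY) : y ∈ S.Q1 := hy.elim (fun e => e ▸ one_mem _) S.SY_Q1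
theorem Df_K (hg : g ∈ S.K) (h1 : IsConj S.s y) (h2 : y * S.s = S.s * y) (h3 : IsConj S.s (y * S.s)) :
    IsConj S.s (g * y * g⁻¹) ∧ g * y * g⁻¹ * S.s = S.s * (g * y * g⁻¹) ∧ IsConj S.s (g * y * g⁻¹ * S.s) := by
  have e : g * S.s * g⁻¹ = S.s := by rw [S.mem_K.1 hg, mul_inv_cancel_right]
  refine ⟨isConj_conj h1 g, ?_, ?_⟩
  · conv_lhs => rw [← e, conj_mul, h2, ← conj_mul, e]
  · conv_rhs => rw [← e, conj_mul]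
    exact isConj_conj h3 g
theorem SY_conj (hc : c ∈ S.C) (hy : y ∈ S.SY) : c * y * c⁻¹ ∈ S.SY :=
  ⟨((S.conj_Q1' hc).2 (S.SY_Q1 hy)).1, S.Df_K (S.C_le_K hc) hy.2.1 hy.2.2.1 hy.2.2.2⟩
theorem TY_σ (hy : y ∈ S.TY) : S.σ * y * S.σ⁻¹ ∈ S.TY :=
  ⟨⟨(S.σY'.2 hy.2).1, S.Df_K S.σK hy.1.2.1 hy.1.2.2.1 hy.1.2.2.2⟩, S.σY'.2 hy.2⟩
theorem TY_σ' (hy : y ∈ S.TY) : S.σ⁻¹ * y * S.σ ∈ S.TY := by
  have h1 := S.Df_K (inv_mem S.σK) hy.1.2.1 hy.1.2.2.1 hy.1.2.2.2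
  rw [inv_inv] at h1
  exact ⟨⟨(S.σY.2 hy.2).1, h1⟩, S.σY.2 hy.2⟩
theorem P0_t (hc : c ∈ S.P0) : c * y * c⁻¹ * S.t = S.t * (c * y * c⁻¹) ↔ y * S.t = S.t * y := by
  have := comm_conj (x := y) (y := S.t) c⁻¹
  rwa [inv_inv, (S.mem_P0.1 hc).2, mul_inv_cancel_right] at this
theorem TY_conj (hc : c ∈ S.P0) (hy : y ∈ S.TY) : c * y * c⁻¹ ∈ S.TY :=
  ⟨S.SY_conj hc.1 hy.1, by simpa using (S.conj_Y (inv_mem hc)).2 hy.2⟩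
theorem XY_conj (hc : c ∈ S.P0) (hy : y ∈ S.XY) : c * y * c⁻¹ ∈ S.XY :=
  ⟨S.SY_conj hc.1 hy.1, (S.P0_t hc).2 hy.2.1, fun e => hy.2.2 ((S.conj_Y (inv_mem hc)).1 (by simpa using e))⟩
theorem OY_conj (hc : c ∈ S.P0) (hy : y ∈ S.OY) : c * y * c⁻¹ ∈ S.OY :=
  ⟨S.SY_conj hc.1 hy.1, fun e => hy.2 ((S.P0_t hc).1 e)⟩
theorem SY_cases (hy : y ∈ S.SY) : y ∈ S.OY ∨ y ∈ S.XY ∨ y ∈ S.TY := by
  by_cases h1 : y * S.t = S.t * y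
  · by_cases h2 : y ∈ S.Y
    exacts [Or.inr (Or.inr ⟨hy, h2⟩), Or.inr (Or.inl ⟨hy, h1, h2⟩)]
  · exact Or.inl ⟨hy, h1⟩
theorem Cl.refl (y : G) : S.Cl y y := Or.inl rfl
/-- elements of the same class have the same weight -/
theorem Cl.sg (h : S.Cl y y') : Set.EqOn (sg F y') (sg F y) S.Q1 := fun x hx => by
  have h1 := S.xe.comm hx.1
  have h2 := (S.mem_Q1.1 hx).2
  rcases h with rfl | rfl | rfl | rfl
  · rfl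
  · exact sg_mul_of_comm h1 y
  · exact sg_mul_of_comm h2 y
  · rw [mul_assoc, sg_mul_of_comm h1, sg_mul_of_comm h2]
theorem Cl.W (h : S.Cl y y') (ρ : G → End F V) : S.W ρ y' = S.W ρ y := Wt_congr (Cl.sg S h)
theorem W_one (ρ : G → End F V) : S.W ρ 1 = S.D ρ := Wt_congr fun x _ => sg_one x
theorem Im.mul {k k' : Co0} (h : S.Im a k) (h' : S.Im c k') : S.Im (a * c) (k * k') := by
  obtain ⟨ha, h⟩ := h
  obtain ⟨hc, h'⟩ := h'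
  exact ⟨mul_mem ha hc, by rw [map_mul mk1, ← h, ← h', ← map_mul]; rfl⟩
theorem Im.inv {k : Co0} (h : S.Im a k) : S.Im a⁻¹ k⁻¹ := by
  obtain ⟨ha, h⟩ := h
  exact ⟨inv_mem ha, by rw [map_inv mk1, ← h, ← map_inv]; rfl⟩
theorem Im.R {k : Co0} (h : S.Im c k) {v : leechLattice} (hx : S.R v x) : S.R (k • v) (c * x * c⁻¹) :=
  let ⟨hc, h⟩ := h; S.mt.conj ⟨c, hc⟩ k h hx
theorem im_one : S.Im x 1 ↔ x ∈ S.Q :=
  ⟨fun ⟨hx, h⟩ => (S.mt.ker ⟨x, hx⟩).1 (h.trans (map_one _)),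
    fun h => ⟨S.xe.le h, ((S.mt.ker ⟨x, S.xe.le h⟩).2 h).trans (map_one _).symm⟩⟩
/-- two elements over the same `k` differ by an element of `Q` -/
theorem Im.div {k : Co0} (h : S.Im a k) (h' : S.Im c k) : a⁻¹ * c ∈ S.Q :=
  S.im_one.1 (inv_mul_cancel k ▸ Im.mul S (Im.inv S h) h')

theorem ss : S.s * S.s = 1 := S.gd.ss
theorem im_C (hc : c ∈ S.C) : ∃ k ∈ stabilizer Co0 leechU, S.Im c k :=
  let ⟨k, h1, h2⟩ := S.gd.bs_img ⟨c, hc.1⟩ (S.mem_C.1 hc).2; ⟨k, h1, hc.1, h2⟩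
theorem lift_C {k : Co0} (hk : k ∈ stabilizer Co0 leechU) : ∃ c ∈ S.C, S.Im c k :=
  let ⟨c, h1, h2⟩ := S.gd.bs_lift hk; ⟨c, ⟨c.2, mem_cent_singleton.2 (mul_inv_eq_iff_eq_mul.1 h2)⟩, c.2, h1⟩
/-- the element of the stabiliser of `U` under `c` is unique -/
theorem Im.eq {k k' : Co0} (h : S.Im c k) (h' : S.Im c k') (hk : k ∈ stabilizer Co0 leechU)
    (hk' : k' ∈ stabilizer Co0 leechU) : k = k' := by
  obtain ⟨_, h⟩ := h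
  obtain ⟨_, h'⟩ := h'
  exact congrArg Subtype.val (mk1_injOn (negOne_not_mem_stabilizer (v := leechU) (by rw [sqNorm_U]; norm_num))
    (a₁ := ⟨k, hk⟩) (a₂ := ⟨k', hk'⟩) (h.symm.trans h'))
theorem Y_comm (hx : x ∈ S.Y) (hy : y ∈ S.Y) : x * y = y * x := S.sw.P_le_cent S.mt hy x hx
theorem cent_Y (hx : x ∈ S.Q) (h : ∀ y ∈ S.Y, y * x = x * y) : x ∈ S.Y := (S.sw.cent_P S.mt).le ⟨hx, h⟩
theorem Y_sq (hy : y ∈ S.Y) : y * y = 1 := by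
  rw [← pow_two]; exact S.sw.eq_one S.mt (S.xe.sq y hy.1) (S.xe'.sq y hy.2)
theorem Y_le_R1 : S.Y ≤ S.R1 := fun _ hy => S.mem_R1.2 ⟨S.mem_Q1.2 ⟨hy.1, S.Y_comm hy S.sY⟩, S.Y_comm hy S.tY⟩
theorem Y_le_Q1 : S.Y ≤ S.Q1 := S.Y_le_R1.trans S.R1_le_Q1
theorem Y_le_R2 : S.Y ≤ S.R2 := fun _ hy => S.mem_R2.2 (S.Y_le_R1 (S.σY.2 hy))
theorem Y_le_K : S.Y ≤ S.K := S.Y_le_Q1.trans S.Q1_le_K
theorem tQ1 : S.t ∈ S.Q1 := S.Y_le_Q1 S.tY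
theorem tK : S.t ∈ S.K := S.Q1_le_K S.tQ1
theorem ts : S.t * S.s = S.s * S.t := S.Y_comm S.tY S.sY
theorem card_Y : Nat.card S.Y = 2 ^ 13 := (S.mt.pair (S.σz ▸ S.tQ) (S.σz ▸ S.sw.ne S.mt)).1
theorem card_Q1 : Nat.card S.Q1 = 2 ^ 24 := by
  have := MT.card_inf_cent S.xe S.sQ fun e => (S.xe.mem_Z.1 e).elim S.gd.s_ne_one fun e =>
    S.gd.not_conj (e ▸ IsConj.refl _)
  rw [S.mt.card] at this
  exact Nat.eq_of_mul_eq_mul_right two_pos (this.trans (by norm_num))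
theorem card_SY : S.SY.ncard = 9200 := S.gd.lc.2.2.1
theorem SY_sq (hy : y ∈ S.SY) : y * y = 1 := S.gd.tt hy.2.1
theorem SY_z (hy : y ∈ S.SY) : S.z * y ∈ S.SY := by
  have e := S.xe.comm hy.1
  refine ⟨mul_mem S.xe.mem hy.1, e ▸ S.gd.T_mul_z hy.1 hy.2.1, (S.mem_Q1.1 (mul_mem S.zQ1 (S.SY_Q1 hy))).2, ?_⟩
  rw [mul_assoc, ← S.xe.comm (mul_mem hy.1 S.sQ)]
  exact S.gd.T_mul_z (mul_mem hy.1 S.sQ) hy.2.2.2
theorem SY_s (hy : y ∈ S.SY) : S.s * y ∈ S.SY :=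
  ⟨mul_mem S.sQ hy.1, hy.2.2.1 ▸ hy.2.2.2, (S.mem_Q1.1 (mul_mem S.sQ1 (S.SY_Q1 hy))).2,
    by rw [← hy.2.2.1, mul_assoc, S.ss, mul_one]; exact hy.2.1⟩
theorem Cl.SY (h : S.Cl y y') (hy : y ∈ S.SY) : y' ∈ S.SY := by
  rcases h with rfl | rfl | rfl | rfl
  exacts [hy, S.SY_z hy, S.SY_s hy, mul_assoc S.z S.s y ▸ S.SY_z (S.SY_s hy)]
theorem TY_t (hy : y ∈ S.TY) : S.t * y ∈ S.TY := by
  have h1 := S.TY_σ' hy
  have h2 := S.TY_σ (y := S.z * (S.σ⁻¹ * y * S.σ)) ⟨S.SY_z h1.1, mul_mem S.zY h1.2⟩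
  rwa [← conj_mul, S.σz, show S.σ * (S.σ⁻¹ * y * S.σ) * S.σ⁻¹ = y by group] at h2
/-- `SY` in terms of the lattice -/
theorem SY_iff : y ∈ S.SY ↔ ∃ w ∈ nbr leechU 16, S.R w y := by
  constructor
  · rintro ⟨h1, h2, h3, h4⟩
    obtain ⟨v, hv, hn⟩ := S.gd.short_of h1 h2
    obtain ⟨u, hu, hn'⟩ := S.gd.short_of (mul_mem h1 S.sQ) h4
    have h5 := (S.mt.comm_iff hv S.gd.hs).1 h3
    have h6 := (S.mt.dbl_iff' (S.mt.mul hv S.gd.hs) hu).2 (Or.inl rfl)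
    have h7 : sqNorm ((v + leechU : leechLattice) : GolayPt → ℤ) = 64 + 2 * dotInt (leechU : GolayPt → ℤ) v := by
      rw [AddSubgroup.coe_add, sqNorm_add, hn, sqNorm_U, dot_comm]; ring
    rw [dot_comm] at h5
    rcases dot_min_cases sqNorm_U hn with rfl | rfl | h8
    · exact absurd ((h6.symm.add ⟨leechU, rfl⟩).of_eq (sub_add_cancel _ _)) (not_dbl_of_short (by omega) (by omega))
    · exact absurd h6.symm (by rw [neg_add_cancel, sub_zero]; exact not_dbl_of_short (by omega) (by omega))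
    simp only [Finset.mem_insert, Finset.mem_singleton] at h8
    rcases h8 with e | e | e | e | e
    · exact ⟨-v, ⟨by rw [AddSubgroup.coe_neg, sqNorm_neg, hn], by rw [AddSubgroup.coe_neg, dot_neg_right, e]; rfl⟩,
        S.mt.congr hv (Dbl.neg_sub v)⟩
    · omega
    · have := h6.sqNorm_eq (by omega) (by omega); omega
    · omega
    · exact ⟨v, ⟨hn, e⟩, hv⟩
  · rintro ⟨w, hw, h⟩
    refine ⟨S.mt.mem h, S.gd.isT h hw.1, (S.mt.comm_iff h S.gd.hs).2 (by rw [dot_comm, hw.2]),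
      S.gd.isT (S.mt.congr (S.mt.mul h S.gd.hs) (w := w - leechU) ⟨-leechU, by abel⟩) ?_⟩
    rw [AddSubgroup.coe_sub, sqNorm_sub, hw.1, sqNorm_U, dot_comm, hw.2]; rfl
theorem cent_Q1 (hx : ∀ a ∈ S.Q1, a * x = x * a) : S.Cl 1 x := by
  simpa [Cl] using (mem_closure_pair_two S.zz S.ss S.sz.symm).1
    (S.xe.cent_inf_cent_le S.sQ ((pow_two _).trans S.ss) hx)
theorem cl_of_one (h : S.Cl 1 (y' * y⁻¹)) : S.Cl y y' := by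
  simpa only [Cl, mul_one, mul_inv_eq_iff_eq_mul, one_mul] using h
theorem cl_of_sg (h2 : (2 : F) ≠ 0) (hy : y ∈ S.Q) (hy' : y' ∈ S.Q) (h : Set.EqOn (sg F y') (sg F y) S.Q1) :
    S.Cl y y' := S.cl_of_one (S.cent_Q1 fun a ha => (sg_eq_one h2).1 (by
  rw [sg_mul S.xe hy' (inv_mem hy) ha.1, h ha, sg_comm a y⁻¹, (ch_sg S.xe ha.1).inv hy, sg_comm y a,
    (ch_sg S.xe hy).sq ha.1]))
theorem cent_R1 (hx : x ∈ S.Q) (h : ∀ a ∈ S.R1, a * x = x * a) : S.Cl 1 x ∨ S.Cl S.t x := by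
  have k : ∀ u, S.q * u = u * S.q → (∀ a ∈ S.R1, a * u = u * a) → S.Cl 1 u := fun u h1 h2 => S.cent_Q1 fun a ha => by
    by_cases e : a * S.t = S.t * a
    · exact h2 a (S.mem_R1.2 ⟨ha, e⟩)
    have h3 := h2 (S.q * a) ⟨mul_mem S.qQ1 ha, S.xe.mul_mem_cent S.tQ S.qQ ha.1
      (fun e => S.qt_ne (mem_cent_singleton.1 e)) fun e' => e (mem_cent_singleton.1 e')⟩
    rwa [← mul_assoc u, ← h1, mul_assoc, mul_assoc, mul_right_inj] at h3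
  by_cases e : S.q * x = x * S.q
  · exact Or.inl (k x e h)
  refine Or.inr (S.cl_of_one (k _ ?_ fun a ha => ?_))
  · exact (mem_cent_singleton.1 (S.xe.mul_mem_cent S.qQ hx (inv_mem S.tQ) (fun e' => e (mem_cent_singleton.1 e').symm)
      fun e' => S.qt_ne (mem_cent_singleton.1 (inv_mem_iff.1 e')).symm)).symm
  · exact (Commute.mul_right (h a ha) (Commute.inv_right (S.mem_R1.1 ha).2)).eq
theorem cl_of_sg_R1 (h2 : (2 : F) ≠ 0) (hy : y ∈ S.Q) (hy' : y' ∈ S.Q) (h : Set.EqOn (sg F y') (sg F y) S.R1) :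
    S.Cl y y' ∨ S.Cl (S.t * y) y' := by
  refine (S.cent_R1 (mul_mem hy' (inv_mem hy)) fun a ha => (sg_eq_one h2).1 (by
    rw [sg_mul S.xe hy' (inv_mem hy) ha.1.1, h ha, sg_comm a y⁻¹, (ch_sg S.xe ha.1.1).inv hy, sg_comm y a,
      (ch_sg S.xe hy).sq ha.1.1])).imp S.cl_of_one fun e => ?_
  simpa only [Cl, mul_inv_eq_iff_eq_mul, mul_assoc] using e
theorem not_SY_one (h : S.Cl 1 y) : y ∉ S.SY := fun hy => by
  have h1 : ∀ u, u = 1 ∨ u = S.z → ¬ IsConj S.s u := by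
    rintro _ (rfl | rfl) e
    exacts [S.gd.s_ne_one (isConj_one_right.1 e.symm), S.gd.not_conj e.symm]
  rcases h with rfl | rfl | rfl | rfl
  · exact h1 _ (Or.inl rfl) hy.2.1
  · exact h1 _ (Or.inr (mul_one _)) hy.2.1
  · exact h1 _ (Or.inl (by rw [mul_one, S.ss])) hy.2.2.2
  · exact h1 _ (Or.inr (by rw [mul_one, mul_assoc, S.ss, mul_one])) hy.2.2.2
theorem not_SY_t (h : S.Cl S.t y) : y ∉ S.SY := fun hy => by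
  have h1 : ∀ u, u = S.t ∨ u = S.z * S.t → ¬ IsConj S.s u := by
    rintro _ (rfl | rfl) e
    · exact S.gd.not_conj' e (isConj_iff.2 ⟨_, S.σz⟩)
    · exact S.gd.not_conj' e ((isConj_iff.2 ⟨_, S.σz⟩).trans (isConj_iff.2 ⟨_, S.qt⟩))
  rcases h with rfl | rfl | rfl | rfl
  · exact h1 _ (Or.inl rfl) hy.2.1
  · exact h1 _ (Or.inr rfl) hy.2.1
  · exact h1 _ (Or.inl (by rw [← S.ts, mul_assoc, S.ss, mul_one])) hy.2.2.2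
  · exact h1 _ (Or.inr (by rw [mul_assoc S.z, ← S.ts, mul_assoc, mul_assoc, S.ss, mul_one])) hy.2.2.2
/-- an element of `SY` does not centralise `R1` -/
theorem SY_R1 (hy : y ∈ S.SY) : ∃ a ∈ S.R1, a * y ≠ y * a := by
  by_contra! h
  exact (S.cent_R1 hy.1 h).elim (fun e => S.not_SY_one e hy) fun e => S.not_SY_t e hy
theorem R2_cases (hr : r ∈ S.R2) (hy : y ∈ S.Y) : r * y * r⁻¹ = y ∨ r * y * r⁻¹ = S.t * y :=
  conj_cases S.xe' (S.R2_le_Q' hr) hy.2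
theorem TY_mv (hy : y ∈ S.TY) : ∃ r ∈ S.R2, r * y * r⁻¹ = S.t * y := by
  obtain ⟨a, ha, h⟩ := S.SY_R1 (S.TY_σ' hy).1
  have hr : S.σ * a * S.σ⁻¹ ∈ S.R2 := conj_mem_cj _ ha
  refine ⟨_, hr, (S.R2_cases hr hy.2).resolve_left fun e => h ?_⟩
  rw [← comm_conj S.σ⁻¹]
  simpa [mul_assoc] using mul_inv_eq_iff_eq_mul.1 e
/-- a normal subgroup of `K` containing `s` and `z` is `K` -/
theorem normal_eq {N : Subgroup G} (h1 : N ≤ S.K) (h2 : ∀ g ∈ S.K, ∀ n ∈ N, g * n * g⁻¹ ∈ N) (hs : S.s ∈ N)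
    (hz : S.z ∈ N) : S.K ≤ N := fun _ hg =>
  S.gd.bs_b (fun _ hn => S.mem_K.1 (h1 hn)) (fun g hg => h2 g (S.mem_K.2 hg)) hs hz (S.mem_K.1 hg)

variable {S} {ρ : G → End F V} {ρ' : G → End F V'} {v : V}

theorem W_map (h : Rp S.K ρ) (hc : c ∈ S.C) (hv : v ∈ S.W ρ y) : ρ c v ∈ S.W ρ (c * y * c⁻¹) :=
  h.wt_sg (S.C_le_K hc) S.Q1_le_K (fun _ hx => (S.conj_Q1 hc).2 hx) hv
theorem inv_D (h : Rp S.K ρ) : Inv ρ S.C (S.D ρ) := fun _ hc _ hv =>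
  h.wt_map (S.C_le_K hc) S.Q1_le_K (fun _ hx => ⟨(S.conj_Q1 hc).2 hx, rfl⟩) hv
theorem W_le_z (hy : y ∈ S.Q) : S.W ρ y ≤ Ev ρ S.z 1 := fun _ hv => by
  rw [mem_Ev, hv _ S.zQ1, sg_pos (S.xe.comm hy).symm]

namespace Gd
variable (h : S.Gd ρ)
include h

theorem prod (h' : S.Gd ρ') : S.Gd (pd ρ ρ') := by
  refine ⟨h.rp.prod h'.rp, by rw [pd, h.hs, h'.hs]; rfl, fun u hu => ?_, fun y hy c hc e u hu =>
    Prod.ext (h.fix y hy c hc e _ (mem_Wt_pd.1 hu).1) (h'.fix y hy c hc e _ (mem_Wt_pd.1 hu).2)⟩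
  rw [show u = LinearMap.inl F V V' u.1 + LinearMap.inr F V V' u.2 by simp]
  exact add_mem ((iSup₂_mono (g := fun y _ => (S.W (pd ρ ρ') y).comap (LinearMap.inl F V V')) fun _ _ _ hv =>
      (mem_Wt_pd (u := (_, 0))).2 ⟨hv, zero_mem _⟩).trans (iSup₂_le fun y hy => Submodule.comap_mono (le_biSup _ hy))
      (h.dec (mem_Ev_pd.1 hu).1))
    ((iSup₂_mono (g := fun y _ => (S.W (pd ρ ρ') y).comap (LinearMap.inr F V V')) fun _ _ _ hv =>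
      (mem_Wt_pd (u := (0, _))).2 ⟨zero_mem _, hv⟩).trans (iSup₂_le fun y hy => Submodule.comap_mono (le_biSup _ hy))
      (h'.dec (mem_Ev_pd.1 hu).2))

/-- a weight vector for a subgroup of `C_Q(s)` containing `z` -/
theorem sel {X : Subgroup G} (hX : X ≤ S.Q1) (hz : S.z ∈ X) {l : G → F} (hl : Ch X l) (h1 : l S.z = 1)
    (hv : v ∈ Wt ρ X l) : v ∈ ⨆ y ∈ {y ∈ insert 1 S.SY | Set.EqOn (sg F y) l X}, S.W ρ y :=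
  RB.sel (w := fun y => sg F y) h.rp.two (S.p2Q1.to_le hX) (fun _ hy => (S.ch_Q1 (S.ins_Q1 hy).1).mono hX)
    (fun _ _ => Wt_mono hX) hl (h.dec (by rw [mem_Ev, hv _ hz, h1])) hv

theorem wt_R1 : Wt ρ S.R1 (fun _ => 1) ≤ S.D ρ := fun _ hv =>
  (iSup₂_le (a := S.D ρ) fun _ hy => hy.1.elim (fun e => e ▸ (S.W_one ρ).le) fun hy' =>
    let ⟨_, ha, e⟩ := S.SY_R1 hy'; absurd ((sg_eq_one h.rp.two).1 (hy.2 ha)) e)
    (h.sel S.R1_le_Q1 (S.Y_le_R1 S.zY) ch_one rfl hv)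

end Gd

theorem E0.prod (h : S.E0 ρ) (h' : S.E0 ρ') : S.E0 (pd ρ ρ') := fun c hc k hk e _ hu =>
  Prod.ext (h c hc k hk e _ ⟨(mem_Wt_pd.1 hu.1).1, (mem_Wt_pd.1 hu.2).1⟩)
    (h' c hc k hk e _ ⟨(mem_Wt_pd.1 hu.1).2, (mem_Wt_pd.1 hu.2).2⟩)

end Su

end CL.RB
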