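/-
The 4371-dimensional representation of the Baby Monster, part 1: small lemmas shared by the steps.
-/
import Cfsg.Agent.Spor.Rb0

set_option autoImplicit false
set_option linter.unusedSectionVars false

namespace CL.RB
open Cfsg Cfsg.Spor Subgroup CL.Even CL.Grp CL.Spor.Leech CL.Spor.Mon CL.Mj Module MulAction

variable {G : Type*} [Group G] {F V V' : Type*} [Field F] [AddCommGroup V] [Module F V] [AddCommGroup V']
  [Module F V']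

namespace Su
variable [Finite G] (S : Su G) {a c g r x y y' : G} {l l' : G → F}

/-- the span of the images of `γ` under `C` -/
def GB (ρ : G → End F V) (γ : V) : Submodule F V := Submodule.span F {u | ∃ c ∈ S.C, ρ c γ = u}
/-- the weight spaces of the octad vectors -/
noncomputable def VX (ρ : G → End F V) : Submodule F V := ⨆ y ∈ S.XY, S.W ρ y

theorem Cl.symm (h : S.Cl y y') : S.Cl y' y := by
  have e : S.z * S.s * (S.z * S.s) = 1 := by rw [mul_assoc, ← mul_assoc S.s, S.sz, mul_assoc, S.ss, mul_one, S.zz]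
  rcases h with rfl | rfl | rfl | rfl
  · exact Or.inl rfl
  · exact Or.inr (Or.inl (by rw [← mul_assoc, S.zz, one_mul]))
  · exact Or.inr (Or.inr (Or.inl (by rw [← mul_assoc, S.ss, one_mul])))
  · exact Or.inr (Or.inr (Or.inr (by rw [← mul_assoc, e, one_mul])))
theorem Cl.conj (h : S.Cl y y') (hc : c ∈ S.C) : S.Cl (c * y * c⁻¹) (c * y' * c⁻¹) := by
  have h1 : c * S.z * c⁻¹ = S.z := by rw [(S.mem_C.1 hc).1, mul_inv_cancel_right]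
  have h2 : c * S.s * c⁻¹ = S.s := by rw [(S.mem_C.1 hc).2, mul_inv_cancel_right]
  rcases h with rfl | rfl | rfl | rfl
  · exact Or.inl rfl
  · exact Or.inr (Or.inl (by rw [← conj_mul, h1]))
  · exact Or.inr (Or.inr (Or.inl (by rw [← conj_mul, h2])))
  · exact Or.inr (Or.inr (Or.inr (by rw [← conj_mul, ← conj_mul, h1, h2])))
theorem sg_t_R1 (y : G) : Set.EqOn (sg F (S.t * y)) (sg F y) S.R1 := fun _ hx => sg_mul_of_comm (S.mem_R1.1 hx).2 y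
theorem sg_t_q (hy : y ∈ S.Q) : sg F (S.t * y) S.q = -sg F y S.q := by
  rw [sg_mul S.xe S.tQ hy S.qQ, sg_neg S.qt_ne, neg_one_mul]
/-- two faithful characters of `Y` differ by an element of `Q1` -/
theorem exists_Q1 (h2 : (2 : F) ≠ 0) (hl : Ch S.Y l) (hl' : Ch S.Y l') (hz : l S.z = l' S.z) (hs : l S.s = l' S.s) :
    ∃ x ∈ S.Q1, Set.EqOn l' (fun y => l y * sg F x y) S.Y := by
  obtain ⟨x, hx, e⟩ := exists_sg S.xe h2 S.Y_le_Q S.zY (hl.prod hl') ((hl.eq_iff S.zY).2 hz)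
  refine ⟨x, S.mem_Q1.2 ⟨hx, ((sg_eq_one h2).1 ((e S.sY).symm.trans ((hl.eq_iff S.sY).2 hs))).symm⟩, fun y hy => ?_⟩
  show l' y = l y * sg F x y
  rw [← e hy, ← mul_assoc, hl.sq hy, one_mul]

variable {S} {ρ : G → End F V} {u v : V}

theorem wtA_map (h : Rp S.K ρ) (hl : Ch S.Y l) (hz : l S.z = -1) (hx : x ∈ S.Q1) (hv : v ∈ Wt ρ S.Y l) :
    ρ x v ∈ Wt ρ S.Y fun y => l y * sg F x y :=
  h.wt_map (S.Q1_le_K hx) S.Y_le_K (fun y hy => ⟨S.conj_Y_Q hx.1 hy, by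
    by_cases e : y * x = x * y
    · rw [sg_pos e, mul_one, mul_assoc, e, inv_mul_cancel_left]
    · have := conj_eq_of_ne S.xe (inv_mem hx.1) hy.1 fun e' => e (by
        rw [inv_mul_eq_iff_eq_mul, ← mul_assoc, eq_mul_inv_iff_mul_eq] at e'; exact e')
      rw [inv_inv] at this
      rw [this, hl.mul _ S.zY _ hy, hz, sg_neg e, mul_comm]⟩) hv
/-- the weight of a nonzero vector at `s` -/
theorem wt_s (hs : ρ S.s = 1) {X : Subgroup G} (hX : S.s ∈ X) (hv : v ∈ Wt ρ X l) (h0 : v ≠ 0) : l S.s = 1 := by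
  have := hv _ hX
  rw [hs] at this
  exact smul_left_injective F h0 (this.symm.trans (one_smul F v).symm)
/-- an invariant subspace on which `z` is `-1` has vectors of every faithful weight -/
theorem exists_wtA (h : Rp S.K ρ) (hs : ρ S.s = 1) {T : Submodule F V} (hT : Inv ρ S.Q1 T) (hz : T ≤ Ev ρ S.z (-1))
    (h0 : T ≠ ⊥) (hl : Ch S.Y l) (h1 : l S.z = -1) (h2 : l S.s = 1) : ∃ v ∈ T, v ≠ 0 ∧ v ∈ Wt ρ S.Y l := by
  obtain ⟨m, hm, v, hv, hv0, hw⟩ := h.exists_wt S.Y_le_K (hT.mono S.Y_le_Q1)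
    (fun y hy v _ => h.sq (S.Y_le_K hy) (S.Y_sq hy) v)
    (fun _ hx _ hy v _ => h.comm (S.Y_le_K hx) (S.Y_le_K hy) (S.Y_comm hx hy) v) h0
  have hmz : m S.z = -1 := smul_left_injective F hv0 ((hw _ S.zY).symm.trans (hz hv))
  obtain ⟨x, hx, e⟩ := S.exists_Q1 h.two hm hl (hmz.trans h1.symm) ((wt_s hs S.sY hw hv0).trans h2.symm)
  exact ⟨_, hT x hx v hv, h.ne_zero (S.Q1_le_K hx) hv0, (Wt_congr e).ge (wtA_map h hm hmz hx hw)⟩
theorem σ_zt (h : Rp S.K ρ) {e : F} (hv : v ∈ Ev ρ S.z e) : ρ S.σ v ∈ Ev ρ S.t e := S.σz ▸ h.ev_map' S.σK S.zK hv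
theorem σ_tz (h : Rp S.K ρ) {e : F} (hv : v ∈ Ev ρ S.t e) : ρ S.σ v ∈ Ev ρ S.z e := S.σt ▸ h.ev_map' S.σK S.tK hv
/-- `q` multiplies the eigenvalue of `t` by that of `z` -/
theorem q_t (h : Rp S.K ρ) {e e' : F} (hz : v ∈ Ev ρ S.z e) (ht : v ∈ Ev ρ S.t e') : ρ S.q v ∈ Ev ρ S.t (e * e') :=
  h.ev_map S.qK S.tK (by rw [S.qt', mem_Ev, h.app S.zK S.tK, ht, map_smul, hz, smul_smul, mul_comm])
theorem q_t' (h : Rp S.K ρ) {e e' : F} (hz : v ∈ Ev ρ S.z e) (ht : v ∈ Ev ρ S.t e') :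
    ρ S.q⁻¹ v ∈ Ev ρ S.t (e * e') := h.ev_map (inv_mem S.qK) S.tK (by
  rw [inv_inv, S.qt, mem_Ev, h.app S.zK S.tK, ht, map_smul, hz, smul_smul, mul_comm])
theorem σ_R1 (h : Rp S.K ρ) (hv : v ∈ Wt ρ S.R1 (sg F y)) : ρ S.σ v ∈ Wt ρ S.R2 (sg F (S.σ * y * S.σ⁻¹)) :=
  h.wt_sg S.σK S.R2_le_K (fun _ hx => S.mem_R2.1 hx) hv
theorem σ_R1_one (h : Rp S.K ρ) (hv : v ∈ Wt ρ S.R1 fun _ => 1) : ρ S.σ v ∈ Wt ρ S.R2 fun _ => 1 :=
  h.wt_map S.σK S.R2_le_K (fun _ hx => ⟨S.mem_R2.1 hx, rfl⟩) hv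
theorem inv_R2_one (h : Rp S.K ρ) : Inv ρ S.P0 (Wt ρ S.R2 fun _ => 1) := fun _ hc _ hv =>
  h.wt_map (S.P0_le_K hc) S.R2_le_K (fun _ hx => ⟨(S.conj_R2 hc).2 hx, rfl⟩) hv
/-- `σ` preserves the invariance under `P0` -/
theorem inv_map_σ (h : Rp S.K ρ) {T : Submodule F V} (hT : Inv ρ S.P0 T) : Inv ρ S.P0 (T.map (ρ S.σ)) := by
  rintro c hc _ ⟨v, hv, rfl⟩
  exact ⟨_, hT _ (S.σP0.2 hc) v hv, (h.conj S.σK (S.P0_le_K hc) v).symm⟩
theorem inv_GB (h : Rp S.K ρ) (γ : V) : Inv ρ S.C (S.GB ρ γ) := fun c hc => maps_span (by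
  rintro _ ⟨a, ha, rfl⟩
  exact Submodule.subset_span ⟨_, mul_mem hc ha, h.app (S.C_le_K hc) (S.C_le_K ha) γ⟩)
/-- a vector of `D` in the sum of the weight spaces of `R2` belonging to `TY` -/
theorem mem_DD (h : Rp S.K ρ) {I : Set G} (hI : ∀ y ∈ I, y ∈ S.Y) (hv : v ∈ S.D ρ)
    (hv' : v ∈ ⨆ y ∈ I, Wt ρ S.R2 (sg F y)) : v ∈ ⨆ y ∈ I, S.D ρ ⊓ Wt ρ S.R2 (sg F y) :=
  (split (w := fun y => sg F y) h.two S.p2R2 (fun _ hy => S.ch_R2 (hI _ hy)) (fun _ _ => le_rfl)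
    ((inv_D h).mono S.R2_le_C)).trans (iSup₂_mono fun _ _ => inf_le_inf_left _
      (iSup₂_le fun _ hj => (Wt_congr hj.2).le)) ⟨hv, hv'⟩

namespace Gd
variable (h : S.Gd ρ)
include h

theorem σ_R2_one (hv : v ∈ Wt ρ S.R2 fun _ => 1) : ρ S.σ v ∈ S.D ρ :=
  h.wt_R1 (h.rp.wt_map S.σK S.R1_le_K (fun _ hx => ⟨S.σR1.2 hx, rfl⟩) hv)

variable (hy : y ∈ S.TY) (hr : r ∈ S.R2) (e : r * y * r⁻¹ = S.t * y) (hv : v ∈ S.W ρ y)
include hy hr e hv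

theorem r_mem : ρ r v ∈ S.W ρ (S.t * y) := e ▸ W_map h.rp (S.R2_le_C hr) hv
theorem plus_R1 : v + ρ r v ∈ Wt ρ S.R1 (sg F y) :=
  add_mem (Wt_mono S.R1_le_Q1 hv) (Wt_congr (ρ := ρ) (S.sg_t_R1 y) ▸ Wt_mono S.R1_le_Q1 (h.r_mem hy hr e hv))
theorem plus_q : ρ S.q (v + ρ r v) = sg F y S.q • (v - ρ r v) := by
  rw [map_add, hv _ S.qQ1, h.r_mem hy hr e hv _ S.qQ1, S.sg_t_q hy.1.1, smul_sub, neg_smul, sub_eq_add_neg]
theorem plus_ne (h0 : v ≠ 0) : v + ρ r v ≠ 0 := fun e0 => by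
  have h1 := h.plus_q hy hr e hv
  rw [e0, map_zero, eq_comm, smul_eq_zero, sub_eq_zero] at h1
  refine h1.elim ((S.ch_Q1 hy.1.1).ne_zero S.qQ1) fun h2 => h0 (eq_zero_of_eq_neg h.rp.two ?_)
  rw [← h2] at e0
  exact eq_neg_of_add_eq_zero_left e0
theorem plus_R2 : v + ρ r v ∈ Wt ρ S.R2 fun _ => 1 := mem_Wt_one.2 fun a ha => by
  have hat : a * S.t * a⁻¹ = S.t := by rw [(S.mem_P0.1 (S.R2_le_P0 ha)).2, mul_inv_cancel_right]
  have k : ∀ b ∈ S.R2, b * y * b⁻¹ = y → ρ b v = v := fun b hb e' =>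
    h.fix y hy.1 b (S.R2_le_C hb) (mul_inv_eq_iff_eq_mul.1 e') v hv
  rw [map_add]
  rcases S.R2_cases ha hy.2 with e' | e'
  · rw [k a ha e', h.fix _ (S.TY_t hy).1 a (S.R2_le_C ha) (mul_inv_eq_iff_eq_mul.1 (by rw [← conj_mul, hat, e'])) _
      (h.r_mem hy hr e hv)]
  · have h1 := k (r⁻¹ * a) (mul_mem (inv_mem hr) ha) (by
      rw [show r⁻¹ * a * y * (r⁻¹ * a)⁻¹ = r⁻¹ * (a * y * a⁻¹) * r by group, e', ← e]; group)
    have h2 := k (a * r) (mul_mem ha hr) (by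
      rw [show a * r * y * (a * r)⁻¹ = a * (r * y * r⁻¹) * a⁻¹ by group, e, ← conj_mul, hat, e', ← mul_assoc, S.tt,
        one_mul])
    rw [h.rp.app (S.R2_le_K ha) (S.R2_le_K hr)] at h2
    rw [h.rp.app (inv_mem (S.R2_le_K hr)) (S.R2_le_K ha)] at h1
    rw [h2, add_comm, ← h.rp.app_inv (S.R2_le_K hr) (ρ a v), h1]
/-- the vector of `D` made from a vector of `W y` -/
theorem plus_D : ρ S.σ (v + ρ r v) ∈ S.D ρ ⊓ Wt ρ S.R2 (sg F (S.σ * y * S.σ⁻¹)) :=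
  ⟨h.σ_R2_one (h.plus_R2 hy hr e hv), σ_R1 h.rp (h.plus_R1 hy hr e hv)⟩

end Gd

end Su

end CL.RB
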