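/-
The 4371-dimensional representation of the Baby Monster, part 2: sign changes and monomial elements fixing `U`.
-/
import Cfsg.Agent.Spor.Rb1

set_option autoImplicit false
set_option linter.unusedSectionVars false

namespace CL.RB
open Cfsg Cfsg.Spor Subgroup CL.Even CL.Grp CL.Spor.Leech CL.Spor.Mon CL.Mj Module MulAction

variable {F V : Type*} [Field F] [AddCommGroup V] [Module F V] {τ : Co0 → End F V} {c k : Co0} {i i' : GolayPt} {v : V}

theorem EE_le_N2 : EE ≤ N2 := inf_le_inf_right _ Eps_le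
theorem N2_le : N2 ≤ stabilizer Co0 leechU := inf_le_right
theorem EE_le : EE ≤ stabilizer Co0 leechU := inf_le_right
theorem EE_sq (hc : c ∈ EE) : c * c = 1 := by obtain ⟨⟨d, hd, rfl⟩, -⟩ := hc; exact eps_mul_self d hd
theorem EE_comm (hc : c ∈ EE) (hk : k ∈ EE) : c * k = k * c := by
  obtain ⟨⟨d, hd, rfl⟩, -⟩ := hc
  obtain ⟨⟨e, he, rfl⟩, -⟩ := hk
  exact eps_comm d e hd he
theorem p2EE : IsPGroup 2 EE := fun c => ⟨1, Subtype.ext ((pow_two _).trans (EE_sq c.2))⟩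
theorem conj_EE (hk : k ∈ N2) (hc : c ∈ EE) : k⁻¹ * c * k ∈ EE :=
  ⟨by simpa using conj_mem_Eps (inv_mem hk.1) hc.1, 
    (stabilizer Co0 leechU).mul_mem (mul_mem (inv_mem (N2_le hk)) (EE_le hc)) (N2_le hk)⟩
theorem eps_e8 (d : Finset GolayPt) (hd : d ∈ Cset) (i : GolayPt) :
    eps d hd • e8 i = if i ∈ d then -e8 i else e8 i := Subtype.ext (funext fun j => by
  rw [eps_apply]
  by_cases e : j = i
  · subst e; split_ifs <;> rfl
  · split_ifs <;> simp [coe_e8, e])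
theorem e8_ne_neg (i : GolayPt) : e8 i ≠ -e8 i := fun e => by
  have := congrArg (fun u : leechLattice => (u : GolayPt → ℤ) i) e
  simp [coe_e8] at this
theorem eps_e8_iff {d : Finset GolayPt} {hd : d ∈ Cset} : eps d hd • e8 i = e8 i ↔ i ∉ d := by
  rw [eps_e8]
  split_ifs with e
  · exact iff_of_false (e8_ne_neg i).symm (not_not.2 e)
  · exact iff_of_true rfl e
theorem EE_e8 (hc : c ∈ EE) (i : GolayPt) : c • e8 i = e8 i ∨ c • e8 i = -e8 i := by
  obtain ⟨⟨d, hd, rfl⟩, -⟩ := hc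
  rw [eps_e8]
  split_ifs
  exacts [Or.inr rfl, Or.inl rfl]
theorem eps_mem_EE {d : Finset GolayPt} {hd : d ∈ Cset} : eps d hd ∈ EE ↔ none ∉ d ∧ p0 ∉ d := by
  refine ⟨fun h => ?_, fun h => ⟨eps_mem_Eps d hd, (eps_fix hd h.1 h.2).1⟩⟩
  have k := fun i => (eps_apply d hd leechU i).symm.trans (congrFun (congrArg Subtype.val h.2) i)
  exact ⟨fun e => absurd (k none) (by rw [if_pos e]; decide), fun e => absurd (k p0) (by rw [if_pos e]; decide)⟩
theorem kap_pos (h : k • e8 i = e8 i) : kap F i k = 1 := if_pos h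
theorem kap_neg (h : k • e8 i ≠ e8 i) : kap F i k = -1 := if_neg h
theorem kap_eq_one (h2 : (2 : F) ≠ 0) : kap F i k = 1 ↔ k • e8 i = e8 i :=
  ⟨fun e => by_contra fun h => one_ne_neg h2 (e.symm.trans (kap_neg h)), kap_pos⟩
theorem eN_pos (h : k • leechU' = leechU') : eN F k = 1 := if_pos h
theorem eN_neg (h : k • leechU' ≠ leechU') : eN F k = -1 := if_neg h
theorem ch_kap (i : GolayPt) : Ch EE (kap F i) := by
  refine ⟨fun a ha b hb => ?_, fun a _ => (em _).imp kap_pos kap_neg⟩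
  have n : ∀ {k : Co0}, k • e8 i = -e8 i → kap F i k = -1 := fun h => kap_neg fun e => e8_ne_neg i (e.symm.trans h)
  rcases EE_e8 ha i with h1 | h1 <;> rcases EE_e8 hb i with h2 | h2
  · rw [kap_pos h1, kap_pos h2, kap_pos (by rw [mul_smul, h2, h1]), one_mul]
  · rw [kap_pos h1, n h2, n (by rw [mul_smul, h2, smul_neg, h1]), one_mul]
  · rw [n h1, kap_pos h2, n (by rw [mul_smul, h2, h1]), mul_one]
  · rw [n h1, n h2, kap_pos (by rw [mul_smul, h2, smul_neg, h1, neg_neg])]; ring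
theorem N_e8 (hk : k ∈ Nsub) (i : GolayPt) : ∃ i', k • e8 i = e8 i' ∨ k • e8 i = -e8 i' := by
  obtain ⟨j, h⟩ := mem_stdCross_iff.1 (mem_Nsub_iff_cross.1 hk (e8 i) (mem_stdCross_iff.2 ⟨i, Or.inl rfl⟩))
  exact ⟨j, h.imp Subtype.ext fun e => Subtype.ext (e.trans (Pi.single_neg j 8))⟩
theorem dot_e8_U (i : GolayPt) : dotInt (e8 i : GolayPt → ℤ) leechU = if i ∈ rest then 0 else 32 := by
  revert i; decide +kernel
/-- `N2` permutes the 22 coordinate axes -/
theorem N2_e8 (hk : k ∈ N2) (hi : i ∈ rest) : ∃ i' ∈ rest, k • e8 i = e8 i' ∨ k • e8 i = -e8 i' := by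
  obtain ⟨j, h⟩ := N_e8 hk.1 i
  refine ⟨j, by_contra fun hj => ?_, h⟩
  have h1 := dot_smul k (e8 i) leechU
  have h2 := dot_e8_U j
  rw [show k • leechU = leechU from hk.2, dot_e8_U, if_pos hi] at h1
  rw [if_neg hj] at h2
  rcases h with h | h <;> rw [h] at h1
  · omega
  · rw [AddSubgroup.coe_neg, dot_neg_left] at h1; omega
theorem N2_trans (hi : i ∈ rest) (hi' : i' ∈ rest) : ∃ k ∈ N2, k • e8 i = e8 i' := by
  obtain ⟨g, hg, e⟩ := CL.Spor.M24_exists_fix_smul (F := {none, p0}) (Finset.card_le_two.trans (by norm_num)) (a := i) (b := i')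
    (by simpa using mem_rest.1 hi) (by simpa using mem_rest.1 hi')
  exact ⟨pm g, ⟨pm_mem g, (pm_fix (CL.Spor.mem_fixS.1 hg _ (by simp)) (CL.Spor.mem_fixS.1 hg _ (by simp))).1⟩, by rw [pm_e8, e]⟩
theorem N2_U' (hk : k ∈ N2) : k • leechU' = leechU' ∨ k • leechU' = -leechU' := by
  have h : Dbl (k • e8 none - e8 none) := (clsStab_e8 none).ge hk.1
  rw [← U_add_U', smul_add, show k • leechU = leechU from hk.2, add_sub_add_left_eq_sub] at h
  exact h.pm_of_lt (by rw [sqNorm_smul, sqNorm_U']; norm_num) (by rw [sqNorm_U']; norm_num)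
theorem U'_ne_neg : -leechU' ≠ leechU' := fun e => absurd (congrArg Subtype.val e) (by decide +kernel)
/-- distinct coordinates have distinct nontrivial signs -/
theorem EE_sep (hi : i ∈ rest) (h : i ≠ i') : ∃ c ∈ EE, c • e8 i ≠ e8 i ∧ c • e8 i' = e8 i' := by
  obtain ⟨d, hd, e⟩ := exists_Cset_inter_of_card_le (S := {i, i', none, p0}) (A := {i}) (by simp)
    (Finset.card_le_four.trans (by norm_num))
  have k : ∀ j ∈ ({i, i', none, p0} : Finset GolayPt), j ≠ i → j ∉ d := fun j h1 h2 h3 =>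
    h2 (Finset.mem_singleton.1 (e ▸ Finset.mem_inter.2 ⟨h3, h1⟩))
  exact ⟨eps d hd, eps_mem_EE.2 ⟨k _ (by simp) (mem_rest.1 hi).1.symm, k _ (by simp) (mem_rest.1 hi).2.symm⟩,
    fun e' => eps_e8_iff.1 e' (Finset.mem_inter.1 (e.ge (Finset.mem_singleton_self i))).1,
    eps_e8_iff.2 (k _ (by simp) h.symm)⟩
theorem kap_inj (h2 : (2 : F) ≠ 0) (hi : i ∈ rest) (h : Set.EqOn (kap F i) (kap F i') EE) : i = i' := by
  by_contra e
  obtain ⟨c, hc, h1, h3⟩ := EE_sep hi e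
  exact h1 ((kap_eq_one h2).1 ((h hc).trans (kap_pos h3)))
theorem kap_ne_one (h2 : (2 : F) ≠ 0) (hi : i ∈ rest) : ¬ Set.EqOn (kap F i) (fun _ => 1) EE := fun h =>
  let ⟨_, hc, h1, _⟩ := EE_sep hi (mem_rest.1 hi).1; h1 ((kap_eq_one h2).1 (h hc))

/-- the fixed space of the sign changes -/
noncomputable def V0 (τ : Co0 → End F V) : Submodule F V := Wt τ EE fun _ => 1
/-- the weight space of the coordinate `i` -/
noncomputable def Vi (τ : Co0 → End F V) (i : GolayPt) : Submodule F V := Wt τ EE (kap F i)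

theorem Vi_pos (hc : c ∈ EE) (h : c • e8 i = e8 i) : Vi τ i ≤ Ev τ c 1 := kap_pos (F := F) h ▸ Wt_le_Ev hc
theorem Vi_neg (hc : c ∈ EE) (h : c • e8 i ≠ e8 i) : Vi τ i ≤ Ev τ c (-1) := kap_neg (F := F) h ▸ Wt_le_Ev hc
theorem V0_le (hc : c ∈ EE) : V0 τ ≤ Ev τ c 1 := Wt_le_Ev hc

variable (h : Rp (stabilizer Co0 leechU) τ)
include h

theorem Vi_map (hk : k ∈ N2) (e : k • e8 i = e8 i' ∨ k • e8 i = -e8 i') (hv : v ∈ Vi τ i) : τ k v ∈ Vi τ i' :=
  h.wt_map hk.2 EE_le (fun c hc => ⟨conj_EE hk hc, by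
    refine if_congr ?_ rfl rfl
    rw [mul_smul, mul_smul, inv_smul_eq_iff]
    rcases e with e | e <;> rw [e]
    rw [smul_neg, neg_inj]⟩) hv
theorem inv_V0 : Inv τ N2 (V0 τ) := fun _ hk _ hv => h.wt_map hk.2 EE_le (fun _ hc => ⟨conj_EE hk hc, rfl⟩) hv
/-- an `EE`-invariant subspace of a sum of coordinate weight spaces splits -/
theorem split_Vi {I : Set GolayPt} {M : Submodule F V} (hM : Inv τ EE M) :
    M ⊓ ⨆ i ∈ I, Vi τ i ≤ ⨆ i ∈ I, M ⊓ Vi τ i :=
  (split (w := fun i => kap F i) h.two p2EE (fun i _ => ch_kap i) (fun _ _ => le_rfl) hM).trans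
    (iSup₂_mono fun _ _ => inf_le_inf_left _ (iSup₂_le fun _ hj => (Wt_congr hj.2).le))

end CL.RB
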