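/-
The 4371-dimensional representation of the Baby Monster: explicit elements of the stabiliser of `U`.
-/
import Cfsg.Agent.Spor.Rb2
import Cfsg.Agent.Spor.BkGen
import Cfsg.Agent.Inv.Small1

set_option autoImplicit false

namespace CL.RB
open Cfsg Cfsg.Spor Subgroup CL.Spor CL.Spor.Leech CL.Mj MulAction
open scoped commutatorElement

/-- a sign change given by a mask -/
noncomputable def cfE (c : ℕ) (h : isCode c = true) : Co0 := eps (ofMask c) (ofMask_mem_GC_of_isCode h)
def cfS (c : ℕ) (x : ℕ → ℤ) (i : ℕ) : ℤ := cond (c.testBit i) (-x i) (x i)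
/-- a vector supported on the tetrad `{∞, 0, 1, 2}` -/
def w4 (a b c d : ℤ) (i : ℕ) : ℤ :=
  cond (Nat.beq i 23) a (cond (Nat.beq i 0) b (cond (Nat.beq i 1) c (cond (Nat.beq i 2) d 0)))
noncomputable def cfX : Co0 := negOne * cfE 8414120 (by decide) * xi * cfE 8414120 (by decide)
noncomputable def cfe : Co0 := cfE 10558 (by decide)
noncomputable def cfq : Co0 := cfE 31554 (by decide)
def cfM (k : Fin 4) : ℕ := [4415544, 6889680, 5350928, 4536592].getD k 0
theorem cfM_code (k : Fin 4) : isCode (cfM k) = true := by revert k; decide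
noncomputable def cfJ (k : Fin 4) : Co0 := cfE (cfM k) (cfM_code k)

variable {v : leechLattice} {x y : ℕ → ℤ}

theorem cfE_smul {c : ℕ} {h : isCode c = true} (hv : (v : GolayPt → ℤ) = vecOf x)
    (hy : allBelow (fun i => decide (cfS c x i = y i)) 24 = true) :
    ((cfE c h • v : leechLattice) : GolayPt → ℤ) = vecOf y := funext fun p => by
  simp only [allBelow_iff, decide_eq_true_eq] at hy
  rw [cfE, eps_apply, hv, vecOf, vecOf, ← hy _ (gIdx_lt p), cfS]
  simp only [mem_ofMask]
  cases c.testBit (gIdx p) <;> rfl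

theorem cfX_smul (hv : (v : GolayPt → ℤ) = vecOf x)
    (hy : allBelow (fun i => decide (mulN xiM (cfS 8414120 x) i = 2 * -cfS 8414120 y i)) 24 = true) :
    ((cfX • v : leechLattice) : GolayPt → ℤ) = vecOf y := by
  have h1 := xi_smul_eq (y := fun i => -cfS 8414120 y i)
    (cfE_smul (c := 8414120) (h := by decide) (y := cfS 8414120 x) hv (by simp [allBelow_iff])) hy
  have h2 := cfE_smul (c := 8414120) (h := by decide) (y := fun i => -y i) h1 (by
    rw [allBelow_iff]
    intro i _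
    rw [decide_eq_true_eq, cfS, cfS]
    cases Nat.testBit 8414120 i <;> simp)
  rw [cfX, mul_smul, mul_smul, mul_smul, negOne_smul, AddSubgroup.coe_neg, h2]
  exact funext fun p => neg_neg _

theorem w_U : (leechU : GolayPt → ℤ) = vecOf (w4 4 4 0 0) := by decide +kernel
theorem w_U' : (leechU' : GolayPt → ℤ) = vecOf (w4 4 (-4) 0 0) := by decide +kernel
theorem w_n : (e8 none : GolayPt → ℤ) = vecOf (w4 8 0 0 0) := by rw [coe_e8]; decide +kernel
theorem w_a : (e8 (some 1) : GolayPt → ℤ) = vecOf (w4 0 0 8 0) := by rw [coe_e8]; decide +kernel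
theorem w_b : (e8 (some 2) : GolayPt → ℤ) = vecOf (w4 0 0 0 8) := by rw [coe_e8]; decide +kernel

theorem cfX_U : cfX • leechU = leechU := Subtype.ext ((cfX_smul w_U (by decide +kernel)).trans w_U.symm)
theorem cfX_n : ((cfX • e8 none : leechLattice) : GolayPt → ℤ) = vecOf (w4 4 4 4 4) := cfX_smul w_n (by decide +kernel)
theorem cfX_sq : cfX * cfX = 1 := by
  have c : ∀ g, negOne * g = g * negOne := fun g => (Subgroup.mem_center_iff.1 negOne_mem_center g).symm
  have h2 : cfE 8414120 (by decide) * cfE 8414120 (by decide) = 1 := eps_mul_self _ _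
  unfold cfX
  generalize cfE 8414120 _ = a at h2
  calc _ = negOne * a * xi * (a * negOne * a) * xi * a := by group
    _ = negOne * a * (xi * negOne * xi) * a := by rw [← c a, mul_assoc negOne a a, h2]; group
    _ = negOne * (a * negOne * a) := by rw [← c xi, mul_assoc negOne xi xi, xi_mul_self]; group
    _ = 1 := by rw [← c a, mul_assoc negOne a a, h2, mul_one, negOne_mul_self]
theorem cfX_J (k : Fin 4) : cfX * cfJ k = cfJ k * cfX := by
  have h3 : Commute xi (cfJ k) :=
    mul_inv_eq_iff_eq_mul.1 (p2_xi_eps (ofMask_mem_GC_of_isCode (cfM_code k)) (by revert k; decide +kernel))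
  have h1 : Commute negOne (cfJ k) := (Subgroup.mem_center_iff.1 negOne_mem_center _).symm
  have h2 : Commute (cfE 8414120 (by decide)) (cfJ k) := eps_comm _ _ _ (ofMask_mem_GC_of_isCode (cfM_code k))
  exact ((h1.mul_left h2).mul_left h3).mul_left h2
theorem mem_N_of {g : Co0} {i j : GolayPt} (h : g • e8 i = e8 j) : g ∈ Nsub :=
  mem_Nsub_of_one (i := i) (mem_stdCross_iff.2 ⟨j, Or.inl (congrArg Subtype.val h)⟩)
theorem cfE_EE {c : ℕ} {h : isCode c = true} (h1 : c.testBit 23 = false) (h2 : c.testBit 0 = false) : cfE c h ∈ EE :=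
  eps_mem_EE.2 ⟨by simp [h1], by simpa using h2⟩
theorem cfE_e8 {c : ℕ} {h : isCode c = true} {i : GolayPt} : cfE c h • e8 i = e8 i ↔ i ∉ ofMask c :=
  eps_e8_iff (hd := ofMask_mem_GC_of_isCode h)
theorem cf_ga : (cfX * cfe * cfX) • e8 (some 1) = e8 (some 2) := Subtype.ext (by
  rw [mul_smul, mul_smul, w_b]
  exact cfX_smul (cfE_smul (y := w4 4 (-4) (-4) 4) (cfX_smul (y := w4 4 (-4) 4 (-4)) w_a (by decide +kernel))
    (by decide +kernel)) (by decide +kernel))
theorem cfX_U' : ((cfX • leechU' : leechLattice) : GolayPt → ℤ) = vecOf (w4 0 0 4 4) :=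
  cfX_smul w_U' (by decide +kernel)

theorem cf_perf : N2 ⊓ stabilizer Co0 leechU' ≤ EE ⊔ ⁅N2, N2⁆ := by
  rintro k ⟨⟨hk, h1⟩, h2⟩
  obtain ⟨c, hc, σ, rfl⟩ := mem_Nsub_iff_eps_pm.1 hk
  have k : ∀ i, (eps c hc * pm σ) • e8 i = e8 i → σ • i = i ∧ i ∉ c := fun i e => by
    rw [mul_smul, pm_e8] at e
    have h3 : σ • i = i := by_contra fun n => by
      have := congrFun (congrArg Subtype.val e) i
      rw [eps_apply] at this
      simp [coe_e8, Ne.symm n] at this
    exact ⟨h3, eps_e8_iff.1 (h3 ▸ e)⟩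
  have k1 := k none (by rw [← U_add_U', smul_add, mem_stabilizer_iff.1 h1, mem_stabilizer_iff.1 h2])
  have k2 := k p0 (by rw [← U_sub_U', smul_sub, mem_stabilizer_iff.1 h1, mem_stabilizer_iff.1 h2])
  have hM : pmFix {none, p0} ≤ N2 := by
    rintro _ ⟨τ, hτ, rfl⟩
    exact ⟨pm_mem τ, (pm_fix (mem_fixS.1 hτ _ (by simp)) (mem_fixS.1 hτ _ (by simp))).1⟩
  have := M22_simple'
  have h4 := CL.Inv.commutator_eq_top_of_simple (G := pmFix {none, p0}) fun h =>
    absurd (@IsSimpleGroup.prime_card (pmFix {none, p0}) ⟨h.1.1⟩ this) (by rw [Leech.card_M22']; norm_num)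
  refine mul_mem (mem_sup_left (eps_mem_EE.2 ⟨k1.2, k2.2⟩)) (mem_sup_right (commutator_mono hM hM ?_))
  have h5 := congrArg (map (pmFix {none, p0}).subtype) h4
  rw [_root_.commutator_def, map_commutator, ← MonoidHom.range_eq_map, range_subtype] at h5
  exact h5.ge ⟨σ, mem_fixS.2 (by simpa using ⟨k1.1, k2.1⟩), rfl⟩

theorem cf_gen (L : Subgroup Co0) (h1 : N2 ≤ L) (h2 : cfX ∈ L) : stabilizer Co0 leechU ≤ L := by
  let K := L ⊓ stabilizer Co0 leechU ⊔ center Co0
  have hK : K ≤ clsStab leechU := sup_le (inf_le_right.trans (stabilizer_le_clsStab _)) (center_le_clsStab _)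
  have h3 : N2 ≤ K := (le_inf h1 N2_le).trans le_sup_left
  have hN : Nsub ⊓ clsStab leechU ≤ K := fun g hg => (CL.BM.Gn.mem_SU.1 hg.2).elim (fun e => h3 ⟨hg.1, e⟩) fun e => by
    have := mul_mem (mem_sup_right negOne_mem_center : negOne ∈ K) (h3 (x := negOne * g) ⟨mul_mem negOne_mem hg.1,
      mem_stabilizer_iff.2 (by rw [mul_smul, e, negOne_smul, neg_neg])⟩)
    rwa [← mul_assoc, negOne_mul_self, one_mul] at this
  have hx : cfX ∈ K := mem_sup_left ⟨h2, cfX_U⟩
  obtain ⟨σ, s1, s2⟩ := M24_exists_fix_smul (F := {none, p0, some 2}) (Finset.card_le_three.trans (by norm_num))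
    (a := some 14) (b := some 1) (by decide) (by decide)
  have s3 := mem_fixS.1 s1 none (by simp)
  have s4 := mem_fixS.1 s1 p0 (by simp)
  have hσ : pm σ ∈ K := h3 ⟨pm_mem σ, (pm_fix s3 s4).1⟩
  have e1 := CL.BM.Gn.X_smul (c := 2605066)
    (y := 0x800680008000800080008000800280008000800280008000800080008000800080008000800280007ffe800280028002)
    (z := 0x800480008000800080008000800080008000800480008000800080008000800080008000800080008000800480008004)
    CL.BM.Gn.e_eq (by decide +kernel)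
  have hS : CL.BM.Gn.X 2605066 ∈ clsStab leechU := CL.BM.Gn.X_SU (by decide +kernel)
  have e2 : CL.BM.Gn.X 2605066 • e8 none + CL.BM.Gn.X 2605066 • e8 none =
      e8 none + e8 p0 + e8 (some 2) + e8 (some 14) :=
    Subtype.ext (by simp only [AddSubgroup.coe_add, e1, coe_e8]; decide +kernel)
  have e3 : cfX • e8 none + cfX • e8 none = e8 none + e8 p0 + e8 (some 2) + e8 (some 1) :=
    Subtype.ext (by simp only [AddSubgroup.coe_add, cfX_n, coe_e8]; decide +kernel)
  have e4 := congrArg (pm σ • ·) e2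
  simp only [smul_add, pm_e8, s2, s3, s4, mem_fixS.1 s1 (some 2) (by simp), ← e3] at e4
  have e5 : pm σ • CL.BM.Gn.X 2605066 • e8 none = cfX • e8 none := Subtype.ext (funext fun p => by
    have := congrFun (congrArg Subtype.val e4) p
    simp only [AddSubgroup.coe_add, Pi.add_apply] at this
    omega)
  have e6 : cfX * pm σ * CL.BM.Gn.X 2605066 ∈ K := hN ⟨mem_N_of (i := none) (j := none) (by
    rw [mul_smul, mul_smul, e5, ← mul_smul, cfX_sq, one_smul]), mul_mem (hK (mul_mem hx hσ)) hS⟩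
  intro g hg
  obtain ⟨a, ha, b, hb, rfl⟩ := mem_sup_of_normal_right.1
    (CL.BM.Gn.top2 hK hN ((mul_mem_cancel_left (mul_mem hx hσ)).1 e6) (stabilizer_le_clsStab _ hg))
  rcases Leech.mem_center_iff.1 hb with rfl | rfl
  · exact (mul_one a).symm ▸ ha.1
  · exact absurd (((stabilizer Co0 leechU).mul_mem_cancel_left ha.2).1 hg) (negOne_not_mem_stabilizer (by rw [sqNorm_U]; norm_num))

theorem exists_cf : CF cfX cfe cfq cfJ (some 1) (some 2) where
  xU := cfX_U
  xx := cfX_sq
  eE := cfE_EE (by decide) (by decide)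
  qE := cfE_EE (by decide) (by decide)
  jE k := cfE_EE (by revert k; decide) (by revert k; decide)
  xj := cfX_J
  ha := by decide
  hb := by decide
  ab := by decide
  ja k := cfE_e8.2 (by revert k; decide)
  jb k := cfE_e8.2 (by revert k; decide)
  jo i h1 h2 h3 := by
    have : ∀ i ∈ rest, i ≠ some 1 → i ≠ some 2 → ∃ k, i ∈ ofMask (cfM k) := by decide +kernel
    exact (this i h1 h2 h3).imp fun k h e => cfE_e8.1 e h
  ea e := cfE_e8.1 e (by decide)
  eb e := cfE_e8.1 e (by decide)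
  qa e := cfE_e8.1 e (by decide)
  qb := cfE_e8.2 (by decide)
  gN := mem_N_of cf_ga
  ga := Or.inl cf_ga
  gU := Subtype.ext (by
    rw [mul_smul, mul_smul]
    exact (cfX_smul (y := w4 (-4) 4 0 0) (cfE_smul (y := w4 0 0 (-4) (-4)) cfX_U' (by decide +kernel))
      (by decide +kernel)).trans (by decide +kernel))
  br := by
    have hq : cfq ∈ EE := cfE_EE (by decide) (by decide)
    have hx : cfX ∈ stabilizer Co0 leechU := cfX_U
    refine ⟨(cfq * cfX * cfq)⁻¹ * (cfX * cfq * cfX), ⟨mem_N_of (i := none) (j := none) ?_,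
      (stabilizer Co0 leechU).mul_mem (inv_mem (mul_mem (mul_mem (EE_le hq) hx) (EE_le hq))) (mul_mem (mul_mem hx (EE_le hq)) hx)⟩, by group⟩
    rw [mul_smul, inv_smul_eq_iff]
    simp only [mul_smul]
    exact Subtype.ext ((cfX_smul (y := w4 4 4 (-4) 4) (cfE_smul (y := w4 4 4 (-4) 4) cfX_n (by decide +kernel))
      (by decide +kernel)).trans (cfE_smul (cfX_smul (y := w4 4 4 4 4) (cfE_smul (y := w4 8 0 0 0) w_n
        (by decide +kernel)) (by decide +kernel)) (by decide +kernel)).symm)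
  sep i hi i' hi' h1 h2 h3 h4 h5 := by
    obtain ⟨d, hd, e⟩ := exists_Cset_inter_of_card_le (S := {i, i', none, p0, some 1, some 2}) (A := {i}) (by simp)
      (Finset.card_le_six.trans (by norm_num))
    have k : ∀ j ∈ ({i, i', none, p0, some 1, some 2} : Finset GolayPt), j ≠ i → j ∉ d := fun j h1 h2 h3 =>
      h2 (Finset.mem_singleton.1 (e ▸ Finset.mem_inter.2 ⟨h3, h1⟩))
    have k1 := k none (by simp) (mem_rest.1 hi).1.symm
    have k2 := k p0 (by simp) (mem_rest.1 hi).2.symm
    refine ⟨eps d hd, eps_mem_EE.2 ⟨k1, k2⟩, mem_N_of (i := none) (j := none) ?_,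
      fun e' => eps_e8_iff.1 e' (Finset.mem_inter.1 (e.ge (Finset.mem_singleton_self i))).1,
      eps_e8_iff.2 (k _ (by simp) h5.symm)⟩
    have : ∀ p : GolayPt, p = none ∨ p = p0 ∨ p = some 1 ∨ p = some 2 ∨ vecOf (w4 4 4 4 4) p = 0 := by decide +kernel
    rw [mul_smul, mul_smul, eps_smul_of_disjoint hd fun p hp => ?_, ← mul_smul, cfX_sq, one_smul]
    rw [cfX_n]
    rcases this p with rfl | rfl | rfl | rfl | h
    exacts [absurd hp k1, absurd hp k2, absurd hp (k _ (by simp) h1.symm), absurd hp (k _ (by simp) h2.symm), h]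
  gen := cf_gen
  perf := cf_perf

end CL.RB
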