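/-
The 4371-dimensional representation of the Baby Monster, part TR: transfer between `D` and modules of `Co₂`.
-/
import Cfsg.Agent.Spor.Rb1

set_option autoImplicit false
set_option linter.unusedSectionVars false

namespace CL.RB
open Cfsg Cfsg.Spor Subgroup CL.Even CL.Grp CL.Spor.Leech CL.Spor.Mon CL.Mj Module MulAction

variable {G : Type*} [Group G] {F V V' : Type*} [Field F] [AddCommGroup V] [Module F V] [AddCommGroup V']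
  [Module F V']

namespace Su
variable [Finite G] {S : Su G} {ρ : G → End F V}

/-- `τ` is the action on `D` induced by `ρ` -/
def TrKey (S : Su G) (ρ : G → End F V) (τ : Co0 → End F (S.D ρ)) : Prop :=
  ∀ c ∈ S.C, ∀ k ∈ stabilizer Co0 leechU, S.Im c k → ∀ v : S.D ρ, (τ k v : V) = ρ c v

theorem tr_two (h : Rp S.K ρ) {a c : G} {k : Co0} (ha : a ∈ S.C) (hc : c ∈ S.C) (e : S.Im a k) (e' : S.Im c k) {v : V}
    (hv : v ∈ S.D ρ) : ρ a v = ρ c v := by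
  have h1 := mem_Wt_one.1 hv _ (show a⁻¹ * c ∈ S.Q1 from ⟨Im.div S e e', (mul_mem (inv_mem ha) hc).2⟩)
  rw [h.app (inv_mem (S.C_le_K ha)) (S.C_le_K hc)] at h1
  rw [← h.app_inv (S.C_le_K ha) (ρ c v), h1]

theorem tr_tau (h : Rp S.K ρ) : ∃ τ : Co0 → End F (S.D ρ), Rp (stabilizer Co0 leechU) τ ∧ S.TrKey ρ τ := by
  classical
  let τ : Co0 → End F (S.D ρ) := fun k => if hk : k ∈ stabilizer Co0 leechU then
    (ρ (S.lift_C hk).choose).restrict (inv_D h _ (S.lift_C hk).choose_spec.1) else 1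
  have key : S.TrKey ρ τ := fun c hc k hk e v => by
    simp only [τ, dif_pos hk, LinearMap.coe_restrict_apply]
    exact tr_two h (S.lift_C hk).choose_spec.1 hc (S.lift_C hk).choose_spec.2 e v.2
  refine ⟨τ, ⟨h.two, ?_, fun a ha b hb => ?_⟩, key⟩
  · ext v
    rw [key 1 (one_mem _) 1 (one_mem _) (S.im_one.2 (one_mem _)), h.one_app]; rfl
  · obtain ⟨c, hc, e⟩ := S.lift_C ha
    obtain ⟨d, hd, e'⟩ := S.lift_C hb
    ext v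
    rw [key _ (mul_mem hc hd) _ (mul_mem ha hb) (Im.mul S e e'), End.mul_apply, key c hc a ha e, key d hd b hb e',
      h.app (S.C_le_K hc) (S.C_le_K hd)]

theorem DD_le_D : S.DD ρ ≤ S.D ρ := iSup₂_le fun _ _ => inf_le_left

theorem Gd.tr_wz (h : S.Gd ρ) : S.D ρ ≤ S.D0 ρ ⊔ S.DD ρ := fun v hv => by
  have hu : ρ S.σ⁻¹ v ∈ Wt ρ S.Y (fun _ => 1) := h.rp.wt_map (inv_mem S.σK) S.Y_le_K
    (fun y hy => ⟨S.Y_le_Q1 (by rw [inv_inv]; exact S.σY'.2 hy), rfl⟩) hv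
  have h2 : ρ S.σ (ρ S.σ⁻¹ v) ∈ ⨆ y ∈ insert 1 S.TY, Wt ρ S.R2 (sg F y) := by
    refine maps_biSup (fun y hy u hu => ?_) _ (h.sel S.Y_le_Q1 S.zY ch_one rfl hu)
    refine le_biSup (fun y => Wt ρ S.R2 (sg F y)) (i := S.σ * y * S.σ⁻¹) ?_ (σ_R1 h.rp (Wt_mono S.R1_le_Q1 hu))
    rcases hy.1 with e | e
    · exact Or.inl (by rw [e, mul_one, mul_inv_cancel])
    · exact Or.inr (S.TY_σ ⟨e, S.cent_Y e.1 fun a ha => (sg_eq_one h.rp.two).1 (hy.2 ha)⟩)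
  rw [h.rp.app_inv S.σK] at h2
  refine (iSup₂_le (a := S.D0 ρ ⊔ S.DD ρ) fun y hy => ?_)
    (mem_DD h.rp (fun y hy => hy.elim (fun e => e ▸ one_mem _) fun e => e.2) hv h2)
  rcases hy with rfl | hy
  · exact le_sup_of_le_left (inf_le_inf_left _ (Wt_congr fun x _ => sg_one x).le)
  · exact le_sup_of_le_right (le_biSup (fun y => S.D ρ ⊓ Wt ρ S.R2 (sg F y)) hy)

namespace TrKey
variable {τ : Co0 → End F (S.D ρ)} (hk : S.TrKey ρ τ) (hG : S.GF)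
include hk hG

theorem wt {l : Co0 → F} {m : G → F} (hl : ∀ r ∈ S.R2, ∀ k ∈ EE, S.Im r k → l k = m r) (v : S.D ρ) :
    v ∈ Wt τ EE l ↔ (v : V) ∈ Wt ρ S.R2 m := by
  refine ⟨fun hv r hr => ?_, fun hv k hE => ?_⟩
  · obtain ⟨k, hE, e⟩ := hG.img2 r hr
    rw [← hk r (S.R2_le_C hr) k hE.2 e, hv k hE, hl r hr k hE e]; rfl
  · obtain ⟨r, hr, e⟩ := hG.lift2 k hE
    exact Subtype.ext (by rw [hk r (S.R2_le_C hr) k hE.2 e, hv r hr, hl r hr k hE e]; rfl)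

theorem wt_one (v : S.D ρ) : v ∈ Wt τ EE (fun _ => 1) ↔ (v : V) ∈ Wt ρ S.R2 fun _ => 1 :=
  hk.wt hG (fun _ _ _ _ _ => rfl) v

theorem wt_kap {i : GolayPt} {y : G} (P : ∀ r ∈ S.R2, ∀ k ∈ EE, S.Im r k → (r * y = y * r ↔ k • e8 i = e8 i))
    (v : S.D ρ) : v ∈ Wt τ EE (kap F i) ↔ (v : V) ∈ Wt ρ S.R2 (sg F y) :=
  hk.wt hG (fun r hr k hE e => by classical unfold kap sg; exact if_congr (P r hr k hE e).symm rfl rfl) v

theorem of_DD {v : S.D ρ} (hv : (v : V) ∈ S.DD ρ) : v ∈ ⨆ i ∈ rest, Wt τ EE (kap F i) := by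
  have h1 : S.DD ρ ≤ (⨆ i ∈ rest, Wt τ EE (kap F i)).map (S.D ρ).subtype := iSup₂_le fun y hy u hu => by
    obtain ⟨i, hi, P⟩ := hG.tyi y hy
    exact ⟨⟨u, hu.1⟩, le_biSup (fun i => Wt τ EE (kap F i)) hi ((hk.wt_kap hG P _).2 hu.2), rfl⟩
  obtain ⟨w, hw, e⟩ := h1 hv
  rwa [← Subtype.ext e]

theorem dm (h : S.Gd ρ) (hτ : Rp (stabilizer Co0 leechU) τ) : Dm τ := ⟨hτ, fun v _ => by
  obtain ⟨a, ha, b, hb, e⟩ := Submodule.mem_sup.1 (h.tr_wz v.2)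
  rw [show v = ⟨a, ha.1⟩ + ⟨b, DD_le_D hb⟩ from Subtype.ext e.symm]
  exact Submodule.add_mem_sup ((hk.wt_one hG _).2 ha.2) (hk.of_DD hG hb)⟩

theorem ce0 : CE0 τ ↔ S.E0 ρ := by
  refine ⟨fun h c hc k hN e v hv => ?_, fun h k hN v hv => ?_⟩
  · rw [← hk c hc.1 k hN.2 e ⟨v, hv.1⟩, h k hN _ ((hk.wt_one hG _).2 hv.2)]; rfl
  · obtain ⟨c, hc, e⟩ := hG.liftP k hN
    exact Subtype.ext (by rw [hk c hc.1 k hN.2 e, h c hc k hN e _ ⟨v.2, (hk.wt_one hG _).1 hv⟩]; rfl)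

end TrKey

theorem tr_gl (hG : S.GF) (h : S.Gd ρ) (hc : CoG F (S.D ρ)) (h0 : S.E0 ρ) : S.DGl ρ := fun Γ hΓ hi => by
  obtain ⟨τ, hτ, hk⟩ := tr_tau h.rp
  obtain ⟨Γ0, h1, h2⟩ := hc τ (hk.dm hG h hτ) ((hk.ce0 hG).2 h0) (Γ.comap (S.D ρ).subtype)
    (fun v hv => hk.of_DD hG (hΓ hv)) fun k hN v hv => by
      obtain ⟨c, hc, e⟩ := hG.liftP k hN
      show (τ k v : V) ∈ Γ
      rw [hk c hc.1 k hN.2 e]
      exact hi c hc v hv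
  refine ⟨Γ0.map (S.D ρ).subtype, ?_, fun c hc v hv => ?_⟩
  · rintro _ ⟨v, hv, rfl⟩
    exact ⟨v.2, (hk.wt_one hG _).1 (h1 hv)⟩
  · have e : Γ ⊔ Γ0.map (S.D ρ).subtype = (Γ.comap (S.D ρ).subtype ⊔ Γ0).map (S.D ρ).subtype := by
      rw [Submodule.map_sup, Submodule.map_comap_subtype, inf_eq_right.2 (hΓ.trans DD_le_D)]
    rw [e] at hv ⊢
    obtain ⟨w, hw, rfl⟩ := hv
    obtain ⟨k, hU, e'⟩ := S.im_C hc
    exact ⟨τ k w, h2 k hU w hw, hk c hc k hU e' w⟩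

theorem tr_sm [Module.Finite F V] (hG : S.GF) (h : S.Gd ρ) (hm : S.Sm ρ) (hc : CoS F (S.D ρ)) :
    S.E0 ρ ∧ S.DFix ρ ∧ S.DIrr ρ := by
  obtain ⟨τ, hτ, hk⟩ := tr_tau h.rp
  have ne : ∀ T : Submodule F V, T ≤ S.D ρ → (∃ y ∈ S.TY, T ⊓ Wt ρ S.R2 (sg F y) ≠ ⊥) →
      ∃ i ∈ rest, T.comap (S.D ρ).subtype ⊓ Wt τ EE (kap F i) ≠ ⊥ := fun T hT ⟨y, hy, e⟩ => by
    obtain ⟨i, hi, P⟩ := hG.tyi y hy
    obtain ⟨v, hv, h0⟩ := Submodule.exists_mem_ne_zero_of_ne_bot e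
    exact ⟨i, hi, (Submodule.ne_bot_iff _).2 ⟨⟨v, hT hv.1⟩, ⟨hv.1, (hk.wt_kap hG P _).2 hv.2⟩,
      fun e => h0 (congrArg Subtype.val e)⟩⟩
  obtain ⟨y, hy, -⟩ := hG.ity (some 1) (mem_rest.2 (by decide))
  obtain ⟨v, hv, hv0⟩ := Submodule.exists_mem_ne_zero_of_ne_bot (hm.neB y hy.1)
  obtain ⟨r, hr, e⟩ := S.TY_mv hy
  obtain ⟨i, hi, h1⟩ := ne _ le_rfl ⟨_, S.TY_σ hy, (Submodule.ne_bot_iff _).2 ⟨_, h.plus_D hy hr e hv,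
    h.rp.ne_zero S.σK (h.plus_ne hy hr e hv hv0)⟩⟩
  obtain ⟨c1, c2, c3⟩ := hc τ (hk.dm hG h hτ) inferInstance hm.dimD
    ⟨i, hi, fun e => h1 (by rw [e, inf_bot_eq])⟩
  refine ⟨(hk.ce0 hG).1 c1, fun u hu hf => congrArg Subtype.val (c2 ⟨u, hu⟩ fun k hU => ?_), fun T hT hi hn u hu => ?_⟩
  · obtain ⟨c, hc, e'⟩ := S.lift_C hU
    exact Subtype.ext ((hk c hc k hU e' _).trans (hf c hc))
  · refine (c3 (T.comap (S.D ρ).subtype) (fun k hU w hw => ?_) (ne T hT hn)).ge (Submodule.mem_top (x := ⟨u, hu⟩))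
    obtain ⟨c, hc, e'⟩ := S.lift_C hU
    show (τ k w : V) ∈ T
    rw [hk c hc k hU e']
    exact hi c hc w hw

end Su

end CL.RB
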