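/-
Extensions of the Baby Monster by the 4371-dimensional module, part 0: the graph on the neighbours of `z`, the
statements of the steps.
-/
import Cfsg.Agent.Spor.BxE
import Cfsg.Agent.Spor.RbTR
import Cfsg.Agent.Spor.RbCF
import Cfsg.Agent.Spor.BkHom2

set_option autoImplicit false
set_option linter.unusedSectionVars false

namespace CL.RB.Su
open Cfsg Cfsg.Spor Subgroup CL.Even CL.Grp CL.Spor.Leech CL.Spor.Mon CL.Mj CL.BX CL.BM Module MulAction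
open Cfsg.Spor.Bimonster (Gen edges)

variable {G : Type*} [Group G] {F V : Type*} [Field F] [AddCommGroup V] [Module F V] {E : Type*} [Group E]
  (S : Su G)

/-- the extraspecial group belonging to a conjugate of `z` -/
def Qv (y : G) : Subgroup G := ⨅ g ∈ {g | g * S.z * g⁻¹ = y}, cj g S.Q
/-- its part centralising `s` -/
def Qk (y : G) : Subgroup G := S.Qv y ⊓ S.K
/-- the neighbours of `z` -/
def TT : Set G := {y | ∃ c ∈ S.C, c * S.t * c⁻¹ = y}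
/-- the centraliser of `z, s, y` -/
def PP (y : G) : Subgroup G := S.C ⊓ centralizer {y}
/-- adjacent neighbours -/
def Adj (y y' : G) : Prop := y ∈ S.TT ∧ y' ∈ S.TT ∧ y' ∈ S.Qv y ∧ y' ≠ y ∧ y' ≠ S.z * y
/-- the product is conjugate to `s` -/
def NAdj (y y' : G) : Prop := IsConj S.s (y * y')
/-- the image of `z` -/
def tm (m : G) : G := m * S.z * m⁻¹

/-- a line -/
structure Lin (m : G) : Prop where
  mK : m ∈ S.K
  sq : m * m = 1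
  tT : S.tm m ∈ S.TT
  mQ : m ∈ S.Qv (S.z * S.tm m)

/-- `y` lies over `U + w` with a minimal vector `w` orthogonal to `U` -/
def Ov (w : leechLattice) (y : G) : Prop :=
  sqNorm (w : GolayPt → ℤ) = 32 ∧ dotInt (w : GolayPt → ℤ) leechU = 0 ∧ S.R (leechU + w) y

/-- lattice criteria -/
structure Lat : Prop where
  tt : ∀ w y, S.Ov w y → y ∈ S.TT
  adj : ∀ w w' y y' (l : leechLattice), S.Ov w y → S.Ov w' y' → dotInt (w : GolayPt → ℤ) w' = 0 →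
    sqNorm (l : GolayPt → ℤ) = 32 → dotInt (l : GolayPt → ℤ) leechU = 16 → |dotInt (l : GolayPt → ℤ) w| = 16 →
    |dotInt (l : GolayPt → ℤ) w'| = 16 → S.Adj y y'
  nadj : ∀ w w' y y', S.Ov w y → S.Ov w' y' → |dotInt (w : GolayPt → ℤ) w'| = 16 → S.NAdj y y'

/-- sign changes adapted to two neighbours of `t` and a coordinate -/
def Sg : Prop := ∀ u ∈ S.TT, u ∈ S.Y → ∀ u' ∈ S.TT, u' ∈ S.Y → ∀ i ∈ rest, ∃ r ∈ S.R2, ∃ k ∈ EE, S.Im r k ∧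
  k • e8 i ≠ e8 i ∧ r * u = u * r ∧ r * u' = u' * r ∧
  (u ≠ S.t → u ≠ S.z * S.t → ∃ w, S.Ov w u ∧ k • w = -w)

/-- the `2`-subgroups of the centraliser of a plane or a solid have no fixed vectors -/
def Rig (ρ : G → End F V) : Prop := ∀ y y' y'', S.Adj y y' → y'' ∈ S.TT → y'' ∈ S.Qv y → y'' ∈ S.Qv y' → ∀ v,
  (∀ r ∈ S.PP y ⊓ S.PP y' ⊓ S.PP y'', r ∈ S.Q ∨ r ∈ S.Qv y ∨ r ∈ S.Qv y' → ρ r v = v) → v = 0

/-- three extraspecial groups without common fixed vector -/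
def Kill (ρ : G → End F V) : Prop := ∀ x y y', S.Adj x y → y' ∈ S.TT → S.NAdj y y' → ∀ v,
  (∀ r ∈ S.Qk x, ρ r v = v) → (∀ r ∈ S.Qk y, ρ r v = v) → (∀ r ∈ S.Qk y', ρ r v = v) → v = 0

/-- two commuting lines centralise a common neighbour or its product with `z` -/
def Cm : Prop := ∀ m n y, S.Lin m → S.Lin n → m * n = n * m → S.NAdj (S.tm m) (S.tm n) → S.Adj (S.tm m) y →
  S.Adj (S.tm n) y → ∃ y', (y' = y ∨ y' = S.z * y) ∧ m * y' = y' * m ∧ n * y' = y' * n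

/-- the configuration of common neighbours of five frames -/
def Geo (t : Fin 5 → G) : Prop := ∃ (x0 : Fin 5 → G) (x x1 x2 : Fin 5 → Fin 5 → G),
  (∀ m n, m ≠ n → S.NAdj (t m) (t n)) ∧ (∀ m, m ≠ 0 → S.Adj (t 0) (x0 m) ∧ S.Adj (t m) (x0 m) ∧
    ∃ n o, n ≠ 0 ∧ n ≠ m ∧ o ≠ 0 ∧ o ≠ m ∧ S.NAdj (x m n) (x m o)) ∧
  ∀ m n, m ≠ 0 → n ≠ 0 → m ≠ n → x m n = x n m ∧ S.Adj (t 0) (x m n) ∧ S.Adj (t m) (x m n) ∧ S.Adj (x0 m) (x m n) ∧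
    S.Adj (x m n) (x1 m n) ∧ S.Adj (t m) (x1 m n) ∧ S.Adj (t n) (x1 m n) ∧
    S.Adj (x m n) (x2 m n) ∧ S.Adj (t m) (x2 m n) ∧ S.Adj (t n) (x2 m n) ∧ S.NAdj (x1 m n) (x2 m n)

/-- the virtual points lie in `Q` -/
def VR (a b₁ b₂ b₃ c₁ c₂ c₃ d₁ : G) : Prop := hi a (b₁ * b₂ * b₃) ∈ S.Q ∧
  hi c₁ (b₁ * d₁ * hi a (b₁ * b₂ * b₃)) ∈ S.Q ∧
  hi c₂ (b₂ * hi a (b₁ * b₂ * b₃) * hi c₁ (b₁ * d₁ * hi a (b₁ * b₂ * b₃))) ∈ S.Q ∧ R3 a b₁ b₂ b₃ c₁ c₂ c₃ d₁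

/-- the five lines -/
def lnode : Fin 5 → Gen := ![.a, .c1, .c2, .c3, .e2]

/-- the nodes -/
structure Nd (y : Gen → G) : Prop where
  cox : ∀ m ∈ bNodes, ∀ n ∈ bNodes, (y m * y n) ^ coxLabel edges m n = 1
  pt : ∀ n ∈ [Gen.b1, .b2, .b3, .d1, .d2, .d3], y n ∈ S.Q1
  ln : ∀ i, S.Lin (y (lnode i))
  v1 : S.VR (y .a) (y .b1) (y .b2) (y .b3) (y .c1) (y .c2) (y .c3) (y .d1)
  v2 : S.VR (y .a) (y .b2) (y .b3) (y .b1) (y .c2) (y .c3) (y .c1) (y .d2)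
  v3 : S.VR (y .a) (y .b3) (y .b1) (y .b2) (y .c3) (y .c1) (y .c2) (y .d3)
  spd : spider y = 1
  e7 : (y .a * y .b2 * y .c2 * y .b3 * y .c3 * y .d3 * y .b1) ^ 9 = S.s
  e7' : (y .a * y .b2 * y .c2 * y .b3 * y .b1 * y .c1 * y .d1) ^ 9 = 1
  gen : S.K ≤ JB y
  geo : S.Geo fun i => S.tm (y (lnode i))

section
variable {ρ : G → End F V} (X : Ext S.K ρ E)

/-- compatible lifts -/
def Cp (y : G) (L : Subgroup E) (y' : G) (L' : Subgroup E) : Prop :=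
  X.Lf (S.PP y) L ∧ X.Lf (S.PP y') L' ∧ X.rs L (S.PP y ⊓ S.PP y') = X.rs L' (S.PP y ⊓ S.PP y')
/-- a common neighbour with a lift compatible with both -/
def Cn (y : G) (L : Subgroup E) (y' : G) (L' : Subgroup E) (x : G) : Prop :=
  S.Adj y x ∧ S.Adj y' x ∧ ∃ M, S.Cp X y L x M ∧ S.Cp X y' L' x M
/-- three such neighbours -/
def C3 (y : G) (L : Subgroup E) (y' : G) (L' : Subgroup E) : Prop := ∃ x x1 x2,
  S.Cn X y L y' L' x ∧ S.Cn X y L y' L' x1 ∧ S.Cn X y L y' L' x2 ∧ S.Adj x x1 ∧ S.NAdj x1 x2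
/-- transport along edges, trivial around triangles -/
def Tr : Prop := (∀ y y' L, S.Adj y y' → X.Lf (S.PP y) L → ∃ L', S.Cp X y L y' L') ∧
  ∀ y y' y'' L L' L'', S.Adj y y' → S.Adj y y'' → S.Adj y' y'' → S.Cp X y L y' L' → S.Cp X y L y'' L'' →
    S.Cp X y' L' y'' L''
/-- a compatible family -/
def Fam : Prop := ∀ t, S.Geo t → ∃ L : Fin 5 → Subgroup E, (∀ m, X.Lf (S.PP (t m)) (L m)) ∧
  ∀ m n, m ≠ n → S.C3 X (t m) (L m) (t n) (L n)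
/-- the lifts of `Q1` agree -/
def Qeq : Prop := ∀ y L y' L' x, S.Cn X y L y' L' x →
  X.rs (normalizer (L : Set E)) S.Q1 = X.rs (normalizer (L' : Set E)) S.Q1
/-- the lifts of two lines commute -/
def Pair : Prop := ∀ L L' e e', S.Lin (X.φ e) → S.Lin (X.φ e') → X.φ e * X.φ e' = X.φ e' * X.φ e →
  S.NAdj (S.tm (X.φ e)) (S.tm (X.φ e')) → S.C3 X (S.tm (X.φ e)) L (S.tm (X.φ e')) L' →
  e ∈ normalizer (L : Set E) → e' ∈ normalizer (L' : Set E) → e * e' = e' * e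
/-- the nodes lift -/
def Top (y : Gen → G) : Prop := ∃ k : Gen → E, (∀ n ∈ bNodes, X.φ (k n) = y n) ∧
  (∀ m ∈ bNodes, ∀ n ∈ bNodes, (k m * k n) ^ coxLabel edges m n = 1) ∧ spider k = 1
end

/-! ### Elementary facts -/

variable {c g m x y y' y'' : G}

theorem mem_Qv : x ∈ S.Qv y ↔ ∀ g, g * S.z * g⁻¹ = y → g⁻¹ * x * g ∈ S.Q := by
  simp only [Qv, mem_iInf, Set.mem_ofPred_eq, mem_cj]
theorem conj_Qv : g * x * g⁻¹ ∈ S.Qv (g * y * g⁻¹) ↔ x ∈ S.Qv y := by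
  rw [mem_Qv, mem_Qv]
  refine ⟨fun h a ha => ?_, fun h a ha => ?_⟩
  · simpa [mul_assoc] using h (g * a) (by rw [← ha]; group)
  · simpa [mul_assoc] using h (g⁻¹ * a) (by rw [show g⁻¹ * a * S.z * (g⁻¹ * a)⁻¹ = g⁻¹ * (a * S.z * a⁻¹) * g by group, ha]; group)
theorem cj_Qv (g y : G) : cj g (S.Qv y) = S.Qv (g * y * g⁻¹) := by
  ext x
  rw [mem_cj, ← S.conj_Qv (g := g)]
  simp [mul_assoc]
theorem mem_Qk : x ∈ S.Qk y ↔ x ∈ S.Qv y ∧ x ∈ S.K := Iff.rfl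
theorem cj_Qk (hg : g ∈ S.K) (y : G) : cj g (S.Qk y) = S.Qk (g * y * g⁻¹) := by
  rw [Qk, Qk, cj_inf, cj_Qv, cj_eq (le_normalizer hg)]
theorem mem_PP : x ∈ S.PP y ↔ x ∈ S.C ∧ x * y = y * x := and_congr_right' mem_cent_singleton
theorem PP_t : S.PP S.t = S.P0 := rfl
theorem PP_le_C : S.PP y ≤ S.C := inf_le_left
theorem PP_le_K : S.PP y ≤ S.K := inf_le_left.trans inf_le_right
theorem t_TT : S.t ∈ S.TT := ⟨1, one_mem _, by simp⟩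
theorem TT_conj (hc : c ∈ S.C) (hy : y ∈ S.TT) : c * y * c⁻¹ ∈ S.TT :=
  let ⟨a, ha, e⟩ := hy; ⟨c * a, mul_mem hc ha, by rw [← e]; group⟩
theorem cp_symm {ρ : G → End F V} {X : Ext S.K ρ E} {L L' : Subgroup E} (h : S.Cp X y L y' L') : S.Cp X y' L' y L :=
  ⟨h.2.1, h.1, by rw [inf_comm]; exact h.2.2.symm⟩

variable [Finite G]

theorem Qv_eq (h : g * S.z * g⁻¹ = y) : S.Qv y = cj g S.Q := le_antisymm (fun _ hx => mem_cj.2 (S.mem_Qv.1 hx g h))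
  fun _ hx => S.mem_Qv.2 fun _ ha => mem_cj.1 (S.xe.cj_eq_cj (ha.trans h.symm) ▸ hx)
theorem Qv_z : S.Qv S.z = S.Q := (S.Qv_eq (g := 1) (by simp)).trans (cj_one _)
theorem Qk_z : S.Qk S.z = S.Q1 := by rw [Qk, Qv_z]; rfl
theorem Qv_t : S.Qv S.t = cj S.σ S.Q := S.Qv_eq S.σz
theorem Y_eq : S.Y = S.Q ⊓ S.Qv S.t := by rw [Qv_t]; rfl
theorem R2_eq : S.R2 = S.Qv S.t ⊓ S.C := by
  ext x
  rw [mem_R2, mem_R1, mem_Q1, mem_inf, Qv_t, mem_cj, mem_C]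
  have h2 := comm_conj (x := x) (y := S.s) S.σ
  have h3 := comm_conj (x := x) (y := S.z) S.σ
  rw [S.σs'] at h2; rw [S.σz'] at h3
  rw [h2, h3]; tauto
theorem C_z (hc : c ∈ S.C) : c * S.z * c⁻¹ = S.z := by rw [(S.mem_C.1 hc).1, mul_inv_cancel_right]
theorem C_s (hc : c ∈ S.C) : c * S.s * c⁻¹ = S.s := by rw [(S.mem_C.1 hc).2, mul_inv_cancel_right]
theorem cj_Q (hc : c ∈ S.C) : cj c S.Q = S.Q := cj_eq (S.xe.norm hc.1)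
theorem cj_PP (hc : c ∈ S.C) (y : G) : cj c (S.PP y) = S.PP (c * y * c⁻¹) := by
  ext x
  have := comm_conj (x := x) (y := c * y * c⁻¹) c
  rw [show c⁻¹ * (c * y * c⁻¹) * c = y by group] at this
  rw [mem_cj, mem_PP, mem_PP, this, mul_mem_cancel_right hc, mul_mem_cancel_left (inv_mem hc)]
theorem PP_z (y : G) : S.PP (S.z * y) = S.PP y := by
  ext x
  rw [mem_PP, mem_PP]
  refine and_congr_right fun h => ?_
  rw [← mul_assoc, (S.mem_C.1 h).1, mul_assoc, mul_assoc, mul_right_inj]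

section
variable (hy : y ∈ S.TT)
include hy

theorem TT_K : ∃ g ∈ S.K, g * S.z * g⁻¹ = y :=
  let ⟨c, hc, e⟩ := hy; ⟨c * S.σ, mul_mem (S.C_le_K hc) S.σK, by rw [← e, ← S.σz]; group⟩
theorem TT_isConj : IsConj S.z y := let ⟨g, _, e⟩ := S.TT_K hy; isConj_iff.2 ⟨g, e⟩
theorem TT_xe : XE y (S.Qv y) := by
  obtain ⟨g, -, rfl⟩ := S.TT_K hy
  rw [S.Qv_eq rfl]; exact S.xe.conj g
theorem TT_Q1 : y ∈ S.Q1 := by obtain ⟨c, hc, rfl⟩ := hy; exact (S.conj_Q1' hc).2 S.tQ1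
theorem TT_ne : y ≠ S.z := by
  obtain ⟨c, hc, rfl⟩ := hy
  exact fun e => S.sw.ne S.mt (by rw [← S.C_z hc] at e; simpa using e)
theorem TT_sq : y * y = 1 := (S.TT_xe hy).mul_self
theorem TT_zc : y * S.z = S.z * y := S.xe.comm (S.TT_Q1 hy).1
theorem TT_z : S.z * y ∈ S.TT := by
  obtain ⟨c, hc, rfl⟩ := hy
  exact ⟨c * S.q, mul_mem hc S.qC, by
    rw [show c * S.q * S.t * (c * S.q)⁻¹ = c * (S.q * S.t * S.q⁻¹) * c⁻¹ by group, S.qt, ← conj_mul, S.C_z hc]⟩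
theorem Y_TT : ∃ c ∈ S.C, c * S.t * c⁻¹ = y ∧ S.Q ⊓ S.Qv y = cj c S.Y := by
  obtain ⟨c, hc, rfl⟩ := hy
  exact ⟨c, hc, rfl, by rw [Y_eq, cj_inf, S.cj_Q hc, cj_Qv]⟩
theorem z_Qv : S.z ∈ S.Qv y := by
  obtain ⟨c, hc, -, e⟩ := S.Y_TT hy
  exact (e.ge (S.C_z hc ▸ conj_mem_cj c S.zY)).2
theorem s_Qv : S.s ∈ S.Qv y := by
  obtain ⟨c, hc, -, e⟩ := S.Y_TT hy
  exact (e.ge (S.C_s hc ▸ conj_mem_cj c S.sY)).2
/-- `Q ⊓ Qv y` is abelian -/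
theorem YY_comm (h1 : x ∈ S.Q ⊓ S.Qv y) (h2 : g ∈ S.Q ⊓ S.Qv y) : x * g = g * x := by
  obtain ⟨c, -, -, e⟩ := S.Y_TT hy
  exact (comm_conj c).1 (S.Y_comm (mem_cj.1 (e.le h1)) (mem_cj.1 (e.le h2)))
theorem YY_K : S.Q ⊓ S.Qv y ≤ S.K := fun _ h => S.mem_K.2 (S.YY_comm hy h ⟨S.sQ, S.s_Qv hy⟩)
theorem YY_cent (h1 : x ∈ S.Q) (h2 : ∀ g ∈ S.Q ⊓ S.Qv y, g * x = x * g) : x ∈ S.Qv y := by
  obtain ⟨c, hc, -, e⟩ := S.Y_TT hy
  refine (e.ge (mem_cj.2 (S.cent_Y ((S.conj_Q hc).2 h1) fun a ha => ?_))).2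
  have := (comm_conj c).2 (h2 _ (e.ge (conj_mem_cj c ha)))
  rwa [show c⁻¹ * (c * a * c⁻¹) * c = a by group] at this
theorem YY_z (h1 : x ∈ S.Q ⊓ S.Qv y) : x ∈ S.Qv (S.z * y) := by
  obtain ⟨c, hc, rfl, e⟩ := S.Y_TT hy
  have h2 := S.conj_Y_Q S.qQ (mem_cj.1 (e.le h1))
  rw [Y_eq] at h2
  have h3 := (S.conj_Qv (g := c * S.q)).2 h2.2
  rwa [show c * S.q * S.t * (c * S.q)⁻¹ = c * (S.q * S.t * S.q⁻¹) * c⁻¹ by group, S.qt, ← conj_mul, S.C_z hc,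
    show c * S.q * (S.q⁻¹ * (c⁻¹ * x * c) * S.q) * (c * S.q)⁻¹ = x by group] at h3
/-- an element of `Qk y` moving `z` -/
theorem Qk_mv : ∃ r ∈ S.Qk y, r * S.z * r⁻¹ = S.z * y := by
  obtain ⟨c, hc, rfl⟩ := hy
  refine ⟨c * (S.σ * S.q * S.σ⁻¹) * c⁻¹, ⟨S.conj_Qv.2 (S.Qv_t ▸ conj_mem_cj _ S.qQ),
    S.K.mul_mem (mul_mem (S.C_le_K hc) (mul_mem (mul_mem S.σK S.qK) (inv_mem S.σK))) (inv_mem (S.C_le_K hc))⟩, ?_⟩
  have e : S.σ * S.q * S.σ⁻¹ * S.z * (S.σ * S.q * S.σ⁻¹)⁻¹ = S.z * S.t := by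
    rw [show S.σ * S.q * S.σ⁻¹ * S.z * (S.σ * S.q * S.σ⁻¹)⁻¹ = S.σ * (S.q * (S.σ⁻¹ * S.z * S.σ) * S.q⁻¹) * S.σ⁻¹ by group,
      S.σz', S.qt, ← conj_mul, S.σz, S.σt, S.tz]
  calc _ = c * (S.σ * S.q * S.σ⁻¹ * (c⁻¹ * S.z * c) * (S.σ * S.q * S.σ⁻¹)⁻¹) * c⁻¹ := by group
    _ = _ := by rw [conj_fix (S.mem_C.1 hc).1, e, ← conj_mul, S.C_z hc]
theorem HP_TT {ρ : G → End F V} {X : Ext S.K ρ E} (h : X.HP S.P0) : X.HP (S.PP y) := by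
  obtain ⟨c, hc, rfl⟩ := hy
  exact S.cj_PP hc S.t ▸ h.cnj (S.C_le_K hc)

end

/-- an element of `K` which permutes `⟨z, y, y'⟩` normalises the centraliser -/
theorem norm_PP (hg : g ∈ S.K) (h : ∀ a ∈ S.PP y ⊓ S.PP y', ∀ u, u = S.z ∨ u = y ∨ u = y' →
    a * (g * u * g⁻¹) = g * u * g⁻¹ * a) : g ∈ normalizer ((S.PP y ⊓ S.PP y' : Subgroup G) : Set G) := by
  refine inv_mem_iff.1 (mem_norm_of_cj_le ?_)
  rintro _ ⟨a, ha, rfl⟩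
  have k : ∀ u, a * (g * u * g⁻¹) = g * u * g⁻¹ * a → g⁻¹ * a * g⁻¹⁻¹ * u = u * (g⁻¹ * a * g⁻¹⁻¹) := fun u e => by
    have := (comm_conj g).2 e
    rwa [show g⁻¹ * (g * u * g⁻¹) * g = u by group, ← inv_inv g, inv_inv g⁻¹] at this
  have hC : g⁻¹ * a * g⁻¹⁻¹ ∈ S.C := S.mem_C.2 ⟨k _ (h a ha _ (.inl rfl)),
    S.mem_K.1 (S.K.mul_mem (S.K.mul_mem (S.K.inv_mem hg) (S.PP_le_K ha.1)) (S.K.inv_mem (S.K.inv_mem hg)))⟩
  exact ⟨S.mem_PP.2 ⟨hC, k _ (h a ha _ (.inr (.inl rfl)))⟩, S.mem_PP.2 ⟨hC, k _ (h a ha _ (.inr (.inr rfl)))⟩⟩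
theorem PP_comm {a : G} (ha : a ∈ S.PP y ⊓ S.PP y') {u : G} (hu : u = S.z ∨ u = y ∨ u = y') : Commute a u := by
  rcases hu with rfl | rfl | rfl
  exacts [(S.mem_C.1 ha.1.1).1, (S.mem_PP.1 ha.1).2, (S.mem_PP.1 ha.2).2]
/-- `Qk x` normalises the centraliser if `x` is one of `z, y, y'` and all of them lie in `Qv x` -/
theorem Qk_norm (hx : XE x (S.Qv x)) (h0 : x = S.z ∨ x = y ∨ x = y') (h1 : S.z ∈ S.Qv x) (h2 : y ∈ S.Qv x)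
    (h3 : y' ∈ S.Qv x) : S.Qk x ≤ normalizer ((S.PP y ⊓ S.PP y' : Subgroup G) : Set G) := fun g hg =>
  S.norm_PP hg.2 fun a ha u hu => by
    rcases conj_cases hx hg.1 (show u ∈ S.Qv x by rcases hu with rfl | rfl | rfl <;> assumption) with e | e <;> rw [e]
    exacts [S.PP_comm ha hu, (S.PP_comm ha h0).mul_right (S.PP_comm ha hu)]
theorem Q1_norm2 (hy : y ∈ S.TT) (hy' : y' ∈ S.TT) :
    S.Q1 ≤ normalizer ((S.PP y ⊓ S.PP y' : Subgroup G) : Set G) :=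
  S.Qk_z ▸ S.Qk_norm (S.Qv_z.symm ▸ S.xe) (.inl rfl) (S.Qv_z.symm ▸ S.xe.mem) (S.Qv_z.symm ▸ (S.TT_Q1 hy).1)
    (S.Qv_z.symm ▸ (S.TT_Q1 hy').1)
theorem Q1_norm (hy : y ∈ S.TT) : S.Q1 ≤ normalizer (S.PP y : Set G) := by
  simpa only [inf_idem] using S.Q1_norm2 hy hy
theorem Qk_norm1 (hy : y ∈ S.TT) : S.Qk y ≤ normalizer (S.PP y : Set G) := by
  simpa only [inf_idem] using S.Qk_norm (y := y) (y' := y) (S.TT_xe hy) (.inr (.inl rfl)) (S.z_Qv hy) (S.TT_xe hy).mem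
    (S.TT_xe hy).mem

theorem TT_ns (hy : y ∈ S.TT) : ¬ IsConj S.s y := fun e => S.gd.not_conj' e (S.TT_isConj hy)
/-- products in the extraspecial group of a conjugate of `z` -/
theorem ns_mul {Q' : Subgroup G} (hx : XE x Q') (hz : IsConj S.z x) (hy : y ∈ Q') (h : ¬ IsConj S.s y) :
    ¬ IsConj S.s (x * y) := fun e => by
  by_cases h1 : ∀ a ∈ Q', a * y = y * a
  · rcases hx.mem_Z.1 (hx.cent_eq.le fun a ha => h1 a ha) with rfl | rfl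
    · exact S.gd.not_conj' (mul_one x ▸ e) hz
    · exact S.gd.s_ne_one (isConj_one_right.1 (hx.mul_self ▸ e).symm)
  · push Not at h1
    obtain ⟨a, ha, h1⟩ := h1
    exact h (e.trans (isConj_iff.2 ⟨a, conj_eq_of_ne hx ha hy h1⟩).symm)

variable {S}

theorem NAdj.symm (h : S.NAdj y y') : S.NAdj y' y := h.trans (isConj_iff.2 ⟨y⁻¹, by group⟩)
theorem NAdj.zl (h : S.NAdj y y') (hy : y ∈ S.TT) (hy' : y' ∈ S.TT) : S.NAdj (S.z * y) y' := by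
  have h1 := mul_mem (S.TT_Q1 hy).1 (S.TT_Q1 hy').1
  rw [NAdj, mul_assoc, ← S.xe.comm h1]
  exact S.gd.T_mul_z h1 h
theorem NAdj.zr (h : S.NAdj y y') (hy : y ∈ S.TT) (hy' : y' ∈ S.TT) : S.NAdj y (S.z * y') := (h.symm.zl hy' hy).symm
theorem NAdj.not_mem (h : S.NAdj y y') (hy : y ∈ S.TT) (hy' : y' ∈ S.TT) : y' ∉ S.Qv y := fun e =>
  S.ns_mul (S.TT_xe hy) (S.TT_isConj hy) e (S.TT_ns hy') h

theorem Lin.norm2 (h : S.Lin m) (hy : m * y = y * m) :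
    m ∈ normalizer ((S.PP (S.tm m) ⊓ S.PP y : Subgroup G) : Set G) := S.norm_PP h.mK fun a ha u hu => by
  rcases hu with rfl | rfl | rfl
  · exact S.PP_comm ha (.inr (.inl rfl))
  · rw [tm, show m * (m * S.z * m⁻¹) * m⁻¹ = m * m * S.z * (m * m)⁻¹ by group, h.sq, one_mul, inv_one, mul_one]
    exact S.PP_comm ha (.inl rfl)
  · rw [hy, mul_inv_cancel_right]; exact S.PP_comm ha (.inr (.inr rfl))
theorem Lin.norm (h : S.Lin m) : m ∈ normalizer (S.PP (S.tm m) : Set G) := by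
  have := h.norm2 (y := 1) (by simp)
  rwa [inf_eq_left.2 fun a ha => S.mem_PP.2 ⟨ha.1, by simp⟩] at this

namespace Adj
variable (h : S.Adj y y')
include h

theorem comm : y' * y = y * y' := (S.TT_xe h.1).comm h.2.2.1
theorem symm : S.Adj y' y := by
  refine ⟨h.2.1, h.1, ?_, h.2.2.2.1.symm, fun e => h.2.2.2.2 (by rw [e, ← mul_assoc, S.zz, one_mul])⟩
  obtain ⟨g, -, e⟩ := S.TT_K h.1
  obtain ⟨a, -, e'⟩ := S.TT_K h.2.1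
  have h1 : g⁻¹ * a * S.z * (g⁻¹ * a)⁻¹ ∈ S.Q := by
    have := S.mem_Qv.1 h.2.2.1 g e
    rwa [← e', show g⁻¹ * (a * S.z * a⁻¹) * g = g⁻¹ * a * S.z * (g⁻¹ * a)⁻¹ by group] at this
  have h2 := mem_cj.1 (S.xe.mem_cj_of_conj_mem h1)
  rw [S.Qv_eq e', mem_cj, ← e]
  simpa [mul_assoc] using h2
theorem zr : S.Adj y (S.z * y') := ⟨h.1, S.TT_z h.2.1, mul_mem (S.z_Qv h.1) h.2.2.1,
  fun e => h.2.2.2.2 (by rw [← e, ← mul_assoc, S.zz, one_mul]), fun e => h.2.2.2.1 (mul_left_cancel e)⟩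
theorem zl : S.Adj (S.z * y) y' := h.symm.zr.symm
theorem conj (hc : c ∈ S.C) : S.Adj (c * y * c⁻¹) (c * y' * c⁻¹) :=
  ⟨S.TT_conj hc h.1, S.TT_conj hc h.2.1, S.conj_Qv.2 h.2.2.1, fun e => h.2.2.2.1 (by simpa using e),
    fun e => h.2.2.2.2 (by rw [← S.C_z hc, conj_mul] at e; simpa using e)⟩
theorem norm : S.Qk y ≤ normalizer ((S.PP y ⊓ S.PP y' : Subgroup G) : Set G) :=
  S.Qk_norm (S.TT_xe h.1) (.inr (.inl rfl)) (S.z_Qv h.1) (S.TT_xe h.1).mem h.2.2.1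
theorem norm' : S.Qk y' ≤ normalizer ((S.PP y ⊓ S.PP y' : Subgroup G) : Set G) := inf_comm (S.PP y') _ ▸ h.symm.norm
/-- the centraliser of a plane has no fixed vectors -/
theorem rg {ρ : G → End F V} (hR : S.Rig ρ) : Rg ρ (S.PP y ⊓ S.PP y') := fun v hv =>
  hR y y' y' h h.2.1 h.2.2.1 (S.TT_xe h.2.1).mem v fun r hr _ => hv r hr.1

end Adj

end CL.RB.Su
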