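/-
Project BX (S5590): finite 2-groups lift to an extension by a module in characteristic not 2, uniquely up to conjugacy.
-/
import Cfsg.Agent.Spor.BxE

set_option autoImplicit false
set_option linter.unusedSectionVars false

namespace CL.BX.Ext
open Subgroup CL.Even CL.Grp CL.RB Module
variable {G : Type*} [Group G] {F V : Type*} [Field F] [AddCommGroup V] [Module F V] {E : Type*} [Group E]
  {K : Subgroup G} {ρ : G → End F V}

theorem avg (X : Ext K ρ E) : X.Avg := by
  intro P hP fin h2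
  have := Fintype.ofFinite P
  have n0 : (Fintype.card P : F) ≠ 0 := by
    obtain ⟨k, hk⟩ := IsPGroup.iff_card.1 h2
    rw [← Nat.card_eq_fintype_card, hk]
    simpa using fun e => absurd e X.rp.two
  have av : ∀ v : V, (Fintype.card P : F)⁻¹ • ∑ _w : P, v = v := fun v => by
    rw [Finset.sum_const, Finset.card_univ, ← Nat.cast_smul_eq_nsmul F, inv_smul_smul₀ n0]
  refine ⟨?_, fun L L' h h' => ?_⟩
  · choose σ hσ using fun x : P => X.surj x (hP x.2)
    choose f hf using fun x y : P => X.exists_ι (e := σ x * σ y) (e' := σ (x * y)) (by rw [map_mul, hσ, hσ, hσ, coe_mul])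
    have c : ∀ x y w, f x y + f (x * y) w = ρ x (f y w) + f x (y * w) := fun x y w => X.ι_inj (mul_right_cancel
      (b := σ (x * y * w)) (by
        rw [X.add, X.add, mul_assoc, ← hf, ← mul_assoc, ← hf, mul_assoc, hf y w, ← mul_assoc, X.mul_ι, hσ, mul_assoc,
          hf, mul_assoc x, mul_assoc]))
    obtain ⟨b, hb⟩ : ∃ b : P → V, ∀ x, b x = (Fintype.card P : F)⁻¹ • ∑ w, f x w := ⟨_, fun _ => rfl⟩
    have k : ∀ x y, f x y + b (x * y) = ρ x (b y) + b x := fun x y => by
      rw [← av (f x y), hb, hb, hb, map_smul, map_sum, ← smul_add, ← smul_add, ← Finset.sum_add_distrib,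
        ← Equiv.sum_comp (Equiv.mulLeft y) (f x), ← Finset.sum_add_distrib]
      exact congrArg _ (Finset.sum_congr rfl fun w _ => c x y w)
    let τ : P →* E := MonoidHom.mk' (fun x => X.ι (-b x) * σ x) fun x y => by
      rw [mul_assoc, ← mul_assoc (σ x), X.mul_ι, mul_assoc, hf, ← mul_assoc, ← mul_assoc, ← X.add, ← X.add, hσ, map_neg,
        eq_sub_of_add_eq (k x y)]
      congr 2; abel
    have t : ∀ x, X.φ (τ x) = x := fun x => by
      change X.φ (X.ι (-b x) * σ x) = x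
      rw [map_mul, X.φ_ι, one_mul, hσ]
    refine ⟨τ.range, le_antisymm ?_ fun g hg => ⟨_, ⟨⟨g, hg⟩, rfl⟩, t _⟩, fun v ⟨x, e⟩ => X.inj v ?_⟩
    · rintro _ ⟨_, ⟨x, rfl⟩, rfl⟩
      exact t x ▸ x.2
    · rw [← e, show x = 1 from Subtype.ext ((t x).symm.trans (e ▸ X.φ_ι v)), map_one]
  · choose σ m hσ using fun x : P => h.ex x.2
    choose σ' m' hσ' using fun x : P => h'.ex x.2
    have s : ∀ x y, σ (x * y) = σ x * σ y := fun x y =>
      h.eq (m _) (mul_mem (m _) (m _)) (by rw [map_mul, hσ, hσ, hσ, coe_mul])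
    have s' : ∀ x y, σ' (x * y) = σ' x * σ' y := fun x y =>
      h'.eq (m' _) (mul_mem (m' _) (m' _)) (by rw [map_mul, hσ', hσ', hσ', coe_mul])
    choose d hd using fun x : P => X.exists_ι ((hσ' x).trans (hσ x).symm)
    have c : ∀ x y, d (x * y) = d x + ρ x (d y) := fun x y => X.ι_inj (mul_right_cancel (b := σ (x * y)) (by
      rw [← hd, s', s, hd, hd, X.add, mul_assoc, ← mul_assoc (σ x), X.mul_ι, hσ, mul_assoc, mul_assoc]))
    refine ⟨(Fintype.card P : F)⁻¹ • ∑ y, d y, h'.eq_of_le (h.cj_ι _) fun e he => ?_⟩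
    obtain ⟨x, rfl⟩ : ∃ x, σ' x = e := ⟨⟨_, h'.mem he⟩, h'.eq (m' _) he (hσ' _)⟩
    refine (congrArg (· ∈ _) ?_).mp (conj_mem_cj _ (m x))
    have k : ∑ y, d y = ∑ y, (d x + ρ x (d y)) :=
      (Equiv.sum_comp (Equiv.mulLeft x) d).symm.trans (Finset.sum_congr rfl fun y _ => c x y)
    rw [X.ι_conj, hσ, hd, map_smul, map_sum, ← smul_sub, sub_eq_of_eq_add (k.trans Finset.sum_add_distrib), av]

end CL.BX.Ext
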