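/-
Project BX (S5590): the Coxeter elements of type `E7` have order dividing 18 (verified word reduction).
-/
import Cfsg.Agent.Spor.BkHom2

set_option autoImplicit false

namespace CL.BX
open Cfsg Cfsg.Spor CL.BM
open Cfsg.Spor.Bimonster (Gen edges)

namespace E7
variable {α : Type} [DecidableEq α] (c : α → α → Bool) {H : Type*} [Group H]

/-- rewrite a reversed word so that it ends in `s` -/
def ends : ℕ → α → List α → Option (List α)
  | 0, _, _ => none
  | _, _, [] => none
  | n + 1, s, t :: w => if t = s then some w else (ends n s w).bind fun u =>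
      if c s t then some (t :: u) else (ends n t u).map fun u' => t :: s :: u'

/-- multiply by a generator -/
def step (w : List α) (s : α) : List α := (ends c 200 s w).getD (s :: w)

/-- the value of a reversed word -/
def ev (k : α → H) : List α → H
  | [] => 1
  | t :: w => ev k w * k t

variable {c} {k : α → H} (h1 : ∀ s, k s * k s = 1) (h2 : ∀ s t, c s t = true → Commute (k s) (k t))
  (h3 : ∀ s t, t ≠ s → c s t = false → Br (k s) (k t))
include h2 h3

theorem ends_ev (n : ℕ) : ∀ s w u, ends c n s w = some u → ev k w = ev k u * k s := by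
  induction n with
  | zero => exact fun _ _ _ e => by simp [ends] at e
  | succ n ih =>
    rintro s (_ | ⟨t, w⟩) u e
    · simp [ends] at e
    rw [ends] at e
    split_ifs at e with a b
    · rw [← Option.some.inj e, a, ev]
    · obtain ⟨v, hv, e⟩ := Option.bind_eq_some_iff.1 e
      rw [← Option.some.inj e, ev, ev, ih _ _ _ hv, mul_assoc, (h2 s t b).eq, mul_assoc]
    · obtain ⟨v, hv, e⟩ := Option.bind_eq_some_iff.1 e
      obtain ⟨v', hv', rfl⟩ := Option.map_eq_some_iff.1 e
      have := h3 s t a (by simpa using b)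
      rw [Br, mul_assoc, mul_assoc] at this
      simp only [ev, ih _ _ _ hv, ih _ _ _ hv', mul_assoc, this]

include h1

theorem foldl_ev (l w : List α) : ev k (l.foldl (step c) w) = ev k w * (l.map k).prod := by
  induction l generalizing w with
  | nil => simp
  | cons s l ih =>
    rw [List.foldl_cons, ih, List.map_cons, List.prod_cons, ← mul_assoc, step]
    congr 1
    cases e : ends c 200 s w with
    | none => rfl
    | some u => rw [ends_ev h2 h3 _ _ _ _ e, mul_assoc, h1, mul_one]; rfl

end E7

theorem E7.pow {H : Type*} [Group H] {k : Gen → H}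
    (h : ∀ m ∈ bNodes, ∀ n ∈ bNodes, (k m * k n) ^ coxLabel edges m n = 1) (d : Fin 7 → Gen)
    (h0 : ∀ s, d s ∈ bNodes ∧ ∀ t, t ≠ s → coxLabel edges (d s) (d t) ≠ 2 → coxLabel edges (d s) (d t) = 3)
    (hw : (List.replicate 18 (List.finRange 7)).flatten.foldl
      (E7.step fun s t => decide (coxLabel edges (d s) (d t) = 2)) [] = []) :
    (k (d 0) * k (d 1) * k (d 2) * k (d 3) * k (d 4) * k (d 5) * k (d 6)) ^ 18 = 1 := by
  have h1 : ∀ s, k (d s) * k (d s) = 1 := fun s => by simpa [coxLabel] using h _ (h0 s).1 _ (h0 s).1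
  have := E7.foldl_ev (k := fun s => k (d s)) (c := fun s t => decide (coxLabel edges (d s) (d t) = 2)) h1
    (fun s t e => comm_of_pow (h1 s) (h1 t) (of_decide_eq_true e ▸ h _ (h0 s).1 _ (h0 t).1))
    (fun s t n e => br_of_pow (h1 s) (h1 t) ((h0 s).2 t n (of_decide_eq_false e) ▸ h _ (h0 s).1 _ (h0 t).1))
    (List.replicate 18 (List.finRange 7)).flatten []
  rw [hw, List.map_flatten, List.prod_flatten, List.map_replicate, List.map_replicate, List.prod_replicate] at this
  simpa [E7.ev, List.finRange_succ, mul_assoc] using this.symm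

theorem e7_sq {H : Type*} [Group H] {k : Gen → H}
    (h : ∀ m ∈ CL.BM.bNodes, ∀ n ∈ CL.BM.bNodes, (k m * k n) ^ coxLabel edges m n = 1) :
    (k .a * k .b2 * k .c2 * k .b3 * k .c3 * k .d3 * k .b1) ^ 18 = 1 ∧
      (k .a * k .b2 * k .c2 * k .b3 * k .b1 * k .c1 * k .d1) ^ 18 = 1 :=
  ⟨E7.pow h ![.a, .b2, .c2, .b3, .c3, .d3, .b1] (by decide +kernel) (by decide +kernel),
    E7.pow h ![.a, .b2, .c2, .b3, .b1, .c1, .d1] (by decide +kernel) (by decide +kernel)⟩

end CL.BX
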