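/-
The 4371-dimensional representation of the Baby Monster: translation to matrices.
-/
import Cfsg.Agent.Spor.Rb1
import Cfsg.Agent.Spor.MjFin0
import Cfsg.Prelude.Def_Spor_B

set_option autoImplicit false
set_option linter.unusedSectionVars false

namespace CL.RB
open Cfsg Cfsg.Spor Subgroup CL.Even CL.Grp CL.Spor.Leech CL.Spor.Mon CL.Mj Module MulAction

variable {G : Type*} [Group G] {F V V' : Type*} [Field F] [AddCommGroup V] [Module F V] [AddCommGroup V']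
  [Module F V']

namespace Su

/-- a representation of `C(s)`, trivial on `s` and not trivial on `z` -/
def Ok (S : Su G) (ρ : G → End F V) : Prop := Rp S.K ρ ∧ ρ S.s = 1 ∧ ρ S.z ≠ 1

variable [Finite G] (S : Su G) {B : Type*} [Group B] (e : B ≃* BQ S.s) {n : ℕ}

open Classical in
/-- the representation of `C(s)` given by a matrix representation of the quotient -/
noncomputable def finLift (ρ : B →* GL (Fin n) F) (g : G) : End F (Fin n → F) :=
  if hg : g ∈ S.K then Matrix.toLin' (ρ (e.symm (QuotientGroup.mk ⟨g, hg⟩)) : Matrix (Fin n) (Fin n) F) else 1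

theorem finLift_eq (ρ : B →* GL (Fin n) F) {g : G} (hg : g ∈ S.K) : S.finLift e ρ g =
    Matrix.toLin' (ρ (e.symm (QuotientGroup.mk ⟨g, hg⟩)) : Matrix (Fin n) (Fin n) F) := dif_pos hg

theorem fin_surj (b : B) : ∃ g, ∃ hg : g ∈ S.K, e.symm (QuotientGroup.mk ⟨g, hg⟩) = b := by
  obtain ⟨⟨g, hg⟩, h⟩ := QuotientGroup.mk_surjective (e b)
  exact ⟨g, hg, e.symm_apply_eq.2 h⟩

theorem finLift_one_iff {ρ : B →* GL (Fin n) F} (hρ : Function.Injective ρ) {g : G} (hg : g ∈ S.K) :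
    S.finLift e ρ g = 1 ↔ g ∈ zpowers S.s := by
  rw [S.finLift_eq e ρ hg, End.one_eq_id, ← Matrix.toLin'_one, Matrix.toLin'.injective.eq_iff, Units.val_eq_one,
    map_eq_one_iff ρ hρ, map_eq_one_iff _ e.symm.injective]
  exact QuotientGroup.eq_one_iff _

theorem finLift_ok (h2 : (2 : F) ≠ 0) {ρ : B →* GL (Fin n) F} (hρ : Function.Injective ρ) : S.Ok (S.finLift e ρ) := by
  refine ⟨⟨h2, (S.finLift_one_iff e hρ (one_mem _)).2 (one_mem _), fun a ha b hb => ?_⟩,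
    (S.finLift_one_iff e hρ (S.Q1_le_K S.sQ1)).2 (mem_zpowers _), fun h => ?_⟩
  · rw [S.finLift_eq e ρ ha, S.finLift_eq e ρ hb, S.finLift_eq e ρ (mul_mem ha hb), End.mul_eq_comp,
      ← Matrix.toLin'_mul, ← Units.val_mul, ← map_mul, ← map_mul]
    rfl
  · rcases (mem_zpowers_two (S.gd.ord (IsConj.refl _))).1 ((S.finLift_one_iff e hρ S.zK).1 h) with k | k
    exacts [S.xe.ne_one k, S.gd.not_conj (k ▸ IsConj.refl _)]

include e in
theorem fin_gen (h2 : (2 : F) ≠ 0) (hi : ∀ ρ : G → End F (Fin n → F), S.Ok ρ → S.Irr ρ)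
    (hu : ∀ ρ ρ' : G → End F (Fin n → F), S.Ok ρ → S.Ok ρ' →
      ∃ f : (Fin n → F) ≃ₗ[F] (Fin n → F), ∀ g ∈ S.K, ∀ v, f (ρ g v) = ρ' g (f v))
    (ρ : B →* GL (Fin n) F) (hρ : Function.Injective ρ) :
    (∀ W : Submodule F (Fin n → F), (∀ g : B, ∀ v ∈ W, (ρ g : Matrix (Fin n) (Fin n) F).mulVec v ∈ W) →
      W = ⊥ ∨ W = ⊤) ∧ ∀ ρ' : B →* GL (Fin n) F, Function.Injective ρ' →
        ∃ P : GL (Fin n) F, ∀ g : B, ρ' g = P * ρ g * P⁻¹ := by
  refine ⟨fun W hW => hi _ (S.finLift_ok e h2 hρ) W fun g hg v hv => ?_, fun ρ' hρ' => ?_⟩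
  · rw [S.finLift_eq e ρ hg, Matrix.toLin'_apply]
    exact hW _ v hv
  obtain ⟨f, hf⟩ := hu _ _ (S.finLift_ok e h2 hρ) (S.finLift_ok e h2 hρ')
  refine ⟨⟨LinearMap.toMatrix' f.toLinearMap, LinearMap.toMatrix' f.symm.toLinearMap,
    by rw [← LinearMap.toMatrix'_comp, f.comp_symm, LinearMap.toMatrix'_id],
    by rw [← LinearMap.toMatrix'_comp, f.symm_comp, LinearMap.toMatrix'_id]⟩, fun b => ?_⟩
  obtain ⟨g, hg, rfl⟩ := S.fin_surj e b
  refine eq_mul_inv_iff_mul_eq.2 (Units.ext (Matrix.toLin'.injective (LinearMap.ext fun v => ?_)))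
  have := hf g hg v
  rw [S.finLift_eq e ρ hg, S.finLift_eq e ρ' hg] at this
  simp only [Units.val_mul, Matrix.toLin'_mul, Matrix.toLin'_toMatrix', LinearMap.comp_apply]
  exact this.symm

end Su

theorem Su.fin {G : Type} [Group G] [Finite G] (S : Su G) (e : BabyMonster ≃* BQ S.s) (F : Type*) [Field F]
    (h2 : (2 : F) ≠ 0) (hi : ∀ ρ : G → End F (Fin 4371 → F), S.Ok ρ → S.Irr ρ)
    (hu : ∀ ρ ρ' : G → End F (Fin 4371 → F), S.Ok ρ → S.Ok ρ' →
      ∃ f : (Fin 4371 → F) ≃ₗ[F] (Fin 4371 → F), ∀ g ∈ S.K, ∀ v, f (ρ g v) = ρ' g (f v)) :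
    ∀ ρ : Cfsg.Spor.BabyMonster →* GL (Fin 4371) F, Function.Injective ρ →
      (∀ W : Submodule F (Fin 4371 → F), (∀ g : Cfsg.Spor.BabyMonster, ∀ v ∈ W,
        (ρ g : Matrix (Fin 4371) (Fin 4371) F).mulVec v ∈ W) → W = ⊥ ∨ W = ⊤) ∧
      ∀ ρ' : Cfsg.Spor.BabyMonster →* GL (Fin 4371) F, Function.Injective ρ' →
        ∃ P : GL (Fin 4371) F, ∀ g : Cfsg.Spor.BabyMonster, ρ' g = P * ρ g * P⁻¹ :=
  S.fin_gen e h2 hi hu

end CL.RB
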