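/-
Extensions of the Baby Monster by the 4371-dimensional module: the complement.
-/
import Cfsg.Agent.Spor.Bx0
import Cfsg.Agent.Spor.RbFin

set_option autoImplicit false
set_option linter.unusedSectionVars false

namespace CL.BX
open Cfsg Cfsg.Spor Subgroup CL.RB CL.Mj Module
open Cfsg.Spor.Bimonster (Gen edges)

namespace BxFin

variable {G : Type*} [Group G] [Finite G] (S : Su G) {B : Type*} [Group B] (eB : B ≃* BQ S.s)
  {E : Type*} [Group E] {A : Subgroup E} [A.Normal] (e : E ⧸ A ≃* B)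

/-- the map to `B` -/
def β : centralizer ({S.s} : Set G) →* B := eB.symm.toMonoidHom.comp (QuotientGroup.mk' _)

/-- the map from `E` -/
def ε : E →* B := e.toMonoidHom.comp (QuotientGroup.mk' A)

theorem ε_eq_one {a : E} : ε e a = 1 ↔ a ∈ A :=
  (map_eq_one_iff _ e.injective).trans (QuotientGroup.eq_one_iff a)

theorem ε_surj : Function.Surjective (ε e) := e.surjective.comp (QuotientGroup.mk'_surjective A)

theorem β_eq_one {g : centralizer ({S.s} : Set G)} : β S eB g = 1 ↔ (g : G) ∈ zpowers S.s :=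
  (map_eq_one_iff _ eB.symm.injective).trans (QuotientGroup.eq_one_iff g)

/-- the pull-back -/
def PB : Subgroup (E × G) where
  carrier := {p | ∃ hg : p.2 ∈ centralizer ({S.s} : Set G), ε e p.1 = β S eB ⟨p.2, hg⟩}
  one_mem' := ⟨one_mem _, (map_one _).trans (map_one (β S eB)).symm⟩
  mul_mem' := fun {p q} ⟨h1, h2⟩ ⟨h3, h4⟩ => ⟨mul_mem h1 h3, by
    rw [Prod.fst_mul, map_mul, h2, h4, ← map_mul]; rfl⟩
  inv_mem' := fun {p} ⟨h1, h2⟩ => ⟨inv_mem h1, by rw [Prod.fst_inv, map_inv, h2, ← map_inv]; rfl⟩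

theorem mem_one {a : E} (ha : a ∈ A) : (a, (1 : G)) ∈ PB S eB e :=
  ⟨one_mem _, ((ε_eq_one e).2 ha).trans (map_one (β S eB)).symm⟩

variable {F : Type*} [Field F] {n : ℕ} (h2 : (2 : F) ≠ 0) (ρ : B →* GL (Fin n) F) (hρ : Function.Injective ρ)
  (φ : Additive ↥A ≃+ (Fin n → F))
  (hφ : ∀ (g : E) (a b : ↥A), (b : E) = g * a * g⁻¹ → φ (Additive.ofMul b) =
    (ρ (e (QuotientGroup.mk g)) : Matrix (Fin n) (Fin n) F).mulVec (φ (Additive.ofMul a)))

/-- the pull-back as an extension -/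
noncomputable def ext : Ext S.K (S.finLift eB ρ) (PB S eB e) where
  φ := (MonoidHom.snd E G).comp (PB S eB e).subtype
  ι v := ⟨(((φ.symm v).toMul : A), 1), mem_one S eB e (φ.symm v).toMul.2⟩
  rp := (S.finLift_ok eB h2 hρ).1
  add u v := Subtype.ext (Prod.ext (by simp) (by simp))
  inj v hv := by
    have h1 : ((φ.symm v).toMul : A) = 1 := Subtype.ext (congrArg (fun p => p.1.1) hv)
    exact (map_eq_zero_iff _ φ.symm.injective).1 h1
  ker := by
    rintro ⟨⟨a, g⟩, hg, h⟩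
    constructor
    · intro h1
      obtain rfl : g = 1 := h1
      have ha : a ∈ A := (ε_eq_one e).1 (h.trans (map_one (β S eB)))
      exact ⟨φ (Additive.ofMul ⟨a, ha⟩), Subtype.ext (Prod.ext (by simp) rfl)⟩
    · rintro ⟨v, hv⟩
      exact (congrArg (fun p => p.1.2) hv).symm
  mem p := p.2.1
  surj g hg := let ⟨a, ha⟩ := ε_surj e (β S eB ⟨g, hg⟩); ⟨⟨(a, g), hg, ha⟩, rfl⟩
  conj := by
    rintro ⟨⟨a, g⟩, hg, h⟩ v
    refine Subtype.ext (Prod.ext ?_ (by simp))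
    have h1 := hφ a (φ.symm v).toMul ⟨_, ‹A.Normal›.conj_mem _ (φ.symm v).toMul.2 a⟩ rfl
    have h3 : S.finLift eB ρ g v = φ (Additive.ofMul ⟨_, ‹A.Normal›.conj_mem _ (φ.symm v).toMul.2 a⟩) := by
      rw [h1, S.finLift_eq eB ρ hg, Matrix.toLin'_apply, ofMul_toMul, φ.apply_symm_apply]
      exact congrArg (fun b => (ρ b : Matrix (Fin n) (Fin n) F).mulVec v) h.symm
    show a * _ * a⁻¹ = ((φ.symm (S.finLift eB ρ g v)).toMul : A)
    rw [h3, φ.symm_apply_apply]
    rfl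

include h2 φ in
theorem no_inv {a : E} (ha : a ∈ A) (h : a * a = 1) : a = 1 := by
  have h1 : φ (Additive.ofMul ⟨a, ha⟩) + φ (Additive.ofMul ⟨a, ha⟩) = 0 := by
    rw [← map_add, ← ofMul_mul, show (⟨a, ha⟩ * ⟨a, ha⟩ : A) = 1 from Subtype.ext h, ofMul_one, map_zero]
  rw [← two_smul F, smul_eq_zero_iff_right h2, map_eq_zero_iff _ φ.injective] at h1
  exact congrArg Subtype.val (show (⟨a, ha⟩ : A) = 1 from h1)

theorem compl [Finite B] (ψ : B →* E) (h : Function.Surjective ((ε e).comp ψ)) : A.IsComplement' ψ.range := by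
  have hi := Finite.injective_iff_surjective.2 h
  refine isComplement'_of_disjoint_and_mul_eq_univ (disjoint_def.2 ?_) (Set.eq_univ_of_forall fun a => ?_)
  · rintro _ ha ⟨b, rfl⟩
    rw [(map_eq_one_iff _ hi).1 ((ε_eq_one e).2 ha), map_one]
  · obtain ⟨b, hb⟩ := h (ε e a)
    refine ⟨a * (ψ b)⁻¹, (ε_eq_one e).1 ?_, ψ b, ⟨b, rfl⟩, inv_mul_cancel_right _ _⟩
    rw [map_mul, map_inv, ← hb]
    exact mul_inv_cancel _

theorem hom {k : Gen → E} (h : ∀ m ∈ CL.BM.bNodes, ∀ n ∈ CL.BM.bNodes, (k m * k n) ^ coxLabel edges m n = 1)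
    (hs : CL.BM.spider k = 1) (h1 : (k .a * k .b2 * k .c2 * k .b3 * k .c3 * k .d3 * k .b1) ^ 9 = 1)
    (h3 : (k .a * k .b2 * k .c2 * k .b3 * k .b1 * k .c1 * k .d1) ^ 9 = 1) :
    ∃ ψ : BabyMonster →* E, ∀ i, ψ (PresentedGroup.of i) = k (CL.BM.bN i) := by
  have hR : ∀ r ∈ coxRelators BabyMonster.edges ∪ {r | r ∈ BabyMonster.extra},
      FreeGroup.lift (fun i => k (CL.BM.bN i)) r = 1 := by
    rintro r (⟨i, -, j, -, rfl⟩ | hr)
    · simp only [map_pow, map_mul, FreeGroup.lift_apply_of]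
      rw [CL.BM.bN_lab]
      exact h _ (CL.BM.bN_spec i).2.2 _ (CL.BM.bN_spec j).2.2
    · simp only [BabyMonster.extra, List.mem_cons, List.not_mem_nil, or_false, Set.mem_ofPred_eq] at hr
      rcases hr with rfl | rfl | rfl <;> simp only [map_pow, map_mul, FreeGroup.lift_apply_of]
      · have := congrArg (fun x => (k .a * k .b1 * k .c1)⁻¹ * x * (k .a * k .b1 * k .c1)⁻¹⁻¹) hs
        simp only [CL.BM.spider, ← conj_pow, mul_one, mul_inv_cancel] at this
        rw [← this]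
        simp only [CL.BM.bN]
        congr 1
        group
      · exact h1
      · exact h3
  exact ⟨PresentedGroup.toGroup hR, fun i => PresentedGroup.toGroup.of _⟩

end BxFin

open BxFin in
universe u in
theorem split_of {G : Type} [Group G] [Finite G] (S : Su G) (eB : BabyMonster ≃* BQ S.s) {y : Gen → G} (hy : S.Nd y)
    {F : Type*} [Field F] (h2 : (2 : F) ≠ 0) (ρ : BabyMonster →* GL (Fin 4371) F) (hρ : Function.Injective ρ)
    (E : Type u) [Group E] (A : Subgroup E) [A.Normal] (e : E ⧸ A ≃* BabyMonster)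
    (φ : Additive ↥A ≃+ (Fin 4371 → F))
    (hφ : ∀ (g : E) (a b : ↥A), (b : E) = g * a * g⁻¹ → φ (Additive.ofMul b) =
      (ρ (e (QuotientGroup.mk g)) : Matrix (Fin 4371) (Fin 4371) F).mulVec (φ (Additive.ofMul a)))
    (h7 : ∀ {H : Type u} [Group H] {k : Gen → H},
      (∀ m ∈ CL.BM.bNodes, ∀ n ∈ CL.BM.bNodes, (k m * k n) ^ coxLabel edges m n = 1) →
      (k .a * k .b2 * k .c2 * k .b3 * k .c3 * k .d3 * k .b1) ^ 18 = 1 ∧
        (k .a * k .b2 * k .c2 * k .b3 * k .b1 * k .c1 * k .d1) ^ 18 = 1)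
    (hT : ∀ (E' : Type u) [Group E'] (X : Ext S.K (S.finLift eB ρ) E'), S.Top X y) :
    ∃ K : Subgroup E, A.IsComplement' K := by
  have : Finite BabyMonster := Finite.of_equiv _ eB.symm.toEquiv
  obtain ⟨k, hk, hc, hs⟩ := hT _ (ext S eB e h2 ρ hρ φ hφ)
  let p : PB S eB e →* E := (MonoidHom.fst E G).comp (PB S eB e).subtype
  let q : PB S eB e →* G := (MonoidHom.snd E G).comp (PB S eB e).subtype
  have hq : ∀ n ∈ CL.BM.bNodes, q (k n) = y n := hk
  have hc0 : ∀ m ∈ CL.BM.bNodes, ∀ n ∈ CL.BM.bNodes, (p (k m) * p (k n)) ^ coxLabel edges m n = 1 :=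
    fun m hm n hn => by rw [← map_mul, ← map_pow, hc m hm n hn, map_one]
  have hs0 : CL.BM.spider (fun n => p (k n)) = 1 := by
    have := congrArg p hs
    simpa only [CL.BM.spider, map_pow, map_mul, map_one] using this
  have key : ∀ w : PB S eB e, q (w ^ 9) ∈ zpowers S.s → p w ^ 18 = 1 → p w ^ 9 = 1 := fun w h1 h3 => by
    refine no_inv h2 φ ((ε_eq_one e).1 ?_) (by rw [← pow_add]; exact h3)
    obtain ⟨hg, h4⟩ := (w ^ 9).2
    rw [← map_pow]
    exact h4.trans ((β_eq_one S eB).2 h1)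
  obtain ⟨h71, h72⟩ := h7 hc0
  have b : ∀ n, n ∈ CL.BM.bNodes → q (k n) = y n := hq
  obtain ⟨ψ, hψ⟩ := hom hc0 hs0
    (by
      simp only [← map_mul] at h71 ⊢
      refine key _ ?_ h71
      simp (disch := decide) only [map_pow, map_mul, b]
      rw [hy.e7]; exact mem_zpowers _)
    (by
      simp only [← map_mul] at h72 ⊢
      refine key _ ?_ h72
      simp (disch := decide) only [map_pow, map_mul, b]
      rw [hy.e7']; exact one_mem _)
  refine ⟨_, compl e ψ fun c => ?_⟩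
  obtain ⟨g, hg, rfl⟩ := S.fin_surj eB c
  have : CL.BM.JB y ≤ (((ε e).comp ψ).range.comap (β S eB)).map (centralizer ({S.s} : Set G)).subtype := by
    refine (closure_le _).2 ?_
    rintro _ ⟨n, hn, rfl⟩
    obtain ⟨i, rfl⟩ := CL.BM.bN_surj n hn
    obtain ⟨h3, h4⟩ := (k (CL.BM.bN i)).2
    exact ⟨⟨_, h3⟩, ⟨PresentedGroup.of i, by rw [MonoidHom.comp_apply, hψ]; exact h4⟩, hq _ hn⟩
  obtain ⟨⟨g', hg'⟩, h5, rfl⟩ := this (hy.gen hg)
  exact h5

end CL.BX
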