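/-
Extensions of the Baby Monster by the 4371-dimensional module: lifting a group with cyclic Sylow subgroups by transfer.
-/
import Cfsg.Agent.Spor.BxE

set_option autoImplicit false
set_option linter.unusedSectionVars false

namespace CL.BX.Ext
open Subgroup CL.Even CL.Grp CL.RB Module
open scoped commutatorElement
variable {G : Type*} [Group G] {F V : Type*} [Field F] [AddCommGroup V] [Module F V] {E : Type*} [Group E]
  {K : Subgroup G} {ρ : G → End F V}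

namespace GZ
variable {X : Ext K ρ E} {P P1 R : Subgroup G} {e : G} {W : Subgroup E} {v : V} {a : E}

/-- the normaliser over `P1` -/
def N (X : Ext K ρ E) (P1 : Subgroup G) (W : Subgroup E) : Subgroup E := X.rs (normalizer (W : Set E)) P1
/-- the canonical lift of `P1` -/
def L1 (X : Ext K ρ E) (P1 : Subgroup G) (W : Subgroup E) : Subgroup E := W ⊔ ⁅N X P1 W, N X P1 W⁆

variable (h : TD ρ K P P1 R e) (h1 : X.H1 R) (hW : X.Lf R W)
include h h1 hW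

theorem exN {g : G} (hg : g ∈ P) : ∃ a ∈ normalizer (W : Set E), X.φ a = g := hW.ex_norm h1 (h.le3 hg) (h.nR hg)
theorem W_le : W ≤ N X P1 W := fun _ ha => ⟨le_normalizer ha, h.le1 (hW.mem ha)⟩
theorem L1_le : L1 X P1 W ≤ N X P1 W := sup_le (W_le h h1 hW) (commutator_le_of_le_norm le_normalizer)
theorem map_N : (N X P1 W).map X.φ = P1 := le_antisymm (by rintro _ ⟨a, ha, rfl⟩; exact ha.2) fun _ hg =>
  let ⟨a, ha, e⟩ := exN h h1 hW (h.le2 hg); ⟨a, ⟨ha, show X.φ a ∈ P1 from e ▸ hg⟩, e⟩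
theorem cen (hv : X.ι v ∈ normalizer (W : Set E)) (ha : a ∈ N X P1 W) : a * X.ι v = X.ι v * a :=
  X.comm_iff.2 (h.fix _ ha.2 v (hW.fix hv))
theorem dec {b : E} (ha : a ∈ normalizer (W : Set E)) (hb : b ∈ normalizer (W : Set E)) (e : X.φ a = X.φ b) :
    ∃ v, X.ι v ∈ normalizer (W : Set E) ∧ a = X.ι v * b := by
  obtain ⟨v, rfl⟩ := X.exists_ι e
  exact ⟨v, (mul_mem_cancel_right hb).1 ha, rfl⟩

theorem key (hv : X.ι v ∈ L1 X P1 W) : v = 0 := by
  obtain ⟨g, hg, hn⟩ := h.cyc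
  obtain ⟨b, hb, rfl⟩ := (map_N h h1 hW).ge hg
  let Hs : Subgroup (N X P1 W) := ((R ⊔ zpowers (X.φ b)).comap X.φ).subgroupOf _
  have hi : Hs.index = (R ⊔ zpowers (X.φ b)).relIndex P1 :=
    (relIndex_comap _ _ _).trans (by rw [map_N h h1 hW])
  have : Hs.FiniteIndex := ⟨fun e => hn (by rw [← hi, e, Nat.cast_zero])⟩
  have hvN := L1_le h h1 hW hv
  have nW : (W.subgroupOf (normalizer (W : Set E))).Normal := normal_in_normalizer
  let q := QuotientGroup.mk' (W.subgroupOf (normalizer (W : Set E)))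
  have hq : ∀ x, q x = 1 ↔ (x : E) ∈ W := fun x => QuotientGroup.eq_one_iff x
  let μ : Hs →* normalizer (W : Set E) := (inclusion inf_le_left).comp Hs.subtype
  have c1 : ∀ x : Hs, ∃ (d : normalizer (W : Set E)) (i : ℤ), (∀ a ∈ N X P1 W, a * d = d * a) ∧ (d : E) ∈ N X P1 W ∧
      q (μ x) = q d * q ⟨b, hb.1⟩ ^ i := fun x => by
    obtain ⟨r, hr, _, ⟨i, rfl⟩, e⟩ := (mem_sup_nl ((zpowers_le.2 (h.le2 hg)).trans h.nR)).1 x.2
    obtain ⟨w, hw, rfl⟩ := hW.ex hr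
    obtain ⟨d, hd, e'⟩ := dec h h1 hW x.1.2.1 (mul_mem (le_normalizer hw) (Subgroup.zpow_mem _ hb.1 i))
      (by rw [map_mul, map_zpow]; exact e.symm)
    refine ⟨⟨_, hd⟩, i, fun a ha => cen h h1 hW hd ha, ⟨hd, show X.φ _ ∈ P1 from X.φ_ι d ▸ one_mem _⟩, ?_⟩
    rw [show μ x = ⟨_, hd⟩ * (⟨w, le_normalizer hw⟩ * ⟨b, hb.1⟩ ^ i) from Subtype.ext e', map_mul, map_mul,
      (hq ⟨w, _⟩).2 hw, one_mul, map_zpow]
  have c2 : commutator Hs ≤ (q.comp μ).ker := commutator_le.2 fun x _ y _ => by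
    obtain ⟨d, i, d1, d2, e1⟩ := c1 x
    obtain ⟨d', j, d1', d2', e2⟩ := c1 y
    have k : ∀ {u w : normalizer (W : Set E)}, (u : E) * w = w * u → Commute (q u) (q w) := fun e =>
      Commute.map (Subtype.ext e) q
    rw [MonoidHom.mem_ker, map_commutatorElement, commutatorElement_eq_one_iff_commute, MonoidHom.comp_apply,
      MonoidHom.comp_apply, e1, e2]
    exact ((k (d1' _ d2)).mul_right ((k (d1 _ hb).symm).zpow_right j)).mul_left
      (((k (d1' _ hb)).zpow_left i).mul_right (Commute.zpow_zpow_self _ i j))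
  let θ := MonoidHom.transfer (Abelianization.of : Hs →* _)
  obtain ⟨r, hr, c, hc, e⟩ := (mem_sup_nl ((commutator_le_of_le_norm le_normalizer).trans inf_le_left)).1 hv
  have hrN := W_le h h1 hW hr
  have hcN : c ∈ N X P1 W := commutator_le_of_le_norm le_normalizer hc
  have θc : θ ⟨c, hcN⟩ = 1 := by
    have h2 : ⁅N X P1 W, N X P1 W⁆ ≤ θ.ker.map (N X P1 W).subtype := commutator_le.2 fun x hx y hy =>
      ⟨⁅(⟨x, hx⟩ : N X P1 W), ⟨y, hy⟩⁆, by
        rw [SetLike.mem_coe, MonoidHom.mem_ker, map_commutatorElement, commutatorElement_eq_one_iff_mul_comm, mul_comm],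
        rfl⟩
    obtain ⟨c', h3, rfl⟩ := h2 hc
    exact h3
  obtain ⟨j, hj⟩ := h.two ⟨_, hW.mem hr⟩
  have r1 : (⟨r, hrN⟩ : N X P1 W) ^ 2 ^ j = 1 :=
    Subtype.ext (hW.eq_one (pow_mem hr _) (by rw [SubgroupClass.coe_pow, map_pow]; exact congrArg Subtype.val hj))
  have t1 := MonoidHom.transfer_eq_pow (Abelianization.of : Hs →* _) ⟨X.ι v, hvN⟩ fun k g₀ _ => by
    rw [mul_assoc, (Commute.pow_left (Subtype.ext (cen h h1 hW hvN.1 g₀.2).symm) k).eq, inv_mul_cancel_left]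
  have t2 : θ ⟨X.ι v, hvN⟩ ^ 2 ^ j = 1 := by
    rw [show (⟨X.ι v, hvN⟩ : N X P1 W) = ⟨r, hrN⟩ * ⟨c, hcN⟩ from Subtype.ext e.symm, map_mul, θc, mul_one, ← map_pow,
      r1, map_one]
  rw [t1, ← map_pow] at t2
  have t3 : (X.ι v ^ Hs.index) ^ 2 ^ j ∈ W := (hq _).1 (c2 ((QuotientGroup.eq_one_iff _).1 t2))
  rw [← X.ι_pow, ← X.ι_pow] at t3
  have t4 := hW.2 _ t3
  rw [← Nat.cast_smul_eq_nsmul F, ← Nat.cast_smul_eq_nsmul F, smul_eq_zero, smul_eq_zero, hi, Nat.cast_pow] at t4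
  exact (t4.resolve_left (pow_ne_zero _ (by exact_mod_cast X.rp.two))).resolve_left hn

theorem lf1 : X.Lf P1 (L1 X P1 W) := ⟨by
  rw [L1, Subgroup.map_sup, map_commutator, map_N h h1 hW, hW.1]
  exact le_antisymm (sup_le h.le1 (commutator_le_of_le_norm le_normalizer)) h.perf, fun _ => key h h1 hW⟩

theorem ex : ∃ L, X.Lf P L := by
  obtain ⟨b, hb, e1⟩ := exN h h1 hW h.eP
  have l1 := lf1 h h1 hW
  have nN : zpowers b ≤ normalizer (N X P1 W : Set E) :=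
    zpowers_le.2 (X.norm_rs (le_normalizer hb) (e1 ▸ h.n1 h.eP))
  have nL : b ∈ normalizer (L1 X P1 W : Set E) :=
    le_norm_sup (zpowers_le.2 hb) (le_norm_commutator nN nN) (mem_zpowers b)
  have ee : e * e ∈ P1 := (h.two' _ (mul_mem h.eP h.eP)).resolve_right fun k => h.e1 (by simpa using k)
  have bb : b * b ∈ L1 X P1 W := by
    obtain ⟨l, hl, e2⟩ := l1.ex ee
    obtain ⟨d, hd, e3⟩ := dec h h1 hW (mul_mem hb hb) (L1_le h h1 hW hl).1 (by rw [map_mul, e1, e2])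
    have e4 : X.ι (d + d) = b * l * b⁻¹ * l⁻¹ := by
      have e5 : b * X.ι d * b⁻¹ = (X.ι d)⁻¹ := by rw [X.conj, e1, h.neg d (hW.fix hd), X.ι_neg]
      rw [X.add, eq_mul_inv_iff_mul_eq, mul_assoc, ← e3, ← eq_inv_mul_iff_mul_eq, ← e5]
      calc _ = b * (b * b) * b⁻¹ := by group
        _ = _ := by rw [e3]; group
    have e6 := l1.2 _ (e4 ▸ mul_mem (conj_mem nL hl) (inv_mem hl))
    rw [e3, eq_zero_of_eq_neg X.rp.two (eq_neg_of_add_eq_zero_left e6), X.ι_zero, one_mul]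
    exact hl
  let L : Subgroup E :=
    { carrier := {x | x ∈ L1 X P1 W ∨ b⁻¹ * x ∈ L1 X P1 W}
      one_mem' := Or.inl (one_mem _)
      mul_mem' := by
        rintro x y (hx | hx) (hy | hy)
        · exact Or.inl (mul_mem hx hy)
        · exact Or.inr (by simpa [mul_assoc] using mul_mem (conj_mem' nL hx) hy)
        · exact Or.inr (by simpa [mul_assoc] using mul_mem hx hy)
        · exact Or.inl (by simpa [mul_assoc] using mul_mem (mul_mem (conj_mem nL hx) bb) hy)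
      inv_mem' := by
        rintro x (hx | hx)
        · exact Or.inl (inv_mem hx)
        · exact Or.inr (by simpa [mul_assoc] using mul_mem (conj_mem' nL (inv_mem hx)) (inv_mem bb)) }
  refine ⟨L, le_antisymm ?_ fun c hc => ?_, fun v hv => hv.elim (l1.2 v) fun k => ?_⟩
  · rintro _ ⟨x, hx | hx, rfl⟩
    · exact h.le2 (l1.mem hx)
    · simpa [e1] using mul_mem h.eP (h.le2 (l1.mem hx))
  · rcases h.two' c hc with k | k <;> obtain ⟨l, hl, e2⟩ := l1.ex k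
    · exact ⟨l, Or.inl hl, e2⟩
    · exact ⟨b * l, Or.inr (by simpa using hl), by rw [map_mul, e1, e2, mul_inv_cancel_left]⟩
  · exact absurd (by simpa [e1, X.φ_ι] using l1.mem k) h.e1

theorem rs1 {M : Subgroup E} (hM : X.Lf P M) (e1 : X.rs M R = W) :
    M ≤ normalizer (W : Set E) ∧ L1 X P1 W = X.rs M P1 := by
  have n : M ≤ normalizer (W : Set E) := fun a ha => e1 ▸ X.norm_rs (le_normalizer ha) (h.nR (hM.mem ha))
  have k : ∀ x ∈ N X P1 W, ∃ d m, X.ι d ∈ N X P1 W ∧ m ∈ X.rs M P1 ∧ m ∈ N X P1 W ∧ x = X.ι d * m := fun x hx => by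
    obtain ⟨m, hm, e2⟩ := (hM.rs h.le2).ex hx.2
    obtain ⟨d, hd, e3⟩ := dec h h1 hW hx.1 (n hm.1) e2.symm
    exact ⟨d, m, ⟨hd, show X.φ _ ∈ P1 from X.φ_ι d ▸ one_mem _⟩, hm, ⟨n hm.1, hm.2⟩, e3⟩
  refine ⟨n, (lf1 h h1 hW).eq_of_le (hM.rs h.le2) (sup_le (e1 ▸ inf_le_inf_left _ (comap_mono h.le1))
    (commutator_le.2 fun x hx y hy => ?_))⟩
  obtain ⟨d, m, d1, m1, m2, rfl⟩ := k x hx
  obtain ⟨d', m', d1', m1', m2', rfl⟩ := k y hy
  have c : ∀ {u : V} {a b : E}, X.ι u ∈ N X P1 W → a ∈ N X P1 W → b ∈ N X P1 W → ⁅X.ι u * a, b⁆ = ⁅a, b⁆ :=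
    fun {u a b} hu ha hb => by
      rw [show ⁅X.ι u * a, b⁆ = X.ι u * (a * b * a⁻¹) * (X.ι u)⁻¹ * b⁻¹ by group,
        ← cen h h1 hW hu.1 (mul_mem (mul_mem ha hb) (inv_mem ha)), mul_inv_cancel_right, commutatorElement_def]
  rw [c d1 m2 hy, ← commutatorElement_inv, c d1' m2' m2]
  exact inv_mem (commutator_le_of_le_norm le_normalizer (commutator_mem_commutator m1' m1))

theorem cnj {M M' : Subgroup E} (hM : X.Lf P M) (hM' : X.Lf P M') (e1 : X.rs M R = W) (e2 : X.rs M' R = W) :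
    ∃ v, M' = cj (X.ι v) M := by
  obtain ⟨n, l⟩ := rs1 h h1 hW hM e1
  obtain ⟨n', l'⟩ := rs1 h h1 hW hM' e2
  obtain ⟨b, hb, e3⟩ := hM.ex h.eP
  obtain ⟨b', hb', e4⟩ := hM'.ex h.eP
  obtain ⟨d, hd, e5⟩ := dec h h1 hW (n' hb') (n hb) (e4.trans e3.symm)
  have hu : ∀ r ∈ R, ρ r ((2 : F)⁻¹ • d) = (2 : F)⁻¹ • d := fun r hr => by rw [map_smul, hW.fix hd r hr]
  have k1 : b' ∈ cj (X.ι ((2 : F)⁻¹ • d)) M := by
    have := conj_mem_cj (X.ι ((2 : F)⁻¹ • d)) hb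
    rwa [X.ι_conj, e3, h.neg _ hu, sub_neg_eq_add, ← add_smul, ← two_mul, mul_inv_cancel₀ X.rp.two, one_smul,
      ← e5] at this
  have k2 : X.rs M' P1 ≤ cj (X.ι ((2 : F)⁻¹ • d)) M := by
    rw [← l', l, ← (hM.rs h.le2).cj_fix fun c hc => h.fix c hc _ hu]
    exact cj_mono _ inf_le_left
  refine ⟨(2 : F)⁻¹ • d, hM'.eq_of_le (hM.cj_ι _) fun x hx => ?_⟩
  rcases h.two' _ (hM'.mem hx) with k | k
  · exact k2 ⟨hx, k⟩
  · simpa using mul_mem k1 (k2 (x := b'⁻¹ * x) ⟨M'.mul_mem (inv_mem hb') hx, by simpa [e4] using k⟩)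

end GZ

theorem hp_of_td (X : Ext K ρ E) (hA : X.Avg) {P P1 R : Subgroup G} {e : G} (h : TD ρ K P P1 R e) : X.HP P := by
  have := h.fin
  have l := h.le1.trans h.le2
  obtain ⟨⟨W, hW⟩, h1⟩ := hA R (l.trans h.le3) (Finite.of_injective _ (inclusion_injective l)) h.two
  refine ⟨GZ.ex h h1 hW, fun L L' hL hL' => ?_, fun v hv =>
    eq_zero_of_eq_neg X.rp.two ((hv e h.eP).symm.trans (h.neg v fun r hr => hv r (l hr)))⟩
  obtain ⟨u, hu⟩ := h1 _ _ (hL.rs l) (hL'.rs l)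
  obtain ⟨v, hv⟩ := GZ.cnj h h1 (hL'.rs l) (hL.cj_ι u) hL' (by rw [hu, X.cj_rs_ι]) rfl
  exact ⟨v + u, by rw [X.add, cj_mul, hv]⟩

end CL.BX.Ext
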