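/-
Project BX (S5590): three extraspecial groups without common fixed vector; commuting lines.
-/
import Cfsg.Agent.Spor.Bx0

set_option autoImplicit false
set_option linter.unusedSectionVars false

namespace CL.RB.Su
open Cfsg Cfsg.Spor Subgroup CL.Even CL.Grp CL.Spor.Leech CL.Spor.Mon CL.Mj CL.BX CL.BM Module MulAction
variable {G : Type*} [Group G] [Finite G] {F V : Type*} [Field F] [AddCommGroup V] [Module F V]
  {S : Su G} {ρ : G → End F V}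

theorem bx_kill (h : Rp S.K ρ) (hR : S.Rig ρ) : S.Kill ρ := by
  intro x y y' a hy' n v h1 h2 h3
  have hy := a.2.1
  have good : ∀ g ∈ S.K, ρ g v = v → ∀ u, (∀ r ∈ S.Qk u, ρ r v = v) → ∀ r ∈ S.Qk (g * u * g⁻¹), ρ r v = v := by
    intro g hg e u k r hr
    rw [← S.cj_Qk hg] at hr
    obtain ⟨r, hr, rfl⟩ := hr
    have e' : ρ g⁻¹ v = v := by conv_lhs => rw [← e, h.inv_app hg]
    change ρ (g * r * g⁻¹) v = v
    rw [h.app (mul_mem hg hr.2) (inv_mem hg), e', h.app hg hr.2, k r hr, e]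
  obtain ⟨q, hq, nq⟩ : ∃ q ∈ S.Q ⊓ S.Qv y, q * y' ≠ y' * q := by
    by_contra! k
    exact n.not_mem hy hy' (S.YY_cent hy (S.TT_Q1 hy').1 k)
  have g1 := good q (S.YY_K hy hq) (h2 q ⟨hq.2, S.YY_K hy hq⟩) y' h3
  rw [conj_eq_of_ne S.xe hq.1 (S.TT_Q1 hy').1 nq] at g1
  obtain ⟨r, hr, e⟩ := S.Qk_mv hy'
  have g2 := good r⁻¹ (inv_mem hr.2) (h3 _ (inv_mem hr)) _ g1
  rw [← e, show r⁻¹ * (r * S.z * r⁻¹) * r⁻¹⁻¹ = S.z by group, Qk_z] at g2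
  refine hR x y y a hy a.2.2.1 (S.TT_xe hy).mem v fun r hr k => ?_
  have hK := S.PP_le_K hr.2
  rcases k with k | k | k
  exacts [g2 r (S.Qk_z ▸ (⟨S.Qv_z.symm ▸ k, hK⟩ : r ∈ S.Qk S.z)), h1 r ⟨k, hK⟩, h2 r ⟨k, hK⟩]

theorem bx_cm (S : Su G) : S.Cm := by
  have key : ∀ m y, S.Lin m → S.Adj (S.tm m) y → m * y * m⁻¹ = y ∨
      (m * y * m⁻¹ = S.z * S.tm m * y ∧ m * (S.z * y) * m⁻¹ = S.z * y) := fun m y l a =>
    (conj_cases (S.TT_xe (S.TT_z l.tT)) l.mQ (S.YY_z l.tT ⟨(S.TT_Q1 a.2.1).1, a.2.2.1⟩)).imp_right fun e => ⟨e, by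
      rw [← conj_mul, e, ← mul_assoc, ← mul_assoc]
      change S.tm m * S.z * S.tm m * y = _
      rw [S.TT_zc l.tT, mul_assoc S.z, S.TT_sq l.tT, mul_one]⟩
  have mix : ∀ m n y, S.Lin m → S.Lin n → m * n = n * m → S.NAdj (S.tm m) (S.tm n) → m * y * m⁻¹ = y →
      n * y * n⁻¹ = S.z * S.tm n * y → False := fun m n y l l' c a e e' => by
    have k : m * (n * y * n⁻¹) * m⁻¹ = n * y * n⁻¹ := by
      rw [show m * (n * y * n⁻¹) * m⁻¹ = m * n * y * (m * n)⁻¹ by group, c,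
        show n * m * y * (n * m)⁻¹ = n * (m * y * m⁻¹) * n⁻¹ by group, e]
    rw [e', ← conj_mul, e, mul_left_inj, ← conj_mul] at k
    change S.tm m * _ = _ at k
    have k' : m * S.tm n * m⁻¹ = S.tm m * S.tm n * S.z := by
      rw [mul_assoc (S.tm m), S.TT_zc l'.tT, ← k, ← mul_assoc (S.tm m), S.TT_sq l.tT, one_mul]
    exact S.gd.not_conj' (S.gd.T_mul_z (mul_mem (S.TT_Q1 l.tT).1 (S.TT_Q1 l'.tT).1) a)
      ((S.TT_isConj l'.tT).trans (isConj_iff.2 ⟨m, k'⟩))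
  intro m n y l l' c a a1 a2
  rcases key m y l a1 with e | e <;> rcases key n y l' a2 with e' | e'
  · exact ⟨y, .inl rfl, mul_inv_eq_iff_eq_mul.1 e, mul_inv_eq_iff_eq_mul.1 e'⟩
  · exact (mix m n y l l' c a e e'.1).elim
  · exact (mix n m y l' l c.symm a.symm e' e.1).elim
  · exact ⟨_, .inr rfl, mul_inv_eq_iff_eq_mul.1 e.2, mul_inv_eq_iff_eq_mul.1 e'.2⟩

end CL.RB.Su
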