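/-
Extensions of the Baby Monster by the 4371-dimensional module: the transfer data for the centraliser of `z, s, t`.
-/
import Cfsg.Agent.Spor.Bx0

set_option autoImplicit false
set_option linter.unusedSectionVars false

namespace CL.RB.Su
open Cfsg Cfsg.Spor Subgroup CL.Even CL.Grp CL.Spor CL.Spor.Leech CL.Spor.Mon CL.Mj CL.BX CL.BM Module MulAction
open scoped commutatorElement

variable {G : Type*} [Group G] [Finite G] {F V : Type*} [Field F] [AddCommGroup V] [Module F V]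
  {S : Su G} {ρ : G → End F V}

namespace BXP0

/-- monomial elements fixing `U` and `U'` -/
noncomputable def N3 : Subgroup Co0 := N2 ⊓ stabilizer Co0 leechU'

theorem EE_le_N3 : EE ≤ N3 := fun _ hk => ⟨EE_le_N2 hk, by
  obtain ⟨⟨d, hd, rfl⟩, h⟩ := id hk
  exact (eps_fix hd (eps_mem_EE.1 hk).1 (eps_mem_EE.1 hk).2).2⟩

theorem N3_perf : N3 ≤ EE ⊔ ⁅N3, N3⁆ := by
  rintro k ⟨⟨hk, h1⟩, h2⟩
  obtain ⟨c, hc, σ, rfl⟩ := mem_Nsub_iff_eps_pm.1 hk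
  have k : ∀ i, (eps c hc * pm σ) • e8 i = e8 i → σ • i = i ∧ i ∉ c := fun i e => by
    rw [mul_smul, pm_e8] at e
    have h3 : σ • i = i := by_contra fun n => by
      have := congrFun (congrArg Subtype.val e) i
      rw [eps_apply] at this
      simp [coe_e8, Ne.symm n] at this
    exact ⟨h3, eps_e8_iff.1 (h3 ▸ e)⟩
  have k1 := k none (by rw [← U_add_U', smul_add, mem_stabilizer_iff.1 h1, mem_stabilizer_iff.1 h2])
  have k2 := k p0 (by rw [← U_sub_U', smul_sub, mem_stabilizer_iff.1 h1, mem_stabilizer_iff.1 h2])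
  have hM : pmFix {none, p0} ≤ N3 := by
    rintro _ ⟨τ, hτ, rfl⟩
    have := pm_fix (mem_fixS.1 hτ _ (by simp)) (mem_fixS.1 hτ _ (by simp))
    exact ⟨⟨pm_mem τ, this.1⟩, this.2⟩
  have := M22_simple'
  have h4 := CL.Inv.commutator_eq_top_of_simple (G := pmFix {none, p0}) fun h =>
    absurd (@IsSimpleGroup.prime_card (pmFix {none, p0}) ⟨h.1.1⟩ this) (by rw [Leech.card_M22']; norm_num)
  refine mul_mem (mem_sup_left (eps_mem_EE.2 ⟨k1.2, k2.2⟩)) (mem_sup_right (commutator_mono hM hM ?_))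
  have h5 := congrArg (map (pmFix {none, p0}).subtype) h4
  rw [_root_.commutator_def, map_commutator, ← MonoidHom.range_eq_map, range_subtype] at h5
  exact h5.ge ⟨σ, mem_fixS.2 (by simpa using ⟨k1.1, k2.1⟩), rfl⟩

/-- the elements of `P0` over a subgroup -/
def ov (S : Su G) (N : Subgroup Co0) : Subgroup G where
  carrier := {c | c ∈ S.P0 ∧ ∃ k ∈ N, S.Im c k}
  one_mem' := ⟨one_mem _, 1, one_mem _, S.im_one.2 (one_mem _)⟩
  mul_mem' := fun ⟨h1, _, h2, h3⟩ ⟨h4, _, h5, h6⟩ => ⟨mul_mem h1 h4, _, mul_mem h2 h5, Im.mul S h3 h6⟩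
  inv_mem' := fun ⟨h1, _, h2, h3⟩ => ⟨inv_mem h1, _, inv_mem h2, Im.inv S h3⟩

/-- the elements under `L ⊓ P0` -/
def un (S : Su G) (L : Subgroup G) : Subgroup Co0 where
  carrier := {k | ∃ c ∈ L, c ∈ S.P0 ∧ S.Im c k}
  one_mem' := ⟨1, one_mem _, one_mem _, S.im_one.2 (one_mem _)⟩
  mul_mem' := fun ⟨_, h1, h2, h3⟩ ⟨_, h4, h5, h6⟩ => ⟨_, mul_mem h1 h4, mul_mem h2 h5, Im.mul S h3 h6⟩
  inv_mem' := fun ⟨_, h1, h2, h3⟩ => ⟨_, inv_mem h1, inv_mem h2, Im.inv S h3⟩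

theorem card_ov (S : Su G) {N : Subgroup Co0} (hN : N ≤ Nsub) : Nat.card (ov S N) ∣ 2 ^ 25 * 1002795171840 := by
  have hle : ov S N ≤ centralizer {S.z} := fun _ h => h.1.1.1
  let f : ov S N →* Co1 := S.π.comp (inclusion hle)
  have h1 : Nat.card f.ker ∣ 2 ^ 25 := by
    rw [← S.mt.card, ← card_map_of_injective (ov S N).subtype_injective]
    refine card_dvd_of_le ?_
    rintro _ ⟨c, hc, rfl⟩
    exact (S.mt.ker _).1 hc
  have h2 : Nat.card f.range ∣ 1002795171840 := by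
    rw [← card_Nsub']
    refine (card_dvd_of_le (show f.range ≤ Nsub.map mk1 from ?_)).trans (card_map_dvd _ _)
    rintro _ ⟨c, rfl⟩
    obtain ⟨k, hk, _, e⟩ := c.2.2
    exact ⟨k, hN hk, e.symm⟩
  rw [← f.ker.card_mul_index, index_ker]
  exact mul_dvd_mul h1 h2

theorem cyc (h2 : (2 : F) ≠ 0) (h3 : (3 : F) ≠ 0) {P : Subgroup G} (hP : Nat.card P ∣ 2 ^ 25 * 1002795171840)
    (R : Subgroup G) : ∃ g ∈ P, (((R ⊔ zpowers g).relIndex P : ℕ) : F) ≠ 0 := by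
  by_cases hp : ringChar F ∣ Nat.card P
  swap
  · exact ⟨1, one_mem _, fun e => hp (((ringChar.spec F _).1 e).trans (relIndex_dvd_card _ _))⟩
  have pp : (ringChar F).Prime := (CharP.char_is_prime_or_zero F _).resolve_right fun e =>
    Nat.card_pos.ne' (zero_dvd_iff.1 (e ▸ hp))
  have : Fact (ringChar F).Prime := ⟨pp⟩
  obtain ⟨g, hg⟩ := exists_prime_orderOf_dvd_card' (G := P) _ hp
  refine ⟨g, g.2, fun e => ?_⟩
  have h4 := ((ringChar.spec F _).1 e).trans (relIndex_dvd_of_le_left P (le_sup_right : zpowers (g : G) ≤ _))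
  have h5 := ((zpowers (g : G)).subgroupOf P).card_mul_index
  rw [Nat.card_congr (subgroupOfEquivOfLe (zpowers_le.2 g.2)).toEquiv, Nat.card_zpowers, orderOf_coe, hg] at h5
  have h6 : ringChar F * ringChar F ∣ 2 ^ 47 * 3 ^ 3 * 8855 := ((mul_dvd_mul_left _ h4).trans h5.dvd).trans hP
  have c2 : (ringChar F).Coprime 2 := (Nat.Prime.coprime_iff_not_dvd pp).2 fun e => h2 ((ringChar.spec F 2).2 e)
  have c3 : (ringChar F).Coprime 3 := (Nat.Prime.coprime_iff_not_dvd pp).2 fun e => h3 ((ringChar.spec F 3).2 e)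
  have c4 := (c2.pow_right 47).mul_right (c3.pow_right 3)
  have h7 := (c4.mul_left c4).dvd_of_dvd_mul_left h6
  have h8 : ringChar F < 95 := by
    have := Nat.le_of_dvd (by norm_num) h7
    nlinarith
  exact pp.ne_one ((by decide +kernel : ∀ p < 95, p * p ∣ 8855 → p = 1) _ h8 h7)

end BXP0

open BXP0 in
theorem bx_td (hG : S.GF) (h : S.Gd ρ) (h0 : S.E0 ρ) (h3 : (3 : F) ≠ 0) :
    ∃ P1 e, Ext.TD ρ S.K S.P0 P1 (S.R1 ⊔ S.R2) e := by
  have hk0 : cfX * cfe * cfX ∈ N2 := ⟨exists_cf.gN, (stabilizer Co0 leechU).mul_mem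
    (mul_mem exists_cf.xU (EE_le exists_cf.eE)) exists_cf.xU⟩
  have gU := exists_cf.gU
  generalize cfX * cfe * cfX = k0 at hk0 gU
  obtain ⟨e, eP, ek⟩ := hG.liftP k0 hk0
  have r1 : ∀ c ∈ S.P0, c ∈ S.Q → c ∈ S.R1 := fun c hc hq => ⟨⟨hq, hc.1.2⟩, hc.2⟩
  have le1 : S.R1 ⊔ S.R2 ≤ ov S N3 := sup_le
    (fun r hr => ⟨S.R1_le_P0 hr, 1, one_mem _, S.im_one.2 hr.1.1⟩)
    fun r hr => let ⟨k, hk, e⟩ := hG.img2 r hr; ⟨S.R2_le_P0 hr, k, EE_le_N3 hk, e⟩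
  have n1 : S.P0 ≤ 𝒩(S.R1) := fun c hc => mem_normalizer_iff''.2 fun x => (S.conj_R1 hc).symm
  have n2 : S.P0 ≤ 𝒩(S.R2) := fun c hc => mem_normalizer_iff''.2 fun x => (S.conj_R2 hc).symm
  have d0 : ∀ v, (∀ r ∈ S.R1 ⊔ S.R2, ρ r v = v) → v ∈ S.D0 ρ := fun v hv =>
    ⟨h.wt_R1 (mem_Wt_one.2 fun r hr => hv r (mem_sup_left hr)), mem_Wt_one.2 fun r hr => hv r (mem_sup_right hr)⟩
  refine ⟨ov S N3, e, ⟨inferInstance, le1, fun _ hc => hc.1, S.P0_le_K,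
    isPGroup_sup S.p2R1 S.p2R2 (S.R1_le_P0.trans n2), le_norm_sup n1 n2, le_normalizer_iff.2 ?_, ?_, eP, ?_, ?_, ?_, ?_,
    cyc h.rp.two h3 (card_ov S (inf_le_left.trans inf_le_left)) _⟩⟩
  · rintro c hc x ⟨h1, k, hk, h2⟩
    obtain ⟨l, hl, h4⟩ := hG.imgP c hc
    refine ⟨mul_mem (mul_mem hc h1) (inv_mem hc), _, ⟨N2.mul_mem (mul_mem hl hk.1) (inv_mem hl), ?_⟩,
      Im.mul S (Im.mul S h4 h2) (Im.inv S h4)⟩
    have h5 : k • leechU' = leechU' := hk.2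
    show (l * k * l⁻¹) • leechU' = leechU'
    rw [mul_smul, mul_smul]
    rcases N2_U' (inv_mem hl) with h6 | h6
    · rw [h6, h5, ← h6, smul_inv_smul, h6]
    · rw [h6, smul_neg, h5, ← h6, smul_inv_smul]
  · rintro c ⟨h1, k, hk, h2⟩ v hv
    rw [h0 c h1 k hk.1 h2 v (d0 v hv), eN_pos hk.2, one_smul]
  · rintro ⟨-, k, hk, h2⟩
    obtain rfl := Im.eq S h2 ek hk.1.2 hk0.2
    exact U'_ne_neg (gU.symm.trans hk.2)
  · intro c hc
    obtain ⟨l, hl, h4⟩ := hG.imgP c hc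
    refine (N2_U' hl).imp (fun h5 => ⟨hc, l, ⟨hl, h5⟩, h4⟩) fun h5 =>
      ⟨mul_mem (inv_mem eP) hc, _, ⟨N2.mul_mem (inv_mem hk0) hl, ?_⟩, Im.mul S (Im.inv S ek) h4⟩
    show (k0⁻¹ * l) • leechU' = leechU'
    rw [mul_smul, h5, ← gU, inv_smul_smul]
  · intro v hv
    rw [h0 e eP k0 hk0 ek v (d0 v hv), eN_neg (gU ▸ U'_ne_neg), neg_one_smul]
  · rintro c ⟨h1, k, hk, h2⟩
    have h4 : EE ⊔ ⁅N3, N3⁆ ≤ un S (S.R1 ⊔ S.R2 ⊔ ⁅ov S N3, ov S N3⁆) := by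
      refine sup_le (fun l hl => ?_) (commutator_le.2 fun a ha b hb => ?_)
      · obtain ⟨r, hr, h5⟩ := hG.lift2 l hl
        exact ⟨r, mem_sup_left (mem_sup_right hr), S.R2_le_P0 hr, h5⟩
      · obtain ⟨a', a1, a2⟩ := hG.liftP a ha.1
        obtain ⟨b', b1, b2⟩ := hG.liftP b hb.1
        exact ⟨⁅a', b'⁆, mem_sup_right (commutator_mem_commutator ⟨a1, a, ha, a2⟩ ⟨b1, b, hb, b2⟩),
          mul_mem (mul_mem (mul_mem a1 b1) (inv_mem a1)) (inv_mem b1),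
          Im.mul S (Im.mul S (Im.mul S a2 b2) (Im.inv S a2)) (Im.inv S b2)⟩
    obtain ⟨c', h5, h6, h7⟩ := h4 (N3_perf hk)
    simpa using mul_mem h5 (mem_sup_left (mem_sup_left (r1 _ (mul_mem (inv_mem h6) h1) (Im.div S h7 h2))))

end CL.RB.Su
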