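/-
Project BX (S5590): the lifts of `Q1` agree, and the lifts of two lines commute.
-/
import Cfsg.Agent.Spor.Bx0

set_option autoImplicit false
set_option linter.unusedSectionVars false

namespace CL.RB.Su
open Cfsg Cfsg.Spor Subgroup CL.Even CL.Grp CL.Spor.Leech CL.Spor.Mon CL.Mj CL.BX CL.BM Module MulAction
variable {G : Type*} [Group G] [Finite G] {F V : Type*} [Field F] [AddCommGroup V] [Module F V] {E : Type*} [Group E]
  {S : Su G} {ρ : G → End F V} {X : Ext S.K ρ E}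

namespace BxPair
variable {y x : G} {L M : Subgroup E}

/-- elements over the same element of the normaliser of the plane centraliser are equal -/
theorem eq (hR : S.Rig ρ) (c : S.Cp X y L x M) (a : S.Adj y x) {e e' : E}
    (he : e ∈ normalizer (X.rs L (S.PP y ⊓ S.PP x) : Set E)) (he' : e' ∈ normalizer (M : Set E))
    (n : X.φ e' ∈ normalizer ((S.PP y ⊓ S.PP x : Subgroup G) : Set G)) (k : X.φ e = X.φ e') : e = e' :=
  (c.1.rs inf_le_left).norm_eq (a.rg hR) he (c.2.2 ▸ X.norm_rs he' n) k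

theorem le (hP : X.HP S.P0) (hR : S.Rig ρ) (c : S.Cp X y L x M) (a : S.Adj y x) :
    X.rs (normalizer (L : Set E)) S.Q1 ≤ X.rs (normalizer (M : Set E)) S.Q1 := fun e he => by
  obtain ⟨e', he', k⟩ := c.2.1.ex_norm (S.HP_TT a.2.1 hP).2.1 (X.mem e) (S.Q1_norm a.2.1 he.2)
  have n := S.Q1_norm2 a.1 a.2.1 he.2
  exact ⟨eq hR c a (X.norm_rs he.1 n) he' (k ▸ n) k.symm ▸ he', he.2⟩

theorem nrm (hP : X.HP S.P0) (hR : S.Rig ρ) {e : E} (l : S.Lin (X.φ e)) (c : S.Cp X (S.tm (X.φ e)) L x M)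
    (a : S.Adj (S.tm (X.φ e)) x) (he : e ∈ normalizer (L : Set E)) (k : X.φ e * x = x * X.φ e) :
    e ∈ normalizer (X.rs (normalizer (M : Set E)) (S.Qk x) : Set E) := by
  have w := (c.2.1.norm (S.HP_TT a.2.1 hP)).rs (J := S.Qk x) (le_inf inf_le_right (S.Qk_norm1 a.2.1))
  have w' := w.cnj e
  rw [S.cj_Qk l.mK, k, mul_inv_cancel_right] at w'
  refine cj_eq_iff_mem.1 (w'.eq_of_le w fun b hb => ?_)
  obtain ⟨b', hb', k'⟩ := w.ex (w'.mem hb)
  obtain ⟨b, hb, rfl⟩ := hb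
  have n := X.norm_rs he (l.norm2 k)
  have n' : b ∈ normalizer (X.rs L (S.PP (S.tm (X.φ e)) ⊓ S.PP x) : Set E) := c.2.2 ▸ X.norm_rs hb.1 (a.norm' hb.2)
  exact (congrArg (· ∈ _) (eq hR c a (mul_mem (mul_mem n n') (inv_mem n)) hb'.1 (a.norm' hb'.2) k'.symm)).mpr hb'

end BxPair

theorem bx_qeq (hP : X.HP S.P0) (hR : S.Rig ρ) : S.Qeq X := fun _ _ _ _ _ ⟨a, a', _, c, c'⟩ =>
  ((BxPair.le hP hR c a).antisymm (BxPair.le hP hR (S.cp_symm c) a.symm)).trans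
    ((BxPair.le hP hR (S.cp_symm c') a'.symm).antisymm (BxPair.le hP hR c' a'))

theorem bx_pair (hP : X.HP S.P0) (hR : S.Rig ρ) (hK : S.Kill ρ) (hC : S.Cm) : S.Pair X := by
  rintro L L' e e' l l' cm n ⟨x, x1, x2, c0, c1, c2, a, na⟩ he he'
  obtain ⟨v, hv⟩ := (X.ker (e * e' * e⁻¹ * e'⁻¹)).1 (by
    rw [map_mul, map_mul, map_mul, cm, map_inv, map_inv]; group)
  have key : ∀ x, S.Cn X (S.tm (X.φ e)) L (S.tm (X.φ e')) L' x →
      ∃ x', (x' = x ∨ x' = S.z * x) ∧ ∀ r ∈ S.Qk x', ρ r v = v := fun x ⟨a, a', M, c, c'⟩ => by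
    obtain ⟨x', hx, k, k'⟩ := hC _ _ x l l' cm n a a'
    have t : ∀ {y N}, S.Adj y x → S.Cp X y N x M → S.Adj y x' ∧ S.Cp X y N x' M := fun a c => by
      rcases hx with rfl | rfl
      · exact ⟨a, c⟩
      · exact ⟨a.zr, by simpa only [Cp, PP_z] using c⟩
    have n1 := BxPair.nrm hP hR l (t a c).2 (t a c).1 he k
    have n2 := BxPair.nrm hP hR l' (t a' c').2 (t a' c').1 he' k'
    exact ⟨x', hx, (((t a c).2.2.1.norm (S.HP_TT (t a c).1.2.1 hP)).rs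
      (le_inf inf_le_right (S.Qk_norm1 (t a c).1.2.1))).fix
        (hv ▸ mul_mem (mul_mem (mul_mem n1 n2) (inv_mem n1)) (inv_mem n2))⟩
  obtain ⟨y, hy, f⟩ := key x c0
  obtain ⟨y1, hy1, f1⟩ := key x1 c1
  obtain ⟨y2, hy2, f2⟩ := key x2 c2
  have t1 := c1.1.2.1
  have t2 := c2.1.2.1
  have v0 := hK y y1 y2 (by
      rcases hy with rfl | rfl <;> rcases hy1 with rfl | rfl
      exacts [a, a.zr, a.zl, a.zl.zr])
    (by rcases hy2 with rfl | rfl; exacts [t2, S.TT_z t2]) (by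
      rcases hy1 with rfl | rfl <;> rcases hy2 with rfl | rfl
      exacts [na, na.zr t1 t2, na.zl t1 t2, (na.zl t1 t2).zr (S.TT_z t1) t2]) v f f1 f2
  rw [v0, X.ι_zero] at hv
  exact mul_inv_eq_iff_eq_mul.1 (mul_inv_eq_one.1 hv.symm)

end CL.RB.Su
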