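/-
Extensions of the Baby Monster by the 4371-dimensional module, part RIG: no fixed vectors.
-/
import Cfsg.Agent.Spor.Bx0

set_option autoImplicit false
set_option linter.unusedSectionVars false

namespace CL.RB.Su
open Cfsg Cfsg.Spor Subgroup CL.Even CL.Grp CL.Spor.Leech CL.Spor.Mon CL.Mj CL.BX CL.BM Module MulAction
open Cfsg.Spor.Bimonster (Gen edges)
variable {G : Type*} [Group G] [Finite G] {F V : Type*} [Field F] [AddCommGroup V] [Module F V]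
  {S : Su G} {ρ : G → End F V}

namespace BxRig

theorem dc {z a x : G} {Q A : Subgroup G} (h : XE z Q) (hA : A ≤ Q) (ha : a ∈ Q) (hx : x ∈ Q)
    (e : ∀ b ∈ A ⊓ centralizer {a}, b * x = x * b) : (∀ b ∈ A, b * x = x * b) ∨ ∀ b ∈ A, b * (x * a) = x * a * b := by
  refine (em _).imp_right fun n b hb => ?_
  push Not at n
  obtain ⟨c, hc, n⟩ := n
  by_cases e1 : b ∈ centralizer {a}
  · exact (Commute.mul_right (e b ⟨hb, e1⟩) (mem_cent_singleton.1 e1)).eq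
  have e2 := e _ ⟨mul_mem hb hc, h.mul_mem_cent ha (hA hb) (hA hc) e1 fun e' => n (e c ⟨hc, e'⟩)⟩
  refine (mem_cent_singleton.1 (h.mul_mem_cent (hA hb) hx ha (fun e' => n ?_)
    fun e' => e1 (mem_cent_singleton.2 (mem_cent_singleton.1 e').symm))).symm
  rwa [← mul_assoc x, mem_cent_singleton.1 e', mul_assoc, mul_assoc, mul_right_inj] at e2

theorem step {a x r : G} {A : Subgroup G} (hA : A ≤ S.Q) (ha : a ∈ S.TT) (haY : a ∈ S.Y) (hx : x ∈ S.Q) (hr : r ∈ S.Y)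
    (hr' : r ∈ S.Qv a) (n : ¬ IsConj S.s r) (e : ∀ b ∈ A ⊓ centralizer {a}, b * (x * r) = x * r * b) :
    ∃ u, (u = r ∨ u = a * r) ∧ u ∈ S.Y ∧ ¬ IsConj S.s u ∧ ∀ b ∈ A, b * (x * u) = x * u * b := by
  rcases dc S.xe hA haY.1 (mul_mem hx hr.1) e with h | h
  · exact ⟨r, .inl rfl, hr, n, h⟩
  · exact ⟨_, .inr rfl, mul_mem haY hr, S.ns_mul (S.TT_xe ha) (S.TT_isConj ha) hr' n,
      by simpa only [mul_assoc, S.Y_comm hr haY] using h⟩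

theorem not_SY {y y' x : G} (hy : y ∈ S.TT) (hy' : y' ∈ S.TT) (h1 : y ∈ S.Y) (h2 : y' ∈ S.Y) (h3 : y' ∈ S.Qv y)
    (e : ∀ b ∈ S.Q1 ⊓ centralizer {S.t} ⊓ centralizer {y} ⊓ centralizer {y'}, b * x = x * b) : x ∉ S.SY := fun hx => by
  obtain ⟨a, a1, a2, a3, a4⟩ := step (r := 1) (inf_le_left.trans (inf_le_left.trans S.Q1_le_Q)) hy' h2 hx.1 (one_mem _)
    (one_mem _) (fun c => S.gd.s_ne_one (isConj_one_right.1 c.symm)) (by simpa only [mul_one] using e)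
  obtain ⟨b, -, b2, b3, b4⟩ := step (inf_le_left.trans S.Q1_le_Q) hy h1 hx.1 a2
    (a1.elim (fun c => c ▸ one_mem _) fun c => c ▸ mul_mem h3 (one_mem _)) a3 a4
  obtain ⟨c, -, c2, c3, c4⟩ := step S.Q1_le_Q S.t_TT S.tY hx.1 b2 (S.Y_eq.le b2).2 b3 b4
  have c5 := S.ns_mul S.xe (IsConj.refl _) c2.1 c3
  have c6 : S.s * c * S.s = c := by rw [← S.Y_comm c2 S.sY, mul_assoc, S.ss, mul_one]
  rcases S.cl_of_one (y := c) (y' := x) (by rw [inv_eq_of_mul_eq_one_right (S.Y_sq c2)]; exact S.cent_Q1 c4) with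
    rfl | rfl | rfl | rfl
  · exact c3 hx.2.1
  · exact c5 hx.2.1
  · exact c3 (c6 ▸ hx.2.2.2)
  · exact c5 (by simpa only [mul_assoc S.z, c6] using hx.2.2.2)

/-- sign changes under elements of `R2` centralising `y` and `y'` -/
def EY (S : Su G) (y y' : G) : Subgroup Co0 where
  carrier := {k | k ∈ EE ∧ ∃ r ∈ S.R2, r * y = y * r ∧ r * y' = y' * r ∧ S.Im r k}
  one_mem' := ⟨one_mem _, 1, one_mem _, by simp, by simp, S.im_one.2 (one_mem _)⟩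
  mul_mem' := fun ⟨h, _, h1, h2, h3, h4⟩ ⟨h', _, h1', h2', h3', h4'⟩ => ⟨mul_mem h h', _, mul_mem h1 h1',
    (Commute.mul_left h2 h2').eq, (Commute.mul_left h3 h3').eq, Im.mul S h4 h4'⟩
  inv_mem' := fun ⟨h, _, h1, h2, h3, h4⟩ => ⟨inv_mem h, _, inv_mem h1, (Commute.inv_left h2).eq,
    (Commute.inv_left h3).eq, Im.inv S h4⟩

theorem rig_t (hG : S.GF) (h : S.Gd ρ) (h0 : S.E0 ρ) (hs : S.Sg) {y y' : G} (ha : S.Adj S.t y) (hy' : y' ∈ S.TT)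
    (h1 : y' ∈ S.Qv S.t) (h2 : y' ∈ S.Qv y) {v : V} (hv : ∀ r ∈ S.C, r * S.t = S.t * r → r * y = y * r →
      r * y' = y' * r → r ∈ S.Q ∨ r ∈ S.Qv S.t ∨ r ∈ S.Qv y → ρ r v = v) : v = 0 := by
  have hY : ∀ {u}, u ∈ S.TT → u ∈ S.Qv S.t → u ∈ S.Y := fun a b => S.Y_eq.ge ⟨(S.TT_Q1 a).1, b⟩
  have hy := ha.2.1
  have y1 := hY hy ha.2.2.1
  have y2 := hY hy' h1
  have hD : v ∈ S.D ρ := (iSup₂_le (a := S.D ρ) fun _ hx => hx.1.elim (fun e => e ▸ (S.W_one ρ).le) fun hx' =>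
    absurd hx' (not_SY hy hy' y1 y2 h2 fun _ hb => (sg_eq_one h.rp.two).1 (hx.2 hb)))
    (h.sel (inf_le_left.trans (inf_le_left.trans inf_le_left)) ⟨⟨⟨S.zQ1, mem_cent_singleton.2 S.tz.symm⟩,
      mem_cent_singleton.2 (S.TT_zc hy).symm⟩, mem_cent_singleton.2 (S.TT_zc hy').symm⟩ ch_one rfl
      (mem_Wt_one.2 fun r hr => hv r (S.Q1_le_C hr.1.1.1) (mem_cent_singleton.1 hr.1.1.2) (mem_cent_singleton.1 hr.1.2)
        (mem_cent_singleton.1 hr.2) (.inl hr.1.1.1.1)))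
  have hD0 : v ∈ S.D0 ρ := by
    obtain ⟨τ, hτ, hk⟩ := tr_tau h.rp
    obtain ⟨a, a1, b, b1, e⟩ := Submodule.mem_sup.1 ((hk.dm hG h hτ).dec (Submodule.mem_top (x := ⟨v, hD⟩)))
    have le : EY S y y' ≤ EE := fun _ hk => hk.1
    have b2 : b ∈ Wt τ (EY S y y') fun _ => 1 := by
      rw [eq_sub_of_add_eq' e]
      refine sub_mem (mem_Wt_one.2 ?_) (Wt_mono le a1)
      rintro k ⟨k1, r, r1, r2, r3, r4⟩
      exact Subtype.ext ((hk r (S.R2_le_C r1) k k1.2 r4 _).trans (hv r (S.R2_le_C r1) (S.mem_P0.1 (S.R2_le_P0 r1)).2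
        r2 r3 (.inr (.inl (S.R2_eq.le r1).1))))
    have b4 := RB.sel (I := (rest : Set GolayPt)) (w := fun i => kap F i) (S := fun i => Wt τ EE (kap F i)) h.rp.two
      (p2EE.to_le le) (fun i _ => (ch_kap i).mono le) (fun _ _ => Wt_mono le) ch_one b1 b2
    have b3 : b = 0 := by
      refine (Submodule.mem_bot F).1 (SetLike.le_def.1 (iSup₂_le fun i hi => ?_) b4)
      obtain ⟨r, r1, k, k1, k2, k3, k4, k5, -⟩ := hs y hy y1 y' hy' y2 i hi.1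
      exact absurd ((kap_eq_one h.rp.two).1 (hi.2 ⟨k1, r, r1, k4, k5, k2⟩)) k3
    rw [b3, add_zero] at e
    exact ⟨hD, (hk.wt_one hG ⟨v, hD⟩).1 (e ▸ a1)⟩
  obtain ⟨g, hg, rfl⟩ := hy
  obtain ⟨u', rfl⟩ : ∃ u', y' = g * u' * g⁻¹ := ⟨g⁻¹ * y' * g, by group⟩
  obtain ⟨u, hu⟩ : ∃ u, g * u * g⁻¹ = S.t := ⟨g⁻¹ * S.t * g, by group⟩
  have hu1 : S.Adj S.t u := by
    have := ha.symm.conj (inv_mem hg)
    rwa [show g⁻¹ * (g * S.t * g⁻¹) * g⁻¹⁻¹ = S.t by group, show g⁻¹ * S.t * g⁻¹⁻¹ = u by rw [← hu]; group] at this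
  have hu2 : u' ∈ S.TT := by simpa [mul_assoc] using S.TT_conj (inv_mem hg) hy'
  obtain ⟨r, r1, k, k1, k2, -, k4, k5, k6⟩ := hs u hu1.2.1 (hY hu1.2.1 hu1.2.2.1) u' hu2 (hY hu2 (S.conj_Qv.1 h2))
    (some 1) (by decide)
  obtain ⟨w, w1, w2⟩ := k6 hu1.2.2.2.1 hu1.2.2.2.2
  have cm : ∀ {a}, r * a = a * r → g * r * g⁻¹ * (g * a * g⁻¹) = g * a * g⁻¹ * (g * r * g⁻¹) := fun e => by
    rw [conj_mul, conj_mul, e]
  have c1 : g * r * g⁻¹ ∈ S.P0 := S.mem_P0.2 ⟨mul_mem (mul_mem hg (S.R2_le_C r1)) (inv_mem hg), hu ▸ cm k4⟩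
  have c2 := hv _ c1.1 (S.mem_P0.1 c1).2 (cm (S.mem_P0.1 (S.R2_le_P0 r1)).2) (cm k5)
    (.inr (.inr (S.conj_Qv.2 (S.R2_eq.le r1).1)))
  obtain ⟨γ, γ1, γ2⟩ := S.im_C hg
  have d := (S.mt.dbl_iff' (Im.R S γ2 w1.2.2) S.ht).2 (.inl hu)
  rw [← U_add_U', smul_add, show γ • leechU = leechU from γ1, add_sub_add_left_eq_sub] at d
  obtain ⟨n, n1, n2⟩ := hG.imgP _ c1
  obtain rfl := Im.eq S n2 (Im.mul S (Im.mul S γ2 k2) (Im.inv S γ2)) n1.2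
    (mul_mem (mul_mem γ1 (EE_le k1)) (inv_mem γ1))
  have c3 := h0 _ c1 _ n1 n2 v hD0
  rw [c2, eN_neg, neg_one_smul] at c3
  · exact eq_zero_of_eq_neg h.rp.two c3
  refine fun e => U'_ne_neg (Eq.trans ?_ e)
  rcases d.pm_of_lt (by rw [sqNorm_smul, w1.1]; norm_num) (by rw [sqNorm_U']; norm_num) with d | d
  · rw [← d, mul_smul, mul_smul, inv_smul_smul, w2, smul_neg]
  · rw [← neg_eq_iff_eq_neg.2 d, mul_smul, mul_smul, smul_neg, inv_smul_smul, smul_neg, w2, smul_neg, smul_neg]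

end BxRig

theorem bx_rig (hG : S.GF) (h : S.Gd ρ) (h0 : S.E0 ρ) (hs : S.Sg) : S.Rig ρ := fun y y' y'' ha h1 h2 h3 v hv => by
  obtain ⟨c, hc, rfl⟩ := ha.1
  obtain ⟨u, rfl⟩ : ∃ u, y' = c * u * c⁻¹ := ⟨c⁻¹ * y' * c, by group⟩
  obtain ⟨u', rfl⟩ : ∃ u, y'' = c * u * c⁻¹ := ⟨c⁻¹ * y'' * c, by group⟩
  have hK := inv_mem (S.C_le_K hc)
  refine h.rp.eq_zero hK (BxRig.rig_t hG h h0 hs (y := u) (y' := u')
    (by simpa [mul_assoc] using ha.conj (inv_mem hc)) (by simpa [mul_assoc] using S.TT_conj (inv_mem hc) h1)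
    (S.conj_Qv.1 h2) (S.conj_Qv.1 h3) fun r r1 r2 r3 r4 r5 => ?_)
  have k : ∀ {a}, r * a = a * r → c * r * c⁻¹ ∈ S.PP (c * a * c⁻¹) := fun e =>
    S.cj_PP hc _ ▸ conj_mem_cj c (S.mem_PP.2 ⟨r1, e⟩)
  rw [h.rp.conj hK (S.C_le_K r1), inv_inv, hv _ ⟨⟨k r2, k r3⟩, k r4⟩
    (r5.imp (fun e => S.cj_Q hc ▸ conj_mem_cj c e) (Or.imp S.conj_Qv.2 S.conj_Qv.2))]

end CL.RB.Su
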