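/-
Extensions of the Baby Monster by the 4371-dimensional module: the nodes lift.
-/
import Cfsg.Agent.Spor.Bx0

set_option autoImplicit false
set_option linter.unusedSectionVars false

namespace CL.RB.Su
open Cfsg Cfsg.Spor Subgroup CL.Even CL.Grp CL.Spor.Leech CL.Spor.Mon CL.Mj CL.BX CL.BM Module MulAction
open Cfsg.Spor.Bimonster (Gen edges)

namespace BxTop

theorem central {H : Type*} [Group H] {k : Gen → H}
    (h : ∀ m ∈ bNodes, ∀ n ∈ bNodes, (k m * k n) ^ coxLabel edges m n = 1)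
    (r1 : R3 (k .a) (k .b1) (k .b2) (k .b3) (k .c1) (k .c2) (k .c3) (k .d1))
    (r2 : R3 (k .a) (k .b2) (k .b3) (k .b1) (k .c2) (k .c3) (k .c1) (k .d2))
    (r3 : R3 (k .a) (k .b3) (k .b1) (k .b2) (k .c3) (k .c1) (k .c2) (k .d3)) :
    ∀ n ∈ bNodes, Commute (spider k) (k n) := by
  have e : ∀ m ∈ n8, m ∈ bNodes ∧ Y5.rot m ∈ bNodes ∧ Y5.rot (Y5.rot m) ∈ bNodes ∧ ∀ n ∈ n8,
    coxLabel edges (Y5.rot m) (Y5.rot n) = coxLabel edges m n ∧
    coxLabel edges (Y5.rot (Y5.rot m)) (Y5.rot (Y5.rot n)) = coxLabel edges m n := by decide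
  have c8 := central8 (fun m hm n hn => h m (e m hm).1 n (e n hn).1) r1
  have h2 := central8 (y := fun n => k (Y5.rot n))
    (fun m hm n hn => ((e m hm).2.2.2 n hn).1 ▸ h _ (e m hm).2.1 _ (e n hn).2.1) r2 .d1 (by decide)
  have h3 := central8 (y := fun n => k (Y5.rot (Y5.rot n)))
    (fun m hm n hn => ((e m hm).2.2.2 n hn).2 ▸ h _ (e m hm).2.2.1 _ (e n hn).2.2.1) r3 .d1 (by decide)
  have rot1 : spider (fun n => k (Y5.rot n)) = spider k := by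
    have h : Commute (spider k) (k .a * k .b1 * k .c1) :=
      ((c8 _ (by decide)).mul_right (c8 _ (by decide))).mul_right (c8 _ (by decide))
    rw [← h.symm.inv_mul_cancel, spider, spider, mul_assoc, ← inv_inv (k .a * k .b1 * k .c1), ← mul_assoc, inv_inv _⁻¹,
      ← conj_pow]
    simp only [Y5.rot]
    congr 1
    group
  have rot2 : spider (fun n => k (Y5.rot (Y5.rot n))) = spider k := by
    have h : Commute (spider k) (k .a * k .b3 * k .c3) :=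
      ((c8 _ (by decide)).mul_right (c8 _ (by decide))).mul_right (c8 _ (by decide))
    rw [← h.symm.mul_inv_cancel, spider, spider, ← conj_pow]
    simp only [Y5.rot]
    congr 1
    group
  rw [rot1] at h2
  rw [rot2] at h3
  have sq : ∀ m ∈ bNodes, k m * k m = 1 := fun m hm => by simpa [coxLabel] using h m hm m hm
  have far : Commute (spider k) (k .e2) := by
    have c : ∀ m, m ∈ bNodes ∧ coxLabel edges m .e2 = 2 → Commute (k m) (k .e2) := fun m e =>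
      comm_of_pow (sq m e.1) (sq _ (by decide)) (e.2 ▸ h m e.1 _ (by decide))
    refine Commute.pow_left ?_ _
    repeat' refine Commute.mul_left ?_ ?_
    all_goals exact c _ (by decide)
  simp only [bNodes, List.forall_mem_cons]
  exact ⟨far, h2, c8 _ (by decide), c8 _ (by decide), c8 _ (by decide), c8 _ (by decide), c8 _ (by decide), h3,
    c8 _ (by decide), c8 _ (by decide), c8 _ (by decide), by simp⟩

theorem hi_mem {H : Type*} [Group H] {N : Subgroup H} {l k : H} (hl : l ∈ N) (hk : k ∈ N) : hi l k ∈ N :=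
  mul_mem (mul_mem (mul_mem (mul_mem hl hk) hl) (inv_mem hk)) hl

variable {G : Type*} [Group G] [Finite G] {F V : Type*} [Field F] [AddCommGroup V] [Module F V] {E : Type*} [Group E]
  {S : Su G} {ρ : G → End F V} {X : Ext S.K ρ E}

theorem r3 {W N₀ N₁ N₂ N₃ : Subgroup E} (hW : X.Lf S.Q1 W) (h₀ : X.rs N₀ S.Q1 = W) (h₁ : X.rs N₁ S.Q1 = W)
    (h₂ : X.rs N₂ S.Q1 = W) (h₃ : X.rs N₃ S.Q1 = W) {a b₁ b₂ b₃ c₁ c₂ c₃ d₁ : E} (ha : a ∈ N₀) (hc₁ : c₁ ∈ N₁)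
    (hc₂ : c₂ ∈ N₂) (hc₃ : c₃ ∈ N₃) (hb₁ : b₁ ∈ W) (hb₂ : b₂ ∈ W) (hb₃ : b₃ ∈ W) (hd₁ : d₁ ∈ W)
    (h : S.VR (X.φ a) (X.φ b₁) (X.φ b₂) (X.φ b₃) (X.φ c₁) (X.φ c₂) (X.φ c₃) (X.φ d₁)) :
    R3 a b₁ b₂ b₃ c₁ c₂ c₃ d₁ := by
  have key : ∀ {N : Subgroup E} {l k : E}, X.rs N S.Q1 = W → l ∈ N → k ∈ W → X.φ (hi l k) ∈ S.Q → hi l k ∈ W :=
    fun e hl hk hq => e.le ⟨hi_mem hl (e.ge hk).1, hq, X.mem _⟩
  simp only [VR, R3, ← map_mul, ← map_hi] at h
  obtain ⟨a0, a1, a2, a3⟩ := h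
  have m0 := key h₀ ha (mul_mem (mul_mem hb₁ hb₂) hb₃) a0
  have m1 := key h₁ hc₁ (mul_mem (mul_mem hb₁ hd₁) m0) a1
  exact hW.eq (key h₂ hc₂ (mul_mem (mul_mem hb₂ m0) m1) a2) (key h₃ hc₃ (mul_mem (mul_mem hb₃ m0) m1) (a3 ▸ a2)) a3

end BxTop

open BxTop

variable {G : Type*} [Group G] [Finite G] {F V : Type*} [Field F] [AddCommGroup V] [Module F V] {E : Type*} [Group E]
  {S : Su G} {ρ : G → End F V}

theorem bx_top {X : Ext S.K ρ E} (hP : X.HP S.P0) (hF : S.Fam X) (hQ : S.Qeq X) (hp : S.Pair X) {y : Gen → G}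
    (hy : S.Nd y) : S.Top X y := by
  obtain ⟨L, hL, hC⟩ := hF _ hy.geo
  have hN := fun i => (hL i).norm (S.HP_TT (hy.ln i).tT hP)
  obtain ⟨W, eW⟩ : ∃ W, X.rs (normalizer (L 0 : Set E)) S.Q1 = W := ⟨_, rfl⟩
  have hW : X.Lf S.Q1 W := eW ▸ (hN 0).rs (le_inf inf_le_right (S.Q1_norm (hy.ln 0).tT))
  have eN : ∀ i, X.rs (normalizer (L i : Set E)) S.Q1 = W := fun i => by
    obtain rfl | h := eq_or_ne i 0
    · exact eW
    · obtain ⟨x, -, -, h, -⟩ := hC i 0 h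
      exact (hQ _ _ _ _ x h).trans eW
  have ex : ∀ n : Gen, ∃ e : E, (∀ i, n = lnode i → e ∈ normalizer (L i : Set E) ∧ X.φ e = y n) ∧
      (n ∈ [Gen.b1, .b2, .b3, .d1, .d2, .d3] → e ∈ W ∧ X.φ e = y n) := fun n => by
    by_cases h : ∃ i, n = lnode i
    · obtain ⟨i, rfl⟩ := h
      obtain ⟨e, h1⟩ := (hN i).ex (g := y (lnode i)) ⟨(hy.ln i).mK, (hy.ln i).norm⟩
      exact ⟨e, fun j hj => (by decide : ∀ i j, lnode i = lnode j → i = j) i j hj ▸ h1,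
        fun h => absurd h ((by decide : ∀ i, lnode i ∉ [Gen.b1, .b2, .b3, .d1, .d2, .d3]) i)⟩
    by_cases h' : n ∈ [Gen.b1, .b2, .b3, .d1, .d2, .d3]
    · obtain ⟨e, h1⟩ := hW.ex (hy.pt n h')
      exact ⟨e, fun i hi => absurd ⟨i, hi⟩ h, fun _ => h1⟩
    · exact ⟨1, fun i hi => absurd ⟨i, hi⟩ h, fun e => absurd e h'⟩
  choose k kl kp using ex
  have cs : ∀ n ∈ bNodes, n ∈ [Gen.b1, .b2, .b3, .d1, .d2, .d3] ∨ ∃ i, n = lnode i := by decide
  have h1 : ∀ n ∈ bNodes, X.φ (k n) = y n := fun n hn =>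
    (cs n hn).elim (fun h => (kp n h).2) fun ⟨i, h⟩ => (kl n i h).2
  have h2 : ∀ m ∈ bNodes, ∀ n ∈ bNodes, ∀ i, k m ∈ normalizer (L i : Set E) → k n ∈ normalizer (L i : Set E) →
      (k m * k n) ^ coxLabel edges m n = 1 := fun m hm n hn i a b => (hN i).eq_one (pow_mem (mul_mem a b) _) (by
    rw [map_pow, map_mul, h1 m hm, h1 n hn, hy.cox m hm n hn])
  have h3 : ∀ m ∈ bNodes, ∀ n ∈ bNodes, (k m * k n) ^ coxLabel edges m n = 1 := fun m hm n hn => by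
    rcases cs m hm with a | ⟨i, rfl⟩ <;> rcases cs n hn with b | ⟨j, rfl⟩
    · exact h2 m hm n hn 0 ((eN 0).ge (kp m a).1).1 ((eN 0).ge (kp n b).1).1
    · exact h2 m hm _ hn j ((eN j).ge (kp m a).1).1 (kl _ j rfl).1
    · exact h2 _ hm n hn i (kl _ i rfl).1 ((eN i).ge (kp n b).1).1
    obtain rfl | hij := eq_or_ne i j
    · exact h2 _ hm _ hn i (kl _ i rfl).1 (kl _ i rfl).1
    have e2 := (by decide : ∀ i j, i ≠ j → coxLabel edges (lnode i) (lnode j) = 2) i j hij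
    have sq : ∀ i, lnode i ∈ bNodes → k (lnode i) * k (lnode i) = 1 := fun i hi => by
      simpa [coxLabel] using h2 _ hi _ hi i (kl _ i rfl).1 (kl _ i rfl).1
    obtain ⟨-, -, -, -, g1, -⟩ := hy.geo
    have c : Commute (k (lnode i)) (k (lnode j)) := hp (L i) (L j) _ _ (h1 _ hm ▸ hy.ln i) (h1 _ hn ▸ hy.ln j)
      (by rw [h1 _ hm, h1 _ hn]; exact comm_of_pow (hy.ln i).sq (hy.ln j).sq (e2 ▸ hy.cox _ hm _ hn))
      (by rw [h1 _ hm, h1 _ hn]; exact g1 i j hij) (by rw [h1 _ hm, h1 _ hn]; exact hC i j hij)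
      (kl _ i rfl).1 (kl _ j rfl).1
    rw [e2, c.mul_pow, pow_two, pow_two, sq i hm, sq j hn, mul_one]
  have l0 := (kl .a 0 rfl).1
  have l1 := (kl .c1 1 rfl).1
  have l2 := (kl .c2 2 rfl).1
  have l3 := (kl .c3 3 rfl).1
  have b1 := (kp .b1 (by decide)).1
  have b2 := (kp .b2 (by decide)).1
  have b3 := (kp .b3 (by decide)).1
  have h4 := central h3
    (r3 hW (eN 0) (eN 1) (eN 2) (eN 3) l0 l1 l2 l3 b1 b2 b3 (kp .d1 (by decide)).1 (by
      simpa (disch := decide) only [h1] using hy.v1))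
    (r3 hW (eN 0) (eN 2) (eN 3) (eN 1) l0 l2 l3 l1 b2 b3 b1 (kp .d2 (by decide)).1 (by
      simpa (disch := decide) only [h1] using hy.v2))
    (r3 hW (eN 0) (eN 3) (eN 1) (eN 2) l0 l3 l1 l2 b3 b1 b2 (kp .d3 (by decide)).1 (by
      simpa (disch := decide) only [h1] using hy.v3))
  refine ⟨k, h1, h3, ?_⟩
  obtain ⟨v, hv⟩ := (X.ker (spider k)).1 (by
    rw [← hy.spd]
    simp (disch := decide) only [spider, map_pow, map_mul, h1])
  have h5 : JB y ≤ (centralizer {X.ι v}).map X.φ := (closure_le _).2 (by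
    rintro _ ⟨n, hn, rfl⟩
    exact ⟨k n, mem_centralizer_singleton_iff.2 (hv ▸ (h4 n hn).symm), h1 n hn⟩)
  rw [← hv, hP.2.2 v fun r hr => ?_, X.ι_zero]
  obtain ⟨e, he, rfl⟩ := h5 (hy.gen (S.PP_le_K (S.PP_t ▸ hr)))
  exact X.comm_iff.1 (mem_centralizer_singleton_iff.1 he)

end CL.RB.Su
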