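/-
Extensions of the Baby Monster by the 4371-dimensional module: transport of lifts along edges, compatible families.
-/
import Cfsg.Agent.Spor.Bx0

set_option autoImplicit false
set_option linter.unusedSectionVars false

namespace CL.RB.Su
open Cfsg Cfsg.Spor Subgroup CL.Even CL.Grp CL.Spor.Leech CL.Spor.Mon CL.Mj CL.BX CL.BM Module MulAction
open Cfsg.Spor.Bimonster (Gen edges)
variable {G : Type*} [Group G] [Finite G] {F V : Type*} [Field F] [AddCommGroup V] [Module F V] {E : Type*} [Group E]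
  {S : Su G} {ρ : G → End F V}

namespace BxTr

variable {y y' y'' u : G}

/-- the normal `2`-subgroup of the centraliser of a plane -/
def AA (S : Su G) (y y' : G) : Subgroup G :=
  S.Qv S.z ⊓ (S.PP y ⊓ S.PP y') ⊔ S.Qv y ⊓ (S.PP y ⊓ S.PP y') ⊔ S.Qv y' ⊓ (S.PP y ⊓ S.PP y')

theorem A_le : AA S y y' ≤ S.PP y ⊓ S.PP y' := sup_le (sup_le inf_le_right inf_le_right) inf_le_right

theorem n1 (hu : u = S.z ∨ u = y ∨ u = y') :
    S.PP y ⊓ S.PP y' ≤ normalizer ((S.Qv u ⊓ (S.PP y ⊓ S.PP y') : Subgroup G) : Set G) :=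
  le_norm_inf (fun g hg => cj_eq_iff_mem.1 (by rw [S.cj_Qv, (S.PP_comm hg hu).eq, mul_inv_cancel_right]))
    le_normalizer

theorem A_norm : S.PP y ⊓ S.PP y' ≤ normalizer (AA S y y' : Set G) :=
  le_norm_sup (le_norm_sup (n1 (.inl rfl)) (n1 (.inr (.inl rfl)))) (n1 (.inr (.inr rfl)))

theorem A_two (h : S.Adj y y') : IsPGroup 2 (AA S y y') :=
  isPGroup_sup (isPGroup_sup ((S.Qv_z.symm ▸ S.xe.isPGroup : IsPGroup 2 (S.Qv S.z)).to_inf_left)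
    (S.TT_xe h.1).isPGroup.to_inf_left (inf_le_right.trans (n1 (.inr (.inl rfl)))))
    (S.TT_xe h.2.1).isPGroup.to_inf_left ((sup_le inf_le_right inf_le_right).trans (n1 (.inr (.inr rfl))))

theorem A_rg (hR : S.Rig ρ) (h : S.Adj y y') (h1 : y'' ∈ S.TT) (h2 : y'' ∈ S.Qv y) (h3 : y'' ∈ S.Qv y') :
    Rg ρ (AA S y y' ⊓ S.PP y'') := fun v hv => hR y y' y'' h h1 h2 h3 v fun r hr k => hv r ⟨by
  rcases k with k | k | k
  · exact mem_sup_left (mem_sup_left ⟨S.Qv_z.symm ▸ k, hr.1⟩)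
  · exact mem_sup_left (mem_sup_right ⟨k, hr.1⟩)
  · exact mem_sup_right ⟨k, hr.1⟩, hr.2⟩

theorem A_H1 {X : Ext S.K ρ E} (hA : X.Avg) (h : S.Adj y y') : X.H1 (AA S y y') :=
  (hA _ (A_le.trans (inf_le_left.trans S.PP_le_K)) inferInstance (A_two h)).2

theorem cp_of {X : Ext S.K ρ E} (hR : S.Rig ρ) (h : S.Adj y y') {L L' : Subgroup E} (hL : X.Lf (S.PP y) L)
    (hL' : X.Lf (S.PP y') L') (e : X.rs L (AA S y y') = X.rs L' (AA S y y')) : S.Cp X y L y' L' :=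
  ⟨hL, hL', (hL.rs inf_le_left).eq_of_rs (hL'.rs inf_le_right) A_le A_norm
    ((A_rg hR h h.2.1 h.2.2.1 (S.TT_xe h.2.1).mem).mono inf_le_left) (by rw [X.rs_rs A_le, X.rs_rs A_le, e])⟩

theorem c3_symm {X : Ext S.K ρ E} {L L' : Subgroup E} (h : S.C3 X y L y' L') : S.C3 X y' L' y L := by
  have k : ∀ {x}, S.Cn X y L y' L' x → S.Cn X y' L' y L x := fun ⟨a, b, M, c, d⟩ => ⟨b, a, M, d, c⟩
  obtain ⟨x, x1, x2, a, b, c, d⟩ := h
  exact ⟨x, x1, x2, k a, k b, k c, d⟩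

end BxTr

open BxTr

theorem bx_tr {X : Ext S.K ρ E} (hA : X.Avg) (hP : X.HP S.P0) (hR : S.Rig ρ) : S.Tr X := by
  refine ⟨fun y y' L h hL => ?_, fun y y' y'' L L' L'' h1 h2 h3 c1 c2 => ?_⟩
  · obtain ⟨L0, h0⟩ := (S.HP_TT h.2.1 hP).1
    obtain ⟨v, hv⟩ := A_H1 hA h _ _ (h0.rs (A_le.trans inf_le_right)) (hL.rs (A_le.trans inf_le_left))
    exact ⟨_, cp_of hR h hL (h0.cj_ι v) (hv.trans (X.cj_rs_ι v))⟩
  · refine cp_of hR h3 c1.2.1 c2.2.1 ((c1.2.1.rs (A_le.trans inf_le_left)).eq_of_H1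
      (c2.2.1.rs (A_le.trans inf_le_right)) inf_le_left (A_H1 hA h3) (A_rg hR h3 h1.1 h1.symm.2.2.1 h2.symm.2.2.1) ?_)
    rw [X.rs_rs inf_le_left, X.rs_rs inf_le_left,
      ← X.rs_mono (le_inf inf_le_right (inf_le_left.trans (A_le.trans inf_le_left))) c1.2.2,
      X.rs_mono (le_inf inf_le_right (inf_le_left.trans (A_le.trans inf_le_right))) c2.2.2]

theorem bx_fam {X : Ext S.K ρ E} (hP : X.HP S.P0) (hT : S.Tr X) : S.Fam X := by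
  rintro t ⟨x0, x, x1, x2, -, g1, g2⟩
  obtain ⟨L0, h0⟩ := (S.HP_TT (g1 1 (by decide)).1.1 hP).1
  have : ∀ y, ∃ M, S.Adj (t 0) y → S.Cp X (t 0) L0 y M := fun y => by
    by_cases h : S.Adj (t 0) y
    · exact (hT.1 _ _ _ h h0).imp fun _ e _ => e
    · exact ⟨⊥, fun e => absurd e h⟩
  choose f hf using this
  have : ∀ m : Fin 5, ∃ M, (m = 0 → M = L0) ∧ (m ≠ 0 → S.Cp X (x0 m) (f (x0 m)) (t m) M) := fun m => by
    by_cases h : m = 0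
    · exact ⟨L0, fun _ => rfl, fun e => absurd h e⟩
    · exact (hT.1 _ _ _ (g1 m h).2.1.symm (hf _ (g1 m h).1).2.1).imp fun _ e => ⟨fun k => absurd k h, fun _ => e⟩
  choose L hL0 hL using this
  have k1 : ∀ m n, m ≠ 0 → n ≠ 0 → m ≠ n → S.Cp X (t m) (L m) (x m n) (f (x m n)) := fun m n hm hn h => by
    obtain ⟨-, a1, a2, a3, -⟩ := g2 m n hm hn h
    exact hT.2 _ _ _ _ _ _ (g1 m hm).2.1.symm a3 a2 (hL m hm)
      (hT.2 _ _ _ _ _ _ (g1 m hm).1 a1 a3 (hf _ (g1 m hm).1) (hf _ a1))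
  have k2 : ∀ m, m ≠ 0 → S.C3 X (t 0) (L 0) (t m) (L m) := fun m hm => by
    obtain ⟨a1, a2, n, o, n0, nm, o0, om, a3⟩ := g1 m hm
    have k : ∀ n, n ≠ 0 → n ≠ m → S.Cn X (t 0) (L 0) (t m) (L m) (x m n) := fun n n0 nm => by
      obtain ⟨-, b1, b2, -⟩ := g2 m n hm n0 nm.symm
      exact ⟨b1, b2, _, hL0 0 rfl ▸ hf _ b1, k1 m n hm n0 nm.symm⟩
    exact ⟨x0 m, x m n, x m o, ⟨a1, a2, _, hL0 0 rfl ▸ hf _ a1, S.cp_symm (hL m hm)⟩, k n n0 nm, k o o0 om,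
      (g2 m n hm n0 nm.symm).2.2.2.1, a3⟩
  refine ⟨L, fun m => ?_, fun m n h => ?_⟩
  · by_cases hm : m = 0
    · rw [hL0 m hm, hm]; exact h0
    · exact (hL m hm).2.1
  by_cases hm : m = 0
  · subst hm; exact k2 n h.symm
  by_cases hn : n = 0
  · subst hn; exact c3_symm (k2 m hm)
  obtain ⟨e, -, a2, -, b1, b2, b3, c1, c2, c3, d⟩ := g2 m n hm hn h
  have a3 : S.Adj (t n) (x m n) := e ▸ (g2 n m hn hm h.symm).2.2.1
  have p1 := k1 m n hm hn h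
  have p2 : S.Cp X (t n) (L n) (x m n) (f (x m n)) := e ▸ k1 n m hn hm h.symm
  have k : ∀ w, S.Adj (x m n) w → S.Adj (t m) w → S.Adj (t n) w → S.Cn X (t m) (L m) (t n) (L n) w :=
    fun w w1 w2 w3 => by
      obtain ⟨M, hM⟩ := hT.1 _ _ _ w1 p1.2.1
      exact ⟨w2, w3, M, hT.2 _ _ _ _ _ _ a2.symm w1 w2 (S.cp_symm p1) hM,
        hT.2 _ _ _ _ _ _ a3.symm w1 w3 (S.cp_symm p2) hM⟩
  exact ⟨x m n, x1 m n, x2 m n, ⟨a2, a3, _, p1, p2⟩, k _ b1 b2 b3, k _ c1 c2 c3, b1, d⟩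

end CL.RB.Su
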