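/-
Direct products in `Co1` given by certificates, and normalisers of subgroups of order 3.
-/
import Cfsg.Agent.Spor.Co1G
import Cfsg.Agent.Perm.Exc3a
import Cfsg.Agent.Cls.SL2Quat

set_option autoImplicit false

namespace CL.Spor.CoE
open Cfsg Cfsg.Spor Subgroup CL.Spor.Leech CL.Spor.Mon MulAction CL.PG
open CL.Mx (mul2 one2)
open CL.CoR (rmul rone)

theorem equiv_prod_of {G Γ Δ : Type*} [Group G] [Group Γ] [Group Δ] {gs : List G} {ms : List Γ} {cs : List Δ}
    {lA lB l₁ l₂ : List (List ℕ)} {N : Subgroup G} (h1 : RelLe gs (app lA (app lB [])) ms l₁)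
    (h2 : RelLe gs (app lB (app lA [])) cs l₂)
    (hl : bnd (Nat.ble (lenL l₁) (lenL lA)) (Nat.ble (lenL l₂) (lenL lB)) = true) (hK : ∀ g ∈ gs, g ∈ N) {a b : ℕ}
    (hU : UB N (a * b)) (ha : Nat.card (subW ms l₁) = a) (hb : Nat.card (subW cs l₂) = b) :
    Nonempty (N ≃* subW ms l₁ × subW cs l₂) := by
  have h3 := subW_le_of_forall hK (app lA (app lB []))
  obtain ⟨e⟩ := (RelLe.quo_prod h1 h2 hl rfl rfl (q := 1) ((hU.mono h3).le (one_mul _).ge) (LB.one _) (LB.of_card ha)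
    (LB.of_card hb)).equiv_nil
  rw [← hU.eq_of_lb (LB.of_card ((Nat.card_congr e.toEquiv).trans (by rw [Nat.card_prod, ha, hb]))) h3]
  exact ⟨e⟩

theorem ub_norm3 {G : Type*} [Group G] [Finite G] {x w : G} (hx : orderOf x = 3) (hw : x * (w * x) = w) {m : ℕ}
    (h : UB (centralizer {x}) m) : UB (normalizer (zpowers x : Set G)) (2 * m) := by
  refine ⟨inferInstance, ?_⟩
  rw [CL.SL2.card_normalizer_zpowers_of_inverts (w := w) (mul_inv_eq_iff_eq_mul.2 (eq_inv_mul_iff_mul_eq.2 hw))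
    (fun e => ?_) fun g hg => (CL.Perm.mem_normalizer_zpowers_three hx).1 hg]
  · exact Nat.mul_le_mul_left _ h.2
  · exact absurd (hx ▸ orderOf_dvd_of_pow_eq_one (n := 2) (by rw [pow_two, ← eq_inv_iff_mul_eq_one, e])) (by norm_num)

/-- The codes centralise or invert `b`. -/
noncomputable def normB (b : ℕ) (B : List ℕ) : Bool :=
  PG.allL (fun c => Nat.beq (mul2 24 c b) (mul2 24 b c) || Nat.beq (mul2 24 b (mul2 24 c b)) c) B

theorem inverts {b c : ℕ} {x w : Co1} (hb : rho.Rep b x) (hc : rho.Rep c w)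
    (h : Nat.beq (mul2 24 b (mul2 24 c b)) c = true) : x * (w * x) = w :=
  (rmul hb (rmul hc hb)).unique ((Nat.eq_of_beq_eq_true h).symm ▸ hc)

theorem allIn_norm {b : ℕ} {x : Co1} (hb : rho.Rep b x) (hx : orderOf x = 3) {B : List ℕ} (hB : rho.model.AllIn ⊤ B)
    (h : normB b B = true) : rho.model.AllIn (normalizer (zpowers x : Set Co1)) B := fun c hc => by
  have hr := rep_ok (hB c hc).1
  refine ⟨(hB c hc).1, (CL.Perm.mem_normalizer_zpowers_three hx).2 ((Bool.or_eq_true_iff.1 (allL_spec h c hc)).imp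
    (fun e => mul_inv_eq_iff_eq_mul.2 (CoR.comm_of_codes hr hb hb (Nat.eq_of_beq_eq_true e))) fun e => ?_)⟩
  exact mul_inv_eq_iff_eq_mul.2 (eq_inv_mul_iff_mul_eq.2 (inverts hb hr e))

end CL.Spor.CoE
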