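/-
A standard subgroup `2.HS`: fusion of the central involution.
-/
import Cfsg.Agent.Spor.HNRB
import Cfsg.Agent.Even.Amb
import Cfsg.Agent.Grp.SylowIn
import Cfsg.Agent.Inv.StrongEmb

set_option autoImplicit false

namespace CL.HNT

open Subgroup CL.HNR CL.Even CL.Grp
open scoped commutatorElement

universe u

variable {G : Type u} [Group G]

/-- `Q` is generated by elements of order five of `C_L(d)`. -/
def Five (L : Subgroup G) (d : G) (Q : Subgroup G) : Prop :=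
  ∃ y ∈ L, ∃ c ∈ L, Commute y d ∧ Commute c d ∧ y ^ 5 = 1 ∧ c * y * c⁻¹ = y⁻¹ ∧
    (∀ l ∈ L, Commute l d → Commute l y → l ^ 5 = 1 → l ∈ zpowers y) ∧
    Q ≤ closure {w | ∃ l ∈ L, Commute l d ∧ l * y * l⁻¹ = w} ∧
    ∃ s ∈ Q, ∃ s' ∈ Q, s * s = 1 ∧ s' * s' = 1 ∧ s ≠ 1 ∧ s' ≠ 1 ∧ s ≠ s'

/-- The centraliser in `L` of an element that acts as an involution. -/
def Typ (L : Subgroup G) (t a d : G) : Prop :=
  ∃ Q, Five L d Q ∧ (t ∈ Q ∨ (∀ c, Commute c t → c ∈ 𝒞(Q) → c * c ∈ 𝒞(L)) ∧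
    (∃ l ∈ L, l * d * l⁻¹ * d⁻¹ ∈ Q ∧ l * d * l⁻¹ ≠ d) ∧ ∃ l ∈ L, l * a * l⁻¹ ∈ Q)

/-- The action of `C(t)` on `L = 2.HS`. -/
structure Loc (L P : Subgroup G) (t a b i : G) : Prop where
  md : MD L P t a b i
  tP : t ∈ P
  cen : ∀ l ∈ L, l ∈ 𝒞(L) → l = 1 ∨ l = t
  idx : ∀ x y, Commute x t → Commute y t →
    (∃ l ∈ L, x * l ∈ 𝒞(L)) ∨ (∃ l ∈ L, y * l ∈ 𝒞(L)) ∨ ∃ l ∈ L, x * y * l ∈ 𝒞(L)
  cP : ∀ c, Commute c t → c ∈ 𝒞(P) → c ∈ 𝒞(L) ∨ c * a ∈ 𝒞(L) ∨ c * i ∈ 𝒞(L) ∨ c * a * i ∈ 𝒞(L)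
  c0 : ∃ c ∈ L, Commute c a ∧ ¬ Commute c i
  half : ∀ x ∈ L, ∀ y ∈ L, Commute x a → Commute y a → x ∉ P → y ∉ P → x * y ∈ P
  five : Five L a P
  typ : ∀ d, Commute d t → d * d ∈ 𝒞(L) → d ∉ 𝒞(L) → Typ L t a d

/-- The elementary abelian subgroup `U` of order `16` of `L`. -/
structure UD (L P T U : Subgroup G) (t a β h : G) : Prop where
  mβ : β ∈ L
  ββ : β * β = t
  syl : IsSylowIn 2 T P
  chr : ∀ x, x ∈ U ↔ x ∈ T ∧ x ∈ 𝒞(⁅T, T⁆) ∧ x * x = 1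
  mt : t ∈ U
  ma : a ∈ U
  mh : h ∈ L
  nh : h ∈ 𝒩(U)
  hh : h * h = 1
  ha : h * a * h⁻¹ ≠ a
  tr : ∀ w ∈ U, w = 1 ∨ w = t ∨ w = a ∨ w = a * t ∨ ∃ n ∈ L, n ∈ 𝒩(U) ∧ Commute n a ∧
    (n * (h * a * h⁻¹) * n⁻¹ = w ∨ n * (h * a * h⁻¹ * t) * n⁻¹ = w)
  om : ∀ x ∈ L, x ∈ 𝒞(U) → x * x = 1 → x ∈ U

/-- The family of the conjugates of a standard subgroup. -/
structure Std (L : G → Subgroup G) (t a : G) : Prop where
  eqv : ∀ g z x, x ∈ L z → g * x * g⁻¹ ∈ L (g * z * g⁻¹)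
  tight : ∀ z z' s, IsConj t z → IsConj t z' → s ∈ 𝒞(L z) → s ∈ 𝒞(L z') → s * s = 1 → s ≠ 1 → z = z'
  loc : ∀ g, ∃ P b i, Loc (L (g * t * g⁻¹)) P (g * t * g⁻¹) (g * a * g⁻¹) b i

/-- the derived group of `C_L(s)` -/
def Pf (L : Subgroup G) (s : G) : Subgroup G := ⁅L ⊓ centralizer {s}, L ⊓ centralizer {s}⁆

def Fr (t a z s : G) : Prop := ∃ g, g * t * g⁻¹ = z ∧ g * a * g⁻¹ = s

theorem cK {L : Subgroup G} {k l : G} (hk : k ∈ 𝒞(L)) (hl : l ∈ L) : Commute l k := hk l hl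

theorem Pf_congr {L : Subgroup G} {s s' : G} (e : ∀ l ∈ L, Commute l s ↔ Commute l s') : Pf L s = Pf L s' := by
  rw [Pf, Pf, show L ⊓ centralizer {s} = L ⊓ centralizer {s'} from Subgroup.ext fun l => and_congr_right fun hl =>
    mem_centralizer_singleton_iff.trans ((e l hl).trans mem_centralizer_singleton_iff.symm)]

theorem Five.congr {L Q : Subgroup G} {d d' : G} (h : Five L d Q) (e : ∀ l ∈ L, Commute l d ↔ Commute l d') :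
    Five L d' Q := by
  obtain ⟨y, hy, c, hc, h1, h2, h3, h4, h5, h6, h7⟩ := h
  exact ⟨y, hy, c, hc, (e y hy).1 h1, (e c hc).1 h2, h3, h4, fun l hl k => h5 l hl ((e l hl).2 k),
    h6.trans (closure_mono fun w ⟨l, hl, k, k'⟩ => ⟨l, hl, (e l hl).1 k, k'⟩), h7⟩

theorem Five.le {L Q : Subgroup G} {d : G} (h : Five L d Q) : Q ≤ L := by
  obtain ⟨y, hy, -, -, -, -, -, -, -, h6, -⟩ := h
  exact h6.trans ((closure_le _).2 (by rintro _ ⟨l, hl, -, rfl⟩; exact mul_mem (mul_mem hl hy) (inv_mem hl)))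

namespace Loc

variable {L P : Subgroup G} {t a b i : G} (h : Loc L P t a b i)
include h

theorem eqP : P = Pf L a := le_antisymm (h.md.p3.trans (commutator_mono h.md.p1 h.md.p1)) h.md.p2

theorem tK : t ∈ 𝒞(L) := h.md.cen

theorem iL : i ∈ L := (h.md.p1 h.md.i1).1

theorem comm_mul {l : G} (hl : l ∈ L) (x : G) : Commute l (x * t) ↔ Commute l x :=
  ⟨fun k => by simpa [mul_assoc, h.md.tt] using k.mul_right (cK h.tK hl), fun k => k.mul_right (cK h.tK hl)⟩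

theorem good {d : G} (hd : Commute d t) (hc : ∀ l ∈ L, Commute l a → Commute l d) : d ∈ 𝒞(L) ∨ d * a ∈ 𝒞(L) := by
  obtain ⟨c, c1, c2, c3⟩ := h.c0
  rcases h.cP d hd fun p hp => hc p (h.md.p1 hp).1 (mem_centralizer_singleton_iff.1 (h.md.p1 hp).2) with e | e | e | e
  exacts [Or.inl e, Or.inr e, absurd (by simpa using (hc c c1 c2).inv_right.mul_right (cK e c1)) c3,
    absurd (by simpa [mul_assoc] using ((hc c c1 c2).mul_right c2).inv_right.mul_right (cK e c1)) c3]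

theorem split5 {x : G} (hx : Commute x t) (h5 : x ^ 5 = 1) :
    ∃ l ∈ L, ∃ k ∈ 𝒞(L), l ^ 5 = 1 ∧ k ^ 5 = 1 ∧ x = l * k := by
  have e6 : x ^ 6 = x := by rw [pow_succ, h5, one_mul]
  obtain ⟨l, hl, k, hk, rfl⟩ : ∃ l ∈ L, ∃ k ∈ 𝒞(L), x = l * k := by
    have f : ∀ y, (∃ l ∈ L, y * l ∈ 𝒞(L)) → ∃ l ∈ L, ∃ k ∈ 𝒞(L), y = l * k := fun y ⟨l, hl, hk⟩ =>
      ⟨l⁻¹, inv_mem hl, _, hk, by rw [(cK hk (inv_mem hl)).eq, mul_inv_cancel_right]⟩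
    have e : x ^ 3 * x ^ 3 = x := by rw [← pow_add, e6]
    rcases h.idx _ _ (hx.pow_left 3) (hx.pow_left 3) with k | k | k
    iterate 2
      obtain ⟨l, hl, k, hk, e'⟩ := f _ k
      exact ⟨l * l, mul_mem hl hl, k * k, mul_mem hk hk, by rw [← e, e', (cK hk hl).symm.mul_mul_mul_comm]⟩
    exact f _ (e ▸ k)
  have c := cK hk hl
  have e : k ^ 5 = (l ^ 5)⁻¹ := eq_inv_of_mul_eq_one_right (c.mul_pow 5 ▸ h5)
  have e2 : (l ^ 6) ^ 5 = 1 := by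
    rw [← pow_mul, show 6 * 5 = 5 * 2 * 3 by rfl, pow_mul, pow_mul, pow_two]
    rcases h.cen _ (pow_mem hl 5) (inv_mem_iff.1 (e ▸ pow_mem hk 5)) with e | e <;> simp [e, h.md.tt]
  refine ⟨_, pow_mem hl 6, _, pow_mem hk 6, e2, ?_, by rw [← c.mul_pow, e6]⟩
  rw [← pow_mul, mul_comm, pow_mul, e, inv_pow, ← pow_mul, mul_comm, pow_mul, e2, inv_one]

theorem uniq5 {l l' k k' : G} (hl : l ∈ L) (hl' : l' ∈ L) (hk : k ∈ 𝒞(L)) (hk' : k' ∈ 𝒞(L)) (h1 : k ^ 5 = 1)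
    (h2 : k' ^ 5 = 1) (e : l * k = l' * k') : k = k' := by
  have e1 : l'⁻¹ * l = k' * k⁻¹ := by rw [inv_mul_eq_iff_eq_mul, ← mul_assoc, ← e, mul_inv_cancel_right]
  rcases h.cen _ (mul_mem (inv_mem hl') hl) (e1 ▸ mul_mem hk' (inv_mem hk)) with e2 | e2 <;> rw [e1] at e2
  · exact (mul_inv_eq_one.1 e2).symm
  · rw [mul_inv_eq_iff_eq_mul.1 e2, (cK hk h.md.mt).mul_pow, h1, mul_one, show 5 = 2 * 2 + 1 by rfl, pow_succ, pow_mul,
      pow_two t, h.md.tt, one_pow, one_mul] at h2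
    exact absurd h2 h.md.t1

end Loc

theorem Fr.conj {t a z s : G} (h : Fr t a z s) (g : G) : Fr t a (g * z * g⁻¹) (g * s * g⁻¹) := by
  obtain ⟨k, rfl, rfl⟩ := h
  exact ⟨g * k, conj_conj .., conj_conj ..⟩

theorem Fr.isConj {t a z s : G} (h : Fr t a z s) : IsConj t z := let ⟨_, e, _⟩ := h; isConj_of e

theorem exFr {t z : G} (a : G) (h : IsConj t z) : ∃ s, Fr t a z s :=
  let ⟨g, e⟩ := isConj_iff.1 h; ⟨_, g, e, rfl⟩

theorem cjZ {t z : G} (h : IsConj t z) (g : G) : IsConj t (g * z * g⁻¹) := h.trans (isConj_of rfl)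

namespace Std

variable {L : G → Subgroup G} {t a : G} (h : Std L t a)
include h

theorem loc' {z s : G} (f : Fr t a z s) : ∃ b i, Loc (L z) (Pf (L z) s) z s b i := by
  obtain ⟨g, rfl, rfl⟩ := f
  obtain ⟨P, b, i, k⟩ := h.loc g
  exact ⟨b, i, k.eqP ▸ k⟩

theorem exL {z : G} (hz : IsConj t z) : ∃ s b i, Fr t a z s ∧ Loc (L z) (Pf (L z) s) z s b i :=
  let ⟨s, f⟩ := exFr a hz; let ⟨b, i, k⟩ := h.loc' f; ⟨s, b, i, f, k⟩

theorem eqv' {g z x : G} (hx : g * x * g⁻¹ ∈ L (g * z * g⁻¹)) : x ∈ L z := by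
  have := h.eqv g⁻¹ _ _ hx
  rwa [conj_symm rfl, conj_symm rfl] at this

theorem eqvK (g : G) {z k : G} (hk : k ∈ 𝒞(L z)) : g * k * g⁻¹ ∈ 𝒞(L (g * z * g⁻¹)) := fun l hl => by
  obtain ⟨l, rfl⟩ : ∃ l', l = g * l' * g⁻¹ := ⟨g⁻¹ * l * g, by group⟩
  exact comm_conj g (cK hk (h.eqv' hl))

theorem norL {g z x : G} (hg : Commute g z) (hx : x ∈ L z) : g * x * g⁻¹ ∈ L z := conj_fix hg ▸ h.eqv g z x hx

theorem norK {g z x : G} (hg : Commute g z) (hx : x ∈ 𝒞(L z)) : g * x * g⁻¹ ∈ 𝒞(L z) := conj_fix hg ▸ h.eqvK g hx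

section
variable {z z' : G} (hz : IsConj t z) (hz' : IsConj t z')
include hz

theorem zL : z ∈ L z := let ⟨_, _, _, _, k⟩ := h.exL hz; k.md.mt
theorem zK : z ∈ 𝒞(L z) := let ⟨_, _, _, _, k⟩ := h.exL hz; k.tK
theorem zz : z * z = 1 := let ⟨_, _, _, _, k⟩ := h.exL hz; k.md.tt
theorem z1 : z ≠ 1 := let ⟨_, _, _, _, k⟩ := h.exL hz; k.md.t1
theorem cen {l : G} (h1 : l ∈ L z) (h2 : l ∈ 𝒞(L z)) : l = 1 ∨ l = z := let ⟨_, _, _, _, k⟩ := h.exL hz; k.cen l h1 h2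

theorem cls {x : G} (hx : x ∈ L z) (h2 : x * x = 1) : x = 1 ∨ x = z ∨ Fr t a z x ∨ Fr t a z (x * z) := by
  obtain ⟨s, b, i, f, k⟩ := h.exL hz
  refine (k.md.cls x hx h2).imp_right (Or.imp_right fun ⟨m, hm, e⟩ => ?_)
  have := f.conj m
  rw [conj_fix (k.md.cen m hm)] at this
  refine e.imp (fun e => by rwa [← e]) fun e => ?_
  rwa [← e, ← conj_mul, conj_fix (k.md.cen m hm), mul_assoc, k.md.tt, mul_one]

theorem comm_of {s g : G} (hs : s ∈ 𝒞(L z)) (h2 : s * s = 1) (h1 : s ≠ 1) (hg : Commute g s) : Commute g z :=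
  mul_inv_eq_iff_eq_mul.1 (h.tight _ _ s (cjZ hz g) hz (conj_fix hg ▸ h.eqvK g hs) hs h2 h1)

include hz'

theorem eq_of_K (hk : z ∈ 𝒞(L z')) : z = z' := h.tight _ _ z hz hz' (h.zK hz) hk (h.zz hz) (h.z1 hz)

theorem one_inv (hne : z ≠ z') {s : G} (h1 : s ∈ L z) (h2 : s ∈ 𝒞(L z')) (h3 : s * s = 1) (h4 : s ≠ 1) :
    z' * s ∈ 𝒞(L z) := by
  have c : ∀ l, Commute l s → Commute l z' := fun l => h.comm_of hz' h2 h3 h4
  have cz := (c z (cK (h.zK hz) h1).symm).symm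
  have n : z' ∉ 𝒞(L z) := fun e => hne (h.eq_of_K hz' hz e).symm
  rcases h.cls hz h1 h3 with e | rfl | f | f
  · exact absurd e h4
  · exact absurd (h.eq_of_K hz hz' h2) hne
  · obtain ⟨b, i, k⟩ := h.loc' f
    exact (k.good cz fun l _ => c l).resolve_left n
  · obtain ⟨b, i, k⟩ := h.loc' f
    have := (k.good cz fun l hl e => c l ((k.comm_mul hl s).1 e)).resolve_left n
    rwa [← mul_assoc, mul_mem_cancel_right k.tK] at this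

/-- The subgroup generated by the elements of order five lies in both components. -/
theorem five_le (hne : z ≠ z') (hc : Commute z z') {Q : Subgroup G} (f : Five (L z) z' Q) : Q ≤ L z' := by
  have hQ := f.le
  obtain ⟨y, hy, c, hc', h1, h2, h3, h4, h5, h6, s, s1, s', s2, s3, s4, s5, s6, s7⟩ := f
  obtain ⟨_, _, _, -, k⟩ := h.exL hz
  obtain ⟨_, _, _, -, k'⟩ := h.exL hz'
  obtain ⟨l, hl, x, hx, l5, x5, e⟩ := k'.split5 h1 h3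
  have p5 : ∀ g u : G, u ^ 5 = 1 → (g * u * g⁻¹) ^ 5 = 1 := fun g u hu => by rw [conj_pow, hu]; simp
  have e1 : z * x * z⁻¹ = x := k'.uniq5 (h.norL hc hl) hl (h.norK hc hx) hx (p5 _ _ x5) x5 (by
    rw [conj_mul, ← e, conj_fix (cK k.tK hy).symm])
  have e2 : c * x * c⁻¹ = x⁻¹ := k'.uniq5 (h.norL h2 hl) (inv_mem hl) (h.norK h2 hx) (inv_mem hx) (p5 _ _ x5)
    (by rw [inv_pow, x5, inv_one]) (by rw [conj_mul, ← e, h4, e, (cK hx hl).eq, mul_inv_rev])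
  have xz : Commute x z := (mul_inv_eq_iff_eq_mul.1 e1).symm
  obtain ⟨m, hm, w, hw, m5, w5, e3⟩ := k.split5 xz x5
  have e4 : w = w⁻¹ := (conj_fix (cK hw hc')).symm.trans (k.uniq5 (mul_mem (mul_mem hc' hm) (inv_mem hc')) (inv_mem hm)
    (h.norK (cK k.tK hc') hw) (inv_mem hw) (p5 _ _ w5) (by rw [inv_pow, w5, inv_one]) (by
      rw [conj_mul, ← e3, e2, e3, (cK hw hm).eq, mul_inv_rev]))
  have e5 : w = 1 := by
    rwa [show 5 = 2 * 2 + 1 by rfl, pow_succ, pow_mul, pow_two w, mul_eq_one_iff_eq_inv.2 e4, one_pow, one_mul] at w5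
  rw [e5, mul_one] at e3
  obtain ⟨j, hj⟩ := h5 x (e3 ▸ hm) (cK hx k'.md.mt).symm (e ▸ ((cK hx hl).symm.mul_right (Commute.refl x))) x5
  by_cases x1 : x = 1
  · rw [x1, mul_one] at e
    exact h6.trans ((closure_le _).2 (by rintro _ ⟨u, -, hu, rfl⟩; exact h.norL hu (e ▸ hl)))
  exfalso
  have yK : y ∈ 𝒞(L z') := by
    have := Fact.mk Nat.prime_five
    have o : orderOf y = 5 := orderOf_eq_prime h3 (by rintro rfl; exact x1 (by simpa using hj.symm))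
    refine zpowers_le.2 hx (hj ▸ mem_zpowers_zpow_iff.2 ?_)
    rw [o]
    exact Int.isCoprime_iff_gcd_eq_one.1 ((Nat.prime_iff_prime_int.1 this.1).irreducible.coprime_iff_not_dvd.2
      fun d => x1 (hj ▸ orderOf_dvd_iff_zpow_eq_one.1 (o ▸ d))).symm
  have QK : Q ≤ 𝒞(L z') := h6.trans ((closure_le _).2 (by rintro _ ⟨u, -, hu, rfl⟩; exact h.norK hu yK))
  have := mul_mem (inv_mem (h.one_inv hz hz' hne (hQ s1) (QK s1) s3 s5)) (h.one_inv hz hz' hne (hQ s2) (QK s2) s4 s6)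
  rw [mul_inv_rev, mul_assoc, inv_mul_cancel_left] at this
  rcases k.cen _ (hQ (mul_mem (inv_mem s1) s2)) this with e | e
  · exact s7 (inv_mul_eq_one.1 e)
  · exact hne (h.eq_of_K hz hz' (e ▸ QK (mul_mem (inv_mem s1) s2)))

theorem typ' (hne : z ≠ z') (hc : Commute z z') {s : G} (f : Fr t a z s) : ∃ Q, Q ≤ L z ∧ Q ≤ L z' ∧
    (z ∈ Q ∨ (∀ c, Commute c z → c ∈ 𝒞(Q) → c * c ∈ 𝒞(L z)) ∧
      (∃ l ∈ L z, l * z' * l⁻¹ * z'⁻¹ ∈ Q ∧ l * z' * l⁻¹ ≠ z') ∧ ∃ l ∈ L z, l * s * l⁻¹ ∈ Q) := by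
  obtain ⟨b, i, k⟩ := h.loc' f
  obtain ⟨Q, q1, q2⟩ := k.typ z' hc.symm (h.zz hz' ▸ one_mem _) fun e => hne (h.eq_of_K hz' hz e).symm
  exact ⟨Q, q1.le, h.five_le hz hz' hne hc q1, q2⟩

theorem adj0 (hne : z ≠ z') (hm : z' ∈ L z) : Pf (L z) z' ≤ L z' ∧ z ∈ L z' ∧ Pf (L z) z' ≤ Pf (L z') z ∧
    ∃ s, Fr t a z s ∧ (s = z' ∨ s = z' * z) ∧ Pf (L z) s = Pf (L z) z' := by
  obtain ⟨s, f, e⟩ : ∃ s, Fr t a z s ∧ (s = z' ∨ s = z' * z) := by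
    rcases h.cls hz hm (h.zz hz') with e | e | f | f
    exacts [absurd e (h.z1 hz'), absurd e.symm hne, ⟨_, f, Or.inl rfl⟩, ⟨_, f, Or.inr rfl⟩]
  obtain ⟨b, i, k⟩ := h.loc' f
  have c : ∀ l ∈ L z, Commute l s ↔ Commute l z' := fun l hl => by
    rcases e with rfl | rfl
    exacts [Iff.rfl, k.comm_mul hl _]
  have e1 := Pf_congr c
  have q := h.five_le hz hz' hne (cK k.tK hm).symm (k.five.congr c)
  have q2 : Pf (L z) s ≤ L z' ⊓ centralizer {z} :=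
    le_inf q fun p hp => mem_centralizer_singleton_iff.2 (cK k.tK (k.md.p1 hp).1)
  exact ⟨e1 ▸ q, q k.tP, e1 ▸ k.md.p3.trans (commutator_mono q2 q2), s, f, e, e1⟩

theorem sym (hne : z ≠ z') (hm : z' ∈ L z) : z ∈ L z' := (h.adj0 hz hz' hne hm).2.1

theorem eqP (hne : z ≠ z') (hm : z' ∈ L z) : Pf (L z) z' = Pf (L z') z :=
  le_antisymm (h.adj0 hz hz' hne hm).2.2.1 (h.adj0 hz' hz hne.symm (h.sym hz hz' hne hm)).2.2.1

theorem notFr (hne : z ≠ z') (hm : z' ∈ L z) (f : Fr t a z (z' * z)) : False := by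
  obtain ⟨b, i, k⟩ := h.loc' f
  obtain ⟨-, -, -, s, f', e, e'⟩ := h.adj0 hz' hz hne.symm (h.sym hz hz' hne hm)
  obtain ⟨_, _, k'⟩ := h.loc' f'
  have e1 : Pf (L z') s = Pf (L z) (z' * z) := by
    rw [e', ← h.eqP hz hz' hne hm, Pf_congr fun l hl => k.comm_mul hl z']
  have := k'.md.sq i (e1 ▸ k.md.i1) (e1 ▸ k.md.i2)
  rw [k.md.i3, mul_assoc, k.md.tt, mul_one] at this
  rcases this with e2 | e2
  · exact h.z1 hz' e2
  rcases e with rfl | rfl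
  · exact h.z1 hz (by simpa using e2)
  · exact hne (by rwa [mul_assoc, k'.md.tt, mul_one, eq_comm] at e2)

theorem adj (hne : z ≠ z') (hm : z' ∈ L z) : Fr t a z z' := by
  obtain ⟨-, -, -, s, f, rfl | rfl, -⟩ := h.adj0 hz hz' hne hm
  exacts [f, (h.notFr hz hz' hne hm f).elim]

/-- An element of order four of `C(L z)`. -/
theorem adjκ {κ : G} (h1 : κ ∈ 𝒞(L z)) (h2 : κ * κ = z) (hc : Commute z' κ) : z' ∈ L z := by
  by_cases hne : z' = z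
  · exact hne ▸ h.zL hz'
  obtain ⟨s, f⟩ := exFr a hz'
  obtain ⟨Q, -, q2, e | ⟨e, -⟩⟩ := h.typ' hz' hz hne (h2 ▸ hc.mul_right hc) f
  · exact q2 e
  · exact absurd (h.eq_of_K hz hz' (h2 ▸ e κ hc.symm (cent_mono q2 h1))).symm hne

end

theorem conj_a [Finite G] [IsSimpleGroup G] : IsConj t a := by
  obtain ⟨z, z', hz, hz', hne, hm⟩ : ∃ z z', IsConj t z ∧ IsConj t z' ∧ z ≠ z' ∧ z' ∈ L z := by
    obtain ⟨s, b, i, f, k⟩ := h.exL (IsConj.refl t)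
    obtain ⟨d, d1, d2, d3⟩ := k.md.exists_conj
    obtain ⟨Q, -, q2, e | ⟨-, ⟨l, -, e, e'⟩, -⟩⟩ := h.typ' (IsConj.refl t) d1 d3.symm d2.symm f
    · exact ⟨d, t, d1, IsConj.refl t, d3, q2 e⟩
    · exact ⟨d, _, d1, cjZ d1 l, e'.symm, (mul_mem_cancel_right (inv_mem (h.zL d1))).1 (q2 e)⟩
  obtain ⟨g, -, e⟩ := h.adj hz hz' hne hm
  exact hz'.trans (isConj_of e).symm

end Std

end CL.HNT
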