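/-
A standard subgroup `2.HS`: the centraliser of the standard subgroup, the outer involutions.
-/
import Cfsg.Agent.Spor.HNS1

set_option autoImplicit false

namespace CL.HNT

open Subgroup CL.HNR CL.Even CL.Grp

universe u

variable {G : Type u} [Group G]

/-- the subgroup of index at most two of `C(z)` -/
def Gam (L : G → Subgroup G) (t z : G) : Subgroup G :=
  closure {x | (IsConj t x ∧ Commute x z) ∨ (x ∈ 𝒞(L z) ∧ Odd (orderOf x)) ∨ x ∈ L z}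

theorem Gam.mL {L : G → Subgroup G} {t z x : G} (hx : x ∈ L z) : x ∈ Gam L t z := subset_closure (Or.inr (Or.inr hx))

theorem Gam.mZ {L : G → Subgroup G} {t z x : G} (h1 : IsConj t x) (h2 : Commute x z) : x ∈ Gam L t z :=
  subset_closure (Or.inl ⟨h1, h2⟩)

theorem memR {L K : Subgroup G} {x : G} : x ∈ L ⊔ 𝒞(L) ⊓ K ↔ ∃ l ∈ L, ∃ o, (o ∈ 𝒞(L) ∧ o ∈ K) ∧ l * o = x :=
  mem_sup_nl (inf_le_left.trans (cent_le_norm _))

theorem Fr.isConj' {t a z s : G} (f : Fr t a z s) (ha : IsConj t a) : IsConj t s :=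
  let ⟨_, _, e⟩ := f; ha.trans (isConj_of e)

namespace Std

variable {L : G → Subgroup G} {t a : G} (h : Std L t a)
include h

theorem eqvG (g : G) {z x : G} (hx : x ∈ Gam L t z) : g * x * g⁻¹ ∈ Gam L t (g * z * g⁻¹) := by
  refine (closure_le ((Gam L t (g * z * g⁻¹)).comap (MulAut.conj g).toMonoidHom)).2 ?_ hx
  rintro x (⟨h1, h2⟩ | ⟨h1, h2⟩ | h1)
  exacts [Gam.mZ (cjZ h1 g) (comm_conj g h2),
    subset_closure (Or.inr (Or.inl ⟨h.eqvK g h1, ((MulAut.conj g).orderOf_eq x).symm ▸ h2⟩)), Gam.mL (h.eqv g z x h1)]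

theorem eqvP (g : G) {z s x : G} (hx : x ∈ Pf (L z) s) : g * x * g⁻¹ ∈ Pf (L (g * z * g⁻¹)) (g * s * g⁻¹) := by
  have k : cj g (L z ⊓ centralizer {s}) ≤ L (g * z * g⁻¹) ⊓ centralizer {g * s * g⁻¹} := by
    rintro _ ⟨y, hy, rfl⟩
    exact ⟨h.eqv g z y hy.1, mem_centralizer_singleton_iff.2 (comm_conj g (mem_centralizer_singleton_iff.1 hy.2))⟩
  exact ((cj_commutator g _ _).le.trans (commutator_mono k k)) (conj_mem_cj g hx)

section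
variable {z s : G} (f : Fr t a z s)
include f

theorem sL : s ∈ L z := let ⟨_, _, k⟩ := h.loc' f; k.md.ma

theorem ne : z ≠ s := let ⟨_, _, k⟩ := h.loc' f; k.md.ne_t.symm

theorem PL : Pf (L z) s ≤ L z := let ⟨_, _, k⟩ := h.loc' f; k.five.le

theorem nat : ¬ IsConj t (s * z) := fun e => by
  obtain ⟨b, i, k⟩ := h.loc' f
  exact h.notFr f.isConj e (fun e => k.md.a1 (by simpa using e)) (mul_mem k.md.ma k.md.mt)
    (by rwa [mul_assoc, k.md.tt, mul_one])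

variable (ha : IsConj t a)
include ha

theorem symm : Fr t a s z :=
  h.adj (f.isConj' ha) f.isConj (h.ne f).symm (h.sym f.isConj (f.isConj' ha) (h.ne f) (h.sL f))

theorem eqP' : Pf (L z) s = Pf (L s) z := h.eqP f.isConj (f.isConj' ha) (h.ne f) (h.sL f)

theorem zn : z ∉ 𝒞(L s) := fun e => h.ne f (h.eq_of_K f.isConj (f.isConj' ha) e)

theorem k4 : ∃ i ∈ L z, i * i = z * s ∧
    ∀ k ∈ 𝒞(L z), (k ∈ 𝒞(L s) ∨ k * z ∈ 𝒞(L s)) ∨ k * i ∈ 𝒞(L s) ∨ k * z * i ∈ 𝒞(L s) := by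
  obtain ⟨b, i, k⟩ := h.loc' (h.symm f ha)
  have e := (h.eqP' f ha).ge.trans (h.PL f)
  exact ⟨i, e k.md.i1, k.md.i3, fun c hc => or_assoc.2 (k.cP c (cK hc (h.sL f)).symm (cent_mono e hc))⟩

theorem dich {k k' : G} (hk : k ∈ 𝒞(L z)) (hk' : k' ∈ 𝒞(L z)) : (k ∈ 𝒞(L s) ∨ k * z ∈ 𝒞(L s)) ∨
    (k' ∈ 𝒞(L s) ∨ k' * z ∈ 𝒞(L s)) ∨ k * k' ∈ 𝒞(L s) ∨ k * k' * z ∈ 𝒞(L s) := by
  obtain ⟨i, i1, i2, i3⟩ := h.k4 f ha
  have zK := h.zK f.isConj
  have g : ∀ {u v}, v ∈ 𝒞(L z) → u * i ∈ 𝒞(L s) → v * i ∈ 𝒞(L s) → u * v * z ∈ 𝒞(L s) := fun {u v} hv h1 h2 => by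
    have := mul_mem h1 h2
    rwa [mul_assoc, ← mul_assoc i, (cK hv i1).eq, mul_assoc v, i2, ← mul_assoc, ← mul_assoc,
      mul_mem_cancel_right (h.zK (f.isConj' ha))] at this
  have c := (cK hk' (h.zL f.isConj)).eq
  have zz := h.zz f.isConj
  refine (i3 k hk).imp_right fun e => (i3 k' hk').imp_right fun e' => ?_
  rcases e with e | e <;> rcases e' with e' | e'
  · exact Or.inr (g hk' e e')
  · exact Or.inl (by simpa [mul_assoc, zz] using g (mul_mem hk' zK) e e')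
  · exact Or.inl (by have := g hk' e e'; rwa [mul_assoc k, c, mul_assoc, mul_assoc, zz, mul_one] at this)
  · exact Or.inr (by
      have := g (mul_mem hk' zK) e e'
      rwa [mul_assoc (k * z), mul_assoc k', zz, mul_one, mul_assoc, c, ← mul_assoc] at this)

theorem sqK {k : G} (hk : k ∈ 𝒞(L z)) : (k ∈ 𝒞(L s) ∨ k * z ∈ 𝒞(L s)) ∨ k * k * z ∈ 𝒞(L s) := by
  obtain ⟨i, i1, i2, i3⟩ := h.k4 f ha
  have g : ∀ {u}, u ∈ 𝒞(L z) → u * i ∈ 𝒞(L s) → u * u * z ∈ 𝒞(L s) := fun {u} hu h1 => by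
    have := mul_mem h1 h1
    rwa [(cK hu i1).mul_mul_mul_comm, i2, ← mul_assoc, mul_mem_cancel_right (h.zK (f.isConj' ha))] at this
  refine (i3 k hk).imp_right fun e => e.elim (g hk) fun e => ?_
  have := g (mul_mem hk (h.zK f.isConj)) e
  rwa [(cK hk (h.zL f.isConj)).mul_mul_mul_comm, h.zz f.isConj, mul_one] at this

theorem one_of {k : G} (h1 : k ∈ 𝒞(L z)) (h2 : k ∈ 𝒞(L s)) (h3 : k * k = 1) : k = 1 :=
  by_contra fun e => h.ne f (h.tight _ _ k f.isConj (f.isConj' ha) h1 h2 h3 e)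

variable [Finite G]

theorem oddO : Odd (Nat.card ↥(𝒞(L z) ⊓ 𝒞(L s))) := (CL.Inv.SE.odd_card_iff _).2 fun _ hk e =>
  CL.Inv.SE.ne_one_of_inv e (h.one_of f ha hk.1 hk.2 (CL.Inv.SE.mul_self_of_inv e))

theorem memO {x : G} : x ∈ 𝒞(L z) ⊓ 𝒞(L s) ↔ x ∈ 𝒞(L z) ∧ Odd (orderOf x) := by
  refine ⟨fun hx => ⟨hx.1, (h.oddO f ha).of_dvd_nat (Subgroup.orderOf_dvd_natCard _ hx)⟩, fun ⟨h1, h2⟩ => ⟨h1, ?_⟩⟩
  refine mem_of_pow_mem_of_coprime (n := 2 ^ 2) (h2.coprime_two_right.pow_right 2) ?_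
  have g : ∀ u ∈ 𝒞(L z), u * z ∈ 𝒞(L s) → u * u ∈ 𝒞(L s) := fun u hu e => by
    have := mul_mem e e
    rwa [(cK hu (h.zL f.isConj)).mul_mul_mul_comm, h.zz f.isConj, mul_one] at this
  rw [pow_two 2, pow_mul, pow_two, pow_two]
  rcases h.sqK f ha h1 with (e | e) | e
  exacts [mul_mem (mul_mem e e) (mul_mem e e), mul_mem (g x h1 e) (g x h1 e), g _ (mul_mem h1 h1) e]

theorem norO {g : G} (hg : g * z * g⁻¹ = z ∨ g * z * g⁻¹ = s) : g ∈ 𝒩(𝒞(L z) ⊓ 𝒞(L s)) := by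
  refine mem_norm_of_cj_le ?_
  rintro _ ⟨x, hx, rfl⟩
  obtain ⟨h1, h2⟩ := (h.memO f ha).1 hx
  have k : g * x * g⁻¹ ∈ 𝒞(L (g * z * g⁻¹)) ∧ Odd (orderOf (g * x * g⁻¹)) :=
    ⟨h.eqvK g h1, ((MulAut.conj g).orderOf_eq x).symm ▸ h2⟩
  rcases hg with e | e <;> rw [e] at k
  exacts [(h.memO f ha).2 k, ((h.memO (h.symm f ha) ha).2 k).symm]

theorem exκ {k : G} (hk : k ∈ 𝒞(L z)) (hn : ¬ (k ∈ 𝒞(L s) ∨ k * z ∈ 𝒞(L s))) : ∃ κ ∈ 𝒞(L z), κ * κ = z := by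
  have zK := h.zK f.isConj
  obtain ⟨m, hm⟩ := ((h.memO f ha).1 ⟨mul_mem (mul_mem hk hk) zK, (h.sqK f ha hk).resolve_left hn⟩).2
  have := pow_orderOf_eq_one (k * k * z)
  rw [hm, (cK (mul_mem hk hk) (h.zL f.isConj)).symm.mul_pow, (Commute.refl k).mul_pow, pow_succ z, pow_mul z, pow_two,
    h.zz f.isConj, one_pow, one_mul] at this
  exact ⟨_, pow_mem hk _, (eq_inv_of_mul_eq_one_left this).trans (inv_eq_of_mul_eq_one_left (h.zz f.isConj))⟩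

end

variable (ha : IsConj t a)
include ha

theorem invK {z k : G} (hz : IsConj t z) (hk : k ∈ 𝒞(L z)) (h2 : k * k = 1) : k = 1 ∨ k = z := by
  obtain ⟨s, f⟩ := exFr a hz
  rcases h.sqK f ha hk with (e | e) | e
  · exact Or.inl (h.one_of f ha hk e h2)
  · exact Or.inr ((eq_inv_of_mul_eq_one_left (h.one_of f ha (mul_mem hk (h.zK hz)) e (by
      rw [(cK hk (h.zL hz)).mul_mul_mul_comm, h2, h.zz hz, mul_one]))).trans (inv_eq_of_mul_eq_one_left (h.zz hz)))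
  · exact absurd (by simpa [h2] using e) (h.zn f ha)

theorem inL {z d l : G} (hz : IsConj t z) (hd : IsConj t d) (hl : l ∈ L z) (hk : d * l ∈ 𝒞(L z)) : d ∈ L z := by
  obtain ⟨k, rfl⟩ : ∃ k, d = k * l⁻¹ := ⟨d * l, by group⟩
  rw [inv_mul_cancel_right] at hk
  have c := cK hk (inv_mem hl)
  have e := h.zz hd
  rw [c.mul_mul_mul_comm, mul_eq_one_iff_eq_inv] at e
  rcases h.cen hz (e ▸ inv_mem (mul_mem (inv_mem hl) (inv_mem hl))) (mul_mem hk hk) with e | e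
  · rcases h.invK ha hz hk e with rfl | rfl
    exacts [mul_mem (one_mem _) (inv_mem hl), mul_mem (h.zL hz) (inv_mem hl)]
  · exact h.adjκ hz hd hk e ((Commute.refl k).mul_left c)

variable {z s : G} (f : Fr t a z s)
include f

theorem out_half {d : G} (d1 : IsConj t d) (d2 : Commute d z) (d3 : d ∉ L z) : ∃ l ∈ L z, l * d * l⁻¹ ∈ L s := by
  have hz := f.isConj
  have n : z ≠ d := fun e => d3 (e ▸ h.zL hz)
  obtain ⟨Q, -, q2, e | ⟨-, -, l, hl, e⟩⟩ := h.typ' hz d1 n d2.symm f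
  · exact absurd (h.sym d1 hz n.symm (q2 e)) d3
  refine ⟨l⁻¹, inv_mem hl, h.eqv' (g := l) ?_⟩
  rw [← conj_conj, mul_inv_cancel, one_mul, inv_one, mul_one]
  exact h.sym d1 (cjZ (f.isConj' ha) l) (fun e => d3 (e ▸ mul_mem (mul_mem hl (h.sL f)) (inv_mem hl))) (q2 e)

theorem exOut : ∃ d, IsConj t d ∧ Commute d z ∧ d ∉ L z ∧ d ∈ L s := by
  obtain ⟨b, i, k⟩ := h.loc' f
  obtain ⟨d, d1, d2, d3⟩ := k.md.outer (fun e => h.nat f (f.isConj.trans e)) (f.isConj.symm.trans (f.isConj' ha))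
  obtain ⟨l, hl, e⟩ := h.out_half ha f (f.isConj.trans d1) d2 d3
  exact ⟨_, cjZ (f.isConj.trans d1) l, conj_fix (cK k.tK hl) ▸ comm_conj l d2,
    by rwa [mul_mem_cancel_right (inv_mem hl), mul_mem_cancel_left hl], e⟩

theorem out_mul {d d' : G} (d1 : IsConj t d) (d2 : Commute d z) (d3 : d ∉ L z) (e1 : IsConj t d') (e2 : Commute d' z)
    (e3 : d' ∉ L z) : d * d' ∈ L z := by
  obtain ⟨l, hl, e⟩ := h.out_half ha f d1 d2 d3
  obtain ⟨l', hl', e'⟩ := h.out_half ha f e1 e2 e3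
  obtain ⟨b, i, k⟩ := h.loc' (h.symm f ha)
  have p := (h.eqP' f ha).ge.trans (h.PL f)
  have c : ∀ {l d}, l ∈ L z → Commute d z → Commute (l * d * l⁻¹) z := fun {l d} hl hd =>
    conj_fix (cK (h.zK f.isConj) hl) ▸ comm_conj l hd
  have n : ∀ {l d}, l ∈ L z → d ∉ L z → l * d * l⁻¹ ∉ Pf (L s) z := fun hl hd e => hd (by
    have := p e
    rwa [mul_mem_cancel_right (inv_mem hl), mul_mem_cancel_left hl] at this)
  have := mul_mem (mul_mem (mul_mem (inv_mem hl) (h.norL (c hl d2) (mul_mem hl (inv_mem hl'))))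
    (p (k.half _ e _ e' (c hl d2) (c hl' e2) (n hl d3) (n hl' e3)))) hl'
  convert this using 1
  group

variable [Finite G]

theorem OG {x : G} (hx : x ∈ 𝒞(L z) ⊓ 𝒞(L s)) : x ∈ Gam L t z := subset_closure (Or.inr (Or.inl ((h.memO f ha).1 hx)))

theorem gam_str {d : G} (d1 : IsConj t d) (d2 : Commute d z) (d3 : d ∉ L z) {x : G} (hx : x ∈ Gam L t z) :
    x ∈ L z ⊔ 𝒞(L z) ⊓ 𝒞(L s) ∨ x * d ∈ L z ⊔ 𝒞(L z) ⊓ 𝒞(L s) := by
  have dd := h.zz d1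
  have dd' : ∀ y, d * (d * y) = y := fun y => by rw [← mul_assoc, dd, one_mul]
  have n : ∀ {y}, y ∈ L z ⊔ 𝒞(L z) ⊓ 𝒞(L s) → d * y * d ∈ L z ⊔ 𝒞(L z) ⊓ 𝒞(L s) := fun hy => by
    obtain ⟨l, hl, o, ho, rfl⟩ := memR.1 hy
    have := mul_mem (mem_sup_left (T := 𝒞(L z) ⊓ 𝒞(L s)) (h.norL d2 hl))
      (mem_sup_right (conj_mem (h.norO f ha (Or.inl (conj_fix d2))) ho))
    rwa [conj_mul, inv_eq_of_mul_eq_one_left dd] at this
  refine closure_induction ?_ (Or.inl (one_mem _)) ?_ ?_ hx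
  · rintro x (⟨h1, h2⟩ | h1 | h1)
    · by_cases e : x ∈ L z
      exacts [Or.inl (mem_sup_left e), Or.inr (mem_sup_left (h.out_mul ha f h1 h2 e d1 d2 d3))]
    exacts [Or.inl (mem_sup_right ((h.memO f ha).2 h1)), Or.inl (mem_sup_left h1)]
  · rintro x y - - (e | e) (e' | e')
    exacts [Or.inl (mul_mem e e'), Or.inr (mul_assoc x y d ▸ mul_mem e e'),
      Or.inr (by simpa [mul_assoc, dd'] using mul_mem e (n e')),
      Or.inl (by simpa [mul_assoc, dd', dd] using mul_mem e (n e'))]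
  · rintro x - (e | e)
    exacts [Or.inl (inv_mem e), Or.inr (by simpa [mul_assoc] using n (inv_mem e))]

omit [Finite G] in
theorem out_not {d : G} (d1 : IsConj t d) (d3 : d ∉ L z) {k : G} (hk : k ∈ 𝒞(L z)) :
    k * d ∉ L z ⊔ 𝒞(L z) ⊓ 𝒞(L s) := fun e => by
  obtain ⟨l, hl, o, ho, e⟩ := memR.1 e
  refine d3 (h.inL ha f.isConj d1 (inv_mem hl) ?_)
  rw [← inv_mul_eq_iff_eq_mul, (cK ho.1 hl).eq] at e
  rw [← e, mul_assoc, mul_inv_cancel_right]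
  exact mul_mem (inv_mem hk) ho.1

theorem κ_not {κ : G} (h1 : κ ∈ 𝒞(L z)) (h2 : κ * κ = z) : κ ∉ Gam L t z := fun e => by
  obtain ⟨d, d1, d2, d3, -⟩ := h.exOut ha f
  obtain ⟨l, hl, o, ho, rfl⟩ := memR.1 ((h.gam_str ha f d1 d2 d3 e).resolve_right (h.out_not ha f d1 d3 h1))
  rw [(cK ho.1 hl).symm.mul_mul_mul_comm] at h2
  refine h.zn f ha ?_
  rcases h.cen f.isConj hl ((mul_mem_cancel_right ho.1).1 h1) with e | e <;> rw [← h2]
  · simpa [e] using mul_mem ho.2 ho.2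
  · simpa [e, h.zz f.isConj] using mul_mem ho.2 ho.2

theorem idxG {κ : G} (h1 : κ ∈ 𝒞(L z)) (h2 : κ * κ = z) {y : G} (hy : Commute y z) :
    y ∈ Gam L t z ∨ y * κ ∈ Gam L t z := by
  have g : ∀ {k}, k ∈ 𝒞(L z) → k ∈ 𝒞(L s) ∨ k * z ∈ 𝒞(L s) → k ∈ Gam L t z := fun hk e => e.elim
    (fun e => h.OG ha f ⟨hk, e⟩) fun e => (mul_mem_cancel_right (Gam.mL (h.zL f.isConj))).1
      (h.OG ha f ⟨mul_mem hk (h.zK f.isConj), e⟩)
  have g2 : ∀ {k κ}, k ∈ 𝒞(L z) → κ ∈ 𝒞(L z) → κ * κ = z → k ∈ Gam L t z ∨ k * κ ∈ Gam L t z := fun hk h1 h2 =>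
    (h.dich f ha hk h1).imp (g hk) fun e => e.elim (fun e => absurd (g h1 e) (h.κ_not ha f h1 h2)) (g (mul_mem hk h1))
  obtain ⟨d, d1, d2, d3, -⟩ := h.exOut ha f
  obtain ⟨b, i, k⟩ := h.loc' f
  rcases k.idx y d hy d2 with ⟨l, hl, e⟩ | ⟨l, hl, e⟩ | ⟨l, hl, e⟩
  · refine (g2 e h1 h2).imp (mul_mem_cancel_right (Gam.mL hl)).1 fun e' => ?_
    rwa [mul_assoc, (cK h1 hl).eq, ← mul_assoc, mul_mem_cancel_right (Gam.mL hl)] at e'
  · exact absurd (h.inL ha f.isConj d1 hl e) d3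
  · have m : d * l ∈ Gam L t z := mul_mem (Gam.mZ d1 d2) (Gam.mL hl)
    have c : Commute (d * l)⁻¹ z := (d2.mul_left (cK k.tK hl)).inv_left
    refine (g2 e (h.norK c h1) (by rw [conj_mul, h2, conj_fix c])).imp (fun e' => ?_) fun e' => ?_
    · rwa [mul_assoc, mul_mem_cancel_right m] at e'
    · rwa [show y * d * l * ((d * l)⁻¹ * κ * (d * l)⁻¹⁻¹) = y * κ * (d * l) by group, mul_mem_cancel_right m] at e'

theorem compat {x : G} (hx : x ∈ Gam L t z) (hc : Commute x s) : x ∈ Gam L t s := by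
  obtain ⟨d, d1, d2, d3, d4⟩ := h.exOut ha f
  obtain ⟨e, e1, e2, e3, e4⟩ := h.exOut ha (h.symm f ha)
  obtain ⟨b, i, k⟩ := h.loc' f
  have p := (h.eqP' f ha).le.trans (h.PL (h.symm f ha))
  have g : ∀ y ∈ L z ⊔ 𝒞(L z) ⊓ 𝒞(L s), Commute y s → y ∈ Gam L t s := fun y hy c => by
    obtain ⟨l, hl, o, ho, rfl⟩ := memR.1 hy
    refine mul_mem ?_ (h.OG ha (h.symm f ha) ho.symm)
    by_cases hP : l ∈ Pf (L z) s
    · exact Gam.mL (p hP)
    · exact (mul_mem_cancel_right (Gam.mZ e1 e2)).1 (Gam.mL (p (k.half l hl e e4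
        (by simpa using c.mul_left (cK ho.1 k.md.ma).symm.inv_left) e2 hP fun q => e3 (p q))))
  rcases h.gam_str ha f d1 d2 d3 hx with q | q
  · exact g x q hc
  · exact (mul_mem_cancel_right (Gam.mL d4)).1 (g _ q (hc.mul_left (cK (h.zK (f.isConj' ha)) d4)))

end Std

end CL.HNT
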