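/-
A standard subgroup `2.HS`: the abstract steps.
-/
import Cfsg.Agent.Spor.HNRDefs
import Cfsg.Prelude.Def_SporadicB
import Cfsg.Prelude.Def_Spor_Conway

set_option autoImplicit false

namespace CL.HNS

open Subgroup Cfsg.Spor

universe u

/-- A simple group with a subgroup `H ≥ C(t)` which is an extension of an odd group centralised by `t` by `HN`. -/
def Lift : Prop := ∀ (G : Type u) [Group G] [Finite G] [IsSimpleGroup G] (H : Subgroup G) (π : H →* HN) (t : H),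
  Function.Surjective π → Odd (Nat.card π.ker) → t * t = 1 → (∀ o ∈ π.ker, Commute t o) →
    π t = (PresentedGroup.of HN.Gen.x : HN) ^ 2 → centralizer {(t : G)} ≤ H → Nonempty (G ≃* HN)

/-- The recognition of `HN` in the quotient `N(O)/O`, where `C(t)/O = 2.HS.2`. -/
def Quot : Prop := ∀ (G : Type u) [Group G] [Finite G] (L O : Subgroup G) (t d g : G),
  orderOf t = 2 → t ∈ L → L ≤ centralizer {t} → centralizer {t} ≤ normalizer (L : Set G) →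
  Cfsg.IsQuasisimple L → Cfsg.IsNonsplitDoubleCover L HS → Odd (Nat.card O) → O ≤ centralizer (L : Set G) →
  centralizer {t} ≤ normalizer (O : Set G) → (∀ k ∈ centralizer (L : Set G), k ∈ O ∨ k * t ∈ O) →
  Commute d t → d ∉ L ⊔ O → (∀ x y, Commute x t → Commute y t → x ∉ L ⊔ O → y ∉ L ⊔ O → x * y ∈ L ⊔ O) →
  g ∈ normalizer (O : Set G) → g * t * g⁻¹ ∈ L → g * t * g⁻¹ ≠ t →
    ∃ (π : normalizer (O : Set G) →* HN) (ht : t ∈ normalizer (O : Set G)), Function.Surjective π ∧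
      π.ker = O.subgroupOf _ ∧ π ⟨t, ht⟩ = (PresentedGroup.of HN.Gen.x : HN) ^ 2

/-- Extension of a subgroup of index two of a point stabiliser to a triply transitive group `Y`, which acts by
conjugation on `Ω`. -/
def Ext : Prop := ∀ (G : Type u) [Group G] (Y B : Subgroup G) (Ω : Set G) (z a κ σ h : G),
  z ∈ Ω → a ∈ Ω → (∀ y ∈ Y, ∀ w ∈ Ω, y * w * y⁻¹ ∈ Ω) → B ≤ Y → (∀ b ∈ B, b * z * b⁻¹ = z) →
  (∀ y ∈ Y, y * z * y⁻¹ = z → y ∈ B ∨ y * κ ∈ B) → κ ∈ Y → κ ∉ B → (∀ w ∈ Ω, κ * w * κ⁻¹ = w) →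
  (∀ w ∈ Ω, w ≠ z → ∃ b ∈ B, b * a * b⁻¹ = w) → h ∈ B → h * a * h⁻¹ ≠ a →
  (∀ w ∈ Ω, w ≠ z → w ≠ a → ∃ b ∈ B, b * a * b⁻¹ = a ∧ b * (h * a * h⁻¹) * b⁻¹ = w) →
  σ ∈ Y → σ * σ = 1 → σ * z * σ⁻¹ = a → a ≠ z → (∀ b ∈ B, b * a * b⁻¹ = a → σ * b * σ⁻¹ ∈ B) →
    ∃ W : Subgroup G, (∀ y ∈ W, y * z * y⁻¹ = z → y ∈ B) ∧ (∀ y ∈ Y, ∀ w ∈ W, y * w * y⁻¹ ∈ W) ∧
      ∀ x ∈ Y, ∀ y ∈ Y, x ∉ W → y ∉ W → x * y ∈ W

end CL.HNS
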