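/-
Extension of a subgroup of index two of a point stabiliser to a triply transitive group.
-/
import Cfsg.Agent.Spor.HNSDefs

set_option autoImplicit false

namespace CL.HNS

universe u

namespace Ex

variable {G : Type u} [Group G]

/-- The union of the double cosets `B` and `B s B`. -/
def dc (B : Subgroup G) (s : G) (hss : s * s ∈ B)
    (hk : ∀ b ∈ B, s * b * s ∈ B ∨ ∃ b1 ∈ B, ∃ b2 ∈ B, s * b * s = b1 * s * b2) : Subgroup G where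
  carrier := {w | w ∈ B ∨ ∃ b1 ∈ B, ∃ b2 ∈ B, w = b1 * s * b2}
  one_mem' := Or.inl B.one_mem
  mul_mem' := by
    rintro x y (hx | ⟨b1, h1, b2, h2, rfl⟩) (hy | ⟨b3, h3, b4, h4, rfl⟩)
    · exact Or.inl (B.mul_mem hx hy)
    · exact Or.inr ⟨x * b3, B.mul_mem hx h3, b4, h4, by group⟩
    · exact Or.inr ⟨b1, h1, b2 * y, B.mul_mem h2 hy, by group⟩
    · rcases hk (b2 * b3) (B.mul_mem h2 h3) with h | ⟨c1, k1, c2, k2, h⟩
      · refine Or.inl ?_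
        have : b1 * s * b2 * (b3 * s * b4) = b1 * (s * (b2 * b3) * s) * b4 := by group
        rw [this]
        exact B.mul_mem (B.mul_mem h1 h) h4
      · refine Or.inr ⟨b1 * c1, B.mul_mem h1 k1, c2 * b4, B.mul_mem k2 h4, ?_⟩
        have : b1 * s * b2 * (b3 * s * b4) = b1 * (s * (b2 * b3) * s) * b4 := by group
        rw [this, h]; group
  inv_mem' := by
    rintro x (hx | ⟨b1, h1, b2, h2, rfl⟩)
    · exact Or.inl (B.inv_mem hx)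
    · exact Or.inr ⟨b2⁻¹, B.inv_mem h2, (s * s)⁻¹ * b1⁻¹, B.mul_mem (B.inv_mem hss) (B.inv_mem h1), by group⟩

theorem gen (Y B : Subgroup G) (Ω : Set G) (z a κ s h : G)
    (hz : z ∈ Ω) (ha : a ∈ Ω) (hΩ : ∀ y ∈ Y, ∀ w ∈ Ω, y * w * y⁻¹ ∈ Ω) (hBY : B ≤ Y)
    (hBz : ∀ b ∈ B, b * z * b⁻¹ = z)
    (hYz : ∀ y ∈ Y, y * z * y⁻¹ = z → y ∈ B ∨ y * κ ∈ B)
    (ht1 : ∀ w ∈ Ω, w ≠ z → ∃ b ∈ B, b * a * b⁻¹ = w) (hh : h ∈ B)
    (ht2 : ∀ w ∈ Ω, w ≠ z → w ≠ a → ∃ b ∈ B, b * a * b⁻¹ = a ∧ b * (h * a * h⁻¹) * b⁻¹ = w)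
    (haz : a ≠ z) (hsY : s ∈ Y) (hsz : s * z * s⁻¹ = a) (hss : s * s ∈ B)
    (hsB : ∀ b ∈ B, b * a * b⁻¹ = a → s * b * s⁻¹ ∈ B)
    (hsh : ∃ b1 ∈ B, ∃ b2 ∈ B, s * h * s = b1 * s * b2) :
    ∃ W : Subgroup G, (∀ y ∈ W, y * z * y⁻¹ = z → y ∈ B) ∧ (∀ y ∈ Y, ∀ w ∈ W, y * w * y⁻¹ ∈ W) ∧
      ∀ x ∈ Y, ∀ y ∈ Y, x ∉ W → y ∉ W → x * y ∈ W := by
  have hne : ∀ b ∈ B, b * a * b⁻¹ ≠ z := by
    intro b hb e
    apply haz
    have := hBz _ (B.inv_mem hb)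
    rw [← e] at this
    rw [← e, ← this]; group
  have hk : ∀ b ∈ B, s * b * s ∈ B ∨ ∃ b1 ∈ B, ∃ b2 ∈ B, s * b * s = b1 * s * b2 := by
    intro b hb
    by_cases hba : b * a * b⁻¹ = a
    · left
      have : s * b * s = (s * b * s⁻¹) * (s * s) := by group
      rw [this]
      exact B.mul_mem (hsB b hb hba) hss
    · right
      obtain ⟨b1, h1, h1a, h1w⟩ := ht2 _ (hΩ b (hBY hb) a ha) (hne b hb) hba
      have h2 : (b1 * h)⁻¹ * b ∈ B := B.mul_mem (B.inv_mem (B.mul_mem h1 hh)) hb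
      have h2a : (b1 * h)⁻¹ * b * a * ((b1 * h)⁻¹ * b)⁻¹ = a := by
        have : (b1 * h)⁻¹ * b * a * ((b1 * h)⁻¹ * b)⁻¹ = (b1 * h)⁻¹ * (b * a * b⁻¹) * (b1 * h) := by group
        rw [this, ← h1w]; group
      obtain ⟨c1, k1, c2, k2, e⟩ := hsh
      refine ⟨s * b1 * s⁻¹ * c1, B.mul_mem (hsB b1 h1 h1a) k1,
        c2 * ((s * s)⁻¹ * (s * ((b1 * h)⁻¹ * b) * s⁻¹) * (s * s)),
        B.mul_mem k2 (B.mul_mem (B.mul_mem (B.inv_mem hss) (hsB _ h2 h2a)) hss), ?_⟩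
      have : s * b * s = s * b1 * s⁻¹ * (s * h * s) *
          ((s * s)⁻¹ * (s * ((b1 * h)⁻¹ * b) * s⁻¹) * (s * s)) := by group
      rw [this, e]; group
  have hW : ∀ y, y ∈ dc B s hss hk ↔ y ∈ B ∨ ∃ b1 ∈ B, ∃ b2 ∈ B, y = b1 * s * b2 := fun _ => Iff.rfl
  have hor : ∀ y ∈ Y, y ∉ dc B s hss hk → y * κ ∈ dc B s hss hk := by
    intro y hy hn
    by_cases hyz : y * z * y⁻¹ = z
    · rcases hYz y hy hyz with h1 | h1
      · exact absurd ((hW y).2 (Or.inl h1)) hn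
      · exact (hW _).2 (Or.inl h1)
    · obtain ⟨b, hb, e⟩ := ht1 _ (hΩ y hy z hz) hyz
      have hc : (b * s)⁻¹ * y ∈ Y := Y.mul_mem (Y.inv_mem (Y.mul_mem (hBY hb) hsY)) hy
      have hcz : (b * s)⁻¹ * y * z * ((b * s)⁻¹ * y)⁻¹ = z := by
        have : (b * s)⁻¹ * y * z * ((b * s)⁻¹ * y)⁻¹ = (b * s)⁻¹ * (y * z * y⁻¹) * (b * s) := by group
        rw [this, ← e, ← hsz]; group
      rcases hYz _ hc hcz with h1 | h1
      · exact absurd ((hW y).2 (Or.inr ⟨b, hb, _, h1, by group⟩)) hn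
      · exact (hW _).2 (Or.inr ⟨b, hb, _, h1, by group⟩)
  have hmul : ∀ x ∈ Y, ∀ y ∈ Y, x ∉ dc B s hss hk → y ∉ dc B s hss hk → x * y ∈ dc B s hss hk := by
    intro x hx y hy hxn hyn
    have h1 := hor x hx hxn
    have h2 := hor y⁻¹ (Y.inv_mem hy) (fun e => hyn (by simpa using (dc B s hss hk).inv_mem e))
    have : x * y = (x * κ) * (y⁻¹ * κ)⁻¹ := by group
    rw [this]
    exact Subgroup.mul_mem _ h1 (Subgroup.inv_mem _ h2)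
  have hWY : dc B s hss hk ≤ Y := by
    intro y hy
    rcases (hW y).1 hy with h1 | ⟨b1, h1, b2, h2, rfl⟩
    · exact hBY h1
    · exact Y.mul_mem (Y.mul_mem (hBY h1) hsY) (hBY h2)
  refine ⟨dc B s hss hk, ?_, ?_, hmul⟩
  · intro y hy hyz
    rcases (hW y).1 hy with h1 | ⟨b1, h1, b2, h2, rfl⟩
    · exact h1
    · exfalso
      apply hne b1 h1
      rw [← hyz, ← hsz]
      have : b1 * s * b2 * z * (b1 * s * b2)⁻¹ = b1 * s * (b2 * z * b2⁻¹) * (b1 * s)⁻¹ := by group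
      rw [this, hBz b2 h2]; group
  · intro y hy w hw
    by_cases hyW : y ∈ dc B s hss hk
    · exact Subgroup.mul_mem _ (Subgroup.mul_mem _ hyW hw) (Subgroup.inv_mem _ hyW)
    · refine hmul _ (Y.mul_mem hy (hWY hw)) _ (Y.inv_mem hy) (fun e => hyW ?_) (fun e => hyW ?_)
      · simpa using Subgroup.mul_mem _ e (Subgroup.inv_mem _ hw)
      · simpa using Subgroup.inv_mem _ e

end Ex

theorem ext : Ext.{u} := by
  intro G _ Y B Ω z a κ σ h hz ha hΩ hBY hBz hYz hκY hκB hκΩ ht1 hh hha ht2 hσY hσσ hσz haz hσB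
  have hinv : σ⁻¹ = σ := inv_eq_of_mul_eq_one_right hσσ
  have hκκ : κ * κ ∈ B := (hYz κ hκY (hκΩ z hz)).resolve_left hκB
  have hκb : ∀ b ∈ B, κ * b * κ⁻¹ ∈ B := by
    intro b hb
    have h1 : κ * b * κ⁻¹ * z * (κ * b * κ⁻¹)⁻¹ = z := by
      have e : κ⁻¹ * z * κ = z := by
        conv_lhs => rw [← hκΩ z hz]
        group
      have : κ * b * κ⁻¹ * z * (κ * b * κ⁻¹)⁻¹ = κ * (b * (κ⁻¹ * z * κ) * b⁻¹) * κ⁻¹ := by group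
      rw [this, e, hBz b hb, hκΩ z hz]
    rcases hYz _ (Y.mul_mem (Y.mul_mem hκY (hBY hb)) (Y.inv_mem hκY)) h1 with h2 | h2
    · exact h2
    · exfalso
      apply hκB
      have : κ = κ * b * κ⁻¹ * κ * b⁻¹ := by group
      rw [this]
      exact B.mul_mem h2 (B.inv_mem hb)
  have hκ' : ∀ w ∈ Ω, σ * κ * σ⁻¹ * w * (σ * κ * σ⁻¹)⁻¹ = w := by
    intro w hw
    have h1 := hκΩ _ (hΩ σ⁻¹ (Y.inv_mem hσY) w hw)
    have : σ * κ * σ⁻¹ * w * (σ * κ * σ⁻¹)⁻¹ = σ * (κ * (σ⁻¹ * w * σ⁻¹⁻¹) * κ⁻¹) * σ⁻¹ := by group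
    rw [this, h1]; group
  have hκκ' : σ * κ * σ⁻¹ * κ ∈ B := by
    refine (hYz _ (Y.mul_mem (Y.mul_mem hσY hκY) (Y.inv_mem hσY)) (hκ' z hz)).resolve_left fun e => hκB ?_
    have h1 := hσB _ e (hκ' a ha)
    have : σ * (σ * κ * σ⁻¹) * σ⁻¹ = (σ * σ) * κ * (σ * σ)⁻¹ := by group
    rw [this, hσσ] at h1
    simpa using h1
  have hσa : σ * a * σ⁻¹ = z := by
    rw [← hσz]
    have : σ * (σ * z * σ⁻¹) * σ⁻¹ = (σ * σ) * z * (σ * σ)⁻¹ := by group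
    rw [this, hσσ]; group
  have hY : σ * h * σ ∈ Y := Y.mul_mem (Y.mul_mem hσY (hBY hh)) hσY
  have hmv : σ * h * σ * z * (σ * h * σ)⁻¹ ≠ z := by
    intro e
    apply hha
    have h1 : σ * h * σ * z * (σ * h * σ)⁻¹ = σ * (h * (σ * z * σ⁻¹) * h⁻¹) * σ⁻¹ := by group
    rw [h1, hσz, ← hσa] at e
    simpa using e
  obtain ⟨b, hb, e⟩ := ht1 _ (hΩ _ hY z hz) hmv
  have hc : (b * σ)⁻¹ * (σ * h * σ) ∈ Y := Y.mul_mem (Y.inv_mem (Y.mul_mem (hBY hb) hσY)) hY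
  have hcz : (b * σ)⁻¹ * (σ * h * σ) * z * ((b * σ)⁻¹ * (σ * h * σ))⁻¹ = z := by
    have : (b * σ)⁻¹ * (σ * h * σ) * z * ((b * σ)⁻¹ * (σ * h * σ))⁻¹ =
      (b * σ)⁻¹ * (σ * h * σ * z * (σ * h * σ)⁻¹) * (b * σ) := by group
    rw [this, ← e, ← hσz]; group
  rcases hYz _ hc hcz with h1 | h1
  · exact Ex.gen Y B Ω z a κ σ h hz ha hΩ hBY hBz hYz ht1 hh ht2 haz hσY hσz (hσσ ▸ B.one_mem) hσB
      ⟨b, hb, _, h1, by group⟩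
  · have hκa : κ⁻¹ * a * κ = a := by
      conv_lhs => rw [← hκΩ a ha]
      group
    refine Ex.gen Y B Ω z a κ (σ * κ) h hz ha hΩ hBY hBz hYz ht1 hh ht2 haz (Y.mul_mem hσY hκY) ?_ ?_ ?_ ?_
    · have : σ * κ * z * (σ * κ)⁻¹ = σ * (κ * z * κ⁻¹) * σ⁻¹ := by group
      rw [this, hκΩ z hz, hσz]
    · have : σ * κ * (σ * κ) = σ * κ * σ⁻¹ * κ := by rw [hinv]; group
      rw [this]; exact hκκ'
    · intro c hc' hca
      have : σ * κ * c * (σ * κ)⁻¹ = σ * (κ * c * κ⁻¹) * σ⁻¹ := by group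
      rw [this]
      refine hσB _ (hκb c hc') ?_
      have : κ * c * κ⁻¹ * a * (κ * c * κ⁻¹)⁻¹ = κ * (c * (κ⁻¹ * a * κ) * c⁻¹) * κ⁻¹ := by group
      rw [this, hκa, hca, hκΩ a ha]
    · have hb0 : h⁻¹ * (κ * h * κ⁻¹) ∈ B := B.mul_mem (B.inv_mem hh) (hκb h hh)
      have hb0a : h⁻¹ * (κ * h * κ⁻¹) * a * (h⁻¹ * (κ * h * κ⁻¹))⁻¹ = a := by
        have : h⁻¹ * (κ * h * κ⁻¹) * a * (h⁻¹ * (κ * h * κ⁻¹))⁻¹ =
          h⁻¹ * (κ * (h * (κ⁻¹ * a * κ) * h⁻¹) * κ⁻¹) * h := by group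
        rw [this, hκa, hκΩ _ (hΩ h (hBY hh) a ha)]; group
      have h3 : κ⁻¹ * ((b * σ)⁻¹ * (σ * h * σ)) ∈ B := by
        have : κ⁻¹ * ((b * σ)⁻¹ * (σ * h * σ)) =
          (κ * κ)⁻¹ * (κ * ((b * σ)⁻¹ * (σ * h * σ) * κ) * κ⁻¹) := by group
        rw [this]
        exact B.mul_mem (B.inv_mem hκκ) (hκb _ h1)
      refine ⟨b, hb, _, B.mul_mem (B.mul_mem h3 (hσB _ hb0 hb0a)) hκκ', ?_⟩
      have : b * (σ * κ) * (κ⁻¹ * ((b * σ)⁻¹ * (σ * h * σ)) * (σ * (h⁻¹ * (κ * h * κ⁻¹)) * σ⁻¹) *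
          (σ * κ * σ⁻¹ * κ)) = σ * h * (σ * σ) * h⁻¹ * κ * h * σ⁻¹ * κ := by group
      rw [this, hσσ, hinv]; group

end CL.HNS
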