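/-
The centralizer of a root element of `²E₆(2)`: generators, order and normal 2-subgroups.
-/
import Cfsg.Agent.Spor.InE62D
import Cfsg.Agent.Even.Amb

set_option autoImplicit false

namespace CL.IN.P62

open Cfsg Cfsg.Spor Subgroup CL.BM CL.Mx CL.Even CL.Grp Matrix

attribute [local irreducible] lam zc tc eta e6Mul e6W

theorem fi_normal {M : Subgroup Fi22} (h1 : M ≤ Fi22P.H) (h2 : Fi22P.H ≤ normalizer (M : Set Fi22)) :
    M ≤ zpowers (Fi22P.mk Fi22.a) ∨ Fi22P.H ≤ M ⊔ zpowers (Fi22P.mk Fi22.a) := by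
  let _ := Fintype.ofFinite (GaloisField 2 2)
  have hF : Fintype.card (GaloisField 2 2) = 4 := by
    rw [← Nat.card_eq_fintype_card, GaloisField.card 2 2 two_ne_zero]; rfl
  obtain ⟨-, ⟨-, ⟨e⟩, -⟩, hz⟩ := Ty.cover22 hF
  obtain ⟨g⟩ := Std.U62.iso hF
  have := Std.U62.simple
  have := (e.trans g.symm).isSimpleGroup
  have := normal_subgroupOf_of_le_normalizer h2
  rcases (Normal.map this (QuotientGroup.mk' (center Fi22P.H)) (QuotientGroup.mk'_surjective _)).eq_bot_or_eq_top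
    with k | k
  · exact .inl fun m hm => hz ⟨m, h1 hm⟩ ((QuotientGroup.eq_one_iff _).1 (k.le ⟨_, hm, rfl⟩))
  · refine .inr fun x hx => ?_
    obtain ⟨m, hm, k⟩ := k.ge (mem_top (QuotientGroup.mk' _ ⟨x, hx⟩))
    simpa using mul_mem_sup (S := M) hm (hz _ (QuotientGroup.eq.1 k))

section
variable {K : Type*} [Group K] (A : Act2 K 78)

/-- a translation -/
def Tr (n : K) (e : Vv) : Prop := e 0 = 0 ∧ ∀ w, lm (A.act n w) = lm w + lm w 0 • e

/-- the matrix on the quotient -/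
def Qt (g : K) (b : ℕ) : Prop := (∀ x : Vv, (dec2 78 b *ᵥ x) 0 = x 0) ∧ ∀ w, lm (A.act g w) = dec2 78 b *ᵥ lm w

variable {A} {n n' g : K} {e e' : Vv} {b : ℕ}

theorem Tr.mu (h : Tr A n e) (w : Vv) : lm (A.act n w) 0 = lm w 0 := by rw [h.2]; simp [h.1]

theorem Tr.one : Tr A 1 0 := ⟨rfl, fun w => by rw [A.act_one, smul_zero, add_zero]⟩

theorem Tr.mul (h : Tr A n e) (h' : Tr A n' e') : Tr A (n * n') (e + e') :=
  ⟨by rw [Pi.add_apply, h.1, h'.1, add_zero], fun w => by rw [A.act_mul, h.2, h'.mu, h'.2, smul_add]; abel⟩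

theorem Tr.inv (h : Tr A n e) : Tr A n⁻¹ e := ⟨h.1, fun w => by
  have h1 := h.2 (A.act n⁻¹ w)
  have h2 := h.mu (A.act n⁻¹ w)
  rw [← A.act_mul, mul_inv_cancel, A.act_one] at h1 h2
  rw [h2]; nth_rw 1 [h1]; rw [add_assoc, add_self, add_zero]⟩

theorem Tr.conj (h : Tr A n e) (hg : Qt A g b) : Tr A (g * n * g⁻¹) (dec2 78 b *ᵥ e) := ⟨(hg.1 e).trans h.1, fun w => by
  have h1 := hg.2 (A.act g⁻¹ w)
  rw [← A.act_mul, mul_inv_cancel, A.act_one] at h1
  rw [A.act_mul, A.act_mul, hg.2, h.2, mulVec_add, mulVec_smul, h1, hg.1]⟩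

theorem Tr.val (h : Tr A n e) {v : Vv} (hv : lm v 0 = 1) : lm (A.act n v) + lm v = e := by
  rw [h.2, hv, one_smul, add_right_comm, add_self, zero_add]

theorem Tr.z (h : Tr A n e) {v : Vv} (hv : lm v 0 = 1) : dec2 78 zc *ᵥ e = e := by
  rw [← h.val hv, mulVec_add, z_lm, z_lm, h.mu, add_add_add_comm, add_self (Pi.single _ _), add_zero]

variable (A) in
/-- the translation vectors of a subgroup -/
def Wn (N : Subgroup K) : AddSubgroup Vv where
  carrier := {e | ∃ n ∈ N, Tr A n e}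
  zero_mem' := ⟨1, one_mem _, .one⟩
  add_mem' := fun ⟨_, a, h⟩ ⟨_, a', h'⟩ => ⟨_, mul_mem a a', h.mul h'⟩
  neg_mem' := fun {e} h => by rwa [neg_eq_of_add_eq_zero_left (add_self e)]

variable (A) in
/-- the translations in a subgroup -/
def Nn (P : Subgroup K) : Subgroup K where
  carrier := {n | n ∈ P ∧ ∃ e, Tr A n e}
  one_mem' := ⟨one_mem _, _, .one⟩
  mul_mem' := fun ⟨a, _, h⟩ ⟨a', _, h'⟩ => ⟨mul_mem a a', _, h.mul h'⟩
  inv_mem' := fun ⟨a, _, h⟩ => ⟨inv_mem a, _, h.inv⟩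

variable {x : ℕ → K} (hA : ∀ i, A.Rep (e6C i) (x i))
include hA

theorem lm_act (w : List ℕ) (v : Vv) : lm (A.act (w.map x).prod v) = dec2 78 (e6Mul lam (e6W w)) *ᵥ v := by
  rw [e6_rep_word hA, lm, mulVec_mulVec, d_mul]

theorem gens {i : ℕ} (h : i < 10) : Qt A ((pw i).map x).prod (tc i) ∧
    A.act ((pw i).map x).prod (Pi.single 0 1) = Pi.single 0 1 := by
  have c := (allL_iff _ _).1 chkT i (by rw [rangeL_eq]; exact List.mem_range.2 h)
  simp only [band_iff, Nat.beq_eq] at c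
  refine ⟨⟨fun v => ?_, fun w => by rw [lm_act hA, ← c.1.1, d_mul, ← mulVec_mulVec, lm]⟩, ?_⟩
  · have k := congrArg (fun b => (dec2 78 b *ᵥ v) 0) c.1.2
    simpa only [d_mul, ← mulVec_mulVec, d_one, Pi.single_eq_same] using k
  · have k := congrArg (fun b => dec2 78 b *ᵥ (Pi.single 0 1 : Vv)) c.2
    simp only [d_mul, ← mulVec_mulVec, d_one, Pi.single_eq_same] at k
    rw [e6_rep_word hA, k]

theorem pres {N : Subgroup K} (h : ∀ i < 10, ((pw i).map x).prod ∈ normalizer (N : Set K)) (i : ℕ) :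
    Pres (Wn A N) (tc i) := fun e ⟨n, hn, k⟩ => by
  rcases lt_or_ge i 10 with a | a
  · exact ⟨_, (mem_normalizer_iff.1 (h i a) n).1 hn, k.conj (gens hA a).1⟩
  · unfold tc
    rw [List.getD_eq_default _ _ a, d_one, k.1, Pi.single_zero]; exact zero_mem _

theorem tr_n0 : Tr A (n0.map x).prod (Pi.single 1 1) := ⟨by simp, fun w => by
  rw [lm_act hA, chkN.1, d_xor, add_mulVec, d_mul, ← mulVec_mulVec, d_unit 1 0 (m := 78) rfl, ← Pi.single_smul',
    smul_eq_mul, mul_one, lm]⟩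

theorem tr_d : Tr A (x 6) 0 := ⟨rfl, fun w => by
  have := lm_act hA [6] w
  rw [chkN.2.1] at this
  simpa [lm] using this⟩

theorem lm_v1 : lm (A.act (x 6 * x 5) (Pi.single 0 1)) 0 = 1 := by
  have := lm_act hA [6, 5] (Pi.single 0 1)
  simp only [List.map_cons, List.map_nil, List.prod_cons, List.prod_nil, mul_one] at this
  rw [this, mulVec_single_one]; simpa [dec2] using congrArg b2 chkV.1

omit hA in
theorem lm_v0 : lm (Pi.single 0 1) 0 = 0 := by
  rw [lm, mulVec_single_one]; simpa [dec2] using congrArg b2 chkV.2.1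

theorem not_tr : ¬ Tr A (x 3) e := fun h => by
  obtain ⟨b, c1, c2, c3⟩ : ∃ b, (e6Mul lam b).testBit 158 = true ∧ (e6Mul lam b).testBit 2 = false ∧
    (e6Mul lam (e6Mul (e6C 3) b)).testBit 158 = false := ⟨_, chkV.2.2⟩
  have k := congrFun (h.2 (dec2 78 b *ᵥ Pi.single 2 1)) 2
  rw [hA, lm, lm, mulVec_mulVec, mulVec_mulVec, mulVec_mulVec, mul_assoc, ← d_mul, ← d_mul, ← d_mul, mulVec_single_one,
    mulVec_single_one] at k
  simp [dec2, c1, c2, c3] at k

theorem t_facts : ((fw ++ 0 :: fw.reverse).map x).prod * x 9 ≠ 1 := fun h => by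
  obtain ⟨i, hi, c⟩ := chkD
  have k := congrFun (e6_rep_word hA (fw ++ 0 :: fw.reverse ++ [9]) (Pi.single ⟨i, hi⟩ 1)) ⟨i, hi⟩
  rw [List.map_append, List.prod_append, List.map_singleton, List.prod_singleton, h, A.act_one, mulVec_single_one] at k
  generalize e6W _ = b at c k
  simp [dec2, mul_comm i, c] at k

end

theorem prod_rev {K : Type*} [Group K] {x : ℕ → K} (h : ∀ i, x i * x i = 1) (w : List ℕ) :
    (w.reverse.map x).prod = (w.map x).prod⁻¹ := by
  induction w with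
  | nil => simp
  | cons c w ih => simp [ih, inv_of_sq (h c), -List.map_reverse]

end CL.IN.P62

namespace CL.IN

open Cfsg Cfsg.Spor Subgroup CL.BM CL.Mx CL.Even CL.Grp Matrix P62

/-- **The centralizer of a root element**, given the upper bound for its order. -/
theorem e6_P (hY : Y3Thm) {K : Type} [Group K] [Nontrivial K] {k : Nd → K} (h1 : Rel I2 k) (h2 : k .f2 = 1)
    (h3 : k .f3 = 1) (h4 : Gp I2 k = ⊤) (hP : Nat.card (centralizer {k .d2}) ≤ 2 ^ 21 * 9196830720) :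
    Nat.card (centralizer {k .d2}) = 2 ^ 21 * 9196830720 ∧
    centralizer {k .d2} = (Gp IG k ⊓ centralizer {k .d2}) ⊔ zpowers (k .d3) ∧
    (∀ N ≤ centralizer {k .d2}, centralizer {k .d2} ≤ normalizer (N : Set K) → IsPGroup 2 N →
      ∀ n ∈ N, n * k .c2 = k .c2 * n → n = 1) ∧ E6q k := by
  obtain ⟨-, -, A, -, hA⟩ := e6_act hY h1 h2 h3 h4
  obtain ⟨-, -, cL, gL, f, hf, ef, rf⟩ := e6_G hY h1 h2 h3 h4
  have : Finite K := Nat.finite_of_card_ne_zero (by rw [(e60 hY h1 h2 h3 h4).1]; norm_num)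
  have sq : ∀ i, k (e6Nd i) * k (e6Nd i) = 1 := fun i => h1.sq (e6Nd_mem i)
  have od : orderOf (k .d2) = 2 := orderOf_eq_prime ((pow_two _).trans (sq 6)) (e6_ne h1 h2 h3 h4 _ (by decide))
  have eL : Gp IG k ⊓ centralizer {k .d2} = Fi22P.H.map f := by
    refine (eq_of_le_of_card_ge ?_ (by rw [cL, card_map_of_injective hf, Fi22P.card_H])).symm
    rintro _ ⟨u, hu, rfl⟩
    refine ⟨rf.le ⟨u, rfl⟩, mem_centralizer_singleton_iff.2 ?_⟩
    rw [← show _ = k .d2 from ef .a, ← map_mul, ← map_mul]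
    exact congrArg f (mem_centralizer_singleton_iff.1 (Ty.cent22.ge hu))
  generalize hL : Gp IG k ⊓ centralizer {k .d2} = L at *
  have LP : L ≤ centralizer {k .d2} := hL ▸ inf_le_right
  have nL : ∀ M ≤ L, L ≤ normalizer (M : Set K) → M ≤ zpowers (k .d2) ∨ L ≤ M ⊔ zpowers (k .d2) := fun M a b => by
    have e : (M.comap f).map f = M := map_comap_eq_self (a.trans (eL ▸ map_le_range f _))
    have := fi_normal (M := M.comap f) (fun u hu => (mem_map_iff_mem hf).1 (eL ▸ a hu)) fun u hu =>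
      le_normalizer_comap f (b (eL ▸ mem_map_of_mem f hu))
    rw [← map_le_map_iff_of_injective hf, ← map_le_map_iff_of_injective hf (H := Fi22P.H), Subgroup.map_sup, e, ← eL,
      MonoidHom.map_zpowers] at this
    exact ef .a ▸ this
  let p : ℕ → K := fun i => ((pw i).map fun i => k (e6Nd i)).prod
  have pe : p 0 = k .d2 ∧ p 1 = k .b2 ∧ p 2 = k .a ∧ p 3 = k .b1 ∧ p 4 = k .c1 ∧ p 5 = k .d1 ∧ p 6 = k .b3 ∧
      p 7 = k .c3 ∧ p 8 = (k .d2 * k .c2 * k .b2 * k .a * k .b1 * k .b3) ^ 5 ∧ p 9 = k .d3 := by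
    simp [p, pw, e6Nd, pow_succ, mul_assoc]
  obtain ⟨p0, p1, p2, p3, p4, p5, p6, p7, p8, p9⟩ := pe
  have gen : ∀ S : Subgroup K, L ⊔ zpowers (k .d3) ≤ S ↔ ∀ i < 10, p i ∈ S := fun S => by
    simp only [gL, sup_le_iff, closure_le, zpowers_le, Set.insert_subset_iff, Set.singleton_subset_iff,
      SetLike.mem_coe, Nat.forall_lt_succ_right, Nat.not_lt_zero, false_imp_iff, implies_true, true_and,
      p0, p1, p2, p3, p4, p5, p6, p7, p8, p9, and_assoc]
  have PP : L ⊔ zpowers (k .d3) ≤ centralizer {k .d2} :=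
    sup_le LP (zpowers_le.2 (mem_centralizer_singleton_iff.2 (h1.cm _ _)))
  generalize L ⊔ zpowers (k .d3) = P0 at *
  have mp := (gen P0).1 le_rfl
  have L0 : L ≤ P0 := by
    rw [gL, closure_le]
    simp only [Set.insert_subset_iff, Set.singleton_subset_iff, SetLike.mem_coe, ← p8]
    simp only [← p0, ← p1, ← p2, ← p3, ← p4, ← p5, ← p6, ← p7]
    exact ⟨mp _ (by omega), mp _ (by omega), mp _ (by omega), mp _ (by omega), mp _ (by omega), mp _ (by omega),
      mp _ (by omega), mp _ (by omega), mp _ (by omega)⟩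
  let N0 := Nn A P0
  have N0P : N0 ≤ P0 := fun _ h => h.1
  have nN : P0 ≤ normalizer (N0 : Set K) := by
    refine (gen _).2 fun i hi => mem_normalizer_fintype (S := (N0 : Set K)) fun n hn => ?_
    obtain ⟨a, _, b⟩ := hn
    exact ⟨mul_mem (mul_mem (mp i hi) a) (inv_mem (mp i hi)), _, b.conj (gens hA hi).1⟩
  have hv := lm_v1 hA
  set v1 := A.act (k (e6Nd 6) * k (e6Nd 5)) (Pi.single 0 1) with ev
  have hz : ∀ N : Subgroup K, ∀ e ∈ Wn A N, dec2 78 zc *ᵥ e = e := fun N e ⟨_, _, b⟩ => b.z hv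
  have td : Tr A (k .d2) 0 := (tr_d hA :)
  have d0 : k .d2 ∈ N0 := ⟨p0 ▸ mp 0 (by omega), _, td⟩
  have m0 : (n0.map fun i => k (e6Nd i)).prod ∈ N0 := ⟨P0.list_prod_mem (by
    have := mp
    simp only [Nat.forall_lt_succ_right, p0, p1, p2, p3, p4, p5, p6, p7, p9] at this
    simp [n0, e6Nd, this]), _, tr_n0 hA⟩
  let κ : N0 →* Multiplicative Vv := MonoidHom.mk' (fun n => .ofAdd (lm (A.act n v1) + lm v1)) fun a b => by
    obtain ⟨-, _, a1⟩ := a.2
    obtain ⟨-, _, b1⟩ := b.2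
    rw [a1.val hv, b1.val hv, coe_mul, (a1.mul b1).val hv, ofAdd_add]
  have hκ : ∀ n : N0, ∀ e, Tr A (n : K) e → κ n = .ofAdd e := fun n e h =>
    congrArg Multiplicative.ofAdd (h.val hv)
  have c1 : 2 ^ 20 ≤ Nat.card κ.range := (big (pres hA fun i hi => nN (mp i hi)) (hz N0) ⟨_, m0, tr_n0 hA⟩).trans
    (Nat.card_le_card_of_injective (fun e => (⟨.ofAdd e.1, let ⟨n, a, b⟩ := e.2; ⟨⟨n, a⟩, hκ _ _ b⟩⟩ : κ.range))
      fun a b e => Subtype.ext (by simpa using e))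
  have k1 : zpowers (⟨_, d0⟩ : N0) ≤ κ.ker := zpowers_le.2 (hκ _ _ td)
  have c2 : Nat.card (zpowers (⟨_, d0⟩ : N0)) = 2 := by rw [Nat.card_zpowers, ← orderOf_coe, od]
  have c3 := κ.ker.card_mul_index
  rw [index_ker] at c3
  have c4 := card_le_of_le k1
  have i1 : L ⊓ N0 ≤ zpowers (k .d2) := (nL _ inf_le_left (le_norm_inf le_normalizer (L0.trans nN))).resolve_right
    fun e => let ⟨_, _, b⟩ := e.trans (sup_le inf_le_right (zpowers_le.2 d0)) (gL.ge (subset_closure (by simp)) :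
      k .a ∈ L); not_tr hA b
  have c5 := card_le_of_le i1
  have c6 := card_sup_mul_card_inf (L0.trans nN)
  have c7 := card_le_of_le (sup_le L0 N0P)
  have c8 := card_le_of_le PP
  rw [Nat.card_zpowers, od] at c5
  rw [cL] at c6
  have c9 : 2 * 2 ^ 20 ≤ Nat.card N0 := (Nat.mul_le_mul (c2.ge.trans c4) c1).trans c3.le
  have c10 := Nat.mul_le_mul_left (Nat.card (L ⊔ N0 : Subgroup K)) c5
  have eP : L ⊔ N0 = centralizer {k .d2} := eq_of_le_of_card_ge ((sup_le L0 N0P).trans PP) (by omega)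
  have e0 : centralizer {k .d2} = P0 := le_antisymm (eP ▸ sup_le L0 N0P) PP
  have cN : Nat.card N0 = 2 ^ 21 := by omega
  have k2 : ∀ n ∈ N0, Tr A n 0 → n ∈ zpowers (k .d2) := fun n hn h => by
    have : Nat.card κ.ker * 2 ^ 20 ≤ 2 * 2 ^ 20 := (Nat.mul_le_mul_left _ c1).trans (by omega)
    obtain ⟨m, e⟩ := (eq_of_le_of_card_ge k1 (by omega)).ge (hκ ⟨n, hn⟩ _ h)
    exact ⟨m, congrArg Subtype.val e⟩
  have two : ∀ N ≤ centralizer {k .d2}, centralizer {k .d2} ≤ normalizer (N : Set K) → IsPGroup 2 N → N ≤ N0 :=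
    fun N a b c n hn => by
      obtain ⟨u, hu, l, hl, rfl⟩ := (mem_sup_nl (L0.trans nN)).1 (sup_comm L N0 ▸ eP.ge (a hn))
      refine mul_mem hu (zpowers_le.2 d0 ((nL (L ⊓ (N ⊔ N0)) inf_le_left (le_norm_inf le_normalizer
        (le_norm_sup (LP.trans b) (L0.trans nN)))).resolve_right (fun e => ?_) ⟨hl, ?_⟩))
      · obtain ⟨m, e⟩ := IsPGroup.iff_card.1 ((c.to_sup_of_normal_right' (.of_card cN) (a.trans (e0 ▸ nN))).to_le
          (e.trans (sup_le inf_le_right ((zpowers_le.2 d0).trans le_sup_right))))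
        have : 3 ∣ 2 ^ m := e ▸ cL ▸ by norm_num
        exact absurd (Nat.prime_three.dvd_of_dvd_pow this) (by norm_num)
      · simpa using mul_mem (inv_mem (mem_sup_right hu : u ∈ N ⊔ N0)) (mem_sup_left hn)
  have br := h1.br .d2 .c2
  refine ⟨by omega, e0, fun N a b c n hn e => ?_, fun N a b c d => ?_⟩
  · obtain ⟨-, u, hu⟩ := two N a b c hn
    have g1 : k .d2 * k .c2 * k .d2 * (k .d2 * k .c2)⁻¹ = k .c2 := by rw [show _ * _ * _ = _ from br]; group
    have g2 : (k .d2 * k .c2)⁻¹ * n * (k .d2 * k .c2) ∈ A.model.stab (Pi.single 0 1) :=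
      (gen _).2 (fun i hi => (gens hA hi).2) (e0.le (mem_centralizer_singleton_iff.2 (by
        rw [← g1] at e
        generalize k .d2 * k .c2 = g at e
        calc _ = g⁻¹ * (n * (g * k .d2 * g⁻¹)) * g := by group
          _ = _ := by rw [e]; group)))
    have g3 : A.act n v1 = v1 := by
      have := congrArg (A.act (k .d2 * k .c2)) (show A.act _ _ = _ from g2)
      rwa [← A.act_mul, ← mul_assoc, mul_inv_cancel_left, A.act_mul] at this
    have := hu.val hv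
    rw [g3, add_self] at this
    refine ((mem_zpowers_two od).1 (k2 n (two N a b c hn) (this ▸ hu))).resolve_right fun e' => ?_
    rw [ev, show k (e6Nd 5) = k (e6Nd 6) from (br.eq_of_comm (e' ▸ e)).symm, sq, A.act_one, lm_v0] at hv
    exact zero_ne_one hv
  · obtain ⟨n, hn, hn'⟩ := SetLike.not_le_iff_exists.1 d
    obtain ⟨-, u, hu⟩ := two N a b c hn
    obtain ⟨m, hm, t1⟩ := irr (pres hA fun i hi => b (PP (mp i hi))) (hz N) ⟨n, hn, hu⟩
      fun e => hn' (k2 n (two N a b c hn) (e ▸ hu))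
    have t2 := k2 _ (mul_mem (inv_mem (two N a b c hm)) m0) (add_self (Pi.single 1 1) ▸ t1.inv.mul (tr_n0 hA))
    have t3 := e6_word hA chkN.2.2
    have t4 := e6_rel hA chkR
    have t5 := t_facts hA
    simp only [List.forall_mem_cons, List.map_append, List.prod_append, List.map_cons, List.prod_cons, List.map_nil,
      List.prod_nil, mul_one, prod_rev sq, ← mul_assoc] at t3 t4 t5
    have tt : ∀ g : K, g * k .d1 * g⁻¹ * (g * k .d1 * g⁻¹) = 1 := fun g => by
      rw [conj_mul, h1.sq (by decide), mul_one, mul_inv_cancel]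
    refine ⟨_, ⟨_, (Gp IF k).list_prod_mem (l := fw.map fun i => k (e6Nd i)) ?_, rfl⟩, fun e => t5 (e ▸ sq 9),
      comm_of_pow (tt _) (sq 6) t4.1, comm_of_pow (tt _) (sq 9) t4.2.1, br_of_pow (tt _) (sq 8) t4.2.2.1, m, hm, ?_⟩
    · simpa using fun i hi => mem_Gp ((by decide : ∀ i ∈ fw, e6Nd i ∈ IF) i hi)
    · refine Eq.trans ?_ t3
      obtain ⟨j, e⟩ := t2
      rw [inv_mul_eq_iff_eq_mul.1 e.symm]
      have : Commute (k .d2 ^ j) (k .d3) := (h1.cm _ _).zpow_left j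
      exact (congrArg (fun u => m * u * m⁻¹) this.mul_inv_cancel).symm.trans (by simp only [e6Nd]; simp [mul_assoc])

end CL.IN
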