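/-
Project IN: the centraliser of `d₂` and the orbital graph of the root elements in `C(s, s₁)`.
-/
import Cfsg.Agent.Spor.InChain

set_option autoImplicit false
set_option linter.unusedSectionVars false

namespace CL.IN

open Cfsg Cfsg.Spor Subgroup CL.BM CL.Mj CL.Spor.Leech CL.Spor.Mon

variable {H : Type} [Group H] [Finite H] {V : Type} [AddCommGroup V] [Module ℝ V] {y : Nd → H} {z : H}
  {Q : Subgroup H} {π : centralizer ({z} : Set H) →* Co1} {R : leechLattice → H → Prop} {s s1 : H}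
  {mul : V →ₗ[ℝ] V →ₗ[ℝ] V} {bil : LinearMap.BilinForm ℝ V} {ρ : H →* (V ≃ₗ[ℝ] V)} {ax : H → V}
  {G : Type} [Group G] {ψ : ↥(centralizer ({s} : Set H) ⊓ centralizer {s1}) →* G} {k : Nd → G}

namespace L2A

variable (hq : QD y s s1 ψ k)
include hq

theorem mem {n : Nd} (hn : n ∈ I2) : y n ∈ centralizer ({s} : Set H) ⊓ centralizer {s1} := hq.full ▸ mem_Gp hn

theorem lift {I : List Nd} (hI : ∀ n ∈ I, n ∈ I2) : Gp I k ≤ ((Gp I y).subgroupOf _).map ψ :=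
  Gp_le.2 fun n hn => ⟨⟨y n, mem hq (hI n hn)⟩, mem_Gp hn, hq.nd n (hI n hn) _ rfl⟩

theorem surj : Function.Surjective ψ := fun u =>
  let ⟨g, _, e⟩ := lift hq (fun _ hn => hn) (hq.top.ge (mem_top u)); ⟨g, e⟩

theorem conj_mem {p g : H} (hp : p ∈ Pi2 s s1) (hg : g ∈ centralizer ({s} : Set H) ⊓ centralizer {s1}) :
    g * p * g⁻¹ ∈ Pi2 s s1 := by
  rw [← hq.pi] at hp ⊢
  obtain ⟨a, ha, rfl⟩ := hp
  exact ⟨g * a, mul_mem (hq.full ▸ hg) ha, by group⟩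

theorem d2_mem : y .d2 ∈ Pi2 s s1 := hq.pi ▸ ⟨1, one_mem _, by simp⟩

theorem comm_iff (g : ↥(centralizer ({s} : Set H) ⊓ centralizer {s1})) :
    ψ g ∈ centralizer {k .d2} ↔ (g : H) ∈ centralizer {y .d2} := by
  rw [mem_centralizer_singleton_iff, mem_centralizer_singleton_iff, ← hq.nd .d2 (by decide) ⟨_, mem hq (by decide)⟩ rfl,
    ← mul_inv_eq_iff_eq_mul, ← mul_inv_eq_iff_eq_mul, ← map_inv, ← map_mul, ← map_mul]
  exact ⟨fun e => congrArg Subtype.val (hq.pinj _ _ (conj_mem hq (d2_mem hq) g.2) (d2_mem hq) e),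
    fun e => congrArg ψ (Subtype.ext e)⟩

end L2A

open L2A

variable (h : MD y z Q π R s s1 mul bil ρ ax) (hq : QD y s s1 ψ k)
include h hq

theorem MD.l2cen : Gp I2 y ⊓ centralizer {y .d2} =
    (Gp IG y ⊓ centralizer {y .d2}) ⊔ zpowers (y .d3) ⊔ zpowers s := by
  refine le_antisymm (fun g hg => ?_) (sup_le (sup_le (inf_le_inf_right _ (Gp_mono (by decide))) (zpowers_le.2
    ⟨mem_Gp (by decide), mem_centralizer_singleton_iff.2 (h.rel.cm .d3 .d2)⟩)) (zpowers_le.2 (h.f3 ▸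
    ⟨mem_Gp (by decide), mem_centralizer_singleton_iff.2 (h.rel.cm .f3 .d2)⟩)))
  set A := (Gp IG y ⊓ centralizer {y .d2}) ⊔ zpowers (y .d3) ⊔ zpowers s
  have h1 : centralizer {k .d2} ≤ (A.subgroupOf _).map ψ := by
    rw [hq.e6.cen]
    refine sup_le (fun u hu => ?_) (zpowers_le.2 ⟨⟨y .d3, mem hq (by decide)⟩,
      mem_sup_left (mem_sup_right (mem_zpowers _)), hq.nd _ (by decide) _ rfl⟩)
    obtain ⟨a, ha, rfl⟩ := lift hq (by decide) hu.1
    exact mem_map_of_mem _ (mem_sup_left (mem_sup_left ⟨ha, (comm_iff hq a).1 hu.2⟩))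
  obtain ⟨a, ha, e⟩ := h1 ((comm_iff hq ⟨g, hq.full ▸ hg.1⟩).2 hg.2)
  have h2 : s ∈ A := mem_sup_right (mem_zpowers s)
  have h3 : s1 ∈ A := by
    refine h.f2 ▸ mem_sup_left (mem_sup_left ⟨?_, mem_centralizer_singleton_iff.2 (h.rel.cm .f2 .d2)⟩)
    rw [← h.rel.w2]
    refine pow_mem ?_ 9
    repeat' apply mul_mem
    all_goals exact mem_Gp (by decide)
  refine (mul_mem_cancel_left (inv_mem (show (a : H) ∈ A from ha))).1 ?_
  rcases (hq.ker (a⁻¹ * ⟨g, hq.full ▸ hg.1⟩)).1 (by rw [map_mul, map_inv, e, inv_mul_cancel]) with k | k | k | k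
  all_goals rw [show (a : H)⁻¹ * g = _ from k]
  exacts [one_mem A, h2, h3, mul_mem h2 h3]

theorem MD.l2og (hS : StepThm) : OG (Gp I2 y) (y .d2) (y .b2) 3968055 44352 (1 / 8) := by
  have c := h.rel.ch5 .d2 .c2 .b2 .a .b3
  have h1 : y .c2 * y .d2 * y .b2 * y .c2 ∈ Gp I2 y := by
    repeat' apply mul_mem
    all_goals exact mem_Gp (by decide)
  have h2 : y .a * y .b2 * y .b3 * y .a ∈ Gp I2 y ⊓ centralizer {y .d2} := by
    refine ⟨?_, mem_centralizer_singleton_iff.2 c.sp⟩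
    repeat' apply mul_mem
    all_goals exact mem_Gp (by decide)
  have h3 : ((centralizer {y .d2}).subgroupOf _).map ψ = centralizer {k .d2} := by
    refine le_antisymm (map_le_iff_le_comap.2 fun g hg => (comm_iff hq g).2 hg) fun u hu => ?_
    obtain ⟨g, rfl⟩ := surj hq u
    exact mem_map_of_mem _ ((comm_iff hq g).1 hu)
  have h4 : y .b2 ∈ Pi2 s s1 := c.tp ▸ conj_mem hq (d2_mem hq) (hq.full ▸ h1)
  have h5 := hq.e6.og
  rw [← h3, ← hq.nd .b2 (by decide) ⟨_, mem hq (by decide)⟩ rfl, ← hq.nd .b3 (by decide) ⟨_, mem hq (by decide)⟩ rfl] at h5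
  have h6 := (h5.pull ⟨⟨_, hq.full ▸ h2.1⟩, h2.2, Subtype.ext c.sr⟩ (by
    rintro _ ⟨a, -, rfl⟩ _ ⟨b, -, rfl⟩
    exact hq.pinj _ _ (conj_mem hq h4 a.2) (conj_mem hq h4 b.2))).push (subtype_injective _)
  rw [subgroupOf_map_subtype, inf_comm] at h6
  rw [show (1 / 8 : ℝ) = 1 / 9 / (1 - 1 / 9) by norm_num]
  refine hS H _ _ _ _ _ _ _ _ _ _ h2 c.ss c.tt c.sts (le_antisymm (sup_le inf_le_left (zpowers_le.2 h1))
    (Gp_le.2 fun n hn => ?_)) c.tp c.sr (by norm_num) (by norm_num) (by rw [hq.full]; exact h6)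
    (hq.pi ▸ hq.card)
  have h7 : ∀ n ∈ I2, coxLabel Bimonster.edges n .d2 = 2 → y n ∈ Gp I2 y ⊓ centralizer {y .d2} := fun n hn e =>
    ⟨mem_Gp hn, mem_centralizer_singleton_iff.2 (h.rel.cm n .d2 ⟨by simp [hn], by decide, e⟩)⟩
  obtain rfl | rfl | e : n = .c2 ∨ n = .d2 ∨ coxLabel Bimonster.edges n .d2 = 2 := by revert n; decide
  · nth_rw 3 [c.q_eq]
    exact mul_mem (mul_mem (mem_sup_left h2) (mul_mem (mul_mem (mem_sup_right (mem_zpowers _))
      (mem_sup_left (h7 .a (by decide) (by decide)))) (mem_sup_right (mem_zpowers _)))) (mem_sup_left h2)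
  · exact mem_sup_left ⟨mem_Gp hn, mem_centralizer_singleton_iff.2 rfl⟩
  · exact mem_sup_left (h7 n hn e)

end CL.IN
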