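/-
The level of `C(s, s₁)`: the orbits of `Fi₂₂` on the third vertices.
-/
import Cfsg.Agent.Spor.IN1
import Cfsg.Agent.Spor.InE2
import Cfsg.Agent.Spor.InClq

set_option autoImplicit false
set_option linter.unusedSectionVars false

namespace CL.IN

open Cfsg Cfsg.Spor Subgroup CL.BM CL.Mj CL.Spor.Leech CL.Spor.Mon

variable {H : Type} [Group H] [Finite H] {V : Type} [AddCommGroup V] [Module ℝ V] {y : Nd → H} {z : H}
  {Q : Subgroup H} {π : centralizer ({z} : Set H) →* Co1} {R : leechLattice → H → Prop} {s s1 : H}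
  {mul : V →ₗ[ℝ] V →ₗ[ℝ] V} {bil : LinearMap.BilinForm ℝ V} {ρ : H →* (V ≃ₗ[ℝ] V)} {ax : H → V}
  {G : Type} [Group G] {ψ : ↥(centralizer ({s} : Set H) ⊓ centralizer {s1}) →* G} {k : Nd → G}

theorem l2c_mem {p : H} (hp : p ∈ Pi2 s s1) : p ∈ centralizer ({s} : Set H) ⊓ centralizer {s1} :=
  ⟨mem_centralizer_singleton_iff.2 (mem_Df.1 hp.1).2.1, mem_centralizer_singleton_iff.2 (mem_Df.1 hp.2.1).2.1⟩

theorem l2c_comm (g : ↥(centralizer ({s} : Set H) ⊓ centralizer {s1})) : Commute (g : H) s ∧ Commute (g : H) s1 :=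
  ⟨mem_centralizer_singleton_iff.1 g.2.1, mem_centralizer_singleton_iff.1 g.2.2⟩

theorem l2c_conj (g : ↥(centralizer ({s} : Set H) ⊓ centralizer {s1})) {p : H} (hp : p ∈ Pi2 s s1) :
    g * p * (g : H)⁻¹ ∈ Pi2 s s1 := by
  have := e2_Pi2_conj (g : H) hp
  rwa [(l2c_comm g).1.mul_inv_cancel, (l2c_comm g).2.mul_inv_cancel] at this

theorem l2c_node (n : Nd) : y n ∈ cl (Gp IF y) (y n) := ⟨1, one_mem _, by simp⟩

namespace QD
variable (hq : QD y s s1 ψ k)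
include hq

theorem l2c_nd {n : Nd} (hn : n ∈ I2 := by decide) :
    ∃ g : ↥(centralizer ({s} : Set H) ⊓ centralizer {s1}), (g : H) = y n ∧ ψ g = k n :=
  ⟨⟨y n, hq.full ▸ mem_Gp hn⟩, rfl, hq.nd n hn _ rfl⟩

theorem l2c_lift0 {I : List Nd} (hI : ∀ n ∈ I, n ∈ I2) {u : G} (hu : u ∈ Gp I k) :
    ∃ g : ↥(centralizer ({s} : Set H) ⊓ centralizer {s1}), (g : H) ∈ Gp I y ∧ ψ g = u :=
  (Gp_le (A := ((Gp I y).subgroupOf _).map ψ)).2 (fun n hn =>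
    let ⟨g, e, e'⟩ := hq.l2c_nd (hI n hn); ⟨g, mem_subgroupOf.2 (e ▸ mem_Gp hn), e'⟩) hu

theorem l2c_surj (u : G) : ∃ g, ψ g = u :=
  let ⟨g, _, e⟩ := hq.l2c_lift0 (fun _ h => h) (hq.top ▸ mem_top u); ⟨g, e⟩

theorem l2c_lift {n : Nd} {u : G} (hu : u ∈ cl (Gp IF k) (k n)) (hn : n ∈ I2 := by decide) :
    ∃ t : ↥(centralizer ({s} : Set H) ⊓ centralizer {s1}), (t : H) ∈ cl (Gp IF y) (y n) ∧ ψ t = u := by
  obtain ⟨u, hu, rfl⟩ := hu
  obtain ⟨g, hg, rfl⟩ := hq.l2c_lift0 (by decide) hu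
  obtain ⟨d, e, e'⟩ := hq.l2c_nd hn
  exact ⟨g * d * g⁻¹, ⟨g, hg, by rw [← e]; rfl⟩, by rw [map_mul, map_mul, map_inv, e']⟩

theorem l2c_d2 : cl (Gp IF y) (y .d2) ⊆ Pi2 s s1 := fun _ ⟨g, hg, e⟩ => hq.pi ▸ ⟨g, Gp_mono (by decide) hg, e⟩

theorem l2c_isConj {p : ↥(centralizer ({s} : Set H) ⊓ centralizer {s1})} (hp : (p : H) ∈ Pi2 s s1) :
    IsConj (k .d2) (ψ p) := by
  obtain ⟨g, hg, e⟩ := hq.pi ▸ hp
  obtain ⟨d, e1, e2⟩ := hq.l2c_nd (n := .d2)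
  exact isConj_iff.2 ⟨ψ ⟨g, hq.full ▸ hg⟩, by
    rw [← e2, ← map_inv, ← map_mul, ← map_mul]; exact congrArg ψ (Subtype.ext (e1 ▸ e :))⟩

theorem l2c_cm {p t : ↥(centralizer ({s} : Set H) ⊓ centralizer {s1})} (ht : (t : H) ∈ Pi2 s s1)
    (c : Commute (ψ p) (ψ t)) : Commute (p : H) t :=
  mul_inv_eq_iff_eq_mul.1 (congrArg Subtype.val (hq.pinj (p * t * p⁻¹) t (l2c_conj p ht) ht
    (by rw [map_mul, map_mul, map_inv, c.mul_inv_cancel])))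

theorem l2cnt : 694980 ≤ (cl (Gp IF y) (y .d2)).ncard :=
  hq.e6.cnt.trans ((Set.ncard_le_ncard (t := ψ '' (Subtype.val ⁻¹' cl (Gp IF y) (y .d2)))
    (fun _ hu => hq.l2c_lift hu) ((Set.toFinite _).image _)).trans ((Set.ncard_image_le (Set.toFinite _)).trans
      (Set.ncard_le_ncard_of_injOn Subtype.val (fun _ h => h) Subtype.val_injective.injOn)))

end QD

namespace MD
variable (h : MD y z Q π R s s1 mul bil ρ ax)
include h

theorem l2c_ne : ¬ Commute s1 (y .e2) := fun c => by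
  have e1 : y .f2 = y .e2 := (h.rel.br .f2 .e2).eq_of_comm (h.f2 ▸ c)
  have e2 : y .e2 = y .d2 := (h.rel.br .e2 .d2).eq_of_comm (e1 ▸ h.rel.cm .f2 .d2)
  exact h.ma.gd.t_ne_one (h.pair .f2 (by decide) .d2 (by decide) (by decide))
    (by rw [← e2, ← e1, h.rel.sq (by decide)])

theorem l2c_T {g : H} (hg : g ∈ Gp IF y) : Commute g s ∧ Commute g s1 ∧ Commute g (y .e2) := by
  have a : ∀ m, (∀ n ∈ IF, n ∈ I4 ∧ m ∈ I4 ∧ coxLabel Bimonster.edges n m = 2) → Commute g (y m) := fun m hm =>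
    mem_centralizer_singleton_iff.1 (Gp_le.2 (fun n hn => mem_centralizer_singleton_iff.2 (h.rel.cm n m (hm n hn))) hg)
  exact ⟨h.f3 ▸ a _ (by decide), h.f2 ▸ a _ (by decide), a _ (by decide)⟩

theorem l2c_cl {n : Nd} {t : H} (ht : t ∈ cl (Gp IF y) (y n)) (hn : n ∈ IF := by decide) :
    t ∈ Gp IF y ∧ t ∈ Pi2 s s1 ∧ t ∈ Df (y .e2) := by
  obtain ⟨g, hg, rfl⟩ := ht
  have a : g * y n * g⁻¹ ∈ Gp IF y := mul_mem (mul_mem hg (mem_Gp hn)) (inv_mem hg)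
  have b : ∀ m, (∀ n ∈ IF, n ∈ I4 ∧ m ∈ I4 ∧ coxLabel Bimonster.edges n m = 2) → y n ∈ Df (y m) := fun m hm =>
    h.clq_adj (hm n hn).1 (hm n hn).2.1 (hm n hn).2.2
  obtain ⟨c1, c2, c3⟩ := h.l2c_T hg
  refine ⟨a, ⟨Df_cent c1 (h.f3 ▸ b _ (by decide)), Df_cent c2 (h.f2 ▸ b _ (by decide)), fun e => h.l2c_ne ?_⟩,
    Df_cent c3 (b _ (by decide))⟩
  have := (h.f3 ▸ h.rel.cm .f3 .e2 : Commute s _).inv_left.mul_left (h.l2c_T a).2.2
  rwa [e, inv_mul_cancel_left] at this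

theorem l2c_s : s ∈ Gp IF y := by
  rw [← h.f3, ← h.rel.w3']
  refine pow_mem ?_ _
  repeat' refine mul_mem ?_ ?_
  all_goals exact mem_Gp (by decide)

theorem l2c_pi {p : H} (hp : p ∈ Pi2 s s1) : IsConj s p ∧ IsConj s (s * p) ∧ IsConj s (s1 * p) :=
  ⟨(mem_Df.1 hp.1).1, (mem_Df.1 hp.1).2.1 ▸ (mem_Df.1 hp.1).2.2,
    h.ma.gd.T_s1.trans ((mem_Df.1 hp.2.1).2.1 ▸ (mem_Df.1 hp.2.1).2.2)⟩

theorem l2c_inQ {x t t' : H} (hx : IsConj s x) (ht : t ∈ Df x) (ht' : t' ∈ Df x) (hc : t * t' = t' * t) (hne : t ≠ t')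
    (hn : ¬ IsConj s (t * t')) : InQ z Q (t * t') x := by
  obtain ⟨g, rfl⟩ := isConj_iff.1 hx
  obtain ⟨t, rfl⟩ : ∃ u, g * u * g⁻¹ = t := (MulAut.conj g).surjective t
  obtain ⟨t', rfl⟩ : ∃ u, g * u * g⁻¹ = t' := (MulAut.conj g).surjective t'
  replace ht : t ∈ Df s := by simpa [mul_assoc] using Df_conj g⁻¹ ht
  replace ht' : t' ∈ Df s := by simpa [mul_assoc] using Df_conj g⁻¹ ht'
  rw [conj_mul] at hn ⊢
  replace hc : t * t' = t' * t := by simpa using hc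
  exact GD.inQ_conj g (h.ma.cls0 ht ht' hc (h.ma.two_b (mem_Df.1 ht).1 (mem_Df.1 ht').1 hc (fun e => hne (e ▸ rfl))
    fun e => hn (isConj_conj e g)).1).1

theorem l2c_card {r : H} (h1 : InQ z Q r s) (h2 : InQ z Q r s1) : ∃ A : Subgroup H, (∀ x, x ∈ A ↔ InQ z Q r x) ∧
    IsPGroup 2 A ∧ 8 < Nat.card ↥((centralizer ({s} : Set H) ⊓ centralizer {s1}) ⊓ A) := by
  obtain ⟨g, rfl⟩ := isConj_iff.1 h1.isConj
  have hA : ∀ x, x ∈ Q.map (MulAut.conj g).toMonoidHom ↔ InQ z Q (g * z * g⁻¹) x := fun x => by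
    rw [h.ma.gd.inQ_iff, mem_map_equiv, MulAut.conj_symm_apply]
  have hc : Nat.card (Q.map (MulAut.conj g).toMonoidHom) = 2 ^ 25 :=
    (card_map_of_injective (MulAut.conj g).injective).trans h.ma.gd.mt.card
  generalize Q.map (MulAut.conj g).toMonoidHom = A at hA hc
  generalize g * z * g⁻¹ = r at hA h1 h2
  refine ⟨A, hA, IsPGroup.of_card hc, ?_⟩
  have a : ∀ x, InQ z Q r x → (centralizer {x}).relIndex A ≤ 2 := fun x hx => Nat.le_of_dvd two_pos <|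
    relIndex_dvd_two_iff.2 (by
      by_cases e : ∃ a ∈ A, a * x ≠ x * a
      · obtain ⟨a, ha, e⟩ := e
        refine ⟨a, ha, fun b hb => (h.ma.gd.inQ_comm_or ((hA b).1 hb) hx).symm.imp (fun e' => ?_) fun e' => ?_⟩
        · rw [mem_centralizer_singleton_iff, mul_assoc, (h.ma.gd.inQ_comm_or ((hA a).1 ha) hx).resolve_left e,
            ← mul_assoc, ← mul_assoc, e', mul_assoc _ r, ← h.ma.gd.inQ_comm ((hA a).1 ha), mul_assoc _ (a * r),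
            mul_assoc a, h.ma.gd.uu hx.isConj, mul_one, mul_assoc]
        · exact mem_centralizer_singleton_iff.2 e'
      · exact ⟨1, one_mem _, fun b hb => Or.inr (mem_centralizer_singleton_iff.2 (by_contra fun e' => e ⟨b, hb, e'⟩))⟩)
  have b := (relIndex_inf_le (L := A)).trans (Nat.mul_le_mul (a s h1) (a s1 h2))
  have c := ((centralizer ({s} : Set H) ⊓ centralizer {s1}).subgroupOf A).card_mul_index
  rw [hc, ← inf_subgroupOf_right, Nat.card_congr (subgroupOfEquivOfLe inf_le_right).toEquiv, inf_subgroupOf_right] at c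
  by_contra e
  exact absurd (c ▸ Nat.mul_le_mul (not_lt.1 e) b) (by norm_num)

variable (hq : QD y s s1 ψ k)
include hq

theorem l2c_col {p t : ↥(centralizer ({s} : Set H) ⊓ centralizer {s1})} (hp : (p : H) ∈ Pi2 s s1)
    (ht : (t : H) ∈ Pi2 s s1) (c : Commute (ψ p) (ψ t)) (e : IsConj (k .d2) (ψ p * ψ t)) :
    Commute (p : H) t ∧ ¬ IsConj s (p * t : H) ∧ IsConj s (p * t * (s * s1) : H) := by
  have c := hq.l2c_cm ht c
  obtain ⟨u, e⟩ := isConj_iff.1 e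
  obtain ⟨g, rfl⟩ := hq.l2c_surj u
  obtain ⟨d, e1, e2⟩ := hq.l2c_nd (n := .d2)
  have a : ((g * d * g⁻¹ :) : H) ∈ Pi2 s s1 := l2c_conj g (e1 ▸ hq.l2c_d2 (l2c_node _))
  have b := (hq.ker ((g * d * g⁻¹)⁻¹ * (p * t))).1 (by
    rw [map_mul, map_inv, map_mul, map_mul, map_inv, e2, e, map_mul, inv_mul_cancel])
  generalize g * d * g⁻¹ = q at a b
  simp only [coe_mul, coe_inv, inv_mul_eq_iff_eq_mul, mul_one] at b
  obtain ⟨p1, p2, p3⟩ := h.l2c_pi hp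
  obtain ⟨t1, t2, t3⟩ := h.l2c_pi ht
  obtain ⟨q1, q2, q3⟩ := h.l2c_pi a
  have ss := h.ma.gd.ss
  have s11 := h.ma.gd.tt h.ma.gd.T_s1
  have n : ¬ IsConj s (p * t : H) := fun e => by
    have n1 := h.ma.no_pure (IsConj.refl s) p1 t1 (l2c_comm p).1.symm (l2c_comm t).1.symm c p2 t2 e
    have n2 := h.ma.no_pure h.ma.gd.T_s1 p1 t1 (l2c_comm p).2.symm (l2c_comm t).2.symm c p3 t3 e
    rcases b with b | b | b | b
    · exact n1 (b ▸ q2)
    · exact n1 (by rwa [b, (l2c_comm q).1.eq, ← mul_assoc, ss, one_mul])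
    · exact n2 (by rwa [b, (l2c_comm q).2.eq, ← mul_assoc, s11, one_mul])
    · exact n1 (by rwa [b, ← mul_assoc (q : H), (l2c_comm q).1.eq, ← mul_assoc, ← mul_assoc, ss, one_mul, (l2c_comm q).2.eq])
  refine ⟨c, n, ?_⟩
  rcases b with b | b | b | b
  · exact absurd (b ▸ q1) n
  · exact absurd (b ▸ (l2c_comm q).1.eq ▸ q2) n
  · exact absurd (b ▸ (l2c_comm q).2.eq ▸ q3) n
  · rwa [b, mul_assoc, mul_assoc, ← mul_assoc s1, h.ma.gd.s1s, mul_assoc s, s11, mul_one, ss, mul_one]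

/-- The three cases. -/
theorem l2c_cases {p : H} (hp : p ∈ Pi2 s s1) : p ∈ cl (Gp IF y) (y .d1) ∨ p ∈ cl (Gp IF y) (y .d2) ∨
    ∃ t ∈ cl (Gp IF y) (y .d1), Commute p t ∧ ¬ IsConj s (p * t) ∧ IsConj s (p * t * (s * s1)) := by
  refine (hq.e6.orb _ (hq.l2c_isConj (p := ⟨p, l2c_mem hp⟩) hp)).imp (fun e => ?_) (Or.imp (fun e => ?_) ?_)
  · obtain ⟨t, ht, e⟩ := hq.l2c_lift e
    rwa [hq.pinj _ _ (h.l2c_cl ht).2.1 hp e] at ht
  · obtain ⟨t, ht, e⟩ := hq.l2c_lift e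
    rwa [hq.pinj _ _ (hq.l2c_d2 ht) hp e] at ht
  · rintro ⟨u, hu, c, e⟩
    obtain ⟨t, ht, rfl⟩ := hq.l2c_lift hu
    exact ⟨t, ht, h.l2c_col hq hp (h.l2c_cl ht).2.1 c e⟩

theorem l2cnt : 694980 ≤ (cl (Gp IF y) (y .d2)).ncard := hq.l2cnt

theorem l2orb : ∀ p ∈ Pi2 s s1, (p * y .e2) ^ 3 = 1 → p ∈ cl (Gp IF y) (y .d2) := fun p hp e => by
  have b : Br p (y .e2) := br_of_pow (h.ma.gd.tt (h.l2c_pi hp).1) (h.rel.sq (by decide)) e
  rcases h.l2c_cases hq hp with c | c | ⟨t, ht, c, n, -⟩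
  · exact absurd (Commute.symm (b.eq_of_comm (h.l2c_T (h.l2c_cl c).1).2.2 ▸ (mem_Df.1 hp.2.1).2.1)) h.l2c_ne
  · exact c
  · obtain ⟨-, c', t2⟩ := mem_Df.1 (h.l2c_cl ht).2.2
    refine absurd (((h.node .e2 (by decide)).trans t2).trans (isConj_iff.2 ⟨y .e2 * p, ?_⟩)) n
    rw [← mul_assoc, ((Commute.symm c').mul_left c).eq, mul_assoc t, show y .e2 * p * y .e2 = _ from b.symm, c.eq]
    group

theorem l2c_four (he : E6q k) {r : H} (h1 : InQ z Q r s) (h2 : InQ z Q r s1) (hr : s * s1 * r = y .d2) :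
    ∃ q₁ ∈ Gp IF y, ∃ q₂ ∈ Gp IF y, IsConj s q₁ ∧ IsConj s q₂ ∧ IsConj s (q₁ * q₂) ∧ InQ z Q r q₁ ∧ InQ z Q r q₂ := by
  obtain ⟨A, hA, A2, A8⟩ := h.l2c_card h1 h2
  have : Finite G := Finite.of_surjective ψ hq.l2c_surj
  obtain ⟨d, e1, e2⟩ := hq.l2c_nd (n := .d2)
  have hd : (d : H) ∈ Pi2 s s1 := e1 ▸ hq.l2c_d2 (l2c_node _)
  have nA : ∀ g : ↥(centralizer ({s} : Set H) ⊓ centralizer {s1}), Commute (g : H) (y .d2) →
      ∀ x ∈ A, g * x * (g : H)⁻¹ ∈ A := fun g c x hx => by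
    have c' : Commute (g : H) r := by
      have := ((l2c_comm g).1.mul_right (l2c_comm g).2).inv_right.mul_right c
      rwa [← hr, inv_mul_cancel_left] at this
    exact (hA _).2 (c'.mul_inv_cancel ▸ GD.inQ_conj (g : H) ((hA _).1 hx))
  obtain ⟨u, hu, u0, u1, u2, u3, _, ⟨n, hn, rfl⟩, u4⟩ := he ((A.subgroupOf _).map ψ) (by
      rintro _ ⟨n, hn, rfl⟩
      rw [mem_centralizer_singleton_iff, ← e2, ← map_mul, ← map_mul]
      exact congrArg ψ (Subtype.ext (e1 ▸ hr ▸ ((l2c_comm n).1.mul_right (l2c_comm n).2).mul_right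
        (h.ma.gd.inQ_comm ((hA _).1 hn)) :))) (fun u hu => by
      obtain ⟨g, rfl⟩ := hq.l2c_surj u
      refine mem_normalizer_fintype ?_
      rintro _ ⟨n, hn, rfl⟩
      exact ⟨g * n * g⁻¹, nA g (e1 ▸ hq.l2c_cm hd (e2 ▸ mem_centralizer_singleton_iff.1 hu)) n hn, by simp⟩)
    (A2.comap_subtype.map ψ) fun e => by
      classical
      refine A8.not_ge ((Set.ncard_le_ncard
        (s := ((centralizer ({s} : Set H) ⊓ centralizer {s1} ⊓ A : Subgroup H) : Set H))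
        (t := ([1, s, s1, s * s1, d * 1, d * s, d * s1, d * (s * s1)] : List H).toFinset) (fun x hx => ?_)
          (Finset.finite_toSet _)).trans
        ((Set.ncard_coe_finset _).trans_le (List.toFinset_card_le _)))
      obtain ⟨i, hi⟩ := e ⟨⟨x, hx.1⟩, hx.2, rfl⟩
      have dd : k .d2 ^ (2 : ℤ) = 1 := (zpow_two _).trans (hq.rel.sq (by decide))
      rcases Int.even_or_odd' i with ⟨j, rfl | rfl⟩
      · have := (hq.ker _).1 (hi.symm.trans (by simp only [zpow_mul, dd, one_zpow]))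
        simp only [List.coe_toFinset, List.mem_cons, Set.mem_ofPred_eq]; tauto
      · have := (hq.ker (d⁻¹ * ⟨x, hx.1⟩)).1 (by
          rw [map_mul, map_inv, e2, ← hi]; simp only [zpow_add_one, zpow_mul, dd, one_zpow, one_mul, inv_mul_cancel])
        simp only [coe_mul, coe_inv, inv_mul_eq_iff_eq_mul] at this
        simp only [List.coe_toFinset, List.mem_cons, Set.mem_ofPred_eq]; tauto
  obtain ⟨t, ht, rfl⟩ := hq.l2c_lift hu
  replace hn : (n : H) ∈ A := hn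
  obtain ⟨a, a1, a2⟩ := hq.l2c_nd (n := .d3)
  obtain ⟨b, b1, b2⟩ := hq.l2c_nd (n := .c3)
  obtain ⟨t1, t2, t3⟩ := h.l2c_cl ht
  obtain ⟨a3, a4, a5⟩ := a1 ▸ h.l2c_cl (l2c_node .d3)
  obtain ⟨b3, b4, -⟩ := b1 ▸ h.l2c_cl (l2c_node .c3)
  rw [← a2] at u0 u2 u4
  rw [← b2] at u3
  have v4 : n * a * n⁻¹ = t := hq.pinj _ _ (l2c_conj n a4) t2 (by rw [map_mul, map_mul, map_inv, u4])
  have v2 := hq.l2c_cm t2 u2.symm
  have ti : t⁻¹ = t := Subtype.ext (h.ma.gd.t_inv (h.l2c_pi t2).1)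
  have ai : (a : H)⁻¹ = a := h.ma.gd.t_inv (h.l2c_pi a4).1
  have bi : b⁻¹ = b := Subtype.ext (h.ma.gd.t_inv (h.l2c_pi b4).1)
  have v3 : t * b * t⁻¹ = b * t * b⁻¹ := hq.pinj _ _ (l2c_conj t b4) (l2c_conj b t2) (by
    rw [ti, bi]; simpa only [map_mul] using! u3)
  have v5 : Br (a : H) b := a1 ▸ b1 ▸ h.rel.br .d3 .c3
  have q1 : (a * t : H) ∈ A := by
    have := mul_mem (nA a (a1 ▸ h.rel.cm .d3 .d2) n hn) (inv_mem hn)
    rwa [ai, mul_assoc, mul_assoc, ← mul_assoc (n : H), show (n * a * (n : H)⁻¹ : H) = t from congrArg Subtype.val v4] at this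
  have q2 : IsConj s (a * t : H) := by_contra fun e => by
    have ne : (a : H) ≠ t := fun e => u0 (congrArg ψ (Subtype.ext e.symm))
    have w1 := h.l2c_inQ h.ma.gd.T_s1 a4.2.1 t2.2.1 v2 ne e
    have w2 := h.l2c_inQ (h.node .e2 (by decide)) a5 t3 v2 ne e
    have w3 : Br s1 (y .e2) := h.f2 ▸ h.rel.br .f2 .e2
    have w4 := (h.ma.gd.inQ_comm_or w1 w2).resolve_left h.l2c_ne
    rw [Br, mul_assoc (y .e2), w4, mul_assoc _ (a * t : H), ← h.ma.gd.inQ_comm w1, ← mul_assoc, ← mul_assoc (y .e2),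
      ← mul_assoc (y .e2), mul_assoc (y .e2) s1 s1, h.ma.gd.tt h.ma.gd.T_s1, h.rel.sq (by decide), mul_one,
      one_mul] at w3
    exact h.l2c_ne (mul_right_cancel w3 ▸ Commute.refl _)
  refine ⟨_, mul_mem a3 t1, b * (a * t) * (b : H)⁻¹, mul_mem (mul_mem b3 (mul_mem a3 t1)) (inv_mem b3), q2,
    isConj_conj q2 _, ?_, (hA _).1 q1, (hA _).1 (nA b (b1 ▸ h.rel.cm .c3 .d2) _ q1)⟩
  convert isConj_conj (isConj_conj q2 b) a using 1
  replace v3 : Br (t : H) b := by rw [ti, bi] at v3; exact congrArg Subtype.val v3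
  rw [ai, show (b : H)⁻¹ = b from congrArg Subtype.val bi]
  calc _ = (a : H) * (t * b * t) * a * b := by nth_rw 2 [v2.eq]; simp only [mul_assoc]
    _ = (a : H) * b * t * (b * a * b) := by rw [v3]; simp only [mul_assoc]
    _ = _ := by rw [← v5, v2.eq]; simp only [mul_assoc]

theorem l2four (he : E6q k) : ∀ r, InQ z Q r s → InQ z Q r s1 → ∃ q₁ ∈ Gp IF y, ∃ q₂ ∈ Gp IF y, IsConj s q₁ ∧
    IsConj s q₂ ∧ IsConj s (q₁ * q₂) ∧ InQ z Q r q₁ ∧ InQ z Q r q₂ := fun r h1 h2 => by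
  have g := h.ma.gd
  have c1 : Commute s r := g.inQ_comm h1
  have c2 : Commute s1 r := g.inQ_comm h2
  have c3 : Commute s s1 := g.s1s.symm
  have nr : ¬ IsConj s r := fun e => g.not_conj' e h1.isConj
  have r1 : r ≠ 1 := fun e => g.mt.xe.ne_one (isConj_one_left.1 (e ▸ h1.isConj))
  have p0 : IsConj s (s * s1 * r) := g.inQ_T (g.inQ_mul h1 h2) (g.s1s ▸ g.T_s1s)
  have p1 : s * s1 * r * s = s1 * r := by
    rw [mul_assoc s, mul_assoc s, ← (c3.mul_right c1).eq, ← mul_assoc, g.ss, one_mul]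
  have p2 : s * s1 * r * s1 = s * r := by rw [mul_assoc, ← c2.eq, mul_assoc s, ← mul_assoc s1, g.tt g.T_s1, one_mul]
  have hp : s * s1 * r ∈ Pi2 s s1 :=
    ⟨mem_Df.2 ⟨p0, ((Commute.refl s).mul_left c3.symm).mul_left c1.symm, p1 ▸ g.inQ_T h2 g.T_s1⟩,
      mem_Df.2 ⟨g.T_s1.symm.trans p0, (c3.mul_left (Commute.refl s1)).mul_left c2.symm,
        g.T_s1.symm.trans (p2 ▸ g.inQ_T h1 (IsConj.refl s))⟩, fun e => r1 (mul_eq_left.1 e)⟩
  rcases h.l2c_cases hq hp with c | ⟨u, hu, e⟩ | ⟨t, ht, c, -, e⟩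
  · exact ⟨_, (h.l2c_cl c).1, s, h.l2c_s, p0, IsConj.refl s, (mem_Df.1 hp.1).2.2,
      g.inQ_mul (g.inQ_mul h1 h2) (g.inQ_self h1.isConj), h1⟩
  · obtain ⟨u1, u2, -⟩ := h.l2c_T hu
    obtain ⟨q₁, a1, q₂, a2, a3, a4, a5, a6, a7⟩ := h.l2c_four hq he (r := u⁻¹ * r * u⁻¹⁻¹)
      (u1.inv_left.mul_inv_cancel ▸ GD.inQ_conj u⁻¹ h1) (u2.inv_left.mul_inv_cancel ▸ GD.inQ_conj u⁻¹ h2) (by
        rw [← mul_assoc, ← mul_assoc, ← (u1.mul_right u2).inv_left.eq, mul_assoc u⁻¹, ← e]; group)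
    exact ⟨_, mul_mem (mul_mem hu a1) (inv_mem hu), _, mul_mem (mul_mem hu a2) (inv_mem hu), isConj_conj a3 u,
      isConj_conj a4 u, by rw [conj_mul]; exact isConj_conj a5 u, by simpa [mul_assoc] using GD.inQ_conj u a6,
      by simpa [mul_assoc] using GD.inQ_conj u a7⟩
  · obtain ⟨t1, t2, -⟩ := h.l2c_cl ht
    obtain ⟨u1, u2, -⟩ := h.l2c_T t1
    have c4 := (u1.mul_right u2).inv_right.mul_right c.symm
    rw [inv_mul_cancel_left] at c4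
    have tt := g.tt (h.l2c_pi t2).1
    rw [mul_assoc, (u1.mul_right u2).eq, ← mul_assoc, ← mul_assoc, p1, mul_assoc s1, ← c2.eq, ← mul_assoc s1,
      g.tt g.T_s1, one_mul, ← c4.eq] at e
    have := (h.ma.two_b (h.l2c_pi t2).1 e ((Commute.refl t).mul_right c4) (fun e => r1 (left_eq_mul.1 e))
      (by rwa [← mul_assoc, tt, one_mul])).2
    rw [← mul_assoc, tt, one_mul] at this
    exact ⟨t, t1, s, h.l2c_s, (h.l2c_pi t2).1, IsConj.refl s, (mem_Df.1 t2.1).2.2, this, h1⟩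

end MD

end CL.IN
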