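/-
Project IN: the quotient of `C(s, s₁)` by `⟨s, s₁⟩`, and the universal property at the level `I2`.
-/
import Cfsg.Agent.Spor.InBas

set_option autoImplicit false
set_option linter.unusedSectionVars false

namespace CL.IN

open Cfsg Cfsg.Spor Subgroup CL.BM CL.Mj CL.Spor.Leech CL.Spor.Mon

variable {H : Type} [Group H] [Finite H] {V : Type} [AddCommGroup V] [Module ℝ V] {y : Nd → H} {z : H}
  {Q : Subgroup H} {π : centralizer ({z} : Set H) →* Co1} {R : leechLattice → H → Prop} {s s1 : H}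
  {mul : V →ₗ[ℝ] V →ₗ[ℝ] V} {bil : LinearMap.BilinForm ℝ V} {ρ : H →* (V ≃ₗ[ℝ] V)} {ax : H → V}
  (h : MD y z Q π R s s1 mul bil ρ ax)
include h

theorem MD.exists_qd (hE : E6Thm) : ∃ (G : Type) (_ : Group G)
    (ψ : ↥(centralizer ({s} : Set H) ⊓ centralizer {s1}) →* G) (k : Nd → G), QD y s s1 ψ k := by
  let Hs : Subgroup H := centralizer ({s} : Set H) ⊓ centralizer {s1}
  let a : Hs := ⟨s, h.s_mem⟩
  let b : Hs := ⟨s1, h.s1_mem⟩
  have ha : a * a = 1 := Subtype.ext h.ss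
  have hb : b * b = 1 := Subtype.ext h.s1s1
  have hc : b * a = a * b := Subtype.ext h.s1s
  let N : Subgroup Hs := V4 a b ha hb hc
  have hn : N.Normal := V4_normal ha hb hc (fun g => Subtype.ext (mem_Hs.1 g.2).1) fun g => Subtype.ext (mem_Hs.1 g.2).2
  have cN : Nat.card N = 4 := card_V4 ha hb hc (fun e => h.ma.gd.s_ne_one (congrArg Subtype.val e))
    (fun e => h.ma.gd.t_ne_one h.ma.gd.T_s1 (congrArg Subtype.val e))
    fun e => h.ma.gd.t_ne_one h.T_ss1 (congrArg Subtype.val e)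
  have cG : Nat.card (Hs ⧸ N) = 76532479683774853939200 := by
    have h1 := card_eq_card_quotient_mul_card_subgroup N
    rw [cN, h.card_Hs] at h1
    omega
  let ψ : Hs →* Hs ⧸ N := QuotientGroup.mk' N
  have ker : ∀ g, ψ g = 1 ↔ (g : H) = 1 ∨ (g : H) = s ∨ (g : H) = s1 ∨ (g : H) = s * s1 := fun g => by
    rw [QuotientGroup.mk'_apply, QuotientGroup.eq_one_iff, mem_V4]
    simp only [Subtype.ext_iff]
    rfl
  have hle : Gp I2 y ≤ Hs := h.Gp_I2_le
  have val : ∀ n ∈ I2, (res Hs y n : H) = y n := fun n hn => res_val (hle (mem_Gp hn))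
  let k : Nd → Hs ⧸ N := fun n => ψ (res Hs y n)
  have rel : Rel I2 k := ((h.rel.mono (by decide)).res (fun _ hn => hn) hle).map ψ
  have f2 : k .f2 = 1 := (ker _).2 (Or.inr (Or.inr (Or.inl ((val _ (by decide)).trans h.f2))))
  have f3 : k .f3 = 1 := (ker _).2 (Or.inr (Or.inl ((val _ (by decide)).trans h.f3)))
  have pd := h.node_pi (n := .d2) (by decide) (by decide) (by decide)
  have d2 : k .d2 ≠ 1 := fun e => by
    have h1 := (ker _).1 e
    have h2 := h.pi_ne pd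
    rw [val _ (by decide)] at h1
    tauto
  have top : Gp I2 k = ⊤ := by
    have : Nontrivial (Gp I2 k) := (nontrivial_iff_exists_ne_one _).2 ⟨_, mem_Gp (by decide), d2⟩
    have h1 := (hE _ (sub I2 k) (rel.sub fun _ hn => hn) (Subtype.ext ((sub_coe (by decide)).trans f2))
      (Subtype.ext ((sub_coe (by decide)).trans f3)) Gp_sub).card
    exact eq_top_of_card_eq _ (h1.trans cG.symm)
  have : Nontrivial (Hs ⧸ N) := ⟨_, _, d2⟩
  have e6 := hE _ k rel f2 f3 top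
  have full : Gp I2 y = Hs := le_antisymm hle fun g hg => by
    have h1 : ψ ⟨g, hg⟩ ∈ (Gp I2 (res Hs y)).map ψ := by rw [Gp_map]; exact top.ge (mem_top _)
    obtain ⟨u, hu, e⟩ := h1
    have h2 : (u : H) ∈ Gp I2 y := Gp_res hle ▸ mem_map_of_mem Hs.subtype hu
    have h3 := (ker (u⁻¹ * ⟨g, hg⟩)).1 (by rw [map_mul, map_inv, e, inv_mul_cancel])
    have h4 : s ∈ Gp I2 y := h.f3 ▸ mem_Gp (by decide)
    have h5 : s1 ∈ Gp I2 y := h.f2 ▸ mem_Gp (by decide)
    refine (mul_mem_cancel_left (inv_mem h2)).1 ?_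
    change ((u⁻¹ * ⟨g, hg⟩ : Hs) : H) ∈ _
    rcases h3 with e | e | e | e <;> rw [e]
    exacts [one_mem _, h4, h5, mul_mem h4 h5]
  refine ⟨_, inferInstance, ψ, k, e6, rel, f2, f3, top, full, ker, fun n hn g e => ?_, fun g g' hg hg' e => ?_, ?_,
    h.card_pi⟩
  · exact congrArg ψ (Subtype.ext (e.trans (val n hn).symm))
  · refine Subtype.ext (h.pi_eq (v := (g⁻¹ * g' : Hs)) hg hg' (by simp) ((ker _).1 ?_))
    rw [map_mul, map_inv, e, inv_mul_cancel]
  · rw [full]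
    refine Set.eq_of_subset_of_ncard_le (by rintro _ ⟨g, hg, rfl⟩; exact Pi2.conj pd hg) ?_
    have h1 := card_cl ⊤ (k .d2)
    rw [top_inf_eq, e6.cardP, card_top, cG] at h1
    have h2 : cl ⊤ (k .d2) = ψ '' cl ⊤ (res Hs y .d2) := by
      rw [cl_image, map_top_of_surjective _ (QuotientGroup.mk'_surjective N)]
    have h3 : cl Hs (y .d2) = Hs.subtype '' cl ⊤ (res Hs y .d2) := by
      rw [cl_image, ← MonoidHom.range_eq_map, range_subtype, coe_subtype, val _ (by decide)]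
    have h4 := Set.ncard_image_le (f := ψ) (s := cl ⊤ (res Hs y .d2))
    rw [h3, Set.ncard_image_of_injective _ Hs.subtype_injective, h.card_pi]
    rw [← h2] at h4
    omega

theorem MD.ui2 (hE : E6Thm) {G0 : Type} [Group G0] {ψ : ↥(centralizer ({s} : Set H) ⊓ centralizer {s1}) →* G0}
    {k0 : Nd → G0} (hq : QD y s s1 ψ k0) : UI I2 y := by
  intro G _ k φ hk top e
  have hm : ∀ g, φ g ∈ centralizer ({s} : Set H) ⊓ centralizer {s1} := fun g => by
    rw [← hq.full, ← Gp_map' φ e]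
    exact mem_map_of_mem φ (top.ge (mem_top g))
  let χ : G →* G0 := ψ.comp (φ.codRestrict _ hm)
  have hχ : ∀ n ∈ I2, χ (k n) = k0 n := fun n hn => hq.nd n hn _ (e n hn)
  have ha := hk.sq (n := .f3) (by decide)
  have hb := hk.sq (n := .f2) (by decide)
  have hc : k .f2 * k .f3 = k .f3 * k .f2 := hk.cm _ _
  have cen : ∀ m ∈ I2, (∀ n ∈ I2, coxLabel Bimonster.edges n m ≤ 2) → ∀ g, g * k m = k m * g := fun m hm hl g =>
    mem_centralizer_singleton_iff.1 <| (Gp_le.2 fun n hn => mem_centralizer_singleton_iff.2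
      (hk.cm' n m ⟨hn, hm, hl n hn⟩).eq) (top.ge (mem_top g))
  let Z : Subgroup G := V4 (k .f3) (k .f2) ha hb hc
  have hn : Z.Normal := V4_normal ha hb hc (cen _ (by decide) (by decide)) (cen _ (by decide) (by decide))
  have hZ : Z ≤ χ.ker := by
    have h2 : χ (k .f2) = 1 := (hχ _ (by decide)).trans hq.f2
    have h3 : χ (k .f3) = 1 := (hχ _ (by decide)).trans hq.f3
    rintro x (rfl | rfl | rfl | rfl) <;> simp [h2, h3]
  let χ' : G ⧸ Z →* G0 := QuotientGroup.lift Z χ hZ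
  have d2 : k0 .d2 ≠ 1 := fun e1 => by
    have pd := h.node_pi (n := .d2) (by decide) (by decide) (by decide)
    have h1 := (hq.ker ⟨_, Pi2.mem_Hs pd⟩).1 ((hq.nd .d2 (by decide) _ rfl).trans e1)
    have h2 := h.pi_ne pd
    tauto
  have d2' : χ' (k .d2) ≠ 1 := fun e1 => d2 ((hχ _ (by decide)).symm.trans e1)
  have : Nontrivial (G ⧸ Z) := ⟨(k .d2 : G ⧸ Z), 1, fun e1 => d2' (by rw [e1, map_one])⟩
  have hs := (hE _ (fun n => QuotientGroup.mk' Z (k n)) (hk.map _)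
    ((QuotientGroup.eq_one_iff _).2 (Or.inr (Or.inr (Or.inl rfl)))) ((QuotientGroup.eq_one_iff _).2 (Or.inr (Or.inl rfl)))
    (by rw [← Gp_map, top, map_top_of_surjective _ (QuotientGroup.mk'_surjective Z)])).simple
  have hi := iso_of_simple χ' fun e1 => d2' (mem_bot.1 (e1 ▸ ⟨_, rfl⟩))
  refine (injective_iff_map_eq_one _).2 fun g hg => ?_
  have h1 : g ∈ Z := (QuotientGroup.eq_one_iff _).1 <| hi <| by
    rw [map_one]
    exact (hq.ker _).2 (Or.inl hg)
  have h2 : φ (k .f2) = s1 := (e _ (by decide)).trans h.f2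
  have h3 : φ (k .f3) = s := (e _ (by decide)).trans h.f3
  rcases h1 with rfl | rfl | rfl | rfl
  · rfl
  · exact absurd (h3 ▸ hg) h.ma.gd.s_ne_one
  · exact absurd (h2 ▸ hg) (h.ma.gd.t_ne_one h.ma.gd.T_s1)
  · rw [map_mul, h2, h3] at hg
    exact absurd hg (h.ma.gd.t_ne_one h.T_ss1)

theorem MD.qd (hE : E6Thm) : (∃ (G : Type) (_ : Group G)
    (ψ : ↥(centralizer ({s} : Set H) ⊓ centralizer {s1}) →* G) (k : Nd → G), QD y s s1 ψ k) ∧ UI I2 y := by
  obtain ⟨G, _, ψ, k, hq⟩ := h.exists_qd hE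
  exact ⟨⟨G, inferInstance, ψ, k, hq⟩, h.ui2 hE hq⟩

end CL.IN
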