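/-
Groups of Monster type: the normalizers of a pure four-group and of a cyclic group of order four in `Q`.
-/
import Cfsg.Agent.Spor.MonB
import Cfsg.Agent.Spor.M24Simple

set_option autoImplicit false

namespace CL.INC
open Cfsg Cfsg.Spor Subgroup CL.Even CL.Grp CL.Spor CL.Spor.Leech CL.Spor.Mon MulAction
open scoped commutatorElement

/-- a homomorphism on `B` that kills `A ⊓ B` extends to `A B` -/
theorem exists_ext {N M : Type*} [Group N] [Group M] {A B : Subgroup N} [A.Normal] (hs : A ⊔ B = ⊤) (ν : B →* M) :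
    (∀ b : B, (b : N) ∈ A → ν b = 1) → ∃ χ : N →* M, (∀ b : B, χ b = ν b) ∧ ∀ a ∈ A, χ a = 1 := fun h => by
  let f : B →* N ⧸ A := (QuotientGroup.mk' A).comp B.subtype
  have hf : Function.Surjective f := fun y => by
    obtain ⟨n, rfl⟩ := QuotientGroup.mk'_surjective A y
    obtain ⟨a, ha, b, hb, rfl⟩ := (mem_sup_nl (H := B) (N := A) le_normalizer_of_normal).1 (hs.ge (mem_top n))
    exact ⟨⟨b, hb⟩, by rw [map_mul, QuotientGroup.mk'_apply, (QuotientGroup.eq_one_iff a).2 ha, one_mul]; rfl⟩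
  refine ⟨(f.liftOfSurjective hf ⟨ν, fun b hb => h b ((QuotientGroup.eq_one_iff _).1 hb)⟩).comp (QuotientGroup.mk' A),
    fun b => f.liftOfRightInverse_comp_apply _ (Function.rightInverse_surjInv hf) _ b, fun a ha => ?_⟩
  rw [MonoidHom.comp_apply, QuotientGroup.mk'_apply, (QuotientGroup.eq_one_iff a).2 ha, map_one]

theorem shape_hom {Γ : Type*} [Group Γ] {X E : Subgroup Γ} (h : Shape X E) :
    ∃ μ : X →* M24, Function.Surjective μ ∧ ∀ x : X, μ x = 1 ↔ (x : Γ) ∈ E := by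
  obtain ⟨h1, h2, -, -, K, h3, h4, h5, ⟨e⟩⟩ := h
  have : (E.subgroupOf X).Normal := ⟨fun a ha x => h2 x x.2 a ha⟩
  have hs : E.subgroupOf X ⊔ K.subgroupOf X = ⊤ := by rw [← subgroupOf_sup h1 h3, h5, subgroupOf_self]
  obtain ⟨χ, c1, c2⟩ := exists_ext hs (e.toMonoidHom.comp (subgroupOfEquivOfLe h3).toMonoidHom) fun b hb => by
    have : ((b : X) : Γ) = 1 := mem_bot.1 (h4.le ⟨hb, b.2⟩)
    rw [show b = 1 from Subtype.ext (Subtype.ext this), map_one]
  refine ⟨χ, fun m => ?_, fun x => ⟨fun hx => ?_, c2 x⟩⟩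
  · obtain ⟨k, rfl⟩ := e.surjective m
    exact ⟨_, c1 ⟨⟨k, h3 k.2⟩, k.2⟩⟩
  · obtain ⟨a, ha, b, hb, rfl⟩ := (mem_sup_nl (H := K.subgroupOf X) (N := E.subgroupOf X) le_normalizer_of_normal).1
      (hs.ge (mem_top x))
    rw [map_mul, c2 a ha, one_mul, c1 ⟨b, hb⟩] at hx
    have : (b : Γ) = 1 := congrArg Subtype.val (e.map_eq_one_iff.1 hx)
    rw [coe_mul, this, mul_one]; exact ha

variable {G : Type*} [Group G] [Finite G]

theorem s5530_of (hG : IsGroupOfMonsterType G) : ∃ (E N : Subgroup G) (O : Subgroup ↥N), IsKleinFour ↥E ∧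
    N = Subgroup.normalizer (E : Set G) ∧ O = Cfsg.pCore 2 ↥N ∧ Nat.card ↥O = 2 ^ 35 ∧
    (Subgroup.center ↥O).map O.subtype = E.subgroupOf N ∧
    ∃ _ : O.Normal, Nonempty (↥N ⧸ O ≃* ↥Cfsg.M24 × Equiv.Perm (Fin 3)) := by
  obtain ⟨z, Q₀, _, hS, e, ψ, hψ⟩ := hG
  have h := mt_of hS hψ
  generalize Q₀.map (centralizer ({z} : Set G)).subtype = Q, e.toMonoidHom.comp (QuotientGroup.mk' Q₀) = π,
    relOf Q₀ ψ = R at h
  obtain ⟨g, hg, hne⟩ := h.nwc
  obtain ⟨c13, -, -, -, hsh⟩ := h.pair hg hne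
  obtain ⟨hR, -, -, hN, -, hC⟩ := h.xe.toXS.sup_conj_structure hg hne rfl rfl rfl
  have h' := h.xe.conj g
  have hz := h.xe.mem_cj_of_conj_mem hg
  have hXN := h.xe.toXS.sup_le_norm hg
  have hpair := @h.xe.toXS.exists_conj_pair _ _ _ _ _ _ hg hne
  have cP : Nat.card (cj g Q) = 2 ^ 25 := by rw [card_cj, h.card]
  set t := g * z * g⁻¹ with ht
  set P := cj g Q
  have hzt : z * t = t * z := (h.xe.comm hg).symm
  have hφ0 := exists_hom_perm_three h.xe.mul_self h'.mul_self hzt h.xe.ne_one h'.ne_one hne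
  set V := closure ({z, t} : Set G) with hV
  obtain ⟨φ, hφ, hφ'⟩ := hφ0
  set X := Q ⊔ P
  set O := P ⊓ centralizer ({z} : Set G) ⊔ Q ⊓ centralizer ({t} : Set G) with hO
  have hCV : 𝒞(V) = centralizer ({z} : Set G) ⊓ centralizer ({t} : Set G) := by
    rw [hV, Set.insert_eq, Subgroup.closure_union, cent_sup, centralizer_closure, centralizer_closure]
  have tz : t ∉ zpowers z := fun h1 => (h.xe.mem_Z.1 h1).elim h'.ne_one hne
  have zt : z ∉ zpowers t := fun h1 => (h'.mem_Z.1 h1).elim h.xe.ne_one hne.symm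
  have OC : O ≤ 𝒞(V) := hR.le.trans inf_le_right
  have ON : O ≤ 𝒩(V) := OC.trans (cent_le_norm V)
  have nX : 𝒩(V) ≤ 𝒩(X) := hN.le.trans (sup_le le_normalizer (le_norm_sup (hC.trans inf_le_left) (hC.trans inf_le_right)))
  have nO : 𝒩(V) ≤ 𝒩(O) := hR ▸ le_norm_inf nX (norm_le_norm_cent V)
  have nQ : P ⊓ centralizer ({z} : Set G) ≤ 𝒩(Q ⊓ centralizer ({t} : Set G)) :=
    le_norm_inf (inf_le_right.trans h.xe.norm) ((inf_le_left.trans h'.le).trans le_normalizer)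
  have cO : Nat.card O = 2 ^ 35 := by
    have a1 := card_sup_mul_card_inf nQ
    have a2 := MT.card_inf_cent h.xe hg tz
    have a3 := MT.card_inf_cent h' hz zt
    have a4 : P ⊓ centralizer ({z} : Set G) ⊓ (Q ⊓ centralizer ({t} : Set G)) = Q ⊓ P := le_antisymm
      (fun a ha => ⟨ha.2.1, ha.1.1⟩) fun a ha => ⟨⟨ha.2, h.xe.le ha.1⟩, ha.1, h'.le ha.2⟩
    rw [h.card] at a2
    rw [cP] at a3
    rw [← hO, a4, c13, show Nat.card ↥(P ⊓ centralizer ({z} : Set G)) = 2 ^ 24 by omega,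
      show Nat.card ↥(Q ⊓ centralizer ({t} : Set G)) = 2 ^ 24 by omega] at a1
    omega
  -- the homomorphism onto `M24`
  obtain ⟨μ, μs, μk⟩ := shape_hom hsh
  have CZ : 𝒞(V) ≤ centralizer ({z} : Set G) := hCV.le.trans inf_le_left
  let ι : (𝒞(V)).subgroupOf 𝒩(V) →* centralizer ({z} : Set G) :=
    (inclusion CZ).comp (subgroupOfEquivOfLe (cent_le_norm V)).toMonoidHom
  let ν := μ.comp ((π.comp ι).codRestrict _ fun c => ⟨ι c, hCV.le c.2, rfl⟩)
  have νk : ∀ c, ν c = 1 ↔ ((c : 𝒩(V)) : G) ∈ O := fun c => by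
    refine (μk _).trans ⟨fun ⟨p, hp, e⟩ => ?_, fun hc => ?_⟩
    · have h1 : (p : G)⁻¹ * (c : 𝒩(V)) ∈ Q := (h.ker (p⁻¹ * ι c)).1 (by rw [map_mul, map_inv, e]; exact inv_mul_cancel _)
      have h2 : (p : G) ∈ centralizer ({t} : Set G) := h'.le hp.1
      have h3 : ((c : 𝒩(V)) : G) ∈ centralizer ({t} : Set G) := (hCV.le c.2).2
      have h4 : (p : G)⁻¹ * (c : 𝒩(V)) ∈ Q ⊓ centralizer ({t} : Set G) := ⟨h1, Subgroup.mul_mem _ (inv_mem h2) h3⟩
      simpa using mul_mem_sup (mem_subgroupOf.1 hp) h4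
    · obtain ⟨p, hp, q, hq, e⟩ := (mem_sup_nr nQ).1 hc
      refine ⟨⟨p, hp.2⟩, hp, ?_⟩
      change π _ = π (ι c)
      rw [show ι c = ⟨p, hp.2⟩ * ⟨q, h.xe.le hq.1⟩ from Subtype.ext e.symm, map_mul, (h.ker ⟨q, _⟩).2 hq.1, mul_one]
  have : (X.subgroupOf 𝒩(V)).Normal := normal_subgroupOf_of_le_normalizer' nX
  have hs : X.subgroupOf 𝒩(V) ⊔ (𝒞(V)).subgroupOf 𝒩(V) = ⊤ := by
    rw [← subgroupOf_sup hXN (cent_le_norm V), ← hN, subgroupOf_self]
  obtain ⟨χ, c1, c2⟩ := exists_ext hs ν fun b hb => (νk b).2 (hR.ge ⟨hb, b.2⟩)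
  have hk : (χ.prod φ).ker = O.subgroupOf 𝒩(V) := by
    ext n
    rw [MonoidHom.mem_ker, MonoidHom.prod_apply, Prod.mk_eq_one, hφ, mem_subgroupOf]
    exact ⟨fun hn => (νk ⟨n, hn.2⟩).1 ((c1 _).symm.trans hn.1), fun hn => ⟨c2 n (hR.le hn).1, OC hn⟩⟩
  have hsur : Function.Surjective (χ.prod φ) := by
    rintro ⟨m, σ⟩
    obtain ⟨⟨_, c, hc, rfl⟩, rfl⟩ := μs m
    obtain ⟨x, hx, rfl⟩ := hφ' X (fun u hu v hv h1 h2 h3 => hpair hu hv h1 h2 h3) hXN σ
    have hc' : (c : G) ∈ 𝒞(V) := hCV.ge hc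
    refine ⟨⟨c, cent_le_norm V hc'⟩ * x, Prod.ext ?_ ?_⟩
    · change χ _ = _
      rw [map_mul, c2 x hx, mul_one]; exact c1 ⟨⟨c, cent_le_norm V hc'⟩, hc'⟩
    · change φ _ = _
      rw [map_mul, (hφ _).2 hc', one_mul]
  have hn : (O.subgroupOf 𝒩(V)).Normal := hk ▸ inferInstance
  have cO' : Nat.card (O.subgroupOf 𝒩(V)) = 2 ^ 35 := by rw [Nat.card_congr (subgroupOfEquivOfLe ON).toEquiv, cO]
  have zV : z ∈ V := subset_closure (by simp)
  have tV : t ∈ V := subset_closure (by simp)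
  have mV := @mem_closure_pair_two _ _ z t
  refine ⟨V, _, O.subgroupOf 𝒩(V), ⟨?_, ?_⟩, rfl, le_antisymm (le_pCore (IsPGroup.of_card cO')) ?_, cO', ?_, hn,
    ⟨(QuotientGroup.quotientMulEquivOfEq hk.symm).trans (QuotientGroup.quotientKerEquivOfSurjective _ hsur)⟩⟩
  · classical
    have hzt1 : z * t ≠ 1 := fun e => hne (mul_left_cancel (e.trans h.xe.mul_self.symm))
    have : (V : Set G) = ({1, z, t, z * t} : Finset G) := by
      ext x; simp [← mV h.xe.mul_self h'.mul_self hzt, hV]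
    change Nat.card (V : Set G) = 4
    rw [this, Nat.card_coe_set_eq, Set.ncard_coe_finset, Finset.card_insert_of_notMem, Finset.card_insert_of_notMem,
      Finset.card_pair]
    · simp [h.xe.ne_one]
    · simp [hne.symm, h'.ne_one]
    · simp [h.xe.ne_one.symm, h'.ne_one.symm, hzt1.symm]
  · have : Fact (Nat.Prime 2) := ⟨Nat.prime_two⟩
    have : Nontrivial V := ⟨⟨⟨z, zV⟩, 1, fun e => h.xe.ne_one (congrArg Subtype.val e)⟩⟩
    refine (Monoid.exponent_eq_prime_iff Nat.prime_two).2 fun x hx => orderOf_eq_prime (Subtype.ext ?_) hx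
    change (x : G) ^ 2 = 1
    rw [pow_two]
    rcases (mV h.xe.mul_self h'.mul_self hzt).1 x.2 with e | e | e | e <;> rw [e]
    exacts [one_mul _, h.xe.mul_self, h'.mul_self, by
      rw [mul_assoc, ← mul_assoc t, ← hzt, mul_assoc, h'.mul_self, mul_one, h.xe.mul_self]]
  · have := M24_simple
    have a1 := eq_bot_of_simple (by rw [card_M24]; norm_num) ((pCore 2 𝒩(V)).map χ)
      (Normal.map inferInstance χ (Prod.fst_surjective.comp hsur)) ((pCore_isPGroup 2 _).map _)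
    have a2 := perm_fin_three_normal_two (N := (pCore 2 𝒩(V)).map φ)
      (Normal.map inferInstance φ (Prod.snd_surjective.comp hsur)) ((pCore_isPGroup 2 _).map _)
    rw [← hk]
    exact fun n hn => Prod.ext (mem_bot.1 (a1.le ⟨n, hn, rfl⟩)) (mem_bot.1 (a2.le ⟨n, hn, rfl⟩))
  · have VO : V ≤ O := (closure_le _).2 (by
      rintro y (rfl | rfl)
      exacts [mem_sup_left ⟨hz, mem_cent_singleton.2 rfl⟩, mem_sup_right ⟨hg, mem_cent_singleton.2 rfl⟩])
    ext n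
    refine ⟨?_, fun hn => ⟨⟨n, VO hn⟩, mem_center_iff.2 fun o => Subtype.ext (Subtype.ext (OC o.2 n hn).symm), rfl⟩⟩
    rintro ⟨o, ho, rfl⟩
    refine h.xe.cent_inf_cent_le hg (by rw [pow_two, h'.mul_self]) fun y hy => ?_
    have hy' : y ∈ O := mem_sup_right hy
    exact congrArg (fun a : O.subgroupOf 𝒩(V) => ((a : 𝒩(V)) : G)) (mem_center_iff.1 ho ⟨⟨y, ON hy'⟩, hy'⟩)

theorem s5536_of (hG : IsGroupOfMonsterType G) : ∃ (C N : Subgroup G) (R : Subgroup ↥N), IsCyclic ↥C ∧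
    Nat.card ↥C = 4 ∧ N = Subgroup.normalizer (C : Set G) ∧ Cfsg.IsExtraspecial 2 ↥R ∧ Nat.card ↥R = 2 ^ 25 ∧
    ∃ _ : R.Normal, Nonempty (↥N ⧸ R ≃* ↥Cfsg.Spor.Co3) := by
  obtain ⟨z, Q₀, _, hS, e, ψ, hψ⟩ := hG
  have h := mt_of hS hψ
  generalize Q₀.map (centralizer ({z} : Set G)).subtype = Q, e.toMonoidHom.comp (QuotientGroup.mk' Q₀) = π,
    relOf Q₀ ψ = R at h
  obtain ⟨x, hx⟩ := h.exR leechV
  have xQ := h.mem hx
  have x2 : x ^ 2 = z := (h.xe.mem_Z.1 (h.xe.sq x xQ)).resolve_left fun e => by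
    have := (h.sq_iff hx).1 e
    rw [sqNorm_V] at this
    omega
  have x4 : x ^ 4 = 1 := by rw [show 4 = 2 * 2 from rfl, pow_mul, x2, pow_two, h.xe.mul_self]
  have ox : orderOf x = 2 ^ (1 + 1) := orderOf_eq_prime_pow (by rw [pow_one, x2]; exact h.xe.ne_one) x4
  have hU := not_dbl_of_short (v := leechV) (by rw [sqNorm_V]; norm_num) (by rw [sqNorm_V]; norm_num)
  have zC : z ∈ zpowers x := x2 ▸ pow_mem (mem_zpowers x) 2
  have cs : ∀ n ∈ 𝒩(zpowers x), n * x * n⁻¹ = x ∨ n * x * n⁻¹ = z * x := fun n hn => by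
    obtain ⟨k, hk⟩ := (isOfFinOrder_of_finite x).mem_powers_iff_mem_zpowers.2 (conj_mem hn (mem_zpowers x))
    simp only at hk
    have h2 : (n * x * n⁻¹) ^ 2 ≠ 1 := by rw [conj_pow, x2]; simpa using h.xe.ne_one
    rw [← hk, ← pow_mod_orderOf x k, ox] at h2 ⊢
    rcases (by omega : k % 2 ^ (1 + 1) = 0 ∨ k % 2 ^ (1 + 1) = 1 ∨ k % 2 ^ (1 + 1) = 2 ∨ k % 2 ^ (1 + 1) = 3) with
      e | e | e | e <;> rw [e] at h2 ⊢
    · simp at h2
    · exact .inl (pow_one x)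
    · exact absurd (by rw [← pow_mul, x4]) h2
    · exact .inr (by rw [← x2, ← pow_succ])
  have NC : 𝒩(zpowers x) ≤ centralizer ({z} : Set G) := fun n hn => mem_cent_singleton.2 (by
    rw [← mul_inv_eq_iff_eq_mul]
    conv_lhs => rw [← x2, ← conj_pow]
    rcases cs n hn with e | e <;> rw [e]
    · exact x2
    · rw [(show Commute z x from (h.xe.comm xQ).symm).mul_pow, pow_two z, h.xe.mul_self, one_mul, x2])
  have QN : Q ≤ 𝒩(zpowers x) := h.xe.toXS.le_norm_of_mem (zpowers_le.2 xQ) zC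
  have hinj := mk1_injOn (negOne_not_mem_stabilizer (v := leechV) (by rw [sqNorm_V]; norm_num))
  let ρ : 𝒩(zpowers x) →* stabilizer Co0 leechV := (MonoidHom.ofInjective hinj).symm.toMonoidHom.comp
    ((π.comp (inclusion NC)).codRestrict _ fun d => by
      obtain ⟨g, hg⟩ := mk1_surjective (π (inclusion NC d))
      rcases (mem_clsStab_of_lt (g := g) (by rw [sqNorm_V]; norm_num)).1
        ((h.dbl_iff' (h.conj _ g hg.symm hx) hx).2 (cs d d.2)) with e | e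
      · exact ⟨⟨g, e⟩, hg⟩
      · exact ⟨⟨negOne * g, by rw [mem_stabilizer_iff, mul_smul, e, negOne_smul, neg_neg]⟩,
          (map_mul mk1 _ _).trans (by rw [mk1_eq_one.2 negOne_mem_center, one_mul]; exact hg)⟩)
  have hρ : ∀ d, mk1 (ρ d) = π (inclusion NC d) := fun d => MonoidHom.apply_ofInjective_symm hinj _
  have hsur : Function.Surjective ρ := fun g => by
    obtain ⟨c, h1, h2⟩ := h.conj_of_dbl hx hx hU (stabilizer_le_clsStab _ g.2)
    exact ⟨⟨c, cent_le_norm _ (by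
      rw [cent_zpowers]; exact mem_cent_singleton.2 (mul_inv_eq_iff_eq_mul.1 h2))⟩, hinj ((hρ _).trans h1)⟩
  have hk : ρ.ker = Q.subgroupOf 𝒩(zpowers x) := by
    ext d
    rw [MonoidHom.mem_ker, mem_subgroupOf, ← hinj.eq_iff, map_one]
    exact (iff_of_eq (congrArg (· = 1) (hρ d))).trans (h.ker _)
  have hn : (Q.subgroupOf 𝒩(zpowers x)).Normal := hk ▸ inferInstance
  exact ⟨zpowers x, _, Q.subgroupOf 𝒩(zpowers x), inferInstance, by rw [Nat.card_zpowers, ox]; rfl, rfl,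
    extra_of_mulEquiv h.xe.extra (subgroupOfEquivOfLe QN).symm,
    by rw [Nat.card_congr (subgroupOfEquivOfLe QN).toEquiv, h.card], hn,
    ⟨((QuotientGroup.quotientMulEquivOfEq hk.symm).trans (QuotientGroup.quotientKerEquivOfSurjective _ hsur)).trans
      co3Equiv⟩⟩

end CL.INC
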