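/-
Auxiliary models.
Generated by tools/pg.
-/
import Cfsg.Agent.Spor.PGCtx
import Cfsg.Agent.Spor.PGSub

set_option autoImplicit false
set_option maxRecDepth 200000
set_option Elab.async false
set_option linter.unusedVariables false

namespace CL.INC.H5T
open CL.PG

def P : Par := ⟨3, 3, 2, 1⟩
theorem hP : P.Ok := by decide
noncomputable def a0 : Net := (.cons 1 (nat_lit 0x1)
 (.cons 1 (nat_lit 0x2)
 .nil))
noncomputable def a1 : Net := .nil
noncomputable def a2 : Net := (.cons 1 (nat_lit 0x1)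
 .nil)
noncomputable def a3 : Net := (.cons 1 (nat_lit 0x1)
 .nil)
noncomputable def a4 : Net := (.cons 1 (nat_lit 0x2)
 .nil)
noncomputable def ns0 : List Net := [a0, a1, a2, a3]
noncomputable def ws : List (List ℕ) :=
  [W (nat_lit 0x408008070080401c03)]
noncomputable def ns : List Net := [a0, a1, a2, a3, a4]
noncomputable def D : List (ℕ × List ℕ) := app [] (mkDefs ws 4)
noncomputable def chk : List (List ℕ × List ℕ) → Bool := P.relsB ns
noncomputable def G_v0 : Lev :=
  ⟨0, 3, sg (W (nat_lit 0x401)), [[8]], 0, 1⟩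
noncomputable def G_v1 : Lev :=
  ⟨1, 2, sg [8], [], 1, 0⟩
noncomputable def G_vs2 : List Lev :=
  []
noncomputable def G_vs1 : List Lev :=
  G_v1 :: G_vs2
noncomputable def G_vs : List Lev :=
  G_v0 :: G_vs1

theorem zc0 : P.chainB ns D G_vs [[0], [2], [4], [6]] = true := by decide +kernel
theorem zk1 : allL (keepB P.n P.N) ns0 = true := by decide +kernel
theorem ze2 : extB ns0 ns 4 ws [] = true := by decide +kernel
theorem zn3 : P.netsB ns (mkDefs ws 4) = true := by decide +kernel

section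
variable {G X : Type*} [Group G] [MulAction G X] {e : ℕ → X} {gs : List G}

theorem keep0 : allL (keepB P.n P.N) ns0 = true := zk1

theorem len {k} (c : Ctx P e gs ns0 [] k) : gs.length = 4 := c.len ze2

theorem ctx0 {k} (c : Ctx P e gs ns0 [] k) : Ctx P e (ext gs ws) ns D chk0 :=
  c.ext rfl ze2 zn3

theorem ctx {k} (c : Ctx P e gs ns0 [] k) {H : Subgroup G} (hF : Faithful e P.n H) (hH : ∀ g ∈ gs, g ∈ H) :
    Ctx P e (ext gs ws) ns D chk :=
  (ctx0 c).withB hF (mem_of_mem_ext hH _)

instance instNe : NeZero P.n := ⟨by decide⟩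
noncomputable def gs0 : List (Equiv.Perm (Fin P.n)) := permsOf P.n P.N ns0
noncomputable def gs1 : List (Equiv.Perm (Fin P.n)) := ext gs0 ws
theorem c1 : Ctx P (eF P.n) gs1 ns D chk :=
  ctx (ctx_permsOf hP keep0) (faithful_eF _) fun _ _ => trivial

theorem G_c : P.chainB ns D G_vs [[0], [2], [4], [6]] = true :=
  zc0

theorem G_o : prodL G_vs 1 = 6 := by decide +kernel

theorem G_lb (c : Ctx P e gs ns D chk) :
    LB (subW gs [[0], [2], [4], [6]]) 6 :=
  c.lb G_c G_o

theorem top : subW gs1 [[0], [2], [4], [6]] = ⊤ :=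
  (UB.of_card (H := ⊤) (by rw [Subgroup.card_top, Nat.card_perm, Nat.card_eq_fintype_card]; rfl) (by norm_num)).eq_of_lb (G_lb c1) le_top

end
end CL.INC.H5T

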