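import Cfsg.Agent.Spor.PGPres5
import Cfsg.Agent.Spor.TCJ1pA
import Cfsg.Agent.Spor.TCJ1pB
import Cfsg.Agent.Spor.SmallPres

/-! Upper bounds from coset enumerations for any group generated by elements satisfying the relations of `J1p`. -/

set_option autoImplicit false

namespace CL.J1pP
open CL.TC CL.PP CL.Pr CL.Pr.J1p

/-- the relators -/
abbrev RL : List (FreeGroup Gen) := coxList edges extra
/-- all generators -/
abbrev gens : List Gen := [.a, .b]
/-- words -/
abbrev wds (l : List Gen) : List (FreeGroup Gen) := l.map FreeGroup.of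
/-- generators of the point stabiliser -/
abbrev subA : List (FreeGroup Gen) := [b, a * b⁻¹ * a * b * a * b⁻¹ * a * b * a * b * a * b⁻¹ * a * b⁻¹ * a * b * a * b * a * b⁻¹ * a * b⁻¹ * a * b * a * b⁻¹ * a * b * a]

variable {G : Type*} [Group G] {φ : FreeGroup Gen →* G} (hR : ∀ r ∈ RL, φ r = 1)
include hR

theorem cardA : Finite (subL φ (wds gens)) ∧ Nat.card (subL φ (wds gens)) ≤ 175560 :=
  J1pB.valid.card_le (invol := [.a]) (LB := [(.a, true), (.b, true), (.b, false)]) (SL := [a * b]) hR rfl
    (by decide +kernel) (subL_le_of_lettersIn (by decide +kernel))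
    (card_subL_single (m := 7) (by norm_num) (hR _ (by decide +kernel)))

end CL.J1pP
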