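import Cfsg.Agent.Fgs.ClassFusion
import Cfsg.Agent.Grp.SZConj
import Cfsg.Agent.Spor.J4G

/-!
# Counting conjugacy classes prime by prime
-/

namespace CL.J4.Cn

open Cfsg Subgroup Finset CL.Fgs
open scoped Pointwise

variable {G : Type*} [Group G]

theorem kPi_equiv [Finite G] {H : Type*} [Group H] (π : Set ℕ) (e : G ≃* H) : kPi π G = kPi π H :=
  have := Finite.of_equiv _ e.toEquiv
  le_antisymm (kPi_le_of_surjective π e.symm.toMonoidHom e.symm.surjective)
    (kPi_le_of_surjective π e.toMonoidHom e.surjective)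

theorem kPi_cent [Finite G] (π : Set ℕ) {x y : G} (h : IsConj x y) : kPi π cent(x) = kPi π cent(y) := by
  obtain ⟨g, rfl⟩ := isConj_iff.1 h
  rw [cent_conj_eq_map]
  exact kPi_equiv π ((MulAut.conj g).subgroupMap _)

theorem kPi_cent_one [Finite G] (π : Set ℕ) : kPi π cent((1 : G)) = kPi π G := by
  rw [cent_one]; exact kPi_equiv π topEquiv

open Classical in
theorem sum_reps [Fintype G] {F : G → ℕ} (hF : ∀ x y, IsConj x y → F x = F y) : ∀ {l : List G},
    l.Pairwise (fun a b => ¬ IsConj a b) →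
    ∑ y ∈ univ.filter fun y => ∃ x ∈ l, IsConj x y, F y * Nat.card cent(y) = (l.map F).sum * Nat.card G
  | [], _ => by simp
  | a :: l, h => by
    rw [List.pairwise_cons] at h
    have e : (univ.filter fun y => ∃ x ∈ a :: l, IsConj x y) =
        univ.filter (IsConj a) ∪ univ.filter fun y => ∃ x ∈ l, IsConj x y := by
      ext y; simp only [mem_filter, mem_univ, true_and, mem_union, List.mem_cons, exists_eq_or_imp]
    rw [e, sum_union, sum_reps hF h.2, List.map_cons, List.sum_cons, add_mul,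
      sum_congr rfl (g := fun _ => F a * Nat.card cent(a)) fun y hy => by
        rw [hF a y (mem_filter.1 hy).2, card_cent_eq_of_isConj (mem_filter.1 hy).2],
      sum_const, card_filter_isConj, smul_eq_mul, mul_left_comm, cs_mul_card_cent]
    exact disjoint_filter.2 fun y _ h1 ⟨x, hx, h2⟩ => h.1 x hx (h1.trans h2.symm)

variable [Finite G] {π : Set ℕ}

theorem kPi_list {l : List G} (h1 : ∀ x ∈ l, IsPiElt π x) (h2 : l.Pairwise fun a b => ¬ IsConj a b)
    (h3 : ∀ y, IsPiElt π y → ∃ x ∈ l, IsConj x y) : kPi π G = l.length := by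
  classical
  have := Fintype.ofFinite G
  refine Nat.eq_of_mul_eq_mul_right (Nat.card_pos (α := G)) ?_
  have h := sum_reps (F := fun _ => 1) (fun _ _ _ => rfl) h2
  simp only [one_mul, List.map_const', List.sum_replicate, smul_eq_mul, mul_one] at h
  rw [kPi_mul_card, ← h]
  exact sum_congr (filter_congr fun y _ => ⟨h3 y, fun ⟨x, hx, e⟩ => (h1 x hx).of_isConj e⟩) fun _ _ => rfl

/-- The number of classes of π-elements of a subgroup from a list of representatives. -/
theorem kPi_reps {ι : Type*} (X : Subgroup G) (f : ι → G) {l : List ι} (h1 : ∀ i ∈ l, f i ∈ X ∧ IsPiElt π (f i))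
    (h2 : l.Pairwise fun i j => ∀ g ∈ X, g * f i * g⁻¹ ≠ f j)
    (h3 : ∀ y ∈ X, IsPiElt π y → ∃ i ∈ l, ∃ g ∈ X, g * y * g⁻¹ = f i) : kPi π X = l.length := by
  classical
  let f' : ι → X := fun i => if h : f i ∈ X then ⟨f i, h⟩ else 1
  have e : ∀ i ∈ l, (f' i : G) = f i := fun i hi => by simp only [f', dif_pos (h1 i hi).1]
  rw [← List.length_map f']
  refine kPi_list (fun x hx => ?_) ?_ fun y hy => ?_
  · obtain ⟨i, hi, rfl⟩ := List.mem_map.1 hx
    exact isPiElt_coe_iff.1 ((e i hi).symm ▸ (h1 i hi).2)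
  · rw [List.pairwise_map]
    refine h2.imp_of_mem fun {i j} hi hj h h' => ?_
    obtain ⟨g, hg⟩ := isConj_iff.1 h'
    exact h g g.2 (by rw [← e i hi, ← e j hj, ← hg]; rfl)
  · obtain ⟨i, hi, g, hg, h⟩ := h3 y y.2 (isPiElt_coe_iff.2 hy)
    exact ⟨f' i, List.mem_map_of_mem hi, (isConj_iff.2 ⟨⟨g, hg⟩, Subtype.ext (h.trans (e i hi).symm)⟩).symm⟩

/-- Removing a prime, given representatives of the classes of its elements. -/
theorem kPi_step {p : ℕ} (hp : p ∈ π) {l : List G} (h1 : ∀ x ∈ l, x ≠ 1 ∧ IsPiElt {p} x)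
    (h2 : l.Pairwise fun a b => ¬ IsConj a b) (h3 : ∀ y, IsPiElt {p} y → y ≠ 1 → ∃ x ∈ l, IsConj x y) :
    kPi π G = kPi (π \ {p}) G + (l.map fun x => kPi (π \ {p}) cent(x)).sum := by
  classical
  have := Fintype.ofFinite G
  refine Nat.eq_of_mul_eq_mul_right (Nat.card_pos (α := G)) ?_
  have h := sum_reps (F := fun x => kPi (π \ {p}) cent(x)) (fun _ _ => kPi_cent _) (l := 1 :: l)
    (List.pairwise_cons.2 ⟨fun x hx h => (h1 x hx).1 (isConj_one_right.1 h), h2⟩)
  rw [List.map_cons, List.sum_cons, kPi_cent_one] at h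
  rw [kPi_mul_card_eq_sum (Set.singleton_subset_iff.2 hp), ← h]
  refine sum_congr (filter_congr fun y _ => ⟨fun hy => ?_, fun ⟨x, hx, e⟩ => ?_⟩) fun _ _ => rfl
  · by_cases h0 : y = 1
    · exact ⟨1, by simp, h0 ▸ IsConj.refl _⟩
    · exact (h3 y hy h0).imp fun x hx => ⟨List.mem_cons_of_mem _ hx.1, hx.2⟩
  · rcases List.mem_cons.1 hx with rfl | hx
    exacts [(isPiElt_one _).of_isConj e, (h1 x hx).2.of_isConj e]

theorem kPi_eq_one (h : ∀ x : G, IsPiElt π x → x = 1) : kPi π G = 1 :=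
  kPi_list (l := [1]) (by simpa using isPiElt_one π) (by simp) fun y hy => ⟨1, by simp, h y hy ▸ IsConj.refl _⟩

theorem mul_cl_eq {S : Set G} {r : ℕ} (h : ∀ x ∈ S, {y | y ∈ S ∧ IsConj x y}.ncard = r) : cl S * r = S.ncard := by
  classical
  have := Fintype.ofFinite G
  rw [cl, ← Set.coe_toFinset S, ← coe_image, Set.ncard_coe_finset, Set.ncard_coe_finset,
    card_eq_sum_card_image ConjClasses.mk S.toFinset, ← smul_eq_mul, ← sum_const]
  refine sum_congr rfl fun C hC => ?_
  obtain ⟨x, hx, rfl⟩ := mem_image.1 hC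
  rw [← h x (Set.mem_toFinset.1 hx), ← Set.ncard_coe_finset]
  congr 1
  ext y
  simp only [Set.mem_ofPred_eq, coe_filter, Set.mem_toFinset, ConjClasses.mk_eq_mk_iff_isConj, isConj_comm]

/-- Removing a prime whose square does not divide the order. -/
theorem kPi_step_cyc {p e c : ℕ} (hp : p.Prime) (hπ : p ∈ π) {f : G} (hf : orderOf f = p) (h0 : ¬ p ^ 2 ∣ Nat.card G)
    (h : Nat.card (normalizer (zpowers f : Set G)) = e * Nat.card cent(f)) (he : 0 < e) (hc : p = c * e + 1) :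
    kPi π G = kPi (π \ {p}) G + c * kPi (π \ {p}) cent(f) := by
  classical
  have := Fintype.ofFinite G
  have := Fact.mk hp
  obtain ⟨P, hP⟩ := ((isPiElt_singleton_iff hp).2 ⟨1, hf.trans (pow_one p).symm⟩).exists_mem_sylow
  have a0 : zpowers f = P := Subgroup.eq_of_le_of_card_ge (zpowers_le.2 hP) (by
    obtain ⟨k, hk⟩ := P.isPGroup'.exists_card_eq
    rw [hk, Nat.card_zpowers, hf]
    have : ¬ 2 ≤ k := fun h => h0 ((pow_dvd_pow p h).trans (hk ▸ card_subgroup_dvd_card _))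
    exact (Nat.pow_le_pow_right hp.pos (by omega)).trans (pow_one p).le)
  have h1 : ∀ y ∈ zpowers f, y ≠ 1 → zpowers y = zpowers f := fun y hy h1 =>
    Subgroup.eq_of_le_of_card_ge (zpowers_le.2 hy) (by
      rw [Nat.card_zpowers, Nat.card_zpowers, hf]
      exact ((Nat.dvd_prime hp).1 (hf ▸ orderOf_dvd_of_mem_zpowers hy)).elim
        (fun h => (h1 (orderOf_eq_one_iff.1 h)).elim) fun h => h.ge)
  have h2 : ∀ y ∈ zpowers f, y ≠ 1 → cent(y) = cent(f) := fun y hy h' => by
    rw [← J4.centralizer_zpowers, h1 y hy h', J4.centralizer_zpowers]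
  have h3 : kPi {p} G = c + 1 := by
    have a1 := mul_cl_eq (S := (zpowers f : Set G) \ {1}) (r := e) fun y hy => by
      have := card_normalizer_zpowers y
      rw [h2 y hy.1 hy.2, h1 y hy.1 hy.2, h] at this
      rw [Nat.eq_of_mul_eq_mul_right Nat.card_pos this]
      congr 1
      ext w
      exact ⟨fun ⟨a, b⟩ => ⟨a.1, b⟩, fun ⟨a, b⟩ => ⟨⟨a, fun e => hy.2 (isConj_one_left.1 (Set.mem_singleton_iff.1 e ▸ b))⟩, b⟩⟩
    rw [Set.ncard_sdiff_singleton_of_mem (one_mem (zpowers f)), ncard_coe_subgroup, Nat.card_zpowers, hf,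
      show p - 1 = c * e by omega] at a1
    have a2 : ConjClasses.mk (1 : G) ∉ ConjClasses.mk '' ((zpowers f : Set G) \ {1}) := fun ⟨y, hy, e⟩ =>
      hy.2 (isConj_one_left.1 (ConjClasses.mk_eq_mk_iff_isConj.1 e))
    rw [kPi_singleton_eq_cl P, ← a0, ← Nat.eq_of_mul_eq_mul_right he a1, cl, cl, ← Set.ncard_insert_of_notMem a2,
      ← Set.image_insert_eq, Set.insert_sdiff_singleton, Set.insert_eq_of_mem (one_mem (zpowers f))]
  have h4 := kPi_mul_card_eq_sum (G := G) (Set.singleton_subset_iff.2 hπ)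
  have h5 := kPi_mul_card (G := G) {p}
  have m : (1 : G) ∈ univ.filter (IsPiElt {p}) := mem_filter.2 ⟨mem_univ _, isPiElt_one _⟩
  rw [← add_sum_erase _ _ m, cent_one, card_top] at h4 h5
  rw [sum_congr rfl (g := fun y => kPi (π \ {p}) cent(f) * Nat.card cent(y)) fun y hy => by
    obtain ⟨g, hg⟩ := (mem_filter.1 (mem_erase.1 hy).2).2.exists_conj_mem_sylow P
    rw [kPi_cent _ (isConj_iff.2 ⟨g, rfl⟩), h2 _ (a0 ▸ hg) (by simpa using (mem_erase.1 hy).1)],
    kPi_equiv _ topEquiv, ← mul_sum] at h4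
  refine Nat.eq_of_mul_eq_mul_right (Nat.card_pos (α := G)) ?_
  rw [h3, add_mul, one_mul, add_comm] at h5
  rw [h4, add_mul, ← Nat.add_left_cancel h5]
  ring

theorem kPi_step_ti {p e c : ℕ} [hp : Fact p.Prime] (hπ : p ∈ π) (h0 : ¬ p ^ 2 ∣ Nat.card G) {P : Subgroup G}
    (h1 : Nat.card P = p) (h : centralizer (P : Set G) = P ∧ Nat.card (normalizer (P : Set G)) = p * e)
    (he : 0 < e) (hc : p = c * e + 1) : kPi π G = kPi (π \ {p}) G + c := by
  obtain ⟨f, rfl⟩ := P.isCyclic_iff_exists_zpowers_eq_top.1 (isCyclic_of_prime_card h1)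
  rw [J4.centralizer_zpowers] at h
  rw [kPi_step_cyc hp.out hπ ((Nat.card_zpowers f).symm.trans h1) h0 (by rw [h.2, h.1, h1, mul_comm]) he hc, h.1,
    kPi_eq_one (G := zpowers f) fun x hx => hx.eq_one fun q hq hd h => h.2
      ((Nat.prime_dvd_prime_iff_eq hq hp.out).1 (h1 ▸ hd.trans (orderOf_dvd_natCard x))), mul_one]

omit [Finite G] in
theorem isPiNum_prime {p : ℕ} (hp : p.Prime) (h : p ∈ π) : IsPiNum π p := fun _ hq hd =>
  (Nat.prime_dvd_prime_iff_eq hq hp).1 hd ▸ h

omit [Finite G] in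
theorem kPi_of_card (h : IsPiNum π (Nat.card G)) : kPi π G = Nat.card (ConjClasses G) :=
  kPi_eq_card_conjClasses fun x => h.of_dvd (orderOf_dvd_natCard x)

/-- A normal subgroup of π'-order with a Hall complement does not change the count. -/
theorem kPi_compl {U L X : Subgroup G} (hU : X ≤ normalizer (U : Set G)) (hs : U ⊔ L = X)
    (hc : (Nat.card U).Coprime (Nat.card L)) (hπ : IsPiNum πᶜ (Nat.card U)) : kPi π X = kPi π L := by
  have hL : L ≤ X := hs ▸ le_sup_right
  have hUX : U ≤ X := hs ▸ le_sup_left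
  have := (normal_subgroupOf_iff_le_normalizer hUX).2 hU
  have h1 : U.subgroupOf X ⊔ L.subgroupOf X = ⊤ := by rw [← subgroupOf_sup hUX hL, hs, subgroupOf_self]
  rw [← kPi_equiv π (subgroupOfEquivOfLe hL)]
  rw [← Grp.card_subgroupOf_of_le hUX] at hc hπ
  rw [← Grp.card_subgroupOf_of_le hL] at hc
  generalize U.subgroupOf X = U, L.subgroupOf X = L at *
  refine le_antisymm (kPi_le_of_forall_conj_mem fun x hx => ?_) ?_
  · obtain ⟨n, -, h⟩ := Grp.schurZassenhaus_conj_of_sup_eq (N := U) (H := zpowers x) (K := L ⊓ (U ⊔ zpowers x))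
      (by rw [normalizer_eq_top]; exact le_top) (by rw [Nat.card_zpowers]; exact (IsPiNum.coprime hx hπ).symm)
      (hc.coprime_dvd_right (card_dvd_of_le inf_le_left)) (Grp.sup_inf_eq_of_normal_le h1 le_sup_left).symm
      (Or.inr inferInstance)
    exact ⟨n, (h ▸ smul_mem_pointwise_smul _ _ _ (mem_zpowers x) : MulAut.conj n • x ∈ L ⊓ (U ⊔ zpowers x)).1⟩
  · have e := (Grp.isComplement'_of_sup_of_coprime hc h1).symm.QuotientMulEquiv
    exact kPi_le_of_surjective π (e.toMonoidHom.comp (QuotientGroup.mk' U))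
      (e.surjective.comp (QuotientGroup.mk'_surjective U))

theorem kPi_prod {f : G} {J : Subgroup G} {p : ℕ} (hp : p.Prime) (hf : orderOf f = p) (hπ : p ∉ π)
    (h : IsInternalDirectProduct (zpowers f) J (centralizer (zpowers f : Set G))) (hJ : ¬ p ∣ Nat.card J) :
    kPi π cent(f) = kPi π J := by
  rw [← J4.centralizer_zpowers]
  exact kPi_compl (centralizer_le_normalizer _) h.2.2.2.2
    (by rw [Nat.card_zpowers, hf]; exact hp.coprime_iff_not_dvd.2 hJ)
    (by rw [Nat.card_zpowers, hf]; exact isPiNum_prime hp hπ)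

theorem card_cl_perm5 : Nat.card (ConjClasses (Equiv.Perm (Fin 5))) = 7 := by
  rw [← kPi_univ]
  refine kPi_list (l := [1, c[0, 1], c[0, 1, 2], c[0, 1, 2, 3], c[0, 1, 2, 3, 4], c[0, 1] * c[2, 3], c[0, 1] * c[2, 3, 4]])
    (fun _ _ => isPiElt_univ _) ?_ fun y h => ?_
  · simp only [Equiv.Perm.isConj_iff_cycleType_eq]
    decide +kernel
  · simp only [Equiv.Perm.isConj_iff_cycleType_eq]
    clear h
    revert y
    decide +kernel

end CL.J4.Cn
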