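import Cfsg.Agent.Spor.J4K1
import Cfsg.Agent.Spor.J4T7
import Cfsg.Agent.Known.GL2Classes

/-!
# The classes of a group of Janko-four type: the odd primes
-/

namespace CL.J4.Cn

open Cfsg Subgroup CL.Fgs CL.J4.El

variable {G : Type*} [Group G] [Finite G] (M : JM G) {π : Set ℕ}

include M in
theorem step_big {p e : ℕ} (h : (p, e) ∈ [(23, 22), (29, 28), (31, 10), (37, 12), (43, 14)]) (hπ : p ∈ π) :
    kPi π G = kPi (π \ {p}) G + (p - 1) / e := by
  have h1 : ∀ x ∈ [(23, 22), (29, 28), (31, 10), (37, 12), (43, 14)], x.1.Prime ∧ x.1 ∈ [23, 29, 31, 37, 43] ∧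
      ¬ x.1 ^ 2 ∣ 86775571046077562880 ∧ 0 < x.2 ∧ x.1 = (x.1 - 1) / x.2 * x.2 + 1 := by
    simp only [List.forall_mem_cons]; norm_num
  obtain ⟨a, b, c, d, f⟩ := h1 _ h
  have := Fact.mk a
  obtain ⟨P⟩ : Nonempty (Sylow p G) := inferInstance
  exact kPi_step_ti hπ (M.card_G ▸ c) ((Big.hyp M).card_P b P) ((Big.hyp M).main h P) d f

theorem card_cl_L : Nat.card (ConjClasses (L M.toNM)) = 7 := by
  obtain ⟨f, h1, h2⟩ := Transfer.exists_surjective_SL23_of_mem_normalizer (R M.toNM) (equiv_R M.toNM).some M.p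
    (by rw [ord_p]; decide) (p_norm M.toNM (mem_zpowers _)) fun h => by
      have h1 := (rhp M.toNM).fix_of_comm (a := 1024) (j := 0) (by norm_num)
        (by simpa using (h _ (i_mem M.toNM)).symm)
      exact absurd h1 (by decide +kernel)
  rw [M.p3, zpowers_one_eq_bot, bot_subgroupOf, MonoidHom.ker_eq_bot_iff] at h2
  rw [← kPi_univ, L, kPi_equiv _ (MulEquiv.ofBijective f ⟨h2, h1⟩), kPi_univ, GL2.card_conjClasses_SL2_odd (by decide)]
  rfl

include M in
theorem step_11 (h2 : 2 ∈ π) (h3 : 3 ∈ π) (h : 11 ∈ π) : kPi π G = kPi (π \ {11}) G + 9 := by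
  have p11 : Nat.Prime 11 := by norm_num
  have a : ∀ {x : G}, orderOf x = 11 → x ≠ 1 ∧ IsPiElt {11} x := fun h =>
    ⟨fun e => by simp [e] at h, (isPiElt_singleton_iff p11).2 ⟨1, h⟩⟩
  have b2 : IsPiNum (π \ {11}) 2 := isPiNum_prime Nat.prime_two ⟨h2, by simp⟩
  have hU := card_U M M.cent_p
  have hL := X_norm M.toNM
  have hc : (Nat.card (U M.toNM)).Coprime (Nat.card (L M.toNM)) := by rw [hU, card_L]; norm_num
  have c1 : kPi (π \ {11}) cent(M.y) = 7 := by
    rw [kPi_compl (L := L M.toNM) hL (Subgroup.eq_of_le_of_card_ge (sup_le (U_le _) ((L_le _).trans inf_le_left)) (by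
        rw [Grp.card_sup_of_coprime (((L_le _).trans inf_le_left).trans hL) hc, hU, card_L, card_Cy M M.cent_p]; norm_num))
      hc (hU ▸ (isPiNum_prime p11 (by simp)).pow 3), kPi_of_card, card_cl_L]
    rw [card_L]
    exact (b2.pow 3).mul (isPiNum_prime Nat.prime_three ⟨h3, by simp⟩)
  have ht : M.t ∈ cent(y' M) := mem_cent'.2 (y'_t M)
  have c2 : kPi (π \ {11}) cent(y' M) = 2 := by
    refine kPi_reps _ id (l := [1, M.t]) ?_ ?_ fun x hx h => ?_
    · simp only [List.forall_mem_cons]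
      exact ⟨⟨one_mem _, isPiElt_one _⟩, ⟨ht, isPiElt_iff_isPiNum.2 (M.orderOf_t ▸ b2)⟩, by simp⟩
    · simpa using fun _ _ e => by simpa [← e] using M.orderOf_t
    · have h1 : orderOf x ∣ 2 := (IsPiNum.coprime h ((isPiNum_prime p11 (by simp)).pow 2)).dvd_of_dvd_mul_right
        ((Subgroup.orderOf_dvd_natCard _ hx).trans (card_Cy' M M.cent_p).dvd)
      rcases (Nat.dvd_prime Nat.prime_two).1 h1 with h1 | h1
      · exact ⟨1, by simp, 1, one_mem _, by simpa using h1⟩
      · obtain ⟨g, hg, e⟩ := conj_zp Nat.prime_two (by rw [card_Cy' M M.cent_p]; norm_num) hx ht h1 M.orderOf_t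
        obtain ⟨i, hi, e⟩ := exists_pow_of_mem M.orderOf_t e
        obtain rfl | rfl : i = 0 ∨ i = 1 := by omega
        exacts [⟨1, by simp, g, hg, by simpa using e⟩, ⟨M.t, by simp, g, hg, by simpa using e⟩]
  rw [kPi_step h (l := [M.y, y' M]) (by simpa using ⟨a (ord_y _), a (ord_y' M)⟩) (by simpa using not_conj M M.cent_p)
    fun w hw h1 => ?_]
  · simp [c1, c2]
  · obtain ⟨k, hk⟩ := (isPiElt_singleton_iff p11).1 hw
    obtain ⟨g, hg⟩ := exists_conj_U M M.cent_p hk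
    have := Fact.mk p11
    have h4 := orderOf_eq_prime (pow_U M M.cent_p hg) (by simpa using h1)
    simpa using class_11 M M.cent_p ((orderOf_conj' g w).symm.trans h4)

include M in
theorem step_7 (h2 : 2 ∈ π) (h3 : 3 ∈ π) (h5 : 5 ∈ π) (h : 7 ∈ π) : kPi π G = kPi (π \ {7}) G + 14 := by
  have hI : Nat.card M.I7 = 120 := (Nat.card_congr M.ψ5.toEquiv).trans card_perm5
  rw [kPi_step_cyc (e := 3) (c := 2) (by norm_num) h M.orderOf_σ M.not_dvd_49
      (by rw [M.card_norm_σ, ← J4.centralizer_zpowers, M.card_cent_σ]) (by norm_num) rfl,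
    kPi_prod (by norm_num) M.orderOf_σ (by simp) M.prod7 (by rw [hI]; norm_num), kPi_equiv _ M.ψ5,
    kPi_of_card (G := Equiv.Perm (Fin 5)), card_cl_perm5]
  rw [card_perm5, show 120 = 2 ^ 3 * 3 * 5 from rfl]
  exact (((isPiNum_prime Nat.prime_two (by simpa)).pow 3).mul (isPiNum_prime Nat.prime_three (by simpa))).mul
    (isPiNum_prime Nat.prime_five (by simpa))

theorem card_J5 : Nat.card M.J5 = 1344 := by
  have h := IsInternalDirectProduct.card M.prod5
  rw [M.card_cent_g5, Nat.card_zpowers, M.orderOf_g5] at h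
  omega

theorem step_5 (h : 5 ∈ π) : kPi π G = kPi (π \ {5}) G + kPi (π \ {5}) M.J5 := by
  rw [kPi_step_cyc (e := 4) (c := 1) Nat.prime_five h M.orderOf_g5 M.not_dvd_25
      (by rw [(M.five _ ((Nat.card_zpowers _).trans M.orderOf_g5)).2.2.2.1, ← J4.centralizer_zpowers, M.card_cent_g5]
          norm_num) (by norm_num) rfl,
    kPi_prod Nat.prime_five M.orderOf_g5 (by simp) M.prod5 (by rw [card_J5]; norm_num), one_mul]

theorem step_3 (h : 3 ∈ π) : kPi π G = kPi (π \ {3}) G + kPi (π \ {3}) M.Cp := by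
  rw [kPi_step h (l := [M.p]) (by simpa using ⟨M.p_ne, (isPiElt_singleton_iff Nat.prime_three).2 ⟨1, M.orderOf_p⟩⟩)
    (by simp) fun w hw h1 => ?_, show M.Cp = cent(M.p) from inf_eq_right.2 M.cent_p]
  · simp
  · obtain ⟨k, hk⟩ := (isPiElt_singleton_iff Nat.prime_three).1 hw
    obtain ⟨g, -, hg⟩ := Spor.exists_conj_mem_sylIn Nat.prime_three M.sylIn_R27 (mem_top w) hk
    have h4 := orderOf_eq_prime (M.R27_cube hg) (by simpa using h1)
    simpa using (M.isConj_p ((orderOf_conj' g w).symm.trans h4)).symm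

end CL.J4.Cn
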