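/-
Maximal subgroups of a group of Janko-four type, part 0: Sylow arithmetic for the order of a subgroup.
-/
import Cfsg.Agent.Spor.J4T7
import Cfsg.Agent.Spor.J4E3
import Cfsg.Agent.Spor.J4Three2
import Cfsg.Agent.Spor.J4S7
import Cfsg.Agent.Spor.J4Main
import Cfsg.Agent.Grp.Frob

set_option autoImplicit false

namespace CL.J4X

open Cfsg Subgroup CL.J4 CL.Fus CL.Mx

/-! ### Enumeration of divisors -/

/-- `p (c * m)` for all divisors `m` of the product of the prime powers in the list -/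
noncomputable def allP (p : ℕ → Bool) (l : List (ℕ × ℕ)) : ℕ → Bool :=
  List.rec (motive := fun _ => ℕ → Bool) p
    (fun x _ ih c => (List.range (x.2 + 1)).all fun a => force (c * x.1 ^ a) ih) l

theorem allP_spec {p : ℕ → Bool} : ∀ {l : List (ℕ × ℕ)} {c : ℕ}, (∀ x ∈ l, x.1.Prime) → allP p l c = true →
    ∀ n, n ∣ (l.map fun x => x.1 ^ x.2).prod → p (c * n) = true
  | [], c, _, h, n, hn => by
    rw [Nat.dvd_one.1 hn, mul_one]; exact h
  | x :: l, c, hl, h, n, hn => by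
    obtain ⟨a, b, ha, hb, rfl⟩ := (Nat.dvd_mul.1 hn :)
    obtain ⟨k, hk, rfl⟩ := (Nat.dvd_prime_pow (hl x (by simp))).1 ha
    have h1 := List.all_eq_true.1 h k (List.mem_range.2 (by omega))
    rw [force_eq] at h1
    rw [← mul_assoc]
    exact allP_spec (fun y hy => hl y (List.mem_cons_of_mem _ hy)) h1 b hb

/-- the factorisation of the group order -/
def fac : List (ℕ × ℕ) := [(43, 1), (37, 1), (31, 1), (29, 1), (23, 1), (11, 3), (7, 1), (5, 1), (3, 3), (2, 21)]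

/-- A test that holds for all divisors of the group order. -/
theorem enum {p : ℕ → Bool} (h : allP p fac 1 = true) {n : ℕ} (hn : n ∣ 86775571046077562880) : p n = true := by
  have := allP_spec (by decide +kernel) h n (by rwa [show (fac.map fun x => x.1 ^ x.2).prod = 86775571046077562880 by decide +kernel])
  rwa [one_mul] at this

/-- the `k ∣ e` with `n / (q k) ≡ 1 mod q` -/
def ks (n q e : ℕ) : List ℕ :=
  (List.range (e + 1)).filter fun k => e % k == 0 && (n % (q * k) == 0 && n / (q * k) % q == 1)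

theorem mem_ks {n q e k m : ℕ} (he : 0 < e) (hq : 0 < q) (h1 : k ∣ e) (h2 : n = q * k * m) (h3 : m % q = 1) :
    k ∈ ks n q e := by
  have hk := Nat.pos_of_dvd_of_pos h1 he
  simp only [ks, List.mem_filter, List.mem_range, Bool.and_eq_true, beq_iff_eq]
  exact ⟨Nat.lt_succ_of_le (Nat.le_of_dvd he h1), Nat.mod_eq_zero_of_dvd h1, by rw [h2, Nat.mul_mod_right],
    by rw [h2, Nat.mul_div_cancel_left _ (Nat.mul_pos hq hk), h3]⟩

/-- the large primes with their automizers -/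
def L5 : List (ℕ × ℕ) := [(23, 22), (29, 28), (31, 10), (37, 12), (43, 14)]

/-- the Sylow conditions for the large primes and for 11 -/
def okB (n : ℕ) : Bool :=
  (L5.all fun x => n % x.1 != 0 || !(ks n x.1 x.2).isEmpty) &&
    (n % 11 != 0 || !(ks n (Nat.gcd n 1331) 240).isEmpty)

/-! ### Sylow counts and normal complements -/

variable {G : Type*} [Group G] [Finite G]

theorem card_inf_sub (X W : Subgroup G) : Nat.card (X.subgroupOf W) = Nat.card ↥(X ⊓ W) := by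
  rw [← inf_subgroupOf_right]
  exact Nat.card_congr (subgroupOfEquivOfLe inf_le_right).toEquiv

omit [Finite G] in
theorem ord_conj (g x : G) : orderOf (g * x * g⁻¹) = orderOf x :=
  (MulAut.conj g).orderOf_eq x

/-- The number of Sylow subgroups of `W`. -/
theorem count {p : ℕ} [hp : Fact p.Prime] {X W : Subgroup G} (h : SylIn p X W) :
    ∃ m, Nat.card W = Nat.card ↥(normalizer (X : Set G) ⊓ W) * m ∧ m % p = 1 := by
  refine ⟨Nat.card (Sylow p W), ?_, Eq.trans (card_sylow_modEq_one p W) (Nat.mod_eq_of_lt hp.out.one_lt)⟩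
  rw [h.toSylow.card_eq_index_normalizer, ← card_inf_sub, subgroupOf_normalizer_eq h.le]
  exact (card_mul_index _).symm

/-- The number of Sylow subgroups in the trivial intersection case. -/
theorem count_ti {p : ℕ} [hp : Fact p.Prime] {X W : Subgroup G} (h : SylIn p X W) (h1 : 1 < Nat.card X)
    (ti : ∀ g ∈ W, ∀ x ∈ X, x ≠ 1 → g * x * g⁻¹ ∈ X → g ∈ normalizer (X : Set G)) :
    ∃ m, Nat.card W = Nat.card ↥(normalizer (X : Set G) ⊓ W) * m ∧ m % Nat.card X = 1 := by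
  set N := (normalizer (X : Set G)).subgroupOf W
  refine ⟨N.index, by rw [← card_inf_sub, card_mul_index], ?_⟩
  have hd := Grp.card_dvd_card_of_free_on (A := X.subgroupOf W) (X := W ⧸ N) {q | q ≠ ((1 : W) : W ⧸ N)}
    (fun a q hq e => hq (by
      rw [← inv_smul_smul a q, e]
      exact QuotientGroup.eq.2 (by simpa [N, mem_subgroupOf] using (le_normalizer a.2 : ((a : W) : G) ∈ _))))
    (fun a q hq e => by
      obtain ⟨g, rfl⟩ := QuotientGroup.mk_surjective q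
      by_contra ha
      have h2 : ((g : G)⁻¹ * (a : W) * g) ∈ normalizer (X : Set G) := by
        have := inv_mem (QuotientGroup.eq.1 e)
        simpa [mul_assoc, N, mem_subgroupOf] using this
      have h3 : IsPGroup p (zpowers ((g : G)⁻¹ * (a : W) * g)) := by
        obtain ⟨k, hk⟩ := h.isPGroup ⟨_, a.2⟩
        refine IsPGroup.of_card_dvd_pow (n := k) ?_
        rw [Nat.card_zpowers]
        refine orderOf_dvd_of_pow_eq_one ?_
        have : (((a : W) : G)) ^ p ^ k = 1 := congrArg Subtype.val hk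
        rw [← inv_inv (g : G), inv_inv (g : G)⁻¹, conj_pow, this]; group
      have h4 := h.2.2 _ (h3.to_sup_of_normal_right' h.isPGroup (zpowers_le.2 h2)) le_sup_right
        (sup_le (zpowers_le.2 (mul_mem (mul_mem (inv_mem g.2) (a : W).2) g.2)) h.le)
      have h5 := ti _ (inv_mem g.2) _ a.2 (fun e => ha (Subtype.ext (Subtype.ext e)))
        (by rw [inv_inv]; exact h4 (mem_sup_left (mem_zpowers _)))
      exact hq (QuotientGroup.eq.2 (by simpa [N, mem_subgroupOf] using h5)))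
  rw [Nat.card_congr (subgroupOfEquivOfLe h.le).toEquiv] at hd
  have h6 : Nat.card {q : W ⧸ N | q ≠ ((1 : W) : W ⧸ N)} + 1 = N.index := by
    rw [Nat.card_coe_set_eq, index_eq_card, ← Set.ncard_univ, 
      ← Set.ncard_sdiff_singleton_add_one (Set.mem_univ ((1 : W) : W ⧸ N))]
    congr 2; ext; simp
  obtain ⟨c, hc⟩ := hd
  rw [← h6, hc, Nat.mul_add_mod, Nat.mod_eq_of_lt h1]

/-- Burnside's theorem and the Frattini argument. -/
theorem nc {q r : ℕ} [hq : Fact q.Prime] [hr : Fact r.Prime] (hqr : r ≠ q) {W R : Subgroup G} {s : G} (hs : s ∈ W)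
    (os : orderOf s = q) (h2 : ¬ q ^ 2 ∣ Nat.card W) (hN : ∀ g ∈ W, g * s * g⁻¹ ∈ zpowers s → g * s = s * g)
    (hR : SylIn r R W) : ∃ g ∈ W, g * s * g⁻¹ ∈ normalizer (R : Set G) := by
  have hS : SylIn q (zpowers s) W := sylIn_of_not_dvd (zpowers_le.2 hs)
    (IsPGroup.of_card (n := 1) (by rw [Nat.card_zpowers, os, pow_one])) fun d => h2 (by
      rw [← Grp.card_mul_relIndex (zpowers_le.2 hs), Nat.card_zpowers, os, pow_two]; exact mul_dvd_mul_left _ d)
  have hP : normalizer ((hS.toSylow : Subgroup W) : Set W) ≤ centralizer (hS.toSylow : Set W) := fun g hg x hx => by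
    rw [hS.coe_toSylow, ← subgroupOf_normalizer_eq hS.le] at hg
    obtain ⟨k, hk⟩ : (x : G) ∈ zpowers s := hx
    have := hN g g.2 ((hg s).1 (mem_zpowers s))
    exact Subtype.ext (by rw [coe_mul, coe_mul, ← hk]; exact ((Commute.zpow_right this k).eq).symm)
  set φ := MonoidHom.transferSylow hS.toSylow hP
  have hc := MonoidHom.ker_transferSylow_isComplement' hS.toSylow hP
  have hRK : R ≤ φ.ker.map W.subtype := fun x hx => ⟨⟨x, hR.le hx⟩, by
    obtain ⟨a, ha⟩ := hR.isPGroup ⟨x, hx⟩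
    obtain ⟨b, hb⟩ := hS.toSylow.isPGroup' (φ ⟨x, hR.le hx⟩)
    have h1 : φ ⟨x, hR.le hx⟩ ^ r ^ a = 1 := by
      rw [← map_pow, show (⟨x, hR.le hx⟩ : W) ^ r ^ a = 1 from Subtype.ext (congrArg (fun y : R => (y : G)) ha),
        map_one]
    have := Nat.dvd_gcd (orderOf_dvd_of_pow_eq_one h1) (orderOf_dvd_of_pow_eq_one hb)
    rw [((Nat.coprime_primes hr.out hq.out).2 hqr).pow a b, Nat.dvd_one, orderOf_eq_one_iff] at this
    exact this, rfl⟩
  have hRs : SylIn r R (φ.ker.map W.subtype) :=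
    ⟨hRK, hR.isPGroup, fun Z hZ h1 h3 => hR.2.2 Z hZ h1 (h3.trans (map_subtype_le _))⟩
  obtain ⟨_, ⟨n, hn, rfl⟩, h3⟩ := hRs.frattini (g := s) (le_normalizer_map W.subtype ⟨⟨s, hs⟩, by
    rw [normalizer_eq_top]; trivial, rfl⟩)
  have h4 : φ (n * ⟨s, hs⟩) ≠ 1 := fun e => by
    rw [map_mul, show φ n = 1 from hn, one_mul] at e
    have : (⟨s, hs⟩ : W) ∈ φ.ker ⊓ hS.toSylow := ⟨e, mem_zpowers s⟩
    rw [hc.disjoint.eq_bot, mem_bot] at this
    rw [show s = 1 from congrArg Subtype.val this, orderOf_one] at os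
    exact hq.out.one_lt.ne os
  have h5 : q ∣ Nat.card ↥(normalizer (R : Set G) ⊓ W) := by
    obtain ⟨k, hk⟩ := IsPGroup.iff_orderOf.1 hS.toSylow.isPGroup' (φ (n * ⟨s, hs⟩))
    refine ((dvd_pow_self q ?_).trans (hk ▸ orderOf_map_dvd φ _)).trans ?_
    · rintro rfl; exact h4 (orderOf_eq_one_iff.1 hk)
    · rw [← orderOf_coe]
      exact Subgroup.orderOf_dvd_natCard _ (⟨h3, mul_mem n.2 hs⟩ : _ ∈ normalizer (R : Set G) ⊓ W)
  obtain ⟨t, ht⟩ := exists_prime_orderOf_dvd_card' q h5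
  obtain ⟨g, hg, h6⟩ := El.conj_zp hq.out h2 hs t.2.2 os ((orderOf_coe t).trans ht)
  exact ⟨g, hg, zpowers_le.2 t.2.1 h6⟩

/-- The conclusion of `nc` as a congruence. -/
theorem nc_mod {q r : ℕ} [hq : Fact q.Prime] [hr : Fact r.Prime] (hqr : r ≠ q) {W R : Subgroup G} {s : G} (hs : s ∈ W)
    (os : orderOf s = q) (h2 : ¬ q ^ 2 ∣ Nat.card W) (hN : ∀ g ∈ W, g * s * g⁻¹ ∈ zpowers s → g * s = s * g)
    (hR : SylIn r R W) : ∃ c, c ∣ Nat.card R ∧ c ∣ Nat.card ↥(centralizer {s} ⊓ W) ∧ Nat.card R ≡ c [MOD q] := by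
  obtain ⟨g, hg, h⟩ := nc hqr hs os h2 hN hR
  refine ⟨_, card_dvd_of_le inf_le_left, ?_,
    El.card_mod hq.out (by rw [conj_pow, ← os, pow_orderOf_eq_one]; group) fun x hx => (h x).1 hx⟩
  rw [← card_map_of_injective (f := (MulAut.conj g⁻¹).toMonoidHom) (MulAut.conj g⁻¹).injective]
  refine card_dvd_of_le ?_
  rintro _ ⟨x, ⟨h1, h3⟩, rfl⟩
  refine ⟨mem_centralizer_singleton_iff.2 ?_, W.mul_mem (W.mul_mem (W.inv_mem hg) (hR.le h1)) (W.inv_mem (W.inv_mem hg))⟩
  have := mem_centralizer_singleton_iff.1 h3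
  show g⁻¹ * x * g⁻¹⁻¹ * s = s * (g⁻¹ * x * g⁻¹⁻¹)
  rw [show g⁻¹ * x * g⁻¹⁻¹ * s = g⁻¹ * (x * (g * s * g⁻¹)) * g by group, this]; group

/-! ### Groups of Janko-four type -/

variable [IsSimpleGroup G] (J : JM G)
include J

theorem card_dvd (W : Subgroup G) : Nat.card W ∣ 86775571046077562880 := J.card_G ▸ card_subgroup_dvd_card W

theorem L5_prime {r e : ℕ} (h : (r, e) ∈ L5) : r.Prime ∧ 0 < e ∧ ¬ r ^ 2 ∣ 86775571046077562880 :=
  (by decide +kernel : ∀ x ∈ L5, x.1.Prime ∧ 0 < x.2 ∧ ¬ x.1 ^ 2 ∣ 86775571046077562880) _ h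

/-- The Sylow subgroups for the large primes. -/
theorem loc {r e : ℕ} (h : (r, e) ∈ L5) (P : Sylow r G) : Nat.card P = r ∧ centralizer ((P : Subgroup G) : Set G) = P ∧
    Nat.card (normalizer ((P : Subgroup G) : Set G)) = r * e :=
  haveI := Fact.mk (L5_prime J h).1
  ⟨(Big.hyp J).card_P ((by decide : ∀ x ∈ L5, x.1 ∈ [23, 29, 31, 37, 43]) _ h) P, (Big.hyp J).main (e := (r, e)) h P⟩

theorem mem_ks_of_le {r e : ℕ} (h : (r, e) ∈ L5) {W : Subgroup G} (P : Sylow r G) (hP : (P : Subgroup G) ≤ W) :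
    ∃ k ∈ ks (Nat.card W) r e, Nat.card ↥(normalizer ((P : Subgroup G) : Set G) ⊓ W) = r * k := by
  obtain ⟨h1, h2, -⟩ := L5_prime J h
  haveI := Fact.mk h1
  obtain ⟨a1, -, a3⟩ := loc J h P
  obtain ⟨m, h3, h4⟩ := count (sylIn_of_sylow_le P hP)
  obtain ⟨k, hk⟩ : r ∣ Nat.card ↥(normalizer ((P : Subgroup G) : Set G) ⊓ W) :=
    a1.symm.dvd.trans (card_dvd_of_le (le_inf le_normalizer hP))
  exact ⟨k, mem_ks h2 h1.pos (Nat.dvd_of_mul_dvd_mul_left h1.pos (hk ▸ a3 ▸ card_dvd_of_le inf_le_left)) (hk ▸ h3) h4, hk⟩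

theorem exists_le {r e : ℕ} (h : (r, e) ∈ L5) {W : Subgroup G} (hr : r ∣ Nat.card W) :
    ∃ P : Sylow r G, (P : Subgroup G) ≤ W := by
  haveI := Fact.mk (L5_prime J h).1
  obtain ⟨x, hx⟩ := exists_prime_orderOf_dvd_card' r hr
  have h4 : Nat.card (zpowers (x : G)) = r := by rw [Nat.card_zpowers, orderOf_coe, hx]
  obtain ⟨P, hP⟩ := (IsPGroup.of_card (n := 1) (h4.trans (pow_one r).symm)).exists_le_sylow
  exact ⟨P, eq_of_le_of_card_ge hP (by rw [h4, (loc J h P).1]) ▸ zpowers_le.2 x.2⟩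

theorem big {r e : ℕ} (h : (r, e) ∈ L5) {W : Subgroup G} (hr : r ∣ Nat.card W) : ∃ P : Sylow r G, (P : Subgroup G) ≤ W ∧
    ∃ k ∈ ks (Nat.card W) r e, Nat.card ↥(normalizer ((P : Subgroup G) : Set G) ⊓ W) = r * k :=
  let ⟨P, hP⟩ := exists_le J h hr
  ⟨P, hP, mem_ks_of_le J h P hP⟩

/-- A subgroup containing a full Sylow normaliser. -/
theorem full_mem {r e : ℕ} (h : (r, e) ∈ L5) {W : Subgroup G} (P : Sylow r G)
    (hP : normalizer ((P : Subgroup G) : Set G) ≤ W) : r * e ∣ Nat.card W ∧ e ∈ ks (Nat.card W) r e := by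
  obtain ⟨k, h1, h2⟩ := mem_ks_of_le J h P (le_normalizer.trans hP)
  rw [inf_of_le_left hP, (loc J h P).2.2] at h2
  exact ⟨(loc J h P).2.2 ▸ card_dvd_of_le hP, Nat.eq_of_mul_eq_mul_left (L5_prime J h).1.pos h2 ▸ h1⟩

/-- The Sylow 11-subgroup has the trivial intersection property. -/
theorem ti_U {g x : G} (hx : x ∈ El.U J.toNM) (h1 : x ≠ 1) (h : g * x * g⁻¹ ∈ El.U J.toNM) :
    g ∈ normalizer (El.U J.toNM : Set G) := by
  have hp := J.cent_p
  haveI : Fact (Nat.Prime 11) := ⟨by norm_num⟩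
  have key : ∀ w ∈ El.U J.toNM, IsConj J.y w → w ∈ zpowers J.y := fun w hw hc => by
    by_contra hn
    exact El.not_conj J hp (hc.trans (El.conj_of_mem_U J hp hw hn).symm)
  have oy := El.ord_y J.toNM
  rw [El.norm_U J hp]
  by_cases hy : x ∈ zpowers J.y
  · have h2 := key _ h ((El.conj_y J hy h1).trans (isConj_iff.2 ⟨g, rfl⟩))
    have h3 : zpowers x = zpowers J.y := eq_of_le_of_card_ge (zpowers_le.2 hy) (by
      rw [Nat.card_zpowers, Nat.card_zpowers, oy, orderOf_eq_prime (El.pow_U J hp hx) h1])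
    rw [← h3] at h2 ⊢
    exact mem_norm_zpowers h2
  · refine mem_norm_zpowers (key _ ?_ (isConj_iff.2 ⟨g, rfl⟩))
    have c1 := (El.conj_of_mem_U J hp hx hy).trans (isConj_iff.2 ⟨g, rfl⟩)
    have hy' : g * x * g⁻¹ ∉ zpowers J.y := fun e => El.not_conj J hp
      ((El.conj_y J e (by rwa [Ne, conj_eq_one_iff])).trans c1.symm)
    set w := g * x * g⁻¹
    have h2 : Nat.card (centralizer {w}) = 242 := (Big.card_cent_of_isConj c1).trans (El.card_Cy' J hp)
    have h3 : zpowers J.y < El.U J.toNM ⊓ centralizer {w} :=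
      lt_of_le_of_ne (le_inf (El.y_le _) (zpowers_le.2 (mem_centralizer_singleton_iff.2
        (mem_centralizer_singleton_iff.1 (El.U_le _ h)).symm)))
        fun e => hy' (e ▸ ⟨h, mem_centralizer_singleton_iff.2 rfl⟩)
    have h4 : Nat.card ↥(El.U J.toNM ⊓ centralizer {w}) = 121 := by
      have a1 := card_dvd_of_le (inf_le_left : El.U J.toNM ⊓ centralizer {w} ≤ _)
      have a2 := card_dvd_of_le (inf_le_right : El.U J.toNM ⊓ centralizer {w} ≤ _)
      have a3 := card_lt_of_lt h3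
      rw [El.card_U J hp] at a1
      rw [h2] at a2
      rw [Nat.card_zpowers, oy] at a3
      have a4 : _ ∣ 11 ^ 2 := (Nat.dvd_gcd a1 a2).trans (by norm_num)
      obtain ⟨k, hk, e⟩ := (Nat.dvd_prime_pow (by norm_num)).1 a4
      rw [e] at a3 ⊢
      interval_cases k <;> simp_all
    have h5 : ((El.U J.toNM).subgroupOf (centralizer {w})).index = 2 := by
      have := card_mul_index ((El.U J.toNM).subgroupOf (centralizer {w}))
      rw [card_inf_sub, h4, h2] at this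
      omega
    have h6 : g * J.y * g⁻¹ ∈ centralizer {w} := mem_centralizer_singleton_iff.2 (by
      have := mem_centralizer_singleton_iff.1 (El.U_le _ hx)
      show _ * (g * x * g⁻¹) = g * x * g⁻¹ * _
      rw [conj_mul, conj_mul, this])
    refine El.mem_of_pow (n := 2) ?_ (sq_mem_of_index_two h5 ⟨_, h6⟩)
    rw [ord_conj, oy]; norm_num

theorem exists_cj (S : Sylow 11 G) : ∃ a : G, ∀ x, x ∈ (S : Subgroup G) ↔ a * x * a⁻¹ ∈ El.U J.toNM := by
  haveI : Fact (Nat.Prime 11) := ⟨by norm_num⟩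
  have h : SylIn 11 (El.U J.toNM) ⊤ := (sylIn_top S).of_card_le (IsPGroup.of_card (El.card_U J J.cent_p)) le_top
    (by rw [El.card_U J J.cent_p, (El.sylow_11 J J.cent_p S).2.1])
  obtain ⟨a, -, ha⟩ := h.exists_map_conj_eq (sylIn_top S)
  exact ⟨a, fun x => by rw [← ha]; exact (mem_map_iff_mem (MulAut.conj a).injective).symm⟩

theorem ti11 (S : Sylow 11 G) {g x : G} (hx : x ∈ (S : Subgroup G)) (h1 : x ≠ 1) (h : g * x * g⁻¹ ∈ (S : Subgroup G)) :
    g ∈ normalizer ((S : Subgroup G) : Set G) := by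
  obtain ⟨a, ha⟩ := exists_cj J S
  have := ti_U J (g := a * g * a⁻¹) ((ha x).1 hx) (by rwa [Ne, conj_eq_one_iff])
    (by rw [show a * g * a⁻¹ * (a * x * a⁻¹) * (a * g * a⁻¹)⁻¹ = a * (g * x * g⁻¹) * a⁻¹ by group]; exact (ha _).1 h)
  intro w
  rw [SetLike.mem_coe, SetLike.mem_coe, ha, ha, show a * (g * w * g⁻¹) * a⁻¹ =
    a * g * a⁻¹ * (a * w * a⁻¹) * (a * g * a⁻¹)⁻¹ by group]
  exact this _

/-- The Sylow condition for 11. -/
theorem t11 {W X : Subgroup G} (hX : SylIn 11 X W) (h : 11 ∣ Nat.card W) : Nat.card X = Nat.gcd (Nat.card W) 1331 ∧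
    ∃ k ∈ ks (Nat.card W) (Nat.card X) 240, Nat.card ↥(normalizer (X : Set G) ⊓ W) = Nat.card X * k := by
  haveI : Fact (Nat.Prime 11) := ⟨by norm_num⟩
  obtain ⟨S, hS⟩ := hX.isPGroup.exists_le_sylow
  obtain ⟨-, s1, -, s2, -⟩ := El.sylow_11 J J.cent_p S
  have h0 := hX.not_dvd_relIndex
  have h1 := Grp.card_mul_relIndex hX.le
  have h2 : 1 < Nat.card X := by
    refine lt_of_le_of_ne Nat.card_pos fun e => h0 ?_
    rwa [← h1, ← e, one_mul] at h
  have h3 : (S : Subgroup G) ⊓ W ≤ X := hX.2.2 _ S.isPGroup'.to_inf_left (le_inf hS hX.le) inf_le_right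
  obtain ⟨m, h4, h5⟩ := count_ti hX h2 fun g hg x hx hx1 e w =>
    have := ti11 J S (hS hx) hx1 (hS e)
    ⟨fun hw => h3 ⟨(this w).1 (hS hw), W.mul_mem (W.mul_mem hg (hX.le hw)) (W.inv_mem hg)⟩, fun hw => h3 ⟨(this w).2 (hS hw), by
      simpa [mul_assoc] using W.mul_mem (W.mul_mem (W.inv_mem hg) (hX.le hw)) hg⟩⟩
  obtain ⟨k, hk⟩ := card_dvd_of_le (le_inf le_normalizer hX.le : X ≤ normalizer (X : Set G) ⊓ W)
  have hd : Nat.card X ∣ 1331 := (card_dvd_of_le hS).trans (by rw [s1]; norm_num)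
  have hc : ∀ c, c ∣ X.relIndex W → c.Coprime 1331 := fun c hc =>
    (((Nat.Prime.coprime_iff_not_dvd (by norm_num)).2 fun d => h0 (d.trans hc)).symm.pow_right 3 :)
  refine ⟨by rw [← h1, (hc _ dvd_rfl).gcd_mul_right_cancel, Nat.gcd_eq_left hd], k,
    mem_ks (by norm_num) Nat.card_pos ?_ (hk ▸ h4) h5, hk⟩
  haveI := Finite.one_lt_card_iff_nontrivial.1 h2
  obtain ⟨⟨x, hx⟩, hx1⟩ := exists_ne (1 : X)
  have h6 : normalizer (X : Set G) ⊓ W ≤ normalizer ((S : Subgroup G) : Set G) := fun g hg =>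
    ti11 J S (hS hx) (fun e => hx1 (Subtype.ext e)) (hS ((hg.1 x).1 hx))
  refine (hc k (Nat.dvd_of_mul_dvd_mul_left (Nat.card_pos (α := X)) ?_)).dvd_of_dvd_mul_left ?_
  · rw [h1, ← hk]; exact card_dvd_of_le inf_le_right
  · exact ((Dvd.intro_left _ hk.symm).trans (card_dvd_of_le h6)).trans (by rw [s2]; norm_num)

theorem ok_card (W : Subgroup G) : okB (Nat.card W) = true := by
  have e : ∀ {n q : ℕ} {l : List ℕ}, (q ∣ n → ∃ k, k ∈ l) → (n % q != 0 || !l.isEmpty) = true := fun {n q l} h => by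
    by_cases d : q ∣ n
    · obtain ⟨k, hk⟩ := h d
      simp [List.ne_nil_of_mem hk]
    · simp [Nat.dvd_iff_mod_eq_zero.not.1 d]
  refine Bool.and_eq_true_iff.2 ⟨List.all_eq_true.2 fun x hx => e fun d => ?_, e fun d => ?_⟩
  · obtain ⟨_, -, k, hk, -⟩ := big J (r := x.1) (e := x.2) hx d
    exact ⟨k, hk⟩
  · obtain ⟨X, hX⟩ := exists_sylIn 11 W
    obtain ⟨h1, k, hk, -⟩ := t11 J hX d
    exact ⟨k, h1 ▸ hk⟩

omit J in
variable (G) in
/-- The Sylow `r`-normalisers are maximal. -/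
def MaxP (r : ℕ) : Prop := ∀ (P : Sylow r G) (W : Subgroup G), normalizer ((P : Subgroup G) : Set G) < W → W = ⊤

theorem top_of_full {r e : ℕ} (h : (r, e) ∈ L5) (hm : MaxP G r) {W : Subgroup G} (hr : r ∣ Nat.card W)
    (hk : ks (Nat.card W) r e = [e]) (hn : Nat.card W ≠ r * e) : W = ⊤ := by
  obtain ⟨P, -, k, h1, h2⟩ := big J h hr
  rw [hk, List.mem_singleton] at h1
  have h3 := eq_of_le_of_card_ge (inf_le_left : normalizer ((P : Subgroup G) : Set G) ⊓ W ≤ _)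
    (by rw [h2, h1, (loc J h P).2.2])
  exact hm P W (lt_of_le_of_ne (inf_eq_left.1 h3) fun e => hn (e ▸ (loc J h P).2.2))

/-- An element of prime order `q` of `W`, central in the normaliser of a Sylow `q`-subgroup: then `q ∣ e`. -/
theorem dvd_of_nc {q r e : ℕ} [hq : Fact q.Prime] (h : (r, e) ∈ L5) (hqr : r ≠ q) {W : Subgroup G} (hr : r ∣ Nat.card W)
    {s : G} (hs : s ∈ W) (os : orderOf s = q) (h2 : ¬ q ^ 2 ∣ Nat.card W)
    (hN : ∀ g ∈ W, g * s * g⁻¹ ∈ zpowers s → g * s = s * g) : q ∣ e := by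
  haveI := Fact.mk (L5_prime J h).1
  obtain ⟨P, hP⟩ := exists_le J h hr
  obtain ⟨g, -, hg⟩ := nc hqr hs os h2 hN (sylIn_of_sylow_le P hP)
  have := Subgroup.orderOf_dvd_natCard _ hg
  rw [ord_conj, os, (loc J h P).2.2] at this
  exact ((Nat.coprime_primes hq.out (L5_prime J h).1).2 hqr.symm).dvd_of_dvd_mul_left this

theorem not_one {q f r e : ℕ} (hq : (q, f) ∈ L5) (h : (r, e) ∈ L5) (hqr : r ≠ q) {W : Subgroup G} (h1 : q ∣ Nat.card W)
    (hr : r ∣ Nat.card W) (hk : ks (Nat.card W) q f = [1]) : q ∣ e := by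
  haveI := Fact.mk (L5_prime J hq).1
  obtain ⟨P, hP, k, h2, h3⟩ := big J hq h1
  rw [hk, List.mem_singleton] at h2
  have h4 := eq_of_le_of_card_ge (le_inf le_normalizer hP : (P : Subgroup G) ≤ normalizer ((P : Subgroup G) : Set G) ⊓ W)
    (by rw [h3, h2, mul_one, (loc J hq P).1])
  obtain ⟨s, hs⟩ := exists_prime_orderOf_dvd_card' (G := (P : Subgroup G)) q (loc J hq P).1.symm.dvd
  have h5 : zpowers (s : G) = P := eq_of_le_of_card_ge (zpowers_le.2 s.2)
    (by rw [Nat.card_zpowers, orderOf_coe, hs, (loc J hq P).1])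
  refine dvd_of_nc J h hqr hr (hP s.2) ((orderOf_coe s).trans hs) (fun d => (L5_prime J hq).2.2 (d.trans (card_dvd J W)))
    fun g hg e => ?_
  obtain ⟨j, hj⟩ : g ∈ zpowers (s : G) := h5.ge (h4.ge ⟨h5 ▸ mem_norm_zpowers e, hg⟩)
  exact hj ▸ (Commute.zpow_left rfl j).eq

theorem eq_top {W : Subgroup G} (h : Nat.card W = 86775571046077562880) : W = ⊤ :=
  eq_top_of_card_eq _ (h.trans J.card_G.symm)

end CL.J4X
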