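/-
Maximal subgroups of a group of Janko-four type: certificates in the 112-dimensional representation over the field
with 2 elements (products, orders, cosets of a cyclic subgroup in a small normaliser).
-/
import Cfsg.Agent.Spor.J4X1
import Cfsg.Agent.Spor.J4DMain
import Cfsg.Agent.Spor.MxF2
import Cfsg.Agent.Spor.MxPVec

set_option autoImplicit false

namespace CL.J4X

open Cfsg Subgroup CL.Mx

/-- the product of two codes; `m` is the column mask -/
noncomputable def mu (m A B : ℕ) : ℕ :=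
  Nat.rec (motive := fun _ => ℕ) 0 (fun k ih => Nat.xor ih (Nat.mul
    (Nat.land (Nat.shiftRight B (Nat.mul k 112)) 5192296858534827628530496329220095)
    (Nat.land (Nat.shiftRight A k) m))) 112

/-- the column mask -/
@[irreducible] def mk : ℕ := ones 112 112

/-- the identity -/
@[irreducible] def o1 : ℕ := one2 112

theorem dec_mu (A B : ℕ) : dec2 112 (mu mk A B) = dec2 112 A * dec2 112 B := by
  rw [← dec2_mul2]
  unfold mu mul2 lane mk
  rw [show low 112 = 5192296858534827628530496329220095 by decide +kernel]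

/-- `A` times a word -/
noncomputable def ev (m : ℕ) (L : List ℕ) (w : List ℕ) : ℕ → ℕ :=
  List.rec (motive := fun _ => ℕ → ℕ) (fun A => A) (fun c _ ih A => force (mu m A (L.getD c o1)) ih) w

/-- the code of a word -/
noncomputable def evw (m : ℕ) (L : List ℕ) (w : List ℕ) : ℕ :=
  List.rec (motive := fun _ => ℕ) o1 (fun c t _ => ev m L t (L.getD c o1)) w

/-- a straight line program -/
noncomputable def slpB (m : ℕ) (k : List ℕ → Bool) (prog : List (ℕ × ℕ)) : List ℕ → Bool :=
  List.rec (motive := fun _ => List ℕ → Bool) k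
    (fun x _ ih L => force (mu m (L.getD x.1 o1) (L.getD x.2 o1)) fun A => ih (A :: L)) prog

/-- powers by squaring -/
noncomputable def pwB (m A : ℕ) (bits : List Bool) : ℕ → ℕ :=
  List.rec (motive := fun _ => ℕ → ℕ) (fun X => X)
    (fun c _ ih X => force (mu m X X) fun Y => cond c (force (mu m Y A) ih) (ih Y)) bits

/-- the exponent -/
def ex : List Bool → ℕ → ℕ
  | [], n => n
  | c :: t, n => ex t (cond c (n + n + 1) (n + n))

/-- the binary digits below the leading one -/
def bits (n : ℕ) : List Bool := ((List.range n.log2).map n.testBit).reverse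

/-- different matrices -/
def neM (A B : ℕ) : Bool := !Nat.beq (A &&& low (112 * 112)) (B &&& low (112 * 112))

/-- `A ^ r = 1`, `A ≠ 1` -/
noncomputable def ordB (m r A : ℕ) : Bool :=
  force A fun A => Nat.beq (pwB m A (bits r) A) o1 && (neM A o1 && Nat.beq (ex (bits r) 1) r)

theorem land_eq {A B : ℕ} (h : dec2 112 A = dec2 112 B) : A &&& low (112 * 112) = B &&& low (112 * 112) := by
  refine Nat.eq_of_testBit_eq fun p => ?_
  rw [Nat.testBit_and, Nat.testBit_and, testBit_low]
  by_cases hp : p < 112 * 112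
  · have := b2_inj (congrFun (congrFun h ⟨p / 112, by omega⟩) ⟨p % 112, Nat.mod_lt _ (by norm_num)⟩)
    rw [Nat.div_add_mod'] at this
    rw [this]
  · simp [hp]

variable {G : Type*} [Group G] {ρ : G →* GL (Fin 112) (ZMod 2)}

variable (ρ) in
/-- `A` is the code of `g` -/
def Rp (A : ℕ) (g : G) : Prop := (ρ g).val = dec2 112 A

variable (ρ) in
/-- a list of codes -/
def RL (L : List ℕ) (gs : List G) : Prop := ∀ c, Rp ρ (L.getD c o1) (gs.getD c 1)

/-- the value of a word -/
def wd (gs : List G) (w : List ℕ) : G := (w.map fun c => gs.getD c 1).prod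

theorem wd_cons (gs : List G) (c : ℕ) (w : List ℕ) : wd gs (c :: w) = gs.getD c 1 * wd gs w := rfl

theorem wd_append (gs : List G) (v w : List ℕ) : wd gs (v ++ w) = wd gs v * wd gs w := by simp [wd]

theorem wd_mem {gs : List G} {K : Subgroup G} (h : ∀ g ∈ gs, g ∈ K) : ∀ w, wd gs w ∈ K
  | [] => one_mem _
  | c :: w => mul_mem (by
      show gs.getD c 1 ∈ K
      rcases lt_or_ge c gs.length with e | e
      · rw [List.getD_eq_getElem _ _ e]; exact h _ (List.getElem_mem e)
      · rw [List.getD_eq_default _ _ e]; exact one_mem _) (wd_mem h w)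

theorem rp_one : Rp ρ o1 1 := by rw [Rp, map_one, o1, dec2_one2]; rfl

theorem Rp.mul {A B : ℕ} {g h : G} (hA : Rp ρ A g) (hB : Rp ρ B h) : Rp ρ (mu mk A B) (g * h) := by
  rw [Rp, map_mul, Units.val_mul, dec_mu, hA, hB]

theorem Rp.eq (hρ : Function.Injective ρ) {A : ℕ} {g h : G} (hA : Rp ρ A g) (hB : Rp ρ A h) : g = h :=
  hρ (Units.ext (hA.trans hB.symm))

theorem Rp.ne {A B : ℕ} {g h : G} (hA : Rp ρ A g) (hB : Rp ρ B h) (e : neM A B = true) : g ≠ h := by
  rintro rfl
  simp [neM, land_eq (hA.symm.trans hB)] at e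

theorem rl_nil : RL ρ [] [] := fun _ => by rw [List.getD_nil, List.getD_nil]; exact rp_one

theorem RL.cons {L : List ℕ} {gs : List G} (h : RL ρ L gs) {A : ℕ} {g : G} (hA : Rp ρ A g) : RL ρ (A :: L) (g :: gs)
  | 0 => by rwa [List.getD_cons_zero, List.getD_cons_zero]
  | c + 1 => by rw [List.getD_cons_succ, List.getD_cons_succ]; exact h c

theorem dec_ev {L : List ℕ} {gs : List G} (h : RL ρ L gs) : ∀ (w : List ℕ) (A : ℕ),
    dec2 112 (ev mk L w A) = dec2 112 A * (ρ (wd gs w)).val
  | [], A => by simp [ev, wd]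
  | c :: w, A => by
    show dec2 112 (force _ (ev mk L w)) = _
    rw [force_eq, dec_ev h w, dec_mu, wd_cons, map_mul, Units.val_mul, h c, mul_assoc]

theorem RL.evw {L : List ℕ} {gs : List G} (h : RL ρ L gs) : ∀ w : List ℕ, Rp ρ (evw mk L w) (wd gs w)
  | [] => rp_one
  | c :: w => by
    show _ = dec2 112 (ev mk L w _)
    rw [dec_ev h, wd_cons, map_mul, Units.val_mul, h c]

theorem slpB_spec {k : List ℕ → Bool} : ∀ {prog : List (ℕ × ℕ)} {L : List ℕ} {gs : List G}, RL ρ L gs →
    slpB mk k prog L = true → ∃ L' gs', RL ρ L' gs' ∧ k L' = true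
  | [], _, _, h, e => ⟨_, _, h, e⟩
  | x :: prog, L, gs, h, e => slpB_spec (prog := prog) (h.cons ((h x.1).mul (h x.2)))
    ((force_eq (mu mk (L.getD x.1 o1) (L.getD x.2 o1)) fun A => slpB mk k prog (A :: L)).symm.trans e)

theorem pwB_spec {A : ℕ} {g : G} (h : Rp ρ A g) : ∀ (bs : List Bool) {X n : ℕ}, Rp ρ X (g ^ n) →
    Rp ρ (pwB mk A bs X) (g ^ ex bs n)
  | [], _, _, hX => hX
  | true :: t, X, n, hX => by
    have := pwB_spec h t (n := n + n + 1) (by rw [pow_succ, pow_add]; exact (hX.mul hX).mul h)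
    simpa only [pwB, force_eq, cond_true, ex] using this
  | false :: t, X, n, hX => by
    have := pwB_spec h t (n := n + n) (by rw [pow_add]; exact hX.mul hX)
    simpa only [pwB, force_eq, cond_false, ex] using this

theorem ordB_spec (hρ : Function.Injective ρ) {A r : ℕ} {g : G} (h : Rp ρ A g) (hr : r.Prime)
    (e : ordB mk r A = true) : orderOf g = r := by
  simp only [ordB, force_eq, Bool.and_eq_true, Nat.beq_eq] at e
  have h1 := pwB_spec h (bits r) (X := A) (n := 1) (by rwa [pow_one])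
  rw [e.1, e.2.2] at h1
  haveI := Fact.mk hr
  exact orderOf_eq_prime (h1.eq hρ rp_one) (h.ne rp_one e.2.1)

/-! ### Cosets -/

theorem cosets [Finite G] {X : Type*} {N : Subgroup G} {b : G} (hb : b ∈ N) {m : ℕ} (hN : Nat.card N ≤ orderOf b * m)
    {φ : G → X} (h1 : ∀ g, φ (b * g) = φ g) {r : Fin m → G} (hr : ∀ j, r j ∈ N) (hi : Function.Injective (φ ∘ r)) :
    (∀ g ∈ N, ∃ j, φ g = φ (r j)) ∧ ∀ g ∈ N, ∀ h ∈ N, φ g = φ h → g * h⁻¹ ∈ zpowers b := by
  have h2 : ∀ c ∈ zpowers b, ∀ g, φ (c * g) = φ g := fun c hc g => by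
    obtain ⟨n, rfl⟩ := mem_powers_iff_mem_zpowers.2 hc
    induction n with
    | zero => simp
    | succ n ih =>
      show φ (b ^ (n + 1) * g) = _
      rw [pow_succ', mul_assoc, h1]
      exact ih (pow_mem (mem_zpowers b) n)
  have h3 : Function.Bijective fun x : zpowers b × Fin m =>
      (⟨x.1 * r x.2, mul_mem (zpowers_le.2 hb x.1.2) (hr _)⟩ : N) :=
    Function.Injective.bijective_of_nat_card_le (fun x y e => by
      have e : (x.1 : G) * r x.2 = y.1 * r y.2 := congrArg Subtype.val e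
      have e2 : x.2 = y.2 := hi ((h2 _ x.1.2 _).symm.trans ((congrArg φ e).trans (h2 _ y.1.2 _)))
      rw [e2] at e
      exact Prod.ext (Subtype.ext (mul_right_cancel e)) e2) (by simpa [Nat.card_zpowers] using hN)
  have h4 : ∀ g ∈ N, ∃ c ∈ zpowers b, ∃ j, g = c * r j := fun g hg =>
    let ⟨x, e⟩ := h3.2 ⟨g, hg⟩
    ⟨x.1, x.1.2, x.2, (congrArg Subtype.val e).symm⟩
  refine ⟨fun g hg => ?_, fun g hg h hh e => ?_⟩
  · obtain ⟨c, hc, j, rfl⟩ := h4 g hg
    exact ⟨j, h2 c hc _⟩
  · obtain ⟨c, hc, i, rfl⟩ := h4 g hg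
    obtain ⟨d, hd, j, rfl⟩ := h4 h hh
    rw [h2 c hc, h2 d hd] at e
    rw [show i = j from hi e, mul_inv_rev, mul_assoc, mul_inv_cancel_left]
    exact mul_mem hc (inv_mem hd)

/-- the image of a point under a word -/
noncomputable def apw (Ps : List ℕ) (w : List ℕ) : ℕ → ℕ :=
  List.rec (motive := fun _ => ℕ → ℕ) (fun i => i) (fun c _ ih i => force (lane 9 (Ps.getD c 0) i) ih) w

/-- substitute `w` and the first generator -/
def exW (w : List ℕ) (U : List Bool) : List ℕ := U.flatMap fun c => cond c w [0]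

/-- the permutations describe the action of the generators on the table of vectors -/
noncomputable def permB (m n Vs : ℕ) (Gs Ps : List ℕ) : Bool :=
  allL (fun c => force (Gs.getD c o1) fun A => force (Ps.getD c 0) fun P => allL (fun i => force (lane 9 P i) fun j =>
    Nat.blt j n && Nat.beq (mu m (lane 112 Vs i) A) (lane 112 Vs j)) (List.range n)) (List.range Gs.length)

/-- the table is sorted, and every point but the base point leads to a test -/
noncomputable def redB (n k i0 Vs : ℕ) (Ps : List ℕ) (items : List (List ℕ × List Bool × ℕ)) (T : List (List ℕ)) : Bool :=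
  allL (fun i => Nat.blt (lane 112 Vs i) (lane 112 Vs (i + 1))) (List.range (n - 1)) && (Nat.blt i0 n &&
    (Nat.beq (apw Ps [0] i0) i0 && (allL (allL fun c => Nat.blt c k) T &&
    allL (fun i => (fun x => allL (fun c => Nat.blt c k) x.1 && (Nat.beq (apw Ps x.1 i0) i && (Nat.beq i i0 ||
      Nat.blt x.2.2 T.length && Nat.beq (apw Ps (exW x.1 x.2.1) i0) (apw Ps (T.getD x.2.2 []) i0))))
      (items.getD i ([], [], 0))) (List.range n))))

theorem apw_spec {n Vs : ℕ} {Gs Ps : List ℕ} {gs : List G} (h : RL ρ Gs gs) (e : permB mk n Vs Gs Ps = true) :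
    ∀ (w : List ℕ) {i : ℕ}, (∀ c ∈ w, c < Gs.length) → i < n → apw Ps w i < n ∧
      dec2 112 (lane 112 Vs i) * (ρ (wd gs w)).val = dec2 112 (lane 112 Vs (apw Ps w i))
  | [], i, _, hi => ⟨hi, by simp [wd, apw]⟩
  | c :: w, i, hw, hi => by
    have h1 := (allL_iff _ _).1 e c (List.mem_range.2 (hw c (by simp)))
    simp only [force_eq] at h1
    have h2 := (allL_iff _ _).1 h1 i (List.mem_range.2 hi)
    simp only [force_eq, Bool.and_eq_true, Nat.blt_eq, Nat.beq_eq] at h2
    have := apw_spec h e w (fun d hd => hw d (List.mem_cons_of_mem _ hd)) h2.1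
    rw [show apw Ps (c :: w) i = apw Ps w (lane 9 (Ps.getD c 0) i) from force_eq _ _, wd_cons, map_mul, Units.val_mul,
      ← mul_assoc, h c, ← dec_mu, h2.2]
    exact this

theorem red_spec [Finite G] {n i0 Vs : ℕ} {Gs Ps : List ℕ} {items : List (List ℕ × List Bool × ℕ)} {T : List (List ℕ)}
    {b : G} {gs : List G} {B : ℕ} (h : RL ρ (B :: Gs) (b :: gs)) (e : permB mk n Vs (B :: Gs) Ps = true)
    (e' : redB n (Gs.length + 1) i0 Vs Ps items T = true) {N : Subgroup G} (hN : ∀ g ∈ b :: gs, g ∈ N)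
    (hc : Nat.card N ≤ orderOf b * n) {W : Subgroup G} (hb : b ∈ W) {g : G} (hg : g ∈ W) (h1 : g ∈ N)
    (h2 : g ∉ zpowers b) : ∃ t ∈ T, wd (b :: gs) t ∈ W := by
  simp only [redB, Bool.and_eq_true, allL_iff, List.mem_range, Nat.blt_eq, Nat.beq_eq, Bool.or_eq_true] at e'
  obtain ⟨a1, a2, a3, a4, a5⟩ := e'
  have hm : ∀ i j, i < j → j < n → lane 112 Vs i < lane 112 Vs j := fun i j hij hj => by
    induction hij with
    | refl => exact a1 i (by omega)
    | step _ ih => exact (ih (by omega)).trans (a1 _ (by omega))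
  have hi : ∀ i < n, ∀ j < n, dec2 112 (lane 112 Vs i) = dec2 112 (lane 112 Vs j) → i = j := fun i hi j hj e => by
    have l : ∀ k, lane 112 Vs k &&& low (112 * 112) = lane 112 Vs k := fun k => by
      rw [low_eq, Nat.and_two_pow_sub_one_eq_mod, Nat.mod_eq_of_lt
        ((lane_lt _ _ _).trans (Nat.pow_lt_pow_right Nat.one_lt_two (by decide)))]
    have := land_eq e
    rw [l, l] at this
    rcases lt_trichotomy i j with c | c | c
    exacts [absurd this (hm i j c hj).ne, c, absurd this (hm j i c hi).ne']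
  have hv := fun w hw => (apw_spec h e w hw a2).2
  have hw : ∀ j : Fin n, dec2 112 (lane 112 Vs i0) * (ρ (wd (b :: gs) (items.getD j ([], [], 0)).1)).val =
      dec2 112 (lane 112 Vs j) := fun j => by rw [hv _ (a5 j j.2).1, (a5 j j.2).2.1]
  obtain ⟨c1, c2⟩ := cosets (hN b (by simp)) hc (φ := fun g => dec2 112 (lane 112 Vs i0) * (ρ g).val) (fun g => by
      have := hv [0] (by simp)
      rw [a3, show wd (b :: gs) [0] = b from mul_one _] at this
      rw [map_mul, Units.val_mul, ← mul_assoc, this])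
    (r := fun j => wd (b :: gs) (items.getD j ([], [], 0)).1) (fun _ => wd_mem hN _)
    fun i j e => Fin.ext (hi i i.2 j j.2 ((hw i).symm.trans (Eq.trans e (hw j))))
  obtain ⟨j, hj⟩ := c1 g h1
  have h3 : wd (b :: gs) (items.getD j ([], [], 0)).1 ∈ W := by
    simpa using W.mul_mem (W.inv_mem (zpowers_le.2 hb (c2 _ h1 _ (wd_mem hN _) hj))) hg
  obtain ⟨b1, -, b2 | ⟨b2, b3⟩⟩ := a5 j j.2
  · exact absurd (by simpa using c2 g h1 1 (one_mem _) (by rw [hj, hw, b2, map_one, Units.val_one, mul_one])) h2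
  · have b4 : T.getD (items.getD j ([], [], 0)).2.2 [] ∈ T := by
      rw [List.getD_eq_getElem _ _ b2]; exact List.getElem_mem b2
    generalize items.getD j ([], [], 0) = x at *
    have h4 : ∀ U, wd (b :: gs) (exW x.1 U) ∈ W ∧ ∀ c ∈ exW x.1 U, c < Gs.length + 1 := fun U => by
      induction U with
      | nil => exact ⟨one_mem _, by simp [exW]⟩
      | cons c U ih =>
        rw [exW, List.flatMap_cons, wd_append]
        cases c
        · exact ⟨mul_mem (mul_mem hb (one_mem _)) ih.1, fun c hc => (List.mem_cons.1 hc).elim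
            (fun e => e ▸ Nat.succ_pos _) (ih.2 c)⟩
        · exact ⟨mul_mem h3 ih.1, fun c hc => (List.mem_append.1 hc).elim (b1 c) (ih.2 c)⟩
    refine ⟨_, b4, ?_⟩
    simpa using W.mul_mem (W.inv_mem (zpowers_le.2 hb (c2 _ (wd_mem hN _) _ (wd_mem hN _)
      ((hv _ (h4 x.2.1).2).trans (b3 ▸ (hv _ (a4 _ b4)).symm))))) (h4 x.2.1).1

/-- each test element generates with `A`, `B` a group with elements of two large prime orders -/
noncomputable def testB (m A B : ℕ) (Gs good : List ℕ) (T : List (List ℕ × (ℕ × List ℕ) × ℕ × List ℕ)) : Bool :=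
  allL (fun x => force (evw m (B :: Gs) x.1) fun H => decide (x.2.1.1.Prime ∧ x.2.2.1.Prime ∧ x.2.1.1 ≠ x.2.2.1 ∧
    x.2.1.1 * x.2.2.1 ∈ good) &&
    (ordB m x.2.1.1 (evw m [A, B, H] x.2.1.2) && ordB m x.2.2.1 (evw m [A, B, H] x.2.2.2))) T

theorem test_spec [Finite G] (hρ : Function.Injective ρ) {A B : ℕ} {Gs good : List ℕ} {a b : G} {gs : List G}
    {T : List (List ℕ × (ℕ × List ℕ) × ℕ × List ℕ)} (hA : Rp ρ A a) (h : RL ρ (B :: Gs) (b :: gs))
    (e : testB mk A B Gs good T = true) {W : Subgroup G} (ha : a ∈ W) (hb : b ∈ W) {t : List ℕ}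
    (ht : t ∈ T.map (·.1)) (hw : wd (b :: gs) t ∈ W) : ∃ r ∈ good, r ∣ Nat.card W := by
  obtain ⟨x, hx, rfl⟩ := List.mem_map.1 ht
  have := (allL_iff _ _).1 e x hx
  simp only [force_eq, Bool.and_eq_true, decide_eq_true_eq] at this
  obtain ⟨⟨p1, p2, p3, p4⟩, o1, o2⟩ := this
  have hL := ((rl_nil.cons (h.evw x.1)).cons (h 0)).cons hA
  have hm : ∀ w, wd [a, b, wd (b :: gs) x.1] w ∈ W := wd_mem (by simp [ha, hb, hw])
  exact ⟨_, p4, ((Nat.coprime_primes p1 p2).2 p3).mul_dvd_of_dvd_of_dvd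
    (ordB_spec hρ (hL.evw _) p1 o1 ▸ W.orderOf_dvd_natCard (hm _))
    (ordB_spec hρ (hL.evw _) p2 o2 ▸ W.orderOf_dvd_natCard (hm _))⟩

/-! ### The certificate -/

/-- a power -/
noncomputable def pw (m A n : ℕ) : ℕ := evw m [A] (List.replicate n 0)

theorem Rp.pw {A : ℕ} {g : G} (h : Rp ρ A g) (n : ℕ) : Rp ρ (pw mk A n) (g ^ n) := by
  have := (rl_nil.cons h).evw (List.replicate n 0)
  rwa [wd, List.map_replicate, List.prod_replicate, List.getD_cons_zero] at this

/-- `X A = A ^ k X` -/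
noncomputable def nrmB (m A X k : ℕ) : Bool := force (pw m A k) fun Y => Nat.beq (mu m X A) (mu m Y X)

theorem nrmB_spec (hρ : Function.Injective ρ) {A X k : ℕ} {a x : G} (hA : Rp ρ A a) (hX : Rp ρ X x)
    (e : nrmB mk A X k = true) : x * a * x⁻¹ = a ^ k := by
  rw [nrmB, force_eq, Nat.beq_eq] at e
  rw [(hX.mul hA).eq hρ (e ▸ (hA.pw k).mul hX), mul_inv_cancel_right]

/-- orders of `A`, `B`; `B` normalises `A`, the generators normalise `B ^ d` -/
noncomputable def basB (m p e d k A B : ℕ) (GT : List (ℕ × ℕ)) : Bool :=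
  ordB m p A && (Nat.beq (pw m B e) o1 && (allL (fun q => neM (pw m B (e / q)) o1) e.primeFactorsList && (nrmB m A B k &&
    force (pw m B d) fun S => allL (fun x => nrmB m S x.1 x.2) GT)))

variable (ρ) in
/-- the element with a given code -/
noncomputable def el (A : ℕ) : G := Classical.epsilon (Rp ρ A)

theorem rl_map : ∀ {L : List ℕ}, (∀ X ∈ L, ∃ g, Rp ρ X g) → RL ρ L (L.map (el ρ))
  | [], _ => rl_nil
  | X :: L, h => (rl_map fun Y hY => h Y (List.mem_cons_of_mem _ hY)).cons (Classical.epsilon_spec (h X (by simp)))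

theorem master [Finite G] (hρ : Function.Injective ρ) {p e d k n i0 Vs A B : ℕ} {GT : List (ℕ × ℕ)} {Ps good : List ℕ}
    {items : List (List ℕ × List Bool × ℕ)} {T : List (List ℕ × (ℕ × List ℕ) × ℕ × List ℕ)}
    (hin : ∀ X ∈ A :: B :: GT.map (·.1), ∃ g, Rp ρ X g) (hp : p.Prime) (he : 0 < e)
    (h1 : force mk (fun m => basB m p e d k A B GT) = true)
    (h2 : force mk (fun m => permB m n Vs (B :: GT.map (·.1)) Ps) = true)
    (h3 : redB n ((GT.map (·.1)).length + 1) i0 Vs Ps items (T.map (·.1)) = true)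
    (h4 : force mk (fun m => testB m A B (GT.map (·.1)) good T) = true) :
    ∃ a b : G, Rp ρ B b ∧ orderOf a = p ∧ orderOf b = e ∧ b ∈ normalizer (zpowers a : Set G) ∧
      (Nat.card (normalizer (zpowers (b ^ d) : Set G)) ≤ e * n → ∀ W : Subgroup G, a ∈ W → b ∈ W → ∀ g ∈ W,
        g ∈ normalizer (zpowers (b ^ d) : Set G) ∧ g ∉ zpowers b → ∃ r ∈ good, r ∣ Nat.card W) := by
  rw [force_eq] at h1 h2 h4
  obtain ⟨a, ha⟩ := hin A (by simp)
  have hL := rl_map fun X hX => hin X (List.mem_cons_of_mem _ hX)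
  have hb : Rp ρ B (el ρ B) := Classical.epsilon_spec (hin B (by simp))
  simp only [basB, Bool.and_eq_true, force_eq, allL_iff, Nat.beq_eq] at h1
  obtain ⟨a1, a2, a3, a4, a5⟩ := h1
  have ob : orderOf (el ρ B) = e := orderOf_eq_of_pow_and_pow_div_prime he ((hb.pw e).eq hρ (a2 ▸ rp_one))
    fun q hq hd => (hb.pw _).ne rp_one (a3 q ((Nat.mem_primeFactorsList he.ne').2 ⟨hq, hd⟩))
  refine ⟨a, _, hb, ordB_spec hρ ha hp a1, ob, J4.mem_norm_zpowers (nrmB_spec hρ ha hb a4 ▸ pow_mem (mem_zpowers a) k),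
    fun hc W haW hbW g hg hN => ?_⟩
  obtain ⟨t, ht, hw⟩ := red_spec hL h2 h3 (N := normalizer (zpowers (el ρ B ^ d) : Set G)) (fun x hx => by
    rcases List.mem_cons.1 hx with rfl | hx
    · exact J4.mem_norm_zpowers (by rw [← pow_succ', pow_succ, mul_inv_cancel_right]; exact mem_zpowers _)
    · simp only [List.map_map, List.mem_map] at hx
      obtain ⟨y, hy, rfl⟩ := hx
      exact J4.mem_norm_zpowers (nrmB_spec hρ (hb.pw d) (Classical.epsilon_spec (hin y.1 (List.mem_cons_of_mem _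
        (List.mem_cons_of_mem _ (List.mem_map_of_mem hy))))) (a5 y hy) ▸ pow_mem (mem_zpowers _) _))
    (ob ▸ hc) hbW hg hN.1 hN.2
  exact test_spec hρ ha hL h4 haW hbW ht hw

/-- the listed results of a program -/
noncomputable def outB (outs : List (ℕ × ℕ)) (L : List ℕ) : Bool := allL (fun x => Nat.beq (L.getD x.1 o1) x.2) outs

theorem slp_in {prog outs : List (ℕ × ℕ)} {L : List ℕ} (h : ∀ X ∈ L, ∃ g, Rp ρ X g)
    (e : force mk (fun m => slpB m (outB outs) prog L) = true) : ∀ X ∈ outs.map (·.2), ∃ g, Rp ρ X g := fun X hX => by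
  rw [force_eq] at e
  obtain ⟨L', gs', h1, h2⟩ := slpB_spec (rl_map h) e
  obtain ⟨x, hx, rfl⟩ := List.mem_map.1 hX
  exact ⟨_, Nat.eq_of_beq_eq_true ((allL_iff _ _).1 h2 x hx) ▸ h1 x.1⟩

/-! ### The generators -/

/-- the wide code `T` and the narrow code `X` describe the same matrix -/
noncomputable def linkB (T X : ℕ) : Bool :=
  force T fun T => allL (fun i => force (lane (112 * 18) T i) fun R => force (lane 112 X i) fun r =>
    allL (fun j => Nat.beq (lane 18 R j) (cond (r.testBit j) 1 0)) (List.range 112)) (List.range 112)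

theorem linkB_spec {T X : ℕ} (e : linkB T X = true) : J4Rep.P.dec T = dec2 112 X := by
  ext i j
  simp only [linkB, force_eq, allL_iff, List.mem_range, Nat.beq_eq] at e
  have := e i i.2 j j.2
  rw [MxP.lane_lane, if_pos (show (j : ℕ) < 112 from j.2), testBit_lane, decide_eq_true (show (j : ℕ) < 112 from j.2),
    Bool.true_and] at this
  show ((lane 18 T (i * 112 + j) : ℕ) : ZMod 2) = b2 (X.testBit (i * 112 + j))
  rw [this]
  cases X.testBit (i * 112 + j) <;> rfl

open J4Rep in
theorem link_run : P.run ms [] (fun _ tab => allL (fun x => linkB (tab x.1) x.2) [(0, mx), (2, my), (3, myi), (4, mt)]) =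
    true := by decide +kernel

open J4Rep in
theorem link : ∀ X ∈ [mx, my, myi, mt], ∃ g, Rp (rho : Spor.J4 →* GL (Fin 112) (ZMod 2)) X g := fun X hX => by
  obtain ⟨tab, h1, h2⟩ := MxP.Par.run_sound ok link_run
  obtain ⟨x, hx, rfl⟩ := List.mem_map.1 (show X ∈ [(0, mx), (2, my), (3, myi), (4, mt)].map (·.2) from hX)
  exact ⟨PG.wordG gs [x.1], (congrArg Units.val ((rho_wordG [] [x.1]).trans (mul_one _))).trans
    ((h1 x.1).2.trans (linkB_spec ((allL_iff _ _).1 h2 x hx)))⟩

end CL.J4X
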