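/-
The non-local maximal subgroups of a group of Janko-four type, part 0: the possible orders of proper subgroups.
-/
import Cfsg.Agent.Spor.J4XF
import Cfsg.Agent.Spor.J4XU

set_option autoImplicit false
set_option synthInstance.maxSize 4096

namespace CL.J4X

open Cfsg Subgroup CL.J4 CL.Fus CL.Mx

/-- the orders that force a subgroup to be the whole group -/
def Frc (n : ℕ) : Prop := (29 ∣ n ∧ ks n 29 28 = [28] ∧ n ≠ 29 * 28) ∨ (37 ∣ n ∧ ks n 37 12 = [12] ∧ n ≠ 37 * 12) ∨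
  (43 ∣ n ∧ ks n 43 14 = [14] ∧ n ≠ 43 * 14) ∨ (1331 ∣ n ∧ ks n 1331 240 = [240] ∧ n ≠ 319440) ∨
  n = 86775571046077562880 ∨ n * 2 = 86775571046077562880

instance (n : ℕ) : Decidable (Frc n) := by unfold Frc; infer_instance

variable {G : Type*} [Group G] [Finite G] [IsSimpleGroup G] (J : JM G)
include J

theorem top_of_frc {W : Subgroup G} (h : Frc (Nat.card W)) : W = ⊤ := by
  haveI : Fact (Nat.Prime 11) := ⟨by norm_num⟩
  rcases h with h | h | h | ⟨h1, h2, h3⟩ | h | h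
  · exact top_of_full J (by decide) (maxP29 J) h.1 h.2.1 h.2.2
  · exact top_of_full J (by decide) (maxP37 J) h.1 h.2.1 h.2.2
  · exact top_of_full J (by decide) (maxP43 J) h.1 h.2.1 h.2.2
  · obtain ⟨X, hX⟩ := exists_sylIn 11 W
    obtain ⟨a1, k, a2, a3⟩ := t11 J hX (Dvd.dvd.trans (by norm_num) h1)
    rw [Nat.gcd_eq_right h1] at a1
    rw [a1, h2, List.mem_singleton] at a2
    obtain ⟨S, hS⟩ := hX.isPGroup.exists_le_sylow
    obtain ⟨-, s1, -, s2, -⟩ := El.sylow_11 J J.cent_p S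
    obtain rfl : X = S := eq_of_le_of_card_ge hS (by rw [s1, a1]; norm_num)
    have h4 := eq_of_le_of_card_ge (inf_le_left : normalizer ((S : Subgroup G) : Set G) ⊓ W ≤ _)
      (by rw [a3, a2, a1, s2]; norm_num)
    exact thmU J (maxP29 J) S (lt_of_le_of_ne (inf_eq_left.1 h4) fun e => h3 (by rw [← e, s2]; norm_num))
  · exact eq_top J h
  · have i2 : W.index = 2 := by
      have := card_mul_index W
      rw [J.card_G] at this
      exact Nat.eq_of_mul_eq_mul_left Nat.card_pos (this.trans h.symm)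
    exact (normal_of_index_eq_two i2).eq_bot_or_eq_top.resolve_left fun e => by simp [e] at h

variable {W : Subgroup G} (hT : W ≠ ⊤)
include hT

/-- the shape of the tests for proper subgroups -/
theorem enumW {x : ℕ} {a b : ℕ → Prop} [DecidablePred a] [DecidablePred b]
    (h : allP (fun n => n % x != 0 || (!decide (a n) || (decide (b n) || (!okB n || decide (Frc n))))) fac 1 = true)
    (hx : x ∣ Nat.card W) (ha : a (Nat.card W)) : b (Nat.card W) := by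
  simpa [Nat.mod_eq_zero_of_dvd hx, ha, ok_card J W, show ¬ Frc (Nat.card W) from fun e => hT (top_of_frc J e)] using
    enum h (card_dvd J W)

theorem arY1 (h : 37 * 1331 ∣ Nat.card W) (h1 : ∃ k ∈ ks (Nat.card W) 1331 240, 80 ∣ k) : Nat.card W = 141831360 :=
  enumW J hT (a := fun n => ∃ k ∈ ks n 1331 240, 80 ∣ k) (b := fun n => n = 141831360) (by decide +kernel) h h1

theorem arY2 (h : 36960 ∣ Nat.card W) (h1 : Nat.card W / 110 % 11 = 1) (h2 : Nat.card W / 42 % 7 = 1) :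
    Nat.card W = 887040 :=
  enumW J hT (a := fun n => n / 110 % 11 = 1 ∧ n / 42 % 7 = 1) (b := fun n => n = 887040) (by decide +kernel) h ⟨h1, h2⟩

theorem arY3 (h : 10230 ∣ Nat.card W) (h1 : 10 ∈ ks (Nat.card W) 31 10) (h2 : Nat.card W / 30 % 5 = 1) :
    Nat.card W = 163680 ∨ Nat.gcd (Nat.card W) 1331 = 11 ∧ ks (Nat.card W) 11 240 = [2, 24] :=
  enumW J hT (a := fun n => 10 ∈ ks n 31 10 ∧ n / 30 % 5 = 1) (b := fun n => n = 163680 ∨ Nat.gcd n 1331 = 11 ∧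
    ks n 11 240 = [2, 24]) (by decide +kernel) h ⟨h1, h2⟩

theorem arY4 (h : 3036 ∣ Nat.card W) (h1 : 22 ∈ ks (Nat.card W) 23 22) (h2 : Nat.card W / 44 % 11 = 1) :
    Nat.card W = 12144 :=
  enumW J hT (a := fun n => 22 ∈ ks n 23 22 ∧ n / 44 % 11 = 1) (b := fun n => n = 12144) (by decide +kernel) h ⟨h1, h2⟩

theorem arY5 (h : 1512 ∣ Nat.card W) (h1 : Nat.card W / 216 % 27 = 1)
    (h2 : Nat.card W / 21 % 7 = 1 ∨ Nat.card W / 84 % 7 = 1) :
    Nat.card W = 6048 ∨ Nat.gcd (Nat.card W) 1331 = 11 ∧ ks (Nat.card W) 11 240 = [3] :=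
  enumW J hT (a := fun n => n / 216 % 27 = 1 ∧ (n / 21 % 7 = 1 ∨ n / 84 % 7 = 1)) (b := fun n => n = 6048 ∨
    Nat.gcd n 1331 = 11 ∧ ks n 11 240 = [3]) (by decide +kernel) h ⟨h1, h2⟩

theorem gdY2 (h : 36960 ∣ Nat.card W) : ∀ r ∈ [23 * 31, 23 * 37, 29 * 31], ¬ r ∣ Nat.card W :=
  enumW J hT (a := fun _ => True) (b := fun n => ∀ r ∈ [23 * 31, 23 * 37, 29 * 31], ¬ r ∣ n) (by decide +kernel) h trivial

theorem gdY3 (h : 10230 ∣ Nat.card W) (h1 : 10 ∈ ks (Nat.card W) 31 10) :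
    ∀ r ∈ [23 * 31, 29 * 31, 31 * 37, 31 * 43], ¬ r ∣ Nat.card W :=
  enumW J hT (a := fun n => 10 ∈ ks n 31 10) (b := fun n => ∀ r ∈ [23 * 31, 29 * 31, 31 * 37, 31 * 43], ¬ r ∣ n)
    (by decide +kernel) h h1

theorem gdY4 (h : 3036 ∣ Nat.card W) : ∀ r ∈ [23 * 31, 29 * 37, 29 * 43, 37 * 43], ¬ r ∣ Nat.card W :=
  enumW J hT (a := fun _ => True) (b := fun n => ∀ r ∈ [23 * 31, 29 * 37, 29 * 43, 37 * 43], ¬ r ∣ n)
    (by decide +kernel) h trivial

theorem gdY5 (h : 1512 ∣ Nat.card W) : ∀ r ∈ [23 * 29, 23 * 37, 23 * 43, 29 * 43], ¬ r ∣ Nat.card W :=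
  enumW J hT (a := fun _ => True) (b := fun n => ∀ r ∈ [23 * 29, 23 * 37, 23 * 43, 29 * 43], ¬ r ∣ n)
    (by decide +kernel) h trivial

end CL.J4X
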