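/-
Maximal subgroups of a group of Janko-four type: orders of proper overgroups (job J4Y-A).
-/
import Cfsg.Agent.Spor.J4Y0
import Cfsg.Agent.Spor.J4XH
import Cfsg.Agent.Spor.J4PGL1

set_option autoImplicit false

namespace CL.J4X

open Cfsg Subgroup CL.J4 CL.Fus

variable {G : Type*} [Group G] [Finite G]

theorem ya_pz {p : ℕ} {x : G} (o : orderOf x = p) : IsPGroup p (zpowers x) :=
  IsPGroup.of_card (n := 1) (by rw [Nat.card_zpowers, o, pow_one])

theorem ya_mem {p : ℕ} (S : Sylow p G) {x : G} (o : orderOf x = p) (h : x ∈ normalizer ((S : Subgroup G) : Set G)) :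
    x ∈ (S : Subgroup G) :=
  (sylIn_top S).2.2 _ ((ya_pz o).to_sup_of_normal_right' S.isPGroup' (zpowers_le.2 h)) le_sup_right le_top
    (mem_sup_left (mem_zpowers x))

theorem ya_le {S X : Subgroup G} (hS : Nat.card S = 11 ^ 3) {u v : G} (hu : u ∈ S ⊓ X) (hv : v ∈ S ⊓ X)
    (h : ¬ Commute u v) : S ≤ X := by
  haveI : Fact (Nat.Prime 11) := ⟨by norm_num⟩
  obtain ⟨k, hk, e⟩ := (Nat.dvd_prime_pow (by norm_num)).1 (hS ▸ card_dvd_of_le (inf_le_left : S ⊓ X ≤ S))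
  refine inf_eq_left.1 (eq_of_le_of_card_ge inf_le_left ?_)
  have key : IsMulCommutative ↥(S ⊓ X) → False := fun c =>
    h (congrArg Subtype.val (c.1.1 ⟨u, hu⟩ ⟨v, hv⟩))
  interval_cases k
  · haveI := (Nat.card_eq_one_iff_unique.1 e).1
    exact (key ⟨⟨fun _ _ => Subsingleton.elim _ _⟩⟩).elim
  · haveI := isCyclic_of_prime_card (p := 11) (e.trans (pow_one _))
    exact (key IsCyclic.isMulCommutative).elim
  · exact (key (IsPGroup.isMulCommutative_of_card_eq_prime_sq e)).elim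
  · rw [e, hS]

variable [IsSimpleGroup G] (J : JM G)
include J

theorem ya_norm (S : Sylow 11 G) {c g : G} (oc : orderOf c = 11) (hc : c ∈ (S : Subgroup G))
    (h : g ∈ normalizer (zpowers c : Set G)) : g ∈ normalizer ((S : Subgroup G) : Set G) :=
  ti11 J S hc (fun e => by rw [e, orderOf_one] at oc; omega)
    (zpowers_le.2 hc ((mem_normalizer_iff.1 h c).1 (mem_zpowers c)))

theorem ya_com (S : Sylow 11 G) {c u : G} (oc : orderOf c = 11) (hc : c ∈ (S : Subgroup G)) (ou : orderOf u = 11)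
    (h : Commute c u) : u ∈ (S : Subgroup G) :=
  ya_mem S ou (ya_norm J S oc hc (mem_norm_zpowers (by rw [← h.eq, mul_inv_cancel_right]; exact mem_zpowers c)))

theorem c11 {u v c : G} (ou : orderOf u = 11) (ov : orderOf v = 11) (oc : orderOf c = 11) (h1 : Commute c u)
    (h2 : Commute c v) (h3 : ¬ Commute u v) :
    Nat.card (centralizer ({c} : Set G)) = 31944 ∧ Nat.card (centralizer ({u} : Set G)) = 242 := by
  haveI : Fact (Nat.Prime 11) := ⟨by norm_num⟩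
  obtain ⟨S, hS⟩ := (ya_pz oc).exists_le_sylow
  have hc := hS (mem_zpowers c)
  have hu := ya_com J S oc hc ou h1
  have hv := ya_com J S oc hc ov h2
  have s1 := (El.sylow_11 J J.cent_p S).2.1
  refine ⟨(El.card_cent_11 J J.cent_p oc).resolve_right fun e => ?_,
    (El.card_cent_11 J J.cent_p ou).resolve_left fun e => h3 ?_⟩
  · have := card_dvd_of_le (ya_le (X := centralizer {c}) s1 ⟨hu, mem_centralizer_singleton_iff.2 h1.eq.symm⟩
      ⟨hv, mem_centralizer_singleton_iff.2 h2.eq.symm⟩ h3)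
    rw [s1, e] at this
    norm_num at this
  · obtain ⟨X, hX⟩ := exists_sylIn 11 (centralizer ({u} : Set G))
    have h4 := (t11 J hX (by rw [e]; norm_num)).1
    rw [e] at h4
    have h5 : X ≤ (S : Subgroup G) := (le_sup_left.trans ((sylIn_top S).2.2 _
      (hX.isPGroup.to_sup_of_normal_right' S.isPGroup' fun g hg => ya_norm J S ou hu (mem_norm_zpowers (by
        rw [mem_centralizer_singleton_iff.1 (hX.le hg), mul_inv_cancel_right]; exact mem_zpowers u)))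
      le_sup_right le_top))
    have h6 := eq_of_le_of_card_ge h5 (by rw [h4, s1]; norm_num)
    exact (mem_centralizer_singleton_iff.1 (hX.le (h6.ge hv))).symm

theorem card11B {u : G} (ou : orderOf u = 11) (h : Nat.card (centralizer ({u} : Set G)) = 242) :
    Nat.card (normalizer (zpowers u : Set G)) ≤ 2420 := by
  haveI : Fact (Nat.Prime 11) := ⟨by norm_num⟩
  have h1 := Nat.le_of_dvd (by norm_num) (Big.aut_dvd ((Nat.card_zpowers u).trans ou))
  rw [← Big.card_mul_aut, cent_zpowers, h]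
  omega

theorem ya_syl {r e : ℕ} (hL : (r, e) ∈ L5) {a : G} (oa : orderOf a = r) :
    ∃ P : Sylow r G, (P : Subgroup G) = zpowers a := by
  obtain ⟨p1, -, p2⟩ := L5_prime J hL
  haveI := Fact.mk p1
  exact sylIn_top_iff.1 (sylIn_prime p1 ((Nat.card_zpowers _).trans oa) le_top (by rwa [card_top, J.card_G]))

theorem ya_full {r e : ℕ} (hL : (r, e) ∈ L5) {W : Subgroup G} {a b : G} (oa : orderOf a = r) (ob : orderOf b = e)
    (hb : b ∈ normalizer (zpowers a : Set G)) (ha : a ∈ W) (hbW : b ∈ W) :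
    r * e ∣ Nat.card W ∧ e ∈ ks (Nat.card W) r e := by
  obtain ⟨P, hP⟩ := ya_syl J hL oa
  refine full_mem J hL P (inf_eq_left.1 (eq_of_le_of_card_ge inf_le_left ?_))
  rw [(loc J hL P).2.2, hP]
  exact Nat.le_of_dvd Nat.card_pos (((by decide : ∀ x ∈ L5, x.1.Coprime x.2) _ hL).mul_dvd_of_dvd_of_dvd
    (oa ▸ Subgroup.orderOf_dvd_natCard _ (mem_inf.2 ⟨le_normalizer (mem_zpowers a), ha⟩))
    (ob ▸ Subgroup.orderOf_dvd_natCard _ (mem_inf.2 ⟨hb, hbW⟩)))

theorem full_of {r e : ℕ} (hL : (r, e) ∈ L5) {W : Subgroup G} {a b : G} (oa : orderOf a = r) (ob : orderOf b = e)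
    (hb : b ∈ normalizer (zpowers a : Set G)) (ha : a ∈ W) (hbW : b ∈ W) : e ∈ ks (Nat.card W) r e :=
  (ya_full J hL oa ob hb ha hbW).2

omit J [IsSimpleGroup G] in
theorem ya_count {p n : ℕ} (hp : p.Prime) {W : Subgroup G} {u : G} (ou : orderOf u = p) (hu : u ∈ W)
    (h : Nat.card ↥(normalizer (zpowers u : Set G) ⊓ W) = n) (h2 : ¬ p ^ 2 ∣ n) :
    n ∣ Nat.card W ∧ Nat.card W / n % p = 1 := by
  haveI := Fact.mk hp
  obtain ⟨m, h3, h4⟩ := count (syl_of_norm (sylIn_prime hp ((Nat.card_zpowers u).trans ou)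
    (le_inf le_normalizer (zpowers_le.2 hu)) (h ▸ h2)) (zpowers_le.2 hu) fun g h1 h2 => ⟨h2, h1⟩)
  rw [h] at h3
  exact ⟨⟨m, h3⟩, by rwa [h3, Nat.mul_div_cancel_left _ (h ▸ Nat.card_pos)]⟩

theorem ya_Y1 {W : Subgroup G} {u v c h f s : G} (ou : orderOf u = 11)
    (ov : orderOf v = 11) (oc : orderOf c = 11) (h1 : Commute c u) (h2 : Commute c v) (h3 : ¬ Commute u v)
    (oh : orderOf h = 8) (of5 : orderOf f = 5) (os : orderOf s = 2) (hs : s ≠ h ^ 4)
    (n1 : h ∈ normalizer (zpowers c : Set G)) (n2 : f ∈ normalizer (zpowers c : Set G))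
    (n3 : s ∈ normalizer (zpowers c : Set G)) (n4 : s ∈ normalizer (zpowers h : Set G))
    (hW : ∀ g ∈ [u, v, h, f, s], g ∈ W) : 1331 ∣ Nat.card W ∧ ∃ k ∈ ks (Nat.card W) 1331 240, 80 ∣ k := by
  haveI : Fact (Nat.Prime 11) := ⟨by norm_num⟩
  obtain ⟨S, hS⟩ := (ya_pz oc).exists_le_sylow
  have hc := hS (mem_zpowers c)
  have s1 : Nat.card (S : Subgroup G) = 1331 := (El.sylow_11 J J.cent_p S).2.1
  have hSW : (S : Subgroup G) ≤ W := ya_le s1 ⟨ya_com J S oc hc ou h1, hW u (by simp)⟩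
    ⟨ya_com J S oc hc ov h2, hW v (by simp)⟩ h3
  have d1 : 1331 ∣ Nat.card W := s1 ▸ card_dvd_of_le hSW
  obtain ⟨-, k, k1, k2⟩ := t11 J (sylIn_of_sylow_le S hSW) (Dvd.dvd.trans (by norm_num) d1)
  rw [s1] at k1 k2
  refine ⟨d1, k, k1, (by norm_num : Nat.Coprime 80 1331).dvd_of_dvd_mul_left (k2 ▸ ?_)⟩
  refine (by norm_num : Nat.Coprime 16 5).mul_dvd_of_dvd_of_dvd ?_
    (of5 ▸ Subgroup.orderOf_dvd_natCard _ (mem_inf.2 ⟨ya_norm J S oc hc n2, hW f (by simp)⟩))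
  have h4 : zpowers s ⊓ zpowers h = ⊥ := by
    haveI := Fact.mk Nat.prime_two
    refine eq_bot_iff.2 fun x ⟨x1, x2⟩ => by_contra fun x3 => hs ?_
    obtain ⟨i, hi, rfl⟩ := ex_pow os x1
    interval_cases i
    · exact absurd (pow_zero s) x3
    rw [pow_one] at x2
    obtain ⟨j, hj, rfl⟩ := ex_pow oh x2
    rw [orderOf_pow' _ (by rintro rfl; simp at os), oh] at os
    interval_cases j <;> first | rfl | exact absurd os (by decide)
  have h5 := Grp.card_sup_of_inf_eq_bot (zpowers_le.2 n4) h4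
  rw [Nat.card_zpowers, Nat.card_zpowers, os, oh] at h5
  exact (show 16 = _ from h5.symm).dvd.trans <| card_dvd_of_le (sup_le (zpowers_le.2 (mem_inf.2 ⟨ya_norm J S oc hc n3, hW s (by simp)⟩))
    (zpowers_le.2 (mem_inf.2 ⟨ya_norm J S oc hc n1, hW h (by simp)⟩)))

theorem thmY1 {W : Subgroup G} (hT : W ≠ ⊤) {a u v c h f s : G} (oa : orderOf a = 37) (ou : orderOf u = 11)
    (ov : orderOf v = 11) (oc : orderOf c = 11) (h1 : Commute c u) (h2 : Commute c v) (h3 : ¬ Commute u v)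
    (oh : orderOf h = 8) (of5 : orderOf f = 5) (os : orderOf s = 2) (hs : s ≠ h ^ 4)
    (n1 : h ∈ normalizer (zpowers c : Set G)) (n2 : f ∈ normalizer (zpowers c : Set G))
    (n3 : s ∈ normalizer (zpowers c : Set G)) (n4 : s ∈ normalizer (zpowers h : Set G))
    (hW : ∀ g ∈ [a, u, v, c, h, f, s], g ∈ W) : Nat.card W = 141831360 := by
  obtain ⟨d1, d2⟩ := ya_Y1 J (W := W) ou ov oc h1 h2 h3 oh of5 os hs n1 n2 n3 n4 fun g hg =>
    hW g (by simp only [List.mem_cons] at hg ⊢; tauto)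
  exact arY1 J hT ((by norm_num : Nat.Coprime 37 1331).mul_dvd_of_dvd_of_dvd
    (oa ▸ W.orderOf_dvd_natCard (hW a (by simp))) d1) d2

theorem thmY2 {W : Subgroup G} (hT : W ≠ ⊤) {u s : G} (ou : orderOf u = 11) (os : orderOf s = 7) (hu : u ∈ W)
    (hs : s ∈ W) (h1 : Nat.card ↥(normalizer (zpowers u : Set G) ⊓ W) = 110)
    (h2 : Nat.card ↥(normalizer (zpowers s : Set G) ⊓ W) = 42) (h3 : 32 ∣ Nat.card W) : Nat.card W = 887040 := by
  obtain ⟨a1, a2⟩ := ya_count (by norm_num) ou hu h1 (by norm_num)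
  obtain ⟨b1, b2⟩ := ya_count (by norm_num) os hs h2 (by norm_num)
  exact arY2 J hT (Nat.lcm_dvd (Nat.lcm_dvd a1 b1) h3 : Nat.lcm (Nat.lcm 110 42) 32 ∣ _) a2 b2

theorem thmY3 {W : Subgroup G} (hT : W ≠ ⊤) {a b c f : G} (oa : orderOf a = 31) (ob : orderOf b = 10)
    (oc : orderOf c = 11) (of5 : orderOf f = 5) (hb : b ∈ normalizer (zpowers a : Set G))
    (hf : f ∈ normalizer (zpowers c : Set G)) (hW : ∀ g ∈ [a, b, c, f], g ∈ W)
    (h1 : Nat.card ↥(normalizer (zpowers f : Set G) ⊓ W) = 30) : Nat.card W = 163680 := by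
  obtain ⟨a1, a2⟩ := ya_full J (r := 31) (e := 10) (by decide) oa ob hb (hW a (by simp)) (hW b (by simp))
  obtain ⟨b1, b2⟩ := ya_count (by norm_num) of5 (hW f (by simp)) h1 (by norm_num)
  have hc := hW c (by simp)
  have c1 : 11 ∣ Nat.card W := oc ▸ W.orderOf_dvd_natCard hc
  refine (arY3 J hT (Nat.lcm_dvd (Nat.lcm_dvd a1 b1) c1 : Nat.lcm (Nat.lcm 310 30) 11 ∣ _) a2 b2).resolve_right
    fun ⟨e1, e2⟩ => ?_
  have c2 := (Nat.card_zpowers c).trans oc
  obtain ⟨-, k, k1, k2⟩ := t11 J (sylIn_prime (by norm_num) c2 (zpowers_le.2 hc) fun d => by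
    have := Nat.dvd_gcd d (by norm_num : 11 ^ 2 ∣ 1331)
    rw [e1] at this
    norm_num at this) c1
  have c3 := Subgroup.orderOf_dvd_natCard _ (mem_inf.2 ⟨hf, hW f (by simp)⟩)
  rw [c2] at k1 k2
  rw [e2] at k1
  rw [of5, k2] at c3
  simp only [List.mem_cons, List.not_mem_nil, or_false] at k1
  omega

theorem thmY4 {W : Subgroup G} (hT : W ≠ ⊤) {a b u : G} (oa : orderOf a = 23) (ob : orderOf b = 22)
    (ou : orderOf u = 11) (hb : b ∈ normalizer (zpowers a : Set G)) (hW : ∀ g ∈ [a, b, u], g ∈ W)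
    (h1 : Nat.card ↥(normalizer (zpowers u : Set G) ⊓ W) = 44) (h3 : 3 ∣ Nat.card W) : Nat.card W = 12144 := by
  obtain ⟨a1, a2⟩ := ya_full J (r := 23) (e := 22) (by decide) oa ob hb (hW a (by simp)) (hW b (by simp))
  obtain ⟨b1, b2⟩ := ya_count (by norm_num) ou (hW u (by simp)) h1 (by norm_num)
  exact arY4 J hT (Nat.lcm_dvd (Nat.lcm_dvd a1 b1) h3 : Nat.lcm (Nat.lcm 506 44) 3 ∣ _) a2 b2

theorem idY4 {M : Subgroup G} (hM : Nat.card M = 12144) :
    Nonempty (M ≃* GL (Fin 2) (ZMod 23) ⧸ center (GL (Fin 2) (ZMod 23))) := by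
  haveI : Fact (Nat.Prime 23) := ⟨by norm_num⟩
  obtain ⟨a, ha⟩ := exists_prime_orderOf_dvd_card' (G := M) 23 (by rw [hM]; norm_num)
  obtain ⟨P, hP⟩ := ya_syl J (r := 23) (e := 22) (by decide) ((orderOf_coe a).trans ha)
  have h1 := (loc J (r := 23) (e := 22) (by decide) P).2.1
  rw [hP, cent_zpowers] at h1
  refine PGL.pgl_of_card hM ha ?_
  rw [show centralizer ({a} : Set M) = zpowers a from le_antisymm (fun x hx => ?_)
    (zpowers_le.2 (mem_centralizer_singleton_iff.2 rfl)), Nat.card_zpowers, ha]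
  obtain ⟨k, hk⟩ := h1.le (mem_centralizer_singleton_iff.2 (congrArg Subtype.val (mem_centralizer_singleton_iff.1 hx)))
  exact ⟨k, Subtype.ext hk⟩

end CL.J4X
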