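/-
The non-local maximal subgroups of a group of Janko-four type: overgroups of `U₃(3)` (job J4Y-B).
-/
import Cfsg.Agent.Spor.J4Y0
import Cfsg.Agent.Spor.J4X37
import Cfsg.Agent.Spor.J4O2
import Cfsg.Agent.Spor.CharTools
import Cfsg.Agent.Even.Amb

set_option autoImplicit false
set_option linter.unusedSectionVars false

namespace CL.J4X

open Cfsg Subgroup CL.J4 CL.Fus CL.Spor MulAction
open scoped commutatorElement

variable {G : Type*} [Group G] [Finite G]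

namespace YB

theorem cent_DD {x : M24} (hx : x ∈ Ord.DD) (h2 : x * x = 1) (h1 : x ≠ 1) :
    Nat.card ↥(Ord.DD ⊓ centralizer {x}) ≤ 2688 := by
  have key : ∀ {a b : ℕ} (t : Fin a × Fin b → M24) (k : M24), (∀ i, t i ∈ Ord.DD) →
      (Function.Injective fun i => t i * k * (t i)⁻¹) → 330 ≤ a * b → ∀ d ∈ Ord.DD, x = d * k * d⁻¹ →
      Nat.card ↥(Ord.DD ⊓ centralizer {x}) ≤ 2688 := fun {a b} t k ht hi hc d hd e => by
    have h3 := card_eq_card_conj_mul Ord.DD x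
    have h4 := Nat.card_le_card_of_injective (β := {y // ∃ g ∈ Ord.DD, g * x * g⁻¹ = y})
      (fun i => ⟨t i * k * (t i)⁻¹, t i * d⁻¹, mul_mem (ht i) (inv_mem hd), by rw [e]; group⟩)
      fun i j e => hi (congrArg Subtype.val e)
    rw [card_stabilizer_duad duad0_card] at h3
    rw [Nat.card_prod, Nat.card_fin, Nat.card_fin] at h4
    have := Nat.mul_le_mul_right (Nat.card ↥(Ord.DD ⊓ centralizer {x})) (hc.trans h4)
    omega
  obtain ⟨d, hd, e | e | e⟩ := (Ord.cover hx h2).resolve_left h1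
  · exact key _ _ (fun i => Ord.tt_mem Ord.inD_t55 Ord.inD_t2a i.1 i.2) (fun i j e => Sum.inl.inj (Sum.inr.inj
      (Ord.enI_injective (a₁ := .inr (.inl i)) (a₂ := .inr (.inl j)) e))) (by norm_num) d hd e
  · exact key _ _ (fun i => Ord.tt_mem Ord.inD_t55 Ord.inD_t6 i.1 i.2) (fun i j e => Sum.inl.inj (Sum.inr.inj (Sum.inr.inj
      (Ord.enI_injective (a₁ := .inr (.inr (.inl i))) (a₂ := .inr (.inr (.inl j))) e)))) (by norm_num) d hd e
  · exact key _ _ (fun i => Ord.tt_mem Ord.inD_t21 Ord.inD_t66 i.1 i.2) (fun i j e => Sum.inr.inj (Sum.inr.inj (Sum.inr.inj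
      (Ord.enI_injective (a₁ := .inr (.inr (.inr i))) (a₂ := .inr (.inr (.inr j))) e)))) (by norm_num) d hd e

omit [Finite G] in
theorem inv_ne {x : G} (h : orderOf x = 3) : x⁻¹ ≠ x := fun e =>
  absurd (h ▸ orderOf_dvd_of_pow_eq_one (n := 2) (by rw [sq]; exact mul_eq_one_iff_eq_inv.2 e.symm)) (by norm_num)

omit [Finite G] in
theorem eq_one {x : G} {m n : ℕ} (h : x ^ m = 1) (h' : orderOf x ∣ n) (c : m.Coprime n) : x = 1 :=
  orderOf_eq_one_iff.1 (Nat.eq_one_of_dvd_coprimes c (orderOf_dvd_of_pow_eq_one h) h')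

theorem norm_of_comm {g x : G} (h : Commute g x) : g ∈ normalizer (zpowers x : Set G) :=
  mem_norm_zpowers (by rw [h.eq, mul_inv_cancel_right]; exact mem_zpowers x)

theorem norm_of_conj {g : G} {L : Subgroup G} (h : ∀ x ∈ L, g * x * g⁻¹ ∈ L) : g ∈ normalizer (L : Set G) :=
  mem_normalizer_of_map_conj_eq (eq_of_le_of_card_ge (by rintro _ ⟨x, hx, rfl⟩; exact h x hx) (card_cj g L).ge)

theorem pow_comm {g q : G} {r : ℕ} (hr : r.Prime) (oq : orderOf q = r) (h : g ∈ normalizer (zpowers q : Set G)) :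
    Commute (g ^ (r - 1)) q := by
  have := pow_card_eq_one' (x := (zpowers q).normalizerMonoidHom ⟨g, h⟩)
  rw [IsCyclic.card_mulAut, Nat.card_zpowers, oq, Nat.totient_prime hr, ← map_pow, ← MonoidHom.mem_ker,
    normalizerMonoidHom_ker] at this
  exact (this q (mem_zpowers q)).symm

/-- coprime action on Sylow subgroups of prime order -/
theorem exq {a : G} {L : Subgroup G} {r : ℕ} (hr : r.Prime) (ha : a ∈ normalizer (L : Set G))
    (c : (orderOf a).Coprime (Nat.card L)) (h1 : r ∣ Nat.card L) (h2 : ¬ r * r ∣ Nat.card L) :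
    ∃ q ∈ L, orderOf q = r ∧ a ∈ normalizer (zpowers q : Set G) := by
  have := Fact.mk hr
  obtain ⟨S, s1, -, s3⟩ := Grp.exists_isSylowIn_ge_le_normalizer (p := r) (zpowers_le.2 ha)
    (by rwa [Nat.card_zpowers]) (Or.inl inferInstance) bot_le IsPGroup.of_bot (by rw [normalizer_eq_top]; exact le_top)
  obtain ⟨k, hk⟩ := IsPGroup.iff_card.1 s1.isPGroup
  have h3 := Grp.card_mul_relIndex s1.le
  have h4 : Nat.card S = r := by
    rcases k with _ | _ | k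
    · exact absurd (by rwa [← h3, hk, pow_zero, one_mul] at h1) s1.not_dvd
    · exact hk.trans (pow_one r)
    · exact absurd ⟨r ^ k * S.relIndex L, by rw [← h3, hk]; ring⟩ h2
  obtain ⟨q, hq⟩ := exists_prime_orderOf_dvd_card' (G := S) r h4.symm.dvd
  rw [← orderOf_coe] at hq
  exact ⟨q, s1.le q.2, hq, by
    rw [eq_of_le_of_card_ge (zpowers_le.2 q.2) (by rw [h4, Nat.card_zpowers, hq])]; exact s3 (mem_zpowers a)⟩

/-- The configuration. -/
structure Hy (W R : Subgroup G) (y y1 h : G) : Prop where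
  hR : Nat.card R = 27
  hRW : R ≤ W
  oy : orderOf y = 3
  hy : y ∈ R
  cy : ∀ r ∈ R, Commute y r
  oy1 : orderOf y1 = 3
  hy1 : y1 ∈ R
  ny1 : y1 ∉ zpowers y
  oh : orderOf h = 8
  hh : h ∈ W
  hn : h ∈ normalizer (R : Set G)
  e1 : h * y * h⁻¹ = y⁻¹
  e2 : h ^ 4 * y1 * (h ^ 4)⁻¹ = y1⁻¹
  H27 : Nat.card ↥(normalizer (R : Set G) ⊓ W) = 216
  H6 : ∀ g ∈ W, g ∈ normalizer (zpowers (y * h ^ 4) : Set G) → g ∈ normalizer (R : Set G)
  H3 : ∀ g ∈ W, g ∈ normalizer (zpowers y1 : Set G) → Commute g (h ^ 4) → g ∈ zpowers (y * h ^ 4)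
  syl : SylIn 3 R W
  cube : ∀ r ∈ R, r ^ 3 = 1
  cen : ∀ x ∈ R, (∀ r ∈ R, Commute x r) → x ∈ zpowers y
  com : ∀ a ∈ R, ∀ b ∈ R, ⁅a, b⁆ ∈ zpowers y
  c3 : ∀ u : G, orderOf u = 3 → Nat.card (centralizer ({u} : Set G)) ∣ 443520 * 6
  c7 : ∀ q g : G, orderOf q = 7 → g ∈ normalizer (zpowers q : Set G) → Commute (g ^ 3) q

namespace Hy

variable {W R : Subgroup G} {y y1 h g x : G} (H : Hy W R y y1 h)
include H

local notation "𝔅" => normalizer (R : Set G) ⊓ W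

theorem oz : orderOf (h ^ 4) = 2 := by rw [orderOf_pow_of_dvd (by norm_num) (H.oh ▸ by norm_num), H.oh]
theorem of : orderOf (h ^ 2) = 4 := by rw [orderOf_pow_of_dvd (by norm_num) (H.oh ▸ by norm_num), H.oh]
theorem h8 : h ^ 8 = 1 := H.oh ▸ pow_orderOf_eq_one h

theorem fy : Commute (h ^ 2) y := mul_inv_eq_iff_eq_mul.1 (by
  rw [show h ^ 2 * y * (h ^ 2)⁻¹ = h * (h * y * h⁻¹) * h⁻¹ by simp only [sq, mul_inv_rev, mul_assoc], H.e1, ← conj_inv,
    H.e1, inv_inv])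

theorem zy : Commute (h ^ 4) y := by simpa only [← pow_mul] using H.fy.pow_left 2
theorem RB : R ≤ 𝔅 := le_inf le_normalizer H.hRW
theorem hB (k : ℕ) : h ^ k ∈ 𝔅 := pow_mem (mem_inf.2 ⟨H.hn, H.hh⟩) k

theorem nY (hg : g ∈ normalizer (R : Set G)) : g ∈ normalizer (zpowers y : Set G) :=
  mem_norm_zpowers (H.cen _ ((hg y).1 H.hy) fun r hr => by
    simpa [mul_assoc] using (H.cy _ ((inv_mem hg r).1 hr)).map (MulAut.conj g))

theorem odd_mem (hg : g ∈ 𝔅) (h2 : ¬ 2 ∣ orderOf g) : g ∈ R := by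
  have := Fact.mk Nat.prime_three
  refine H.syl.2.2 _ ((IsPGroup.of_card_dvd_pow (n := 3) ?_).to_sup_of_normal_right' H.syl.isPGroup (zpowers_le.2 hg.1))
    le_sup_right (sup_le (zpowers_le.2 hg.2) H.hRW) (mem_sup_left (mem_zpowers g))
  rw [Nat.card_zpowers]
  exact (((Nat.Prime.coprime_iff_not_dvd Nat.prime_two).2 h2).symm.pow_right 3).dvd_of_dvd_mul_left
    ((Subgroup.orderOf_dvd_natCard _ hg).trans H.H27.dvd)

theorem inv8 (hx : x ∈ zpowers h) (ox : orderOf x = 2) : x = h ^ 4 := by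
  obtain ⟨k, hk, rfl⟩ := ex_pow H.oh hx
  rw [orderOf_pow, H.oh] at ox
  interval_cases k <;> first | rfl | cases ox

theorem inv_conj (hx : x ∈ 𝔅) (ox : orderOf x = 2) : ∃ b ∈ 𝔅, b * x * b⁻¹ = h ^ 4 := by
  obtain ⟨b, hb, e⟩ := exists_conj_mem_sylIn (k := 1) Nat.prime_two (sylIn_of_card (k := 3) (m := 27) Nat.prime_two
    (zpowers_le.2 (pow_one h ▸ H.hB 1)) ((Nat.card_zpowers h).trans H.oh) H.H27 (by norm_num)) hx ox
  exact ⟨b, hb, H.inv8 e ((ord_conj b x).trans ox)⟩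

theorem comm_yz (hx : x ∈ zpowers (y * h ^ 4)) : Commute x y := by
  obtain ⟨k, rfl⟩ := hx
  exact ((Commute.refl y).mul_left H.zy).zpow_left k

theorem CRz (hx : x ∈ R) (c : Commute x (h ^ 4)) : x ∈ zpowers y := by
  obtain ⟨k, hk⟩ := H.com _ H.hy1 _ hx
  have h1 : h ^ 4 * ⁅y1, x⁆ * (h ^ 4)⁻¹ = ⁅y1, x⁆ := hk ▸ mul_inv_eq_iff_eq_mul.2 (H.zy.zpow_right k).eq
  have h2 : y1 * ⁅y1, x⁆ * y1⁻¹ = ⁅y1, x⁆ := hk ▸ mul_inv_eq_iff_eq_mul.2 ((H.cy _ H.hy1).zpow_left k).eq.symm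
  rw [conjugate_commutatorElement, H.e2, ← c.eq, mul_inv_cancel_right] at h1
  have h3 : ⁅y1, x⁆ ^ 2 = 1 := by
    rw [sq, ← eq_inv_iff_mul_eq_one]
    refine h2.symm.trans ?_
    conv_lhs => rw [← h1]
    group
  obtain ⟨l, hl⟩ := H.H3 x (H.hRW hx) (norm_of_comm (commutatorElement_eq_one_iff_commute.1
    (eq_one h3 (H.oy ▸ orderOf_dvd_of_mem_zpowers ⟨k, hk⟩) (by norm_num))).symm) c
  have h4 : x = (y ^ 4) ^ l := by
    rw [← mul_one (y ^ 4), ← one_pow 2, ← H.h8, ← pow_mul, show 8 * 2 = 4 * 4 from rfl, pow_mul, ← H.zy.symm.mul_pow,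
      ← zpow_natCast, ← zpow_mul, mul_comm, zpow_mul, zpow_natCast, show (y * h ^ 4) ^ l = x from hl, pow_succ,
      H.cube x hx, one_mul]
  exact h4 ▸ zpow_mem (pow_mem (mem_zpowers y) 4) l

theorem CB (hx : x ∈ R) (hx' : x ∉ zpowers y) (hg : g ∈ 𝔅) (c : Commute g x) : g ∈ R := H.odd_mem hg fun d => by
  have := Fact.mk Nat.prime_two
  obtain ⟨⟨_, k, rfl⟩, ht⟩ := exists_prime_orderOf_dvd_card' (G := zpowers g) 2 (by rwa [Nat.card_zpowers])
  obtain ⟨b, hb, e⟩ := H.inv_conj (zpow_mem hg k) ((orderOf_coe _).trans ht)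
  exact hx' ((H.nY hb.1 x).2 (H.CRz ((hb.1 x).1 hx) (e ▸ (c.zpow_left k).symm.map (MulAut.conj b))))

theorem cardE : Nat.card ↥(R ⊓ centralizer {y1}) = 9 := by
  have h1 := card_lt_of_lt (lt_of_le_of_ne (zpowers_le.2 ⟨H.hy, mem_centralizer_singleton_iff.2 (H.cy _ H.hy1)⟩ :
    zpowers y ≤ R ⊓ centralizer {y1}) fun e => H.ny1 (e ▸ ⟨H.hy1, mem_centralizer_singleton_iff.2 rfl⟩))
  have h2 := card_lt_of_lt (lt_of_le_of_ne (inf_le_left : R ⊓ centralizer {y1} ≤ R) fun e => H.ny1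
    (H.cen _ H.hy1 fun r hr => (mem_centralizer_singleton_iff.1 (e.ge hr).2).symm))
  obtain ⟨k, hk, e⟩ := (Nat.dvd_prime_pow Nat.prime_three (m := 3)).1
    (H.hR ▸ card_dvd_of_le (inf_le_left : R ⊓ centralizer {y1} ≤ R))
  rw [Nat.card_zpowers, H.oy, e] at h1
  rw [H.hR, e] at h2
  rw [e]
  interval_cases k <;> simp_all

theorem trans (hx : x ∈ R) (hx' : x ∉ zpowers y) : ∃ b ∈ 𝔅, b * y1 * b⁻¹ = x := by
  have h1 := card_eq_card_conj_mul (𝔅) y1
  rw [H.H27, show 𝔅 ⊓ centralizer {y1} = R ⊓ centralizer {y1} from le_antisymm (fun g hg =>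
    ⟨H.CB H.hy1 H.ny1 hg.1 (mem_centralizer_singleton_iff.1 hg.2), hg.2⟩) (inf_le_inf_right _ H.RB), H.cardE] at h1
  have h2 := card_diff (zpowers_le.2 H.hy)
  rw [Nat.card_zpowers, H.oy, H.hR, Nat.card_coe_set_eq] at h2
  exact (Set.eq_of_subset_of_ncard_le (s := {x | ∃ g ∈ 𝔅, g * y1 * g⁻¹ = x}) (t := (R : Set G) \ zpowers y) (by
    rintro _ ⟨b, hb, rfl⟩
    exact ⟨(hb.1 _).1 H.hy1, fun e => H.ny1 ((H.nY hb.1 _).2 e)⟩)
    (by change _ ≤ Nat.card {x // ∃ g ∈ 𝔅, g * y1 * g⁻¹ = x}; omega)).ge ⟨hx, hx'⟩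

theorem inB (hg : g ∈ W) (c : Commute g y) (c' : Commute g (h ^ 4)) : g ∈ 𝔅 :=
  ⟨H.H6 g hg (norm_of_comm (c.mul_right c')), hg⟩

theorem dec (hg : g ∈ W) (c : Commute g y) (c' : Commute g (h ^ 4)) :
    ∃ u ∈ zpowers y, ∃ v ∈ zpowers (h ^ 2), u * v = g := by
  have hh : zpowers h ≤ 𝔅 := zpowers_le.2 ⟨H.hn, H.hh⟩
  have e : R ⊔ zpowers h = 𝔅 := eq_of_le_of_card_ge (sup_le H.RB hh) (H.H27 ▸ Nat.le_of_dvd Nat.card_pos
    (Nat.Coprime.mul_dvd_of_dvd_of_dvd (by norm_num : Nat.Coprime 27 8) (H.hR ▸ card_dvd_of_le le_sup_left)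
      (H.oh ▸ Nat.card_zpowers h ▸ card_dvd_of_le le_sup_right)))
  obtain ⟨u, hu, v, hv, rfl⟩ := (Even.mem_sup_nl (hh.trans inf_le_left)).1 (e.ge (H.inB hg c c'))
  obtain ⟨k, -, rfl⟩ := ex_pow H.oh hv
  refine ⟨u, H.CRz hu (by simpa using c'.mul_left (Commute.pow_pow_self h k 4).inv_left), _, ?_, rfl⟩
  obtain ⟨l, rfl | rfl⟩ := Nat.even_or_odd' k
  · exact pow_mul h 2 l ▸ pow_mem (mem_zpowers _) l
  · have : Commute h y := by
      simpa [pow_succ, pow_mul] using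
        (H.fy.pow_left l).inv_left.mul_left ((H.cy u hu).symm.inv_left.mul_left c)
    exact absurd (H.e1.symm.trans (by rw [this.eq, mul_inv_cancel_right])) (inv_ne H.oy)

theorem K_le (hg : g ∈ W) (c : Commute g y) : g ∈ 𝔅 := by
  have := Fact.mk Nat.prime_two
  have := Fact.mk Nat.prime_three
  set K := centralizer {y} ⊓ W
  have cf := (Nat.card_zpowers _).trans H.of
  have hf : h ^ 2 ∈ K := ⟨mem_centralizer_singleton_iff.2 H.fy, pow_mem H.hh 2⟩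
  have hN : ∀ g ∈ K, g ∈ normalizer (zpowers (h ^ 2) : Set G) → Commute g (h ^ 4) := fun g _ hg =>
    mul_inv_eq_iff_eq_mul.1 (H.inv8 (zpowers_le.2 (pow_mem (mem_zpowers h) 2)
      ((hg _).1 (pow_mul h 2 2 ▸ pow_mem (mem_zpowers _) 2))) ((ord_conj _ _).trans H.oz))
  have hT : SylIn 2 (zpowers (h ^ 2)) K := syl_of_norm (B := K ⊓ centralizer {h ^ 4})
    ⟨zpowers_le.2 ⟨hf, mem_centralizer_singleton_iff.2 (Commute.pow_pow_self h 2 4)⟩, IsPGroup.of_card (n := 2) cf,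
      fun Z hZ h1 h2 g hg => by
        obtain ⟨u, hu, v, hv, rfl⟩ := H.dec (h2 hg).1.2 (mem_centralizer_singleton_iff.1 (h2 hg).1.1)
          (mem_centralizer_singleton_iff.1 (h2 hg).2)
        obtain ⟨n, hn⟩ := hZ ⟨u, (mul_mem_cancel_right (h1 hv)).1 hg⟩
        rwa [eq_one (x := u) (congrArg Subtype.val hn) (H.oy ▸ orderOf_dvd_of_mem_zpowers hu)
          (Nat.Coprime.pow_left n (by norm_num)), one_mul]⟩
    (zpowers_le.2 hf) fun g hg e => ⟨hg, mem_centralizer_singleton_iff.2 (hN g hg e)⟩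
  obtain ⟨O, a1, a2, -, a4, a5⟩ := burn hT fun g hg e x ⟨k, hk⟩ => by
    obtain ⟨_, ⟨i, rfl⟩, _, ⟨j, rfl⟩, rfl⟩ := H.dec hg.2 (mem_centralizer_singleton_iff.1 hg.1) (hN g hg e)
    exact hk ▸ ((H.fy.zpow_zpow k i).mul_right (Commute.zpow_zpow_self _ k j)).eq
  have co := (Nat.Prime.coprime_iff_not_dvd Nat.prime_two).2 a4
  have RO : R ≤ O := fun r hr => a5 r ⟨mem_centralizer_singleton_iff.2 (H.cy r hr).symm, H.hRW hr⟩
    (Nat.Coprime.coprime_dvd_left (orderOf_dvd_of_pow_eq_one (H.cube r hr)) (by norm_num))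
  have d1 : Nat.card O ∣ 10395 := (co.symm.pow_right 8).dvd_of_dvd_mul_left
    ((card_dvd_of_le (a1.trans inf_le_left)).trans (H.c3 y H.oy))
  have key : ∀ r k, r.Prime → r - 1 = 8 * k + 2 ∨ r - 1 = 8 * k + 6 → ¬ r * r ∣ 10395 → ¬ r ∣ 216 → ¬ r ∣ Nat.card O :=
    fun r k hr e h2 h3 d => by
      obtain ⟨q, hq, oq, e'⟩ := exq hr (a2 hf) (H.of ▸ co.pow_left 2) d fun d => h2 (d.trans d1)
      have h4 := pow_comm hr oq e'
      have h5 : (h ^ 2) ^ (r - 1) = h ^ 4 := by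
        rcases e with e | e <;> rw [e, ← pow_mul]
        · rw [show 2 * (8 * k + 2) = 8 * (2 * k) + 4 by ring, pow_add, pow_mul, H.h8, one_pow, one_mul]
        · rw [show 2 * (8 * k + 6) = 8 * (2 * k + 1) + 4 by ring, pow_add, pow_mul, H.h8, one_pow, one_mul]
      exact h3 (oq ▸ H.H27 ▸ Subgroup.orderOf_dvd_natCard _
        (H.inB (a1 hq).2 (mem_centralizer_singleton_iff.1 (a1 hq).1) (h5 ▸ h4).symm))
  obtain ⟨m, m1, m2⟩ := count (H.syl.mono RO (a1.trans inf_le_right))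
  rw [show normalizer (R : Set G) ⊓ O = R from le_antisymm (fun g hg => H.odd_mem ⟨hg.1, (a1 hg.2).2⟩
    fun d => a4 (d.trans (O.orderOf_dvd_natCard hg.2))) (le_inf le_normalizer RO), H.hR] at m1
  have k7 := key 7 0 (by norm_num) (by norm_num) (by norm_num) (by norm_num)
  have k11 := key 11 1 (by norm_num) (by norm_num) (by norm_num) (by norm_num)
  rw [m1] at d1 k7 k11
  have := (by decide +kernel : ∀ m ∈ Nat.divisors 385, m % 3 = 1 → ¬ 7 ∣ 27 * m → ¬ 11 ∣ 27 * m → m = 1) m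
    (Nat.mem_divisors.2 ⟨Nat.dvd_of_mul_dvd_mul_left (by norm_num : 0 < 27) d1, by norm_num⟩) m2 k7 k11
  exact ⟨eq_of_le_of_card_ge RO (by rw [m1, this, H.hR]) ▸ a2 ⟨mem_centralizer_singleton_iff.2 c, hg⟩, hg⟩

theorem conj_R (hg : g ∈ W) (hx : x ∈ R) (c : Commute (g * x * g⁻¹) y) : g * x * g⁻¹ ∈ R :=
  H.odd_mem (H.K_le (mul_mem (mul_mem hg (H.hRW hx)) (inv_mem hg)) c) fun d => absurd
    (d.trans ((ord_conj g x).dvd.trans (orderOf_dvd_of_pow_eq_one (H.cube x hx)))) (by norm_num)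

theorem N_le (hg : g ∈ W) (e : g ∈ normalizer (zpowers y : Set G)) : g ∈ 𝔅 :=
  ⟨norm_of_conj fun r hr => H.conj_R hg hr (mem_centralizer_singleton_iff.1
    (conj_mem_cent e (mem_centralizer_singleton_iff.2 (H.cy r hr).symm))), hg⟩

theorem NF (hg : g ∈ W) (hx : g⁻¹ * y * g⁻¹⁻¹ ∈ R) : g ∈ 𝔅 := by
  by_cases e : g⁻¹ * y * g⁻¹⁻¹ ∈ zpowers y
  · exact inv_mem_iff.1 (H.N_le (inv_mem hg) (mem_norm_zpowers e))
  obtain ⟨b, hb, e1⟩ := H.trans hx e
  have h1 : g * y * g⁻¹ ∈ R := H.conj_R hg H.hy (by simpa [mul_assoc] using (H.cy _ hx).map (MulAut.conj g))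
  have h2 : g * y * g⁻¹ ∉ zpowers y := fun e' => e ((inv_mem (mem_norm_zpowers e') y).1 (mem_zpowers y))
  have h3 : Commute (b * h ^ 4 * b⁻¹) y := mem_centralizer_singleton_iff.1
    (conj_mem_cent (H.nY hb.1) (mem_centralizer_singleton_iff.2 H.zy))
  have e2 : y = g * (b * y1 * b⁻¹) * g⁻¹ := by rw [e1]; group
  have h4 : g * (b * h ^ 4 * b⁻¹) * g⁻¹ * y * (g * (b * h ^ 4 * b⁻¹) * g⁻¹)⁻¹ = y⁻¹ := by
    rw [e2]
    calc _ = g * (b * (h ^ 4 * y1 * (h ^ 4)⁻¹) * b⁻¹) * g⁻¹ := by group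
      _ = _ := by rw [H.e2]; group
  have h5 := H.CB h1 h2 (H.N_le (mul_mem (mul_mem hg (mul_mem (mul_mem hb.2 (H.hB 4).2) (inv_mem hb.2))) (inv_mem hg))
    (mem_norm_zpowers (h4 ▸ inv_mem (mem_zpowers y)))) (h3.map (MulAut.conj g))
  exact absurd (h4.symm.trans (by rw [← (H.cy _ h5).eq, mul_inv_cancel_right])) (inv_ne H.oy)

theorem C1 (hg : g ∈ W) (c : Commute g y1) : g ∈ R := by
  have := Fact.mk Nat.prime_three
  set K := centralizer {y1} ⊓ W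
  have hy : y ∈ R ⊓ centralizer {y1} := ⟨H.hy, mem_centralizer_singleton_iff.2 (H.cy _ H.hy1)⟩
  have le : R ⊓ centralizer {y1} ≤ K := fun g hg => ⟨hg.2, H.hRW hg.1⟩
  have hN : ∀ g ∈ K, g ∈ normalizer ((R ⊓ centralizer {y1} : Subgroup G) : Set G) → g ∈ R ⊓ centralizer {y1} :=
    fun g hg e => ⟨H.CB H.hy1 H.ny1 (H.NF hg.2 ((inv_mem e y).1 hy).1) (mem_centralizer_singleton_iff.1 hg.1), hg.1⟩
  obtain ⟨L, a1, a2, a3, a4, a5⟩ := burn (syl_of_norm (sylIn_self (IsPGroup.of_card (p := 3) (n := 2) H.cardE)) le hN)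
    fun g hg e x hx => congrArg Subtype.val
      ((IsPGroup.isMulCommutative_of_card_eq_prime_sq (p := 3) H.cardE).is_comm.comm ⟨x, hx⟩ ⟨g, hN g hg e⟩)
  have co := (Nat.Prime.coprime_iff_not_dvd Nat.prime_three).2 a4
  have cy : ∀ l ∈ L, Commute l y → l = 1 := fun l hl c => eq_one (H.cube l (H.CB H.hy1 H.ny1 (H.K_le (a1 hl).2 c)
    (mem_centralizer_singleton_iff.1 (a1 hl).1))) (L.orderOf_dvd_natCard hl) co
  have cz : ∀ l ∈ L, Commute l (h ^ 4) → l = 1 := fun l hl c => cy l hl (H.comm_yz (H.H3 l (a1 hl).2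
    (norm_of_comm (mem_centralizer_singleton_iff.1 (a1 hl).1)) c))
  have hz : ∀ l ∈ L, h ^ 4 * l * (h ^ 4)⁻¹ ∈ L := fun l hl => a5 _ ⟨conj_mem_cent (mem_norm_zpowers
    (H.e2 ▸ inv_mem (mem_zpowers _))) (a1 hl).1, W.mul_mem (W.mul_mem (H.hB 4).2 (a1 hl).2) (W.inv_mem (H.hB 4).2)⟩
    (by rw [ord_conj]; exact co.symm.coprime_dvd_left (L.orderOf_dvd_natCard hl))
  have h2 := El.card_mod Nat.prime_two (H.oz ▸ pow_orderOf_eq_one _) hz
  rw [show L ⊓ centralizer {h ^ 4} = ⊥ from eq_bot_iff.2 fun l hl => cz l hl.1 (mem_centralizer_singleton_iff.1 hl.2),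
    card_bot] at h2
  have c2 : Nat.Coprime 2 (Nat.card L) := (Nat.Prime.coprime_iff_not_dvd Nat.prime_two).2 fun d => by
    unfold Nat.ModEq at h2; omega
  have d1 : Nat.card L ∣ 385 := (co.symm.pow_right 3).dvd_of_dvd_mul_left ((c2.symm.pow_right 8).dvd_of_dvd_mul_left
    ((card_dvd_of_le (a1.trans inf_le_left)).trans (H.c3 y1 H.oy1)))
  have key : ∀ r k, r.Prime → r - 1 = 3 * k + 1 → ¬ r * r ∣ 385 → ¬ r ∣ Nat.card L := fun r k hr e h2 d => by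
    obtain ⟨q, hq, oq, e'⟩ := exq hr (a2 (le hy)) (H.oy ▸ co) d fun d => h2 (d.trans d1)
    have h4 := pow_comm hr oq e'
    rw [e, pow_succ, pow_mul, H.cube y H.hy, one_pow, one_mul] at h4
    exact hr.one_lt.ne (by rw [← oq, cy q hq h4.symm, orderOf_one])
  have k7 : ¬ 7 ∣ Nat.card L := fun d => by
    obtain ⟨q, hq, oq, e'⟩ := exq (by norm_num) (norm_of_conj hz) (H.oz ▸ c2) d fun d => absurd (d.trans d1) (by norm_num)
    have h4 := H.c7 q _ oq e'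
    rw [← pow_mul, show 4 * 3 = 8 + 4 from rfl, pow_add, H.h8, one_mul] at h4
    rw [cz q hq h4.symm, orderOf_one] at oq
    cases oq
  rw [(by decide +kernel : ∀ m ∈ Nat.divisors 385, ¬ 5 ∣ m → ¬ 7 ∣ m → ¬ 11 ∣ m → m = 1) _
    (Nat.mem_divisors.2 ⟨d1, by norm_num⟩) (key 5 1 (by norm_num) rfl (by norm_num)) k7
    (key 11 3 (by norm_num) rfl (by norm_num)), one_mul] at a3
  exact ((eq_of_le_of_card_ge le a3.le).ge ⟨mem_centralizer_singleton_iff.2 c, hg⟩).1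

theorem C1' {b : G} (hb : b ∈ W) (hg : g ∈ W) (c : Commute g (b * y1 * b⁻¹)) : b⁻¹ * g * b⁻¹⁻¹ ∈ R :=
  H.C1 (mul_mem (mul_mem (inv_mem hb) hg) (inv_mem (inv_mem hb))) (by
    simpa [mul_assoc] using c.map (MulAut.conj b⁻¹))

theorem CW (hx : x ∈ R) (h1 : x ≠ 1) (hg : g ∈ W) (c : Commute g x) : g ∈ 𝔅 := by
  by_cases e : x ∈ zpowers y
  · obtain ⟨k, hk⟩ : y ∈ zpowers x := (eq_of_le_of_card_ge (zpowers_le.2 e) (by
      have := Fact.mk Nat.prime_three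
      rw [Nat.card_zpowers, Nat.card_zpowers, H.oy, orderOf_eq_prime (H.cube x hx) h1])).ge (mem_zpowers y)
    exact H.K_le hg (hk ▸ c.zpow_right k)
  · obtain ⟨b, hb, rfl⟩ := H.trans hx e
    exact H.RB ((mem_normalizer_iff.1 (Subgroup.inv_mem _ hb.1) g).2 (H.C1' hb.2 hg c))

theorem card_mod : Nat.card W / 216 % 27 = 1 := by
  have := Fact.mk Nat.prime_three
  obtain ⟨m, m1, m2⟩ := count_ti H.syl (by rw [H.hR]; norm_num) fun g hg x hx h1 e =>
    inv_mem_iff.1 (H.NF (inv_mem hg) (by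
      rw [inv_inv]
      exact H.odd_mem (H.CW e (by rwa [Ne, conj_eq_one_iff]) (mul_mem (mul_mem hg (H.hRW H.hy)) (inv_mem hg))
        ((H.cy x hx).map (MulAut.conj g))) (by rw [ord_conj, H.oy]; norm_num))).1
  rw [m1, H.H27, Nat.mul_div_cancel_left _ (by norm_num), ← H.hR, m2]

theorem cent3 {u : G} (hu : u ∈ W) (ou : orderOf u = 3) (hg : g ∈ W) (c : Commute g u) : orderOf g ∣ 216 := by
  obtain ⟨b, hb, e⟩ := exists_conj_mem_sylIn (k := 1) Nat.prime_three H.syl hu ou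
  exact ord_conj b g ▸ H.H27 ▸ Subgroup.orderOf_dvd_natCard _ (H.CW e (by
    rw [Ne, conj_eq_one_iff]; rintro rfl; simp at ou) (mul_mem (mul_mem hb hg) (inv_mem hb)) (c.map (MulAut.conj b)))

end Hy

end YB

open YB

variable [IsSimpleGroup G] (J : JM G)
include J

theorem card5376 {y z : G} (oy : orderOf y = 3) (oz : orderOf z = 2) (h : z * y * z⁻¹ = y⁻¹) :
    Nat.card ↥(normalizer (zpowers y : Set G) ⊓ centralizer {z}) ≤ 5376 := by
  wlog e : y = J.p generalizing y z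
  · obtain ⟨a, ha⟩ := isConj_iff.1 (J.isConj_p oy)
    refine le_trans ?_ (this (z := a * z * a⁻¹) J.orderOf_p ((ord_conj a z).trans oz)
      (by rw [← ha, conj_inv (a := y), ← h]; group) rfl)
    rw [← card_cj a]
    refine card_le_of_le ?_
    rintro _ ⟨g, hg, rfl⟩
    refine ⟨mem_norm_zpowers ?_, mem_centralizer_singleton_iff.2
      ((show Commute g z from mem_centralizer_singleton_iff.1 hg.2).map (MulAut.conj a))⟩
    obtain ⟨k, hk⟩ := (hg.1 y).1 (mem_zpowers y)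
    exact ⟨k, by simp only [← ha, conj_zpow, show y ^ k = _ from hk]; simp [mul_assoc]⟩
  subst e
  have hz : z ∈ J.Np := let h := mem_norm_zpowers (h ▸ inv_mem (mem_zpowers _)); ⟨J.norm_P h, h⟩
  have nc : ¬ Commute z J.p := fun c => inv_ne oy (h.symm.trans (by rw [c.eq, mul_inv_cancel_right]))
  let E : Subgroup G := J.Np ⊓ ((centralizer {J.π ⟨z, hz.1⟩}).comap J.π).map J.H.subtype
  have h1 : zpowers (J.z * J.p) ≤ E := fun g hg => ⟨J.K0_le_K (J.zp_mem_K0 hg), ⟨g, (J.zp_mem_K0 hg).1⟩,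
    mem_comap.2 (by rw [J.π_zp hg]; exact one_mem _), rfl⟩
  have h2 := J.card_of_le_Np h1 inf_le_left
  have h3 : Nat.card (J.im E) ≤ 2688 := (card_le_of_le fun x hx => by
    obtain ⟨_, ⟨-, g, hg, rfl⟩, _, rfl⟩ := J.mem_im.1 hx
    exact ⟨J.π_mem _, hg⟩).trans (cent_DD (J.π_mem ⟨z, hz.1⟩) (by
      rw [← map_mul]
      exact (congrArg J.π (Subtype.ext ((sq z).symm.trans (oz ▸ pow_orderOf_eq_one z)))).trans (map_one _)) fun e => by
        obtain ⟨i, j, e⟩ := HM.ker_K hz e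
        exact nc (mem_centralizer_singleton_iff.1 (e ▸ J.pz_mem_K0 i j).2))
  have h4 := Grp.card_sup_mul_card_inf (inf_le_left : normalizer (zpowers J.p : Set G) ⊓ centralizer {z} ≤ _)
  rw [show normalizer (zpowers J.p : Set G) ⊓ centralizer {z} ⊓ zpowers J.p = ⊥ from eq_bot_iff.2 fun g hg => by
    by_contra h1
    have := Fact.mk Nat.prime_three
    obtain ⟨k, hk⟩ : J.p ∈ zpowers g := (eq_of_le_of_card_ge (zpowers_le.2 hg.2) (by
      rw [Nat.card_zpowers, Nat.card_zpowers, oy, orderOf_eq_prime (orderOf_dvd_iff_pow_eq_one.1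
        (oy ▸ orderOf_dvd_of_mem_zpowers hg.2)) h1])).ge (mem_zpowers _)
    exact nc (hk ▸ (Commute.zpow_left (mem_centralizer_singleton_iff.1 hg.1.2) k).symm),
    card_bot, Nat.card_zpowers, oy] at h4
  have h5 := card_le_of_le (sup_le (fun g hg => ⟨⟨J.norm_P hg.1, hg.1⟩, ⟨g, J.norm_P hg.1⟩,
    mem_centralizer_singleton_iff.2 (by
      rw [← map_mul, ← map_mul]; exact congrArg J.π (Subtype.ext (mem_centralizer_singleton_iff.1 hg.2))), rfl⟩)
    (zpowers_le.2 (h1 (by simpa using J.pz_mem_zp 1 0))) :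
      normalizer (zpowers J.p : Set G) ⊓ centralizer {z} ⊔ zpowers J.p ≤ E)
  omega

theorem thmY5 {W R : Subgroup G} (hT : W ≠ ⊤) {y y1 h s m : G} (hR : Nat.card R = 27) (hRW : R ≤ W)
    (oy : orderOf y = 3) (hy : y ∈ R) (cy : ∀ r ∈ R, Commute y r) (oy1 : orderOf y1 = 3) (hy1 : y1 ∈ R)
    (ny1 : y1 ∉ zpowers y) (oh : orderOf h = 8) (hh : h ∈ W) (hn : h ∈ normalizer (R : Set G))
    (e1 : h * y * h⁻¹ = y⁻¹) (e2 : h ^ 4 * y1 * (h ^ 4)⁻¹ = y1⁻¹)
    (H27 : Nat.card ↥(normalizer (R : Set G) ⊓ W) = 216)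
    (H6 : ∀ g ∈ W, g ∈ normalizer (zpowers (y * h ^ 4) : Set G) → g ∈ normalizer (R : Set G))
    (H3 : ∀ g ∈ W, g ∈ normalizer (zpowers y1 : Set G) → Commute g (h ^ 4) → g ∈ zpowers (y * h ^ 4))
    (os : orderOf s = 7) (hs : s ∈ W) (hm : m ∈ W) (n7 : m * y1 * m⁻¹ ∈ normalizer (zpowers s : Set G))
    (_c7 : ¬ Commute (m * y1 * m⁻¹) s) : Nat.card W = 6048 ∧ ∀ g ∈ W, Commute g y1 → g ∈ R := by
  have := Fact.mk Nat.prime_three
  have : Fact (Nat.Prime 7) := ⟨by norm_num⟩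
  have : Fact (Nat.Prime 11) := ⟨by norm_num⟩
  obtain ⟨s1, -, s3⟩ := r27 J hR
  obtain ⟨a, -, ea⟩ := s1.exists_map_conj_eq J.sylIn_R27
  have cen : ∀ x : R, x ∈ center R → (x : G) ∈ zpowers y := fun x hx => by
    obtain ⟨k, hk⟩ := (eq_top_of_card_eq (zpowers (⟨⟨y, hy⟩, mem_center_iff.2 fun g => Subtype.ext (cy _ g.2).eq.symm⟩ :
      center R)) (by rw [Nat.card_zpowers, s3, ← orderOf_coe, ← orderOf_coe, oy])).ge (mem_top ⟨x, hx⟩)
    exact ⟨k, congrArg (fun u : center R => ((u : R) : G)) hk⟩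
  have idx : ∀ q : G, orderOf q = 7 →
      (centralizer (zpowers q : Set G)).relIndex (normalizer (zpowers q : Set G)) = 3 := fun q oq => by
    have := Grp.card_mul_relIndex (centralizer_le_normalizer (zpowers q : Set G))
    rw [(J.toNM.seven _ ((Nat.card_zpowers _).trans oq)).2.2.1, mul_comm 3] at this
    exact Nat.eq_of_mul_eq_mul_left Nat.card_pos this
  have H : Hy W R y y1 h := ⟨hR, hRW, oy, hy, cy, oy1, hy1, ny1, oh, hh, hn, e1, e2, H27, H6, H3, s1.mono hRW le_top,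
    fun r hr => by
      obtain ⟨x, hx, rfl⟩ := ea.ge hr
      rw [← map_pow, J.R27_cube hx, map_one],
    fun x hx c => cen ⟨x, hx⟩ (mem_center_iff.2 fun g => Subtype.ext (c _ g.2).eq.symm),
    fun u hu v hv => cen ⁅(⟨u, hu⟩ : R), (⟨v, hv⟩ : R)⁆ (by
      obtain ⟨φ⟩ := cj_equiv a J.R27
      have : IsExtraspecial 3 R := ea ▸ Grp.extra_of_mulEquiv J.R27_extra.1 φ
      exact this.1.2.2.le (commutator_mem_commutator (mem_top _) (mem_top _))),
    fun u => card_cent3 J, fun q g oq hg => by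
      have h5 := pow_index_mem ((centralizer (zpowers q : Set G)).subgroupOf (normalizer (zpowers q : Set G))) ⟨g, hg⟩
      rw [← relIndex, idx q oq] at h5
      exact (h5 q (mem_zpowers q)).symm⟩
  refine ⟨?_, fun g => H.C1⟩
  obtain ⟨h49, -, h2, h3⟩ := J.toNM.seven _ ((Nat.card_zpowers _).trans os)
  have o7 := (ord_conj m y1).trans oy1
  have w7 := mul_mem (mul_mem hm (hRW hy1)) (inv_mem hm)
  set C := centralizer (zpowers s : Set G) ⊓ W
  have d1 : Nat.card C ∣ 840 := (card_dvd_of_le inf_le_left).trans (dvd_of_eq (by omega))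
  have n3 : ¬ 3 ∣ Nat.card C := fun d => by
    obtain ⟨u, hu⟩ := exists_prime_orderOf_dvd_card' 3 d
    exact absurd (os ▸ H.cent3 u.2.2 ((orderOf_coe u).trans hu) hs (u.2.1 s (mem_zpowers s))) (by norm_num)
  have co := (Nat.Prime.coprime_iff_not_dvd Nat.prime_three).2 n3
  have nC : ∀ x ∈ C, m * y1 * m⁻¹ * x * (m * y1 * m⁻¹)⁻¹ ∈ C := fun x hx =>
    ⟨cent_zpowers s ▸ conj_mem_cent n7 (cent_zpowers s ▸ hx.1), W.mul_mem (W.mul_mem w7 hx.2) (W.inv_mem w7)⟩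
  have p3 : (m * y1 * m⁻¹) ^ 3 = 1 := o7 ▸ pow_orderOf_eq_one _
  have n5 : ¬ 5 ∣ Nat.card C := fun d => by
    obtain ⟨q, hq, oq, e⟩ := exq Nat.prime_five (norm_of_conj nC) (o7 ▸ co) d fun d => absurd (d.trans d1) (by norm_num)
    have h4 := YB.pow_comm Nat.prime_five oq e
    rw [show 5 - 1 = 3 + 1 from rfl, pow_succ, p3, one_mul] at h4
    exact absurd (oq ▸ H.cent3 w7 o7 hq.2 h4.symm) (by norm_num)
  have h4 := El.card_mod Nat.prime_three p3 nC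
  rw [show C ⊓ centralizer {m * y1 * m⁻¹} = ⊥ from eq_bot_iff.2 fun g hg => eq_one (m := 3) (by
    have := H.cube _ (H.C1' hm hg.1.2 (mem_centralizer_singleton_iff.1 hg.2))
    rwa [conj_pow, conj_eq_one_iff] at this) (C.orderOf_dvd_natCard hg.1) co, card_bot] at h4
  have sC : zpowers s ≤ C := zpowers_le.2 ⟨cent_zpowers s ▸ mem_centralizer_singleton_iff.2 rfl, hs⟩
  have h5 := (by decide +kernel : ∀ c ∈ Nat.divisors 840, 7 ∣ c → ¬ 5 ∣ c → c % 3 = 1 → c = 7 ∨ c = 28) _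
    (Nat.mem_divisors.2 ⟨d1, by norm_num⟩) (os ▸ C.orderOf_dvd_natCard (sC (mem_zpowers s))) n5 h4
  have h6 := Grp.card_mul_relIndex (inf_le_inf_right W (centralizer_le_normalizer (zpowers s : Set G)))
  have h7 : C.relIndex (normalizer (zpowers s : Set G) ⊓ W) = 3 := by
    refine le_antisymm ?_ (Nat.le_of_dvd (Nat.pos_of_ne_zero index_ne_zero_of_finite) (co.dvd_of_dvd_mul_left
      (h6 ▸ o7 ▸ Subgroup.orderOf_dvd_natCard _ (mem_inf.2 ⟨n7, w7⟩))))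
    rw [show C = centralizer (zpowers s : Set G) ⊓ (normalizer (zpowers s : Set G) ⊓ W) by
      rw [← inf_assoc, inf_of_le_left (centralizer_le_normalizer _)], inf_relIndex_right, ← idx s os]
    exact relIndex_le_of_le_right inf_le_left index_ne_zero_of_finite
  obtain ⟨n, n1, n2⟩ := count (p := 7) (sylIn_of_not_dvd (zpowers_le.2 hs)
    (IsPGroup.of_card (n := 1) ((Nat.card_zpowers s).trans os)) fun d => h49 (Dvd.dvd.trans (by
      rw [← Grp.card_mul_relIndex (zpowers_le.2 hs), Nat.card_zpowers, os]; exact mul_dvd_mul_left 7 d)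
      (card_subgroup_dvd_card W)))
  rw [← h6, h7] at n1
  refine (arY5 J hT (Nat.Coprime.mul_dvd_of_dvd_of_dvd (by norm_num : Nat.Coprime 216 7)
    (H27 ▸ card_dvd_of_le inf_le_right) (os ▸ W.orderOf_dvd_natCard hs)) H.card_mod
    (h5.imp (fun e => by rw [n1, e]; omega) fun e => by rw [n1, e]; omega)).resolve_right fun ⟨g1, g2⟩ => ?_
  obtain ⟨X, hX⟩ := exists_sylIn 11 W
  obtain ⟨x1, k, x2, x3⟩ := t11 J hX (g1 ▸ Nat.gcd_dvd_left _ _)
  rw [g1] at x1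
  rw [x1, g2, List.mem_singleton] at x2
  obtain ⟨u, hu⟩ := exists_prime_orderOf_dvd_card' 3 (show 3 ∣ _ by rw [x3, x2]; exact dvd_mul_left _ _)
  obtain ⟨q, hq⟩ := exists_prime_orderOf_dvd_card' (G := X) 11 x1.symm.dvd
  rw [← orderOf_coe] at hu hq
  have h8 := YB.pow_comm (g := (u : G)) (r := 11) (by norm_num) hq (by
    rw [eq_of_le_of_card_ge (zpowers_le.2 q.2) (by rw [x1, Nat.card_zpowers, hq])]; exact u.2.1)
  rw [show 11 - 1 = 3 * 3 + 1 from rfl, pow_succ, pow_mul, ← hu, pow_orderOf_eq_one, one_pow, one_mul] at h8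
  exact absurd (hq ▸ H.cent3 u.2.2 hu (hX.le q.2) h8.symm) (by norm_num)

end CL.J4X
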