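/-
The non-local maximal subgroups of a group of Janko-four type: certificates in the 112-dimensional representation
(membership, tables of vectors, cosets of a small subgroup in a small normaliser).
-/
import Cfsg.Agent.Spor.J4Y0

set_option autoImplicit false

namespace CL.J4X

open Cfsg Subgroup CL.Mx

variable {G : Type*} [Group G] {ρ : G →* GL (Fin 112) (ZMod 2)}

variable (ρ) in
/-- `X` is the code of an element of `M` -/
def In (M : Subgroup G) (X : ℕ) : Prop := Rp ρ X (el ρ X) ∧ el ρ X ∈ M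

theorem In.mono {M W : Subgroup G} {X : ℕ} (h : In ρ M X) (e : M ≤ W) : In ρ W X := ⟨h.1, e h.2⟩

theorem in_rl {M : Subgroup G} {L : List ℕ} (h : ∀ X ∈ L, In ρ M X) : RL ρ L (L.map (el ρ)) :=
  rl_map fun X hX => ⟨_, (h X hX).1⟩

theorem in_mem {M : Subgroup G} {L : List ℕ} (h : ∀ X ∈ L, In ρ M X) : ∀ g ∈ L.map (el ρ), g ∈ M := fun g hg => by
  obtain ⟨X, hX, rfl⟩ := List.mem_map.1 hg
  exact (h X hX).2

variable (ρ) in
/-- the group generated by the elements with the listed codes -/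
def gn (L : List ℕ) : Subgroup G := closure {g | g ∈ L.map (el ρ)}

theorem in_gn {M : Subgroup G} {L : List ℕ} (h : ∀ X ∈ L, In ρ M X) : ∀ X ∈ L, In ρ (gn ρ L) X := fun X hX =>
  ⟨(h X hX).1, subset_closure (List.mem_map_of_mem hX)⟩

theorem gn_le {M : Subgroup G} {L : List ℕ} (h : ∀ X ∈ L, el ρ X ∈ M) : gn ρ L ≤ M := (closure_le _).2 fun g hg => by
  obtain ⟨X, hX, rfl⟩ := List.mem_map.1 hg
  exact h X hX

theorem slp_mem (hρ : Function.Injective ρ) {M : Subgroup G} {prog outs : List (ℕ × ℕ)} {L : List ℕ}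
    (h : ∀ X ∈ L, In ρ M X) (e : force mk (fun m => slpB m (outB outs) prog L) = true) :
    ∀ X ∈ outs.map (·.2), In ρ M X := fun X hX => by
  obtain ⟨g, hg⟩ := slp_in (ρ := ρ.comp M.subtype) (fun Y hY => ⟨⟨_, (h Y hY).2⟩, (h Y hY).1⟩) e X hX
  have h1 : Rp ρ X (el ρ X) := Classical.epsilon_spec (p := Rp ρ X) ⟨g, hg⟩
  exact ⟨h1, h1.eq hρ (h := g) hg ▸ g.2⟩

theorem exists_rep2 [Finite G] [IsSimpleGroup G] (J : J4.JM G) : ∃ ρ : G →* GL (Fin 112) (ZMod 2),
    Function.Injective ρ ∧ ∀ X ∈ [J4Rep.mx, J4Rep.my, J4Rep.myi, J4Rep.mt], In ρ ⊤ X := by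
  obtain ⟨e⟩ := J4.Un.isoJ4 J ⟨J4M.simple, J4M.card⟩
  refine ⟨J4Rep.rho.comp e.toMonoidHom, J4M.rho_inj.comp e.injective, fun X hX => ⟨?_, trivial⟩⟩
  obtain ⟨g, hg⟩ := link X hX
  obtain ⟨g, rfl⟩ := e.surjective g
  exact Classical.epsilon_spec (p := Rp _ X) ⟨g, hg⟩

theorem coatom_of [Finite G] {M : Subgroup G} {m : ℕ} (hM : M ≠ ⊤) (h : ∀ W, M ≤ W → W ≠ ⊤ → Nat.card W = m) :
    IsCoatom M := ⟨hM, fun W hW => by_contra fun hT =>
  hW.ne (eq_of_le_of_card_ge hW.le (by rw [h W hW.le hT, h M le_rfl hM]))⟩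

/-! ### Relations -/

/-- `B` has order `e` -/
noncomputable def ocB (m e B : ℕ) : Bool :=
  Nat.beq (pw m B e) o1 && allL (fun q => neM (pw m B (e / q)) o1) e.primeFactorsList

/-- `X A = B X` -/
noncomputable def cjB (m X A B : ℕ) : Bool := Nat.beq (mu m X A) (mu m B X)

/-- `A B ≠ B A` -/
noncomputable def ncB (m A B : ℕ) : Bool := neM (mu m A B) (mu m B A)

/-- the listed elements normalise `U` -/
noncomputable def nrmL (m U : ℕ) (GT : List (ℕ × ℕ)) : Bool := allL (fun x => nrmB m U x.1 x.2) GT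

theorem ocB_spec (hρ : Function.Injective ρ) {B e : ℕ} {b : G} (hb : Rp ρ B b) (he : 0 < e) (h : ocB mk e B = true) :
    orderOf b = e := by
  simp only [ocB, Bool.and_eq_true, allL_iff, Nat.beq_eq] at h
  exact orderOf_eq_of_pow_and_pow_div_prime he ((hb.pw e).eq hρ (h.1 ▸ rp_one))
    fun q hq hd => (hb.pw _).ne rp_one (h.2 q ((Nat.mem_primeFactorsList he.ne').2 ⟨hq, hd⟩))

theorem cjB_spec (hρ : Function.Injective ρ) {X A B : ℕ} {x a b : G} (hX : Rp ρ X x) (hA : Rp ρ A a) (hB : Rp ρ B b)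
    (e : cjB mk X A B = true) : x * a * x⁻¹ = b := by
  rw [cjB, Nat.beq_eq] at e
  rw [(hX.mul hA).eq hρ (e ▸ hB.mul hX), mul_inv_cancel_right]

theorem cjB_comm (hρ : Function.Injective ρ) {X A : ℕ} {x a : G} (hX : Rp ρ X x) (hA : Rp ρ A a)
    (e : cjB mk X A A = true) : Commute x a := mul_inv_eq_iff_eq_mul.1 (cjB_spec hρ hX hA hA e)

theorem ncB_spec {A B : ℕ} {a b : G} (hA : Rp ρ A a) (hB : Rp ρ B b) (e : ncB mk A B = true) : ¬ Commute a b :=
  (hA.mul hB).ne (hB.mul hA) e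

theorem nrmB_mem [Finite G] (hρ : Function.Injective ρ) {A X k : ℕ} {a x : G} (hA : Rp ρ A a) (hX : Rp ρ X x)
    (e : nrmB mk A X k = true) : x ∈ normalizer (zpowers a : Set G) :=
  J4.mem_norm_zpowers (nrmB_spec hρ hA hX e ▸ pow_mem (mem_zpowers a) k)

theorem nrmL_spec [Finite G] (hρ : Function.Injective ρ) {U : ℕ} {u : G} {GT : List (ℕ × ℕ)} (hU : Rp ρ U u)
    (h : ∀ X ∈ GT.map (·.1), In ρ ⊤ X) (e : nrmL mk U GT = true) :
    ∀ X ∈ GT.map (·.1), In ρ (normalizer (zpowers u : Set G)) X := fun X hX => by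
  obtain ⟨x, hx, rfl⟩ := List.mem_map.1 hX
  exact ⟨(h _ hX).1, nrmB_mem hρ hU (h _ hX).1 ((allL_iff _ _).1 e x hx)⟩

theorem exists_wd [Finite G] {gs : List G} {g : G} (h : g ∈ closure {g | g ∈ gs}) :
    ∃ w, (∀ c ∈ w, c < gs.length) ∧ g = wd gs w := by
  have hm : ∀ a b : G, (∃ w, (∀ c ∈ w, c < gs.length) ∧ a = wd gs w) → (∃ w, (∀ c ∈ w, c < gs.length) ∧ b = wd gs w) →
      ∃ w, (∀ c ∈ w, c < gs.length) ∧ a * b = wd gs w := fun a b ⟨v, h1, e1⟩ ⟨w, h2, e2⟩ =>
    ⟨v ++ w, fun c hc => (List.mem_append.1 hc).elim (h1 c) (h2 c), by rw [wd_append, e1, e2]⟩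
  induction h using closure_induction with
  | mem x hx =>
    obtain ⟨c, hc, rfl⟩ := List.getElem_of_mem hx
    exact ⟨[c], by simpa using hc, by rw [wd_cons, List.getD_eq_getElem _ _ hc]; exact (mul_one _).symm⟩
  | one => exact ⟨[], nofun, rfl⟩
  | mul a b _ _ ha hb => exact hm a b ha hb
  | inv a _ ha =>
    obtain ⟨n, e⟩ := mem_powers_iff_mem_zpowers.2 (inv_mem (mem_zpowers a))
    rw [← e]
    clear e
    induction n with
    | zero => exact ⟨[], nofun, pow_zero a⟩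
    | succ n ih => exact (show a ^ n * a = (fun x => a ^ x) (n + 1) from (pow_succ a n).symm) ▸ hm _ _ ih ha

/-! ### Tables of vectors -/

/-- the image of a point under a word -/
noncomputable def ap (Ps : List ℕ) (w : List ℕ) : ℕ → ℕ :=
  List.rec (motive := fun _ => ℕ → ℕ) (fun i => i) (fun c _ ih i => force (lane 10 (Ps.getD c 0) i) ih) w

/-- the permutation describes the action of a matrix on the table of vectors -/
noncomputable def pr1 (m n Vs A P : ℕ) : Bool :=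
  force A fun A => force P fun P => allL (fun i => force (lane 10 P i) fun j =>
    Nat.blt j n && Nat.beq (mu m (lane 112 Vs i) A) (lane 112 Vs j)) (List.range n)

/-- the permutations describe the action of the generators on the table of vectors -/
def Tab (n Vs : ℕ) (Gs Ps : List ℕ) : Prop := ∀ c < Gs.length, pr1 mk n Vs (Gs.getD c o1) (Ps.getD c 0) = true

theorem tab_nil {n Vs : ℕ} : Tab n Vs [] [] := nofun

theorem Tab.cons {n Vs A P : ℕ} {Gs Ps : List ℕ} (h : Tab n Vs Gs Ps)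
    (e : force mk (fun m => pr1 m n Vs A P) = true) : Tab n Vs (A :: Gs) (P :: Ps)
  | 0, _ => by rwa [force_eq] at e
  | c + 1, hc => by rw [List.getD_cons_succ, List.getD_cons_succ]; exact h c (Nat.lt_of_succ_lt_succ hc)

theorem tab_of {n Vs : ℕ} {Gs Ps : List ℕ} (e : force mk (fun m =>
    allL (fun c => pr1 m n Vs (Gs.getD c o1) (Ps.getD c 0)) (List.range Gs.length)) = true) : Tab n Vs Gs Ps :=
  fun c hc => (allL_iff _ _).1 ((force_eq _ _).symm.trans e) c (List.mem_range.2 hc)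

/-- the table is sorted -/
noncomputable def srtB (n Vs : ℕ) : Bool :=
  allL (fun i => Nat.blt (lane 112 Vs i) (lane 112 Vs (i + 1))) (List.range (n - 1))

theorem srtB_spec {n Vs : ℕ} (e : srtB n Vs = true) :
    ∀ i < n, ∀ j < n, dec2 112 (lane 112 Vs i) = dec2 112 (lane 112 Vs j) → i = j := fun i hi j hj e' => by
  simp only [srtB, allL_iff, List.mem_range, Nat.blt_eq] at e
  have hm : ∀ i j, i < j → j < n → lane 112 Vs i < lane 112 Vs j := fun i j hij hj => by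
    induction hij with
    | refl => exact e i (by omega)
    | step _ ih => exact (ih (by omega)).trans (e _ (by omega))
  have l : ∀ k, lane 112 Vs k &&& low (112 * 112) = lane 112 Vs k := fun k => by
    rw [low_eq, Nat.and_two_pow_sub_one_eq_mod, Nat.mod_eq_of_lt
      ((lane_lt _ _ _).trans (Nat.pow_lt_pow_right Nat.one_lt_two (by decide)))]
  have := land_eq e'
  rw [l, l] at this
  rcases lt_trichotomy i j with c | c | c
  exacts [absurd this (hm i j c hj).ne, c, absurd this (hm j i c hi).ne']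

theorem ap_cons (Ps : List ℕ) (c : ℕ) (w : List ℕ) (i : ℕ) : ap Ps (c :: w) i = ap Ps w (lane 10 (Ps.getD c 0) i) :=
  force_eq _ _

theorem ap_spec {n Vs : ℕ} {Gs Ps : List ℕ} {gs : List G} (h : RL ρ Gs gs) (e : Tab n Vs Gs Ps) :
    ∀ (w : List ℕ) {i : ℕ}, (∀ c ∈ w, c < Gs.length) → i < n → ap Ps w i < n ∧
      dec2 112 (lane 112 Vs i) * (ρ (wd gs w)).val = dec2 112 (lane 112 Vs (ap Ps w i))
  | [], i, _, hi => ⟨hi, by simp [wd, ap]⟩
  | c :: w, i, hw, hi => by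
    have h1 := e c (hw c (by simp))
    simp only [pr1, force_eq] at h1
    have h2 := (allL_iff _ _).1 h1 i (List.mem_range.2 hi)
    simp only [force_eq, Bool.and_eq_true, Nat.blt_eq, Nat.beq_eq] at h2
    have := ap_spec h e w (fun d hd => hw d (List.mem_cons_of_mem _ hd)) h2.1
    rw [ap_cons, wd_cons, map_mul, Units.val_mul, ← mul_assoc, h c, ← dec_mu, h2.2]
    exact this

/-- `X` moves the first vector out of the table -/
noncomputable def mvB (m n Vs X : ℕ) : Bool :=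
  force (mu m (lane 112 Vs 0) X) fun v => allL (fun j => neM v (lane 112 Vs j)) (List.range n)

theorem gn_ne_top [Finite G] {n Vs X : ℕ} {Gs Ps : List ℕ} (h : ∀ Y ∈ Gs, In ρ ⊤ Y) (e : Tab n Vs Gs Ps) (hn : 0 < n)
    (hX : In ρ ⊤ X) (e' : force mk (fun m => mvB m n Vs X) = true) : gn ρ Gs ≠ ⊤ := fun hT => by
  obtain ⟨w, h1, h2⟩ := exists_wd (gs := Gs.map (el ρ)) (g := el ρ X) (hT.ge trivial)
  obtain ⟨a1, a2⟩ := ap_spec (in_rl h) e w (by simpa using h1) hn
  simp only [mvB, force_eq, allL_iff, List.mem_range] at e'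
  have := e' _ a1
  rw [← h2, hX.1, ← dec_mu] at a2
  simp [neM, land_eq a2] at this

/-- every point is the image of the first one under the listed word -/
noncomputable def rchB (n k Vs : ℕ) (Ps : List ℕ) (ws : List (List ℕ)) : Bool :=
  srtB n Vs && allL (fun i => (fun w => allL (fun c => Nat.blt c k) w && Nat.beq (ap Ps w 0) i) (ws.getD i []))
    (List.range n)

theorem low_card [Finite G] {n Vs : ℕ} {Gs Ps : List ℕ} {ws : List (List ℕ)} {K : Subgroup G} (h : ∀ Y ∈ Gs, In ρ K Y)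
    (e : Tab n Vs Gs Ps) (e' : rchB n Gs.length Vs Ps ws = true) : n ≤ Nat.card K := by
  simp only [rchB, Bool.and_eq_true, allL_iff, List.mem_range, Nat.blt_eq, Nat.beq_eq] at e'
  have hw : ∀ j : Fin n, dec2 112 (lane 112 Vs 0) * (ρ (wd (Gs.map (el ρ)) (ws.getD j []))).val =
      dec2 112 (lane 112 Vs j) := fun j => by
    rw [(ap_spec (in_rl h) e _ (e'.2 j j.2).1 j.pos).2, (e'.2 j j.2).2]
  simpa using Nat.card_le_card_of_injective (fun j : Fin n => (⟨_, wd_mem (in_mem h) (ws.getD j [])⟩ : K))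
    fun i j a => Fin.ext (srtB_spec e'.1 i i.2 j j.2 (by rw [← hw, ← hw, Subtype.mk.inj a]))

/-- commuting elements of order at most 2 -/
noncomputable def eaB (m : ℕ) (Ts : List ℕ) : Bool :=
  allL (fun A => Nat.beq (mu m A A) o1 && allL (fun B => cjB m A B B) Ts) Ts

theorem ea_spec [Finite G] (hρ : Function.Injective ρ) {Ts : List ℕ} {W : Subgroup G} (h : ∀ Y ∈ Ts, In ρ W Y)
    (e : force mk (fun m => eaB m Ts) = true) (h32 : 32 ≤ Nat.card (gn ρ Ts)) :
    (∀ a ∈ gn ρ Ts, ∀ b ∈ gn ρ Ts, Commute a b) ∧ ∃ k, Nat.card (gn ρ Ts) = 2 ^ (k + 5) := by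
  simp only [eaB, force_eq, allL_iff, Bool.and_eq_true, Nat.beq_eq] at e
  have h1 : ∀ a ∈ gn ρ Ts, ∀ b ∈ gn ρ Ts, Commute a b := fun a ha b hb => by
    induction ha, hb using closure_induction₂ with
    | mem x y hx hy =>
      obtain ⟨X, hX, rfl⟩ := List.mem_map.1 hx
      obtain ⟨Y, hY, rfl⟩ := List.mem_map.1 hy
      exact cjB_comm hρ (h X hX).1 (h Y hY).1 ((e X hX).2 Y hY)
    | one_left => exact Commute.one_left _
    | one_right => exact Commute.one_right _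
    | mul_left _ _ _ _ _ _ a b => exact a.mul_left b
    | mul_right _ _ _ _ _ _ a b => exact a.mul_right b
    | inv_left _ _ _ _ a => exact a.inv_left
    | inv_right _ _ _ _ a => exact a.inv_right
  have h2 : ∀ a ∈ gn ρ Ts, a ^ 2 = 1 := fun a ha => by
    induction ha using closure_induction with
    | mem x hx =>
      obtain ⟨X, hX, rfl⟩ := List.mem_map.1 hx
      rw [sq]
      exact ((h X hX).1.mul (h X hX).1).eq hρ ((e X hX).1 ▸ rp_one)
    | one => exact one_pow 2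
    | mul a b ha hb a1 a2 => rw [(h1 a ha b hb).mul_pow, a1, a2, mul_one]
    | inv a _ a1 => rw [inv_pow, a1, inv_one]
  haveI : Fact (Nat.Prime 2) := ⟨Nat.prime_two⟩
  obtain ⟨k, hk⟩ := IsPGroup.iff_card.1 (show IsPGroup 2 (gn ρ Ts) from fun g => ⟨1, Subtype.ext (h2 g g.2)⟩)
  refine ⟨h1, k - 5, ?_⟩
  rw [hk, show 32 = 2 ^ 5 from rfl, Nat.pow_le_pow_iff_right Nat.one_lt_two] at h32
  rw [hk, Nat.sub_add_cancel h32]

/-! ### A subgroup of index 2 -/

/-- the generators keep or interchange the two sides of the table -/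
noncomputable def sdB (n k Vs s ε : ℕ) (Ps : List ℕ) : Bool :=
  srtB n Vs && allL (fun c => allL (fun i => s.testBit (lane 10 (Ps.getD c 0) i) == (s.testBit i ^^ ε.testBit c))
    (List.range n)) (List.range k)

theorem half [Finite G] {n Vs s ε c : ℕ} {Gs Ps : List ℕ} (h : ∀ Y ∈ Gs, In ρ ⊤ Y) (e : Tab n Vs Gs Ps) (hn : 0 < n)
    (e' : sdB n Gs.length Vs s ε Ps = true) (hc : c < Gs.length) (hε : ε.testBit c = true) :
    ∃ K ≤ gn ρ Gs, Nat.card K * 2 = Nat.card (gn ρ Gs) := by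
  simp only [sdB, Bool.and_eq_true, allL_iff, List.mem_range, beq_iff_eq] at e'
  let S : G → Bool → Prop := fun g b => ∀ i < n, ∃ j < n, dec2 112 (lane 112 Vs i) * (ρ g).val =
    dec2 112 (lane 112 Vs j) ∧ s.testBit j = (s.testBit i ^^ b)
  have h1 : S 1 false := fun i hi => ⟨i, hi, by simp, by simp⟩
  have h2 : ∀ g g' b b', S g b → S g' b' → S (g * g') (b ^^ b') := fun g g' b b' a a' i hi => by
    obtain ⟨j, hj, e1, e2⟩ := a i hi
    obtain ⟨l, hl, e3, e4⟩ := a' j hj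
    exact ⟨l, hl, by rw [map_mul, Units.val_mul, ← mul_assoc, e1, e3], by rw [e4, e2, Bool.xor_assoc]⟩
  have h3 : ∀ g, S g false → ¬ S g true := fun g a a' => by
    obtain ⟨j, hj, e1, e2⟩ := a 0 hn
    obtain ⟨l, hl, e3, e4⟩ := a' 0 hn
    rw [← srtB_spec e'.1 j hj l hl (e1.symm.trans e3), e2] at e4
    simp at e4
  have h4 : ∀ c < Gs.length, S ((Gs.map (el ρ)).getD c 1) (ε.testBit c) := fun c hc i hi => by
    obtain ⟨a1, a2⟩ := ap_spec (in_rl h) e [c] (by simpa using hc) hi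
    exact ⟨_, a1, by rw [← a2, wd_cons]; simp [wd], by rw [ap_cons]; exact e'.2 c hc i hi⟩
  have h5 : ∀ w : List ℕ, (∀ c ∈ w, c < Gs.length) → ∃ b, S (wd (Gs.map (el ρ)) w) b := fun w hw => by
    induction w with
    | nil => exact ⟨_, h1⟩
    | cons c w ih =>
      obtain ⟨b, hb⟩ := ih fun d hd => hw d (List.mem_cons_of_mem _ hd)
      exact ⟨_, h2 _ _ _ _ (h4 c (hw c (by simp))) hb⟩
  let K0 : Submonoid G := ⟨⟨{g | S g false}, fun a b => h2 _ _ _ _ a b⟩, h1⟩
  let K : Subgroup G := ⟨K0, fun {g} hg => (Submonoid.powers_le.2 hg : Submonoid.powers g ≤ K0)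
    (mem_powers_iff_mem_zpowers.2 (inv_mem (mem_zpowers g)))⟩
  have h6 : (K.subgroupOf (gn ρ Gs)).index = 2 := index_eq_two_iff.2
    ⟨⟨_, wd_mem (in_mem (in_gn h)) [c]⟩, fun g => by
      obtain ⟨w, a1, a2⟩ := exists_wd (gs := Gs.map (el ρ)) g.2
      obtain ⟨b, hb⟩ := h5 w (by simpa using a1)
      have a3 := h2 _ _ _ _ hb (h2 _ _ _ _ (h4 c hc) h1)
      rw [← a2] at hb a3
      rw [hε] at a3
      cases b
      · exact Or.inr ⟨hb, fun a => h3 _ a a3⟩
      · exact Or.inl ⟨a3, fun a => h3 _ a hb⟩⟩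
  refine ⟨(K.subgroupOf (gn ρ Gs)).map (gn ρ Gs).subtype, map_subtype_le _, ?_⟩
  rw [card_subtype, ← h6, card_mul_index]

/-! ### Cosets -/

theorem cosets2 [Finite G] {X : Type*} {N B : Subgroup G} (hb : B ≤ N) {k m : ℕ} (hN : Nat.card N ≤ k * m)
    (hk : k ≤ Nat.card B) (hm : 0 < m) {φ : G → X} (h2 : ∀ c ∈ B, ∀ g, φ (c * g) = φ g) {r : Fin m → G}
    (hr : ∀ j, r j ∈ N) (hi : Function.Injective (φ ∘ r)) : Nat.card B = k ∧
    (∀ g ∈ N, ∃ j, φ g = φ (r j)) ∧ ∀ g ∈ N, ∀ h ∈ N, φ g = φ h → g * h⁻¹ ∈ B := by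
  have h0 : Function.Injective fun x : B × Fin m => (⟨x.1 * r x.2, mul_mem (hb x.1.2) (hr _)⟩ : N) := fun x y e => by
    have e : (x.1 : G) * r x.2 = y.1 * r y.2 := congrArg Subtype.val e
    have e2 : x.2 = y.2 := hi ((h2 _ x.1.2 _).symm.trans ((congrArg φ e).trans (h2 _ y.1.2 _)))
    rw [e2] at e
    exact Prod.ext (Subtype.ext (mul_right_cancel e)) e2
  have h3 := h0.bijective_of_nat_card_le (by simpa using hN.trans (Nat.mul_le_mul_right m hk))
  have h4 : ∀ g ∈ N, ∃ c ∈ B, ∃ j, g = c * r j := fun g hg =>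
    let ⟨x, e⟩ := h3.2 ⟨g, hg⟩
    ⟨x.1, x.1.2, x.2, (congrArg Subtype.val e).symm⟩
  refine ⟨le_antisymm (Nat.le_of_mul_le_mul_right (le_trans (by simpa using Nat.card_le_card_of_injective _ h0) hN) hm)
    hk, fun g hg => ?_, fun g hg h hh e => ?_⟩
  · obtain ⟨c, hc, j, rfl⟩ := h4 g hg
    exact ⟨j, h2 c hc _⟩
  · obtain ⟨c, hc, i, rfl⟩ := h4 g hg
    obtain ⟨d, hd, j, rfl⟩ := h4 h hh
    rw [h2 c hc, h2 d hd] at e
    rw [show i = j from hi e, mul_inv_rev, mul_assoc, mul_inv_cancel_left]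
    exact mul_mem hc (inv_mem hd)

/-- substitute `w` for the letters from `kB` on -/
def exU (kB : ℕ) (w U : List ℕ) : List ℕ := U.flatMap fun c => cond (Nat.blt c kB) [c] w

/-- the table is sorted, the first `kB` generators fix the base point, every other point leads to a test -/
noncomputable def rdB (n kB k i0 Vs : ℕ) (Ps : List ℕ) (items : List (List ℕ × List ℕ × ℕ)) (T : List (List ℕ)) : Bool :=
  srtB n Vs && (Nat.blt i0 n && (Nat.ble kB k && (allL (fun c => Nat.beq (ap Ps [c] i0) i0) (List.range kB) &&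
    (allL (allL fun c => Nat.blt c k) T &&
    allL (fun i => (fun x => allL (fun c => Nat.blt c k) x.1 && (Nat.beq (ap Ps x.1 i0) i && (Nat.beq i i0 ||
      Nat.blt x.2.2 T.length && Nat.beq (ap Ps (exU kB x.1 x.2.1) i0) (ap Ps (T.getD x.2.2 []) i0))))
      (items.getD i ([], [], 0))) (List.range n)))))

theorem rd_spec [Finite G] {n kB b i0 Vs : ℕ} {Gs Ps : List ℕ} {items : List (List ℕ × List ℕ × ℕ)} {T : List (List ℕ)}
    {N W : Subgroup G} (h : ∀ X ∈ Gs, In ρ N X) (e : Tab n Vs Gs Ps) (e' : rdB n kB Gs.length i0 Vs Ps items T = true)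
    (hc : Nat.card N ≤ b * n) (hb : b ≤ Nat.card (gn ρ (Gs.take kB))) (hW : gn ρ (Gs.take kB) ≤ W)
    (hT : ∀ t ∈ T, wd (Gs.map (el ρ)) t ∉ W) : N ⊓ W = gn ρ (Gs.take kB) ∧ Nat.card ↥(N ⊓ W) = b := by
  simp only [rdB, Bool.and_eq_true, allL_iff, List.mem_range, Nat.blt_eq, Nat.beq_eq, Bool.or_eq_true,
    Nat.ble_eq] at e'
  obtain ⟨a1, a2, a0, a3, a4, a5⟩ := e'
  have hN := in_mem h
  have hBN : gn ρ (Gs.take kB) ≤ N := gn_le fun X hX => (h X (List.mem_of_mem_take hX)).2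
  have hv := fun w hw => (ap_spec (in_rl h) e w hw a2).2
  set gs := Gs.map (el ρ) with hgs
  have hB : ∀ c < kB, gs.getD c 1 ∈ gn ρ (Gs.take kB) := fun c hc => subset_closure (by
    have : c < gs.length := by simp [hgs]; omega
    rw [Set.mem_ofPred_eq, List.map_take, List.getD_eq_getElem _ _ this]
    exact List.mem_take_iff_getElem.2 ⟨c, by simp [← hgs, hc, this], rfl⟩)
  have hw : ∀ j : Fin n, dec2 112 (lane 112 Vs i0) * (ρ (wd gs (items.getD j ([], [], 0)).1)).val =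
      dec2 112 (lane 112 Vs j) := fun j => by rw [hv _ (a5 j j.2).1, (a5 j j.2).2.1]
  obtain ⟨c0, c1, c2⟩ := cosets2 hBN hc hb (by omega) (φ := fun g => dec2 112 (lane 112 Vs i0) * (ρ g).val)
    (fun c hc g => by
      rw [map_mul, Units.val_mul, ← mul_assoc]
      refine congrArg (· * (ρ g).val) ?_
      induction hc using closure_induction with
      | mem x hx =>
        rw [Set.mem_ofPred_eq, List.map_take] at hx
        obtain ⟨c, hc, rfl⟩ := List.mem_take_iff_getElem.1 hx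
        have h1 : c < kB := by omega
        have := hv [c] (by simp; omega)
        rwa [a3 c h1, wd_cons, List.getD_eq_getElem _ _ (lt_of_lt_of_le hc (min_le_right _ _)), show wd gs [] = 1 from rfl, mul_one] at this
      | one => simp
      | mul x y _ _ hx hy => rw [map_mul, Units.val_mul, ← mul_assoc, hx, hy]
      | inv x _ hx => rw [← hx, mul_assoc, ← Units.val_mul, ← map_mul, mul_inv_cancel, hx]; simp)
    (r := fun j => wd gs (items.getD j ([], [], 0)).1) (fun _ => wd_mem hN _)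
    fun i j e => Fin.ext (srtB_spec a1 i i.2 j j.2 ((hw i).symm.trans (Eq.trans e (hw j))))
  suffices h5 : N ⊓ W = gn ρ (Gs.take kB) from ⟨h5, h5 ▸ c0⟩
  refine le_antisymm (fun g hg => ?_) (le_inf hBN hW)
  obtain ⟨j, hj⟩ := c1 g hg.1
  have h3 : wd gs (items.getD j ([], [], 0)).1 ∈ W := by
    simpa using W.mul_mem (W.inv_mem (hW (c2 _ hg.1 _ (wd_mem hN _) hj))) hg.2
  obtain ⟨b1, -, b2 | ⟨b2, b3⟩⟩ := a5 j j.2
  · simpa using c2 g hg.1 1 (one_mem _) (by rw [hj, hw, b2, map_one, Units.val_one, mul_one])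
  · have b4 : T.getD (items.getD j ([], [], 0)).2.2 [] ∈ T := by
      rw [List.getD_eq_getElem _ _ b2]; exact List.getElem_mem b2
    generalize items.getD j ([], [], 0) = x at *
    have h4 : ∀ U, wd gs (exU kB x.1 U) ∈ W ∧ ∀ c ∈ exU kB x.1 U, c < Gs.length := fun U => by
      induction U with
      | nil => exact ⟨one_mem _, by simp [exU]⟩
      | cons c U ih =>
        rw [exU, List.flatMap_cons, wd_append]
        cases hc : Nat.blt c kB
        · exact ⟨mul_mem h3 ih.1, fun c hc => (List.mem_append.1 hc).elim (b1 c) (ih.2 c)⟩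
        · rw [Nat.blt_eq] at hc
          exact ⟨mul_mem (mul_mem (hW (hB c hc)) (one_mem _)) ih.1, fun d hd => (List.mem_cons.1 hd).elim
            (fun e => by omega) (ih.2 d)⟩
    exact (hT _ b4 (by simpa using W.mul_mem (W.inv_mem (hW (c2 _ (wd_mem hN _) _ (wd_mem hN _)
      ((hv _ (h4 x.2.1).2).trans (b3 ▸ (hv _ (a4 _ b4)).symm))))) (h4 x.2.1).1)).elim

/-- each test element generates with `Ms` a group with elements of two large prime orders -/
noncomputable def tsB (m : ℕ) (Ms Gs good : List ℕ) (T : List (List ℕ × (ℕ × List ℕ) × ℕ × List ℕ)) : Bool :=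
  allL (fun x => force (evw m Gs x.1) fun H => decide (x.2.1.1.Prime ∧ x.2.2.1.Prime ∧ x.2.1.1 ≠ x.2.2.1 ∧
    x.2.1.1 * x.2.2.1 ∈ good) &&
    (ordB m x.2.1.1 (evw m (H :: Ms) x.2.1.2) && ordB m x.2.2.1 (evw m (H :: Ms) x.2.2.2))) T

theorem ts_spec [Finite G] (hρ : Function.Injective ρ) {Ms Gs good : List ℕ} {N W : Subgroup G}
    {T : List (List ℕ × (ℕ × List ℕ) × ℕ × List ℕ)} (hM : ∀ X ∈ Ms, In ρ W X) (h : ∀ X ∈ Gs, In ρ N X)
    (e : force mk (fun m => tsB m Ms Gs good T) = true) (hg : ∀ r ∈ good, ¬ r ∣ Nat.card W) :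
    ∀ t ∈ T.map (·.1), wd (Gs.map (el ρ)) t ∉ W := fun t ht hw => by
  obtain ⟨x, hx, rfl⟩ := List.mem_map.1 ht
  rw [force_eq] at e
  have := (allL_iff _ _).1 e x hx
  simp only [force_eq, Bool.and_eq_true, decide_eq_true_eq] at this
  obtain ⟨⟨p1, p2, p3, p4⟩, o1, o2⟩ := this
  have hL := (in_rl hM).cons ((in_rl h).evw x.1)
  have hm : ∀ w, wd (wd (Gs.map (el ρ)) x.1 :: Ms.map (el ρ)) w ∈ W :=
    wd_mem fun g hg => (List.mem_cons.1 hg).elim (fun e => e ▸ hw) (in_mem hM g)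
  exact hg _ p4 (((Nat.coprime_primes p1 p2).2 p3).mul_dvd_of_dvd_of_dvd
    (ordB_spec hρ (hL.evw _) p1 o1 ▸ W.orderOf_dvd_natCard (hm _))
    (ordB_spec hρ (hL.evw _) p2 o2 ▸ W.orderOf_dvd_natCard (hm _)))

theorem lcm_le [Finite G] {K : Subgroup G} {a b : G} (ha : a ∈ K) (hb : b ∈ K) :
    Nat.lcm (orderOf a) (orderOf b) ≤ Nat.card K :=
  Nat.le_of_dvd Nat.card_pos (Nat.lcm_dvd (K.orderOf_dvd_natCard ha) (K.orderOf_dvd_natCard hb))

theorem two_le [Finite G] {K : Subgroup G} {a b : G} (ha : a ∈ K) (hb : b ∈ K) (h : ¬ Commute a b) :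
    orderOf a * 2 ≤ Nat.card K := by
  obtain ⟨k, hk⟩ := K.orderOf_dvd_natCard ha
  have h1 : k ≠ 1 := fun e => h (by
    have := eq_of_le_of_card_ge (zpowers_le.2 ha) (by rw [hk, e, mul_one, Nat.card_zpowers])
    obtain ⟨n, rfl⟩ := (this.ge hb : b ∈ zpowers a)
    exact (Commute.refl a).zpow_right n)
  have h2 : k ≠ 0 := fun e => (Nat.card_pos (α := K)).ne' (by rw [hk, e, mul_zero])
  exact hk ▸ Nat.mul_le_mul_left _ (by omega)

end CL.J4X
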