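/-
The non-local maximal subgroups of a group of Janko-four type: long tables of cosets.
-/
import Cfsg.Agent.Spor.J4YM

set_option autoImplicit false

namespace CL.J4X

open CL.Mx

/-- a test along a list, with a counter -/
noncomputable def alI {α : Type} (f : ℕ → α → Bool) (l : List α) : ℕ → Bool :=
  List.rec (motive := fun _ => ℕ → Bool) (fun _ => true) (fun x _ ih i => f i x && force (Nat.succ i) ih) l

theorem alI_spec {α : Type} {f : ℕ → α → Bool} {d : α} : ∀ {l : List α} {s : ℕ}, alI f l s = true →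
    ∀ i < l.length, f (s + i) (l.getD i d) = true
  | x :: l, s, h, i, hi => by
    have h' : (f s x && force (Nat.succ s) (alI f l)) = true := h
    rw [force_eq, Bool.and_eq_true] at h'
    cases i with
    | zero => exact h'.1
    | succ i =>
      have := alI_spec (d := d) h'.2 i (Nat.lt_of_succ_lt_succ hi)
      rwa [Nat.succ_add] at this

/-- the test for one coset -/
noncomputable def it1 (kB k i0 : ℕ) (Ps : List ℕ) (T : List (List ℕ)) (i : ℕ) (x : List ℕ × List ℕ × ℕ) : Bool :=
  allL (fun c => Nat.blt c k) x.1 && (Nat.beq (ap Ps x.1 i0) i && (Nat.beq i i0 ||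
    Nat.blt x.2.2 T.length && Nat.beq (ap Ps (exU kB x.1 x.2.1) i0) (ap Ps (T.getD x.2.2 []) i0)))

/-- the tests for the table -/
noncomputable def rdH (n kB k i0 Vs : ℕ) (Ps : List ℕ) (T : List (List ℕ)) : Bool :=
  srtB n Vs && (Nat.blt i0 n && (Nat.ble kB k && (allL (fun c => Nat.beq (ap Ps [c] i0) i0) (List.range kB) &&
    allL (allL fun c => Nat.blt c k) T)))

theorem rdB_of {n kB k i0 Vs : ℕ} {Ps : List ℕ} {items : List (List ℕ × List ℕ × ℕ)} {T : List (List ℕ)}
    (h1 : rdH n kB k i0 Vs Ps T = true) (h2 : alI (it1 kB k i0 Ps T) items 0 = true) (h3 : items.length = n) :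
    rdB n kB k i0 Vs Ps items T = true := by
  simp only [rdH, Bool.and_eq_true] at h1
  simp only [rdB, Bool.and_eq_true]
  refine ⟨h1.1, h1.2.1, h1.2.2.1, h1.2.2.2.1, h1.2.2.2.2, (allL_iff _ _).2 fun i hi => ?_⟩
  have := alI_spec (d := ([], [], 0)) h2 i (h3 ▸ List.mem_range.1 hi)
  rwa [Nat.zero_add] at this

end CL.J4X
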