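/-
The non-local maximal subgroups of a group of Janko-four type: normalisers of subgroups given by generators.
-/
import Cfsg.Agent.Spor.J4YM2

set_option autoImplicit false

namespace CL.J4X

open Subgroup CL.Mx

variable {G : Type*} [Group G] [Finite G] {ρ : G →* GL (Fin 112) (ZMod 2)}

/-- `X.1` conjugates the generators `Rs` to the listed words -/
noncomputable def nrmG (m : ℕ) (Rs : List ℕ) (X : ℕ × List (List ℕ)) : Bool :=
  allL (fun i => cjB m X.1 (Rs.getD i o1) (evw m Rs (X.2.getD i []))) (List.range Rs.length)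

theorem nrmG_spec (hρ : Function.Injective ρ) {Rs : List ℕ} {X : ℕ × List (List ℕ)} {W : Subgroup G}
    (hR : ∀ Y ∈ Rs, In ρ W Y) (hX : In ρ ⊤ X.1) (e : nrmG mk Rs X = true) :
    In ρ (normalizer (gn ρ Rs : Set G)) X.1 := ⟨hX.1, mem_normalizer_fintype fun n hn => by
  induction hn using closure_induction with
  | mem x hx =>
    obtain ⟨c, hc, rfl⟩ := List.getElem_of_mem hx
    have := cjB_spec hρ hX.1 (in_rl hR c) ((in_rl hR).evw _)
      ((allL_iff _ _).1 e c (List.mem_range.2 (by simpa using hc)))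
    rw [List.getD_eq_getElem _ _ hc] at this
    exact this ▸ wd_mem (in_mem (in_gn hR)) _
  | one => simpa using (gn ρ Rs).one_mem
  | mul a b _ _ ha hb => simpa [mul_assoc] using (gn ρ Rs).mul_mem ha hb
  | inv a _ ha => simpa [mul_assoc] using (gn ρ Rs).inv_mem ha⟩

theorem nrmGL_spec (hρ : Function.Injective ρ) {Rs : List ℕ} {GT : List (ℕ × List (List ℕ))} {W : Subgroup G}
    (hR : ∀ Y ∈ Rs, In ρ W Y) (h : ∀ X ∈ GT.map (·.1), In ρ ⊤ X) (e : allL (nrmG mk Rs) GT = true) :
    ∀ X ∈ GT.map (·.1), In ρ (normalizer (gn ρ Rs : Set G)) X := fun X hX => by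
  obtain ⟨x, hx, rfl⟩ := List.mem_map.1 hX
  exact nrmG_spec hρ hR (h _ hX) ((allL_iff _ _).1 e x hx)

end CL.J4X
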