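/-
The Monster and the Griess algebra form a Norton pair: invariant trilinear forms on the `196883`-dimensional space.
-/
import Cfsg.Agent.Spor.MjFin

set_option autoImplicit false
set_option linter.unusedSectionVars false

namespace CL.Mj

open Cfsg Cfsg.Spor CL.Spor.Leech CL.Spor.Mon CL.Gr CL.Gr.Ti CL.Even CL.Grp Subgroup

/-- Trilinear forms. -/
abbrev Tri : Type := VV →ₗ[ℝ] VV →ₗ[ℝ] VV →ₗ[ℝ] ℝ

/-- The product dual to a trilinear form. -/
noncomputable def Tri.D (T : Tri) : VV →ₗ[ℝ] VV →ₗ[ℝ] VV :=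
  LinearMap.compr₂ T (LinearMap.BilinForm.toDual bil bil_nondeg).symm.toLinearMap

theorem Tri.bil_D (T : Tri) (u v w : VV) : bil (T.D u v) w = T u v w :=
  LinearMap.BilinForm.apply_toDual_symm_apply (hB := bil_nondeg) (T u v) w

/-- Exchange of the last two arguments. -/
noncomputable def Tri.sw (T : Tri) : Tri := LinearMap.lflip.toLinearMap ∘ₗ T

theorem Tri.sw_apply (T : Tri) (u v w : VV) : T.sw u v w = T u w v := rfl

theorem nor_dbl {r s u : Mv} (h : Dbl (r.1 + s.1 + u.1)) : 16 ∣ dM r u := by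
  have h1 := h.dvd_dot r.1
  have h2 := h.dvd_dot s.1
  obtain ⟨v, hv⟩ := h
  have h3 := congrArg (fun x : Lam => sqNorm (x : Pt → ℤ)) hv
  have h4 := sixteen_dvd_sqNorm v.2
  have h5 := eight_dvd_dot r.1.2 u.1.2
  simp only [AddSubgroup.coe_add, sqNorm_add, dot_add_left, ← sqNorm_eq_dot, r.2, s.2, u.2,
    dot_comm (u.1 : Pt → ℤ), dot_comm (s.1 : Pt → ℤ) r.1] at h1 h2 h3
  rw [dM]; omega

theorem nor_equiv {V : Type*} [AddCommGroup V] [Module ℝ V] [Module.Finite ℝ V] (W : Submodule ℝ V) {n : ℕ}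
    (h : Module.finrank ℝ W = n) : Nonempty (W ≃ₗ[ℝ] (Fin n → ℝ)) := ⟨(Module.finBasisOfFinrankEq ℝ _ h).equivFun⟩

variable [Theta] {H : Type} [Group H]

/-- Invariant trilinear forms that vanish at the identity and at an axis. -/
structure NT (ρ : H →* (VV ≃ₗ[ℝ] VV)) (T : Tri) : Prop where
  inv : ∀ g u v w, T (ρ g u) (ρ g v) (ρ g w) = T u v w
  o1 : ∀ v w, T one v w = 0
  o2 : ∀ u w, T u one w = 0
  o3 : ∀ u v, T u v one = 0
  aaa : T (axv UM 0) (axv UM 0) (axv UM 0) = 0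

theorem xv_eq (r : Mv) : xv r = (-4 : ℝ) • (axv r 0 - axv r 1) := by
  have := axv_sub r 0
  rw [zero_add, chi_zero] at this
  rw [this, smul_smul]; norm_num

/-- The eigenvectors of the centraliser of `s` in `Q` of a weight that is non-trivial on `s`. -/
theorem nor_key {u : VV} {r : Mv} (hr : ¬ 16 ∣ dM r UM)
    (hy : ∀ y a, ip y leechU = 0 → act (pQ ℝ y a) u = chi ℝ (ip y r.1) • u) (h0 : u.2.1.1 r = 0) : u = 0 := by
  have z0 : ∀ x, ip 0 x = 0 := dbl_iff_ip.1 Dbl.zero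
  refine B_ext ?_ (fun s => ?_) ?_
  · have := congrArg (fun v : VV => v.1.1) (hy leechU 0 (ip_eq_zero_iff.2 (by decide +kernel)))
    simp only [act_pQ_fst, fst_smul, (Spor.Leech.zmod2_cases (ip leechU r.1)).resolve_left
      fun e => hr (dM_comm r UM ▸ ip_eq_zero_iff.1 e), chi_one, neg_smul, one_smul] at this
    exact Ti.eq_zero_of_neg (F := ℝ) this.symm
  · by_contra hs
    have k : ∀ y, ip y leechU = 0 → ip y (r.1 + s.1) = 0 := fun y e => by
      have := congrArg (fun v : VV => v.2.1.1 s) (hy y 0 e)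
      simp only [act_pQ_snd, snd_smul] at this
      rw [ip_comm1, sw_ip_add, ip_comm1, ip_comm1 s.1, chi_inj two_ne_zero (mul_right_cancel₀ hs this)]
      generalize ip y r.1 = a; revert a; decide
    rcases sw_perp UM.not_dbl k with e | e
    · rcases Mv.dbl_add.1 e with rfl | rfl
      exacts [hs h0, hs ((snd_neg _ _).trans h0)]
    · exact hr (nor_dbl (u := UM) e)
  · have := congrArg (fun v : VV => v.2.2) (hy 0 1 (z0 _))
    simp only [act_z, z0, chi_zero, one_smul] at this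
    exact Ti.eq_zero_of_neg (F := ℝ) this

namespace NT
variable {ρ : H →* (VV ≃ₗ[ℝ] VV)} {T : Tri} (t : NT ρ T)
include t

theorem fl : NT ρ T.flip := ⟨fun g u v w => t.inv g v u w, t.o2, t.o1, fun u v => t.o3 v u, t.aaa⟩
theorem sw : NT ρ T.sw := ⟨fun g u v w => t.inv g u w v, fun v w => t.o1 w v, t.o3, t.o2, t.aaa⟩

variable [Finite H] {δ : Chat ℝ →* H} {τ : H} {π : centralizer ({zH δ} : Set H) →* Co1} (h : CS δ τ ρ π)
include h

theorem rD (g : H) (u v : VV) : ρ g (T.D u v) = T.D (ρ g u) (ρ g v) := bil_ext fun w => by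
  rw [h.rbil', T.bil_D, T.bil_D, ← t.inv g, CS.r_inv]

theorem l1 (v : VV) : T (axv UM 0) (axv UM 0) v = 0 := by
  obtain ⟨α, β, e⟩ := h.fixB (T.D (axv UM 0) (axv UM 0)) fun g hg => by rw [t.rD h, h.r_ax hg]
  have h1 := T.bil_D (axv UM 0) (axv UM 0) one
  have h2 := T.bil_D (axv UM 0) (axv UM 0) (axv UM 0)
  rw [← T.bil_D, e]
  simp only [e, t.o3, t.aaa, map_add, map_smul, LinearMap.add_apply, LinearMap.smul_apply, bil_one_one, bil_axv_one,
    bil_symm one (axv _ _), bil_axv_self, smul_eq_mul] at h1 h2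
  rw [show α = 0 by linarith, show β = 0 by linarith]; simp

theorem tr {r : Mv} {ε : ZMod 2} {P : VV → VV → VV → Prop} (hP : ∀ g u v w, P u v w → P (ρ g u) (ρ g v) (ρ g w))
    {e : ZMod 2} (h0 : ∀ v, P (axv UM 0) (axv UM e) v) (v : VV) : P (axv r ε) (axv r (e + ε)) v := by
  obtain ⟨g, hg⟩ := trans32 sqNorm_U r.2
  obtain ⟨p, rfl, h1⟩ := h.exists_lift g UM.not_dbl ε
  have := hP (δ p) _ _ _ (h0 (ρ (δ p)⁻¹ v))
  rwa [CS.r_inv, h.act, h.act, act_axv, act_axv, show p.1.1 • UM = r from Subtype.ext hg, h1, zero_add] at this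

theorem l1' (r : Mv) (ε : ZMod 2) (v : VV) : T (axv r ε) (axv r ε) v = 0 := by
  simpa using t.tr h (r := r) (ε := ε) (P := fun u v w => T u v w = 0) (fun g u v w e => (t.inv ..).trans e) (t.l1 h) v

theorem l2 (v : VV) : T (axv UM 0) (axv UM 1) v = 0 := by
  obtain ⟨α, β, γ, e⟩ := h.su_fixH (v := T.D (axv UM 0) (axv UM 1)) fun p h1 h2 => by
    rw [← h.act, t.rD h, h.act, h.act, act_axv, act_axv, h1, show eta p UM.1 = 0 from h2, add_zero, add_zero]
  have h1 := T.bil_D (axv UM 0) (axv UM 1) one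
  have h2 := (T.bil_D (axv UM 0) (axv UM 1) (axv UM 0)).trans (t.sw.l1 h _)
  have h3 := (T.bil_D (axv UM 0) (axv UM 1) (axv UM 1)).trans (t.fl.sw.l1' h UM 1 _)
  have h4 : ∀ a b, a + b = 1 → bil (axv UM a) (axv UM b) = 0 := fun a b e => by
    rw [bil_axv_axv, e, dM_self, ind_self, chi_one]; norm_num
  rw [← T.bil_D, e]
  simp only [e, t.o3, map_add, map_smul, LinearMap.add_apply, LinearMap.smul_apply, bil_one_one, bil_axv_one,
    bil_symm one (axv _ _), bil_axv_self, smul_eq_mul, h4 0 1 rfl, h4 1 0 rfl] at h1 h2 h3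
  rw [show α = 0 by linarith, show β = 0 by linarith, show γ = 0 by linarith]; simp

theorem l2' (r : Mv) (ε ε' : ZMod 2) (v : VV) : T (axv r ε) (axv r ε') v = 0 := by
  obtain rfl | rfl : ε' = ε ∨ ε' = 1 + ε := by revert ε ε'; decide
  · exact t.l1' h r _ v
  · exact t.tr h (P := fun u v w => T u v w = 0) (fun g u v w e => (t.inv ..).trans e) (t.l2 h) v

theorem lx (r : Mv) (v : VV) : T (xv r) (xv r) v = 0 := by simp [xv_eq, t.l2' h]

theorem l3 {u : VV} (hu : sg UM 0 u = u) (v : VV) : T (axv UM 0) v u = 0 := by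
  have k : ∀ x u, sg UM 0 u = u → bil (sg UM 0 x + sg UM 0 (sg UM 0 x)) u = 2 * bil x u := fun x u e => by
    rw [map_add, LinearMap.add_apply, SG.bil_sg, SG.bil_sg, SG.bil_sg, e, e, two_mul]
  have s1 : sg UM 0 (axv UM 1) = axv UM 1 := by
    rw [SG.sg_axv (ε'' := 1) (by rw [dM_self]; norm_num) (by rw [SG.cc_even (by rw [dM_self]), mul_one]), SG.rf_self,
      axv_neg]
  have := h.su_eq_zero (w := sg UM 0 (T.D (axv UM 0) v) + sg UM 0 (sg UM 0 (T.D (axv UM 0) v)))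
    ⟨by rw [map_add, SG.sg_sg (sg UM 0 _), SG.pp_apply, SG.tq_sg]; module,
      by rw [k _ _ (sg_axv_self ..), T.bil_D, ← T.sw_apply, t.sw.l1 h, mul_zero], fun g hg => by
      rw [map_add, h.r_sg hg, h.r_sg hg, h.r_sg hg, k _ _ s1, t.rD h, h.r_ax hg, T.bil_D, ← T.sw_apply, t.sw.l2 h,
        mul_zero]⟩
  have h1 := k (T.D (axv UM 0) v) u hu
  rw [this, T.bil_D] at h1
  simpa using h1

theorem neg {x v : VV} (hx : ∀ u, sg UM 0 u = u → bil x u = 2 * T (axv UM 0) v u) (e : tq UM 0 x = x) :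
    sg UM 0 x = -x := by
  have h1 : sg UM 0 (x + sg UM 0 x) = x + sg UM 0 x := by rw [map_add, SG.sg_sg, SG.pp_apply, e]; module
  by_contra hne
  have := bil_pos (x + sg UM 0 x) fun e => hne (eq_neg_of_add_eq_zero_right e)
  rw [map_add bil, LinearMap.add_apply, SG.bil_sg, h1, hx _ h1, t.l3 h h1] at this
  norm_num at this

theorem wt (r : Mv) {y : Lam} (a : ZMod 2) (e : ip y leechU = 0) :
    act (pQ ℝ y a) (T.D (axv UM 0) (xv r)) = chi ℝ (ip y r.1) • T.D (axv UM 0) (xv r) := by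
  rw [← h.act, t.rD h, h.act, h.act, act_axv, act_xv, eta_pQ, eta_pQ, pQ_fst, one_smul, one_smul,
    show ip y UM.1 = 0 from e, add_zero, map_smul]

theorem x0 (r : Mv) : (T.D (axv UM 0) (xv r)).2.1.1 r = 0 := by
  have := (T.bil_D (axv UM 0) (xv r) (xv r)).trans (t.fl.sw.lx h r _)
  rw [bil_xv] at this; linarith

theorem l4 (v : VV) : T (axv UM 0) (xv XM) v = 0 := by
  have e0 : ip leechU lX = 0 := ip_eq_zero_iff.2 (by decide +kernel)
  have e1 : tq UM 0 (T.D (axv UM 0) (xv XM)) = T.D (axv UM 0) (xv XM) := by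
    rw [tq_apply, t.wt h XM 0 (ip_eq_zero_iff.2 (by decide +kernel)), show ip UM.1 XM.1 = 0 from e0, chi_zero, one_smul]
  rw [← T.bil_D, sw_key (t.neg h (v := (2⁻¹ : ℝ) • xv XM) (fun u _ => by rw [T.bil_D]; simp) e1)
    (fun y a e => t.wt h XM a e) (t.x0 h XM)]
  simp

theorem l5 (v w : VV) : T (axv UM 0) v w = 0 := by
  have c : ∀ g, g * sH δ = sH δ * g → ∀ v, ρ g (T.D (axv UM 0) v) = T.D (axv UM 0) (ρ g v) := fun g hg v => by
    rw [t.rD h, h.r_ax hg]
  have h1 : T.D (axv UM 0) v + tq UM 0 (T.D (axv UM 0) v) = 0 :=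
    h.sw_irr (F := {x | ∃ v, x = T.D (axv UM 0) v + tq UM 0 (T.D (axv UM 0) v)})
      (by rintro g hg _ ⟨v, rfl⟩; exact ⟨ρ g v, by rw [map_add, h.r_tq_comm hg, c g hg]⟩)
      (by
        rintro _ ⟨v, rfl⟩
        refine t.neg h (v := v) (fun u hu => ?_) (by rw [map_add, tq_tq, add_comm])
        rw [map_add, LinearMap.add_apply, bil_tq, ← hu, SG.tq_sg, T.bil_D, two_mul])
      (by
        rintro _ ⟨v, rfl⟩
        have := (T.bil_D (axv UM 0) v (xv XM)).trans (t.sw.l4 h v)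
        rw [bil_xv] at this
        rw [snd_add, SG.tq_snd, if_pos (by rw [dM_UX]; norm_num)]; linarith) ⟨v, rfl⟩
  have h2 : T.D (axv UM 0) v - tq UM 0 (T.D (axv UM 0) v) = 0 :=
    h.eq_zero_of_neg (F := {x | ∃ v, x = T.D (axv UM 0) v - tq UM 0 (T.D (axv UM 0) v)})
      (by rintro g hg _ ⟨v, rfl⟩; exact ⟨ρ g v, by rw [map_sub, h.r_tq_comm hg, c g hg]⟩)
      (by
        rintro _ ⟨v, rfl⟩
        refine ⟨Subtype.ext (by rw [fst_sub, SG.tq_fst, sub_self]; rfl), Subtype.ext (funext fun r => ?_)⟩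
        rw [snd_sub, SG.tq_snd]
        split_ifs with e
        · exact sub_self _
        · have := T.bil_D (axv UM 0) v (xv r)
          rw [← T.sw_apply, ← T.sw.bil_D, nor_key (dM_comm UM r ▸ e) (fun y a e => t.sw.wt h r a e) (t.sw.x0 h r), bil_xv,
            map_zero, LinearMap.zero_apply] at this
          change _ = (0 : ℝ)
          linarith) ⟨v, rfl⟩
  rw [← T.bil_D, show T.D (axv UM 0) v = 0 by linear_combination (norm := module) (2⁻¹ : ℝ) • h1 + (2⁻¹ : ℝ) • h2]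
  simp

theorem eq_zero (u v w : VV) : T u v w = 0 := by
  have k : ∀ r ε v w, T (axv r ε) v w = 0 := fun r ε v w => by
    obtain ⟨g, hg⟩ := isConj_iff.1 (h.conj_pQ r ε)
    rw [← h.ax_pQ, ← hg, h.axc g (IsConj.refl _), h.ax_s, ← CS.r_inv (ρ := ρ) g v, ← CS.r_inv (ρ := ρ) g w, t.inv, t.l5 h]
  have t' := t.fl.sw
  have := h.sm_zero (F := {x | ∃ v w, x = (Tri.sw T.flip).D v w})
    (by rintro g _ ⟨v, w, rfl⟩; exact ⟨_, _, t'.rD h g v w⟩) (by rintro _ ⟨v, w, rfl⟩; rw [Tri.bil_D, t'.o3])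
    (by
      rintro _ ⟨v, w, rfl⟩ r
      rw [Tri.bil_D]
      change T (xv r) v w = 0
      simp [xv_eq, k]) ⟨v, w, rfl⟩
  have h1 := (Tri.sw T.flip).bil_D v w u
  rw [this] at h1
  exact h1.symm.trans (by simp)

end NT

/-- The projection along `one`. -/
noncomputable def prj : VV →ₗ[ℝ] VV := LinearMap.id - (48⁻¹ : ℝ) • (bil one).smulRight one

theorem prj_apply (v : VV) : prj v = v - (bil one v / 48) • one := by
  simp [prj, smul_smul, div_eq_inv_mul]
theorem bil_prj (v : VV) : bil one (prj v) = 0 := by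
  rw [prj_apply, map_sub, map_smul, bil_one_one, smul_eq_mul]; ring
theorem prj_of {v : VV} (hv : bil one v = 0) : prj v = v := by rw [prj_apply, hv]; simp
theorem prj_one : prj one = 0 := by rw [prj_apply, bil_one_one]; simp
theorem prj_symm (u v : VV) : bil (prj u) v = bil u (prj v) := by
  simp only [prj_apply, map_sub, map_smul, LinearMap.sub_apply, LinearMap.smul_apply, smul_eq_mul, bil_symm u one]; ring

namespace CS
variable [Finite H] {δ : Chat ℝ →* H} {τ : H} {ρ : H →* (VV ≃ₗ[ℝ] VV)} {π : centralizer ({zH δ} : Set H) →* Co1}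
  (h : CS δ τ ρ π)
include h

theorem r_prj (g : H) (v : VV) : ρ g (prj v) = prj (ρ g v) := by
  rw [prj_apply, prj_apply, map_sub, map_smul, h.r_one, ← h.rbil g, h.r_one]

/-- Equivariant products on the complement of `one`. -/
theorem prod_unique (m : VV →ₗ[ℝ] VV →ₗ[ℝ] VV) (hm : ∀ g u v, bil one u = 0 → bil one v = 0 →
    prj (m (ρ g u) (ρ g v)) = ρ g (prj (m u v))) : ∃ c : ℝ, ∀ u v, prj (m (prj u) (prj v)) = c • prj (mul (prj u) (prj v)) := by
  let F : (VV →ₗ[ℝ] VV →ₗ[ℝ] VV) → Tri := fun m => ((m.compl₁₂ prj prj).compr₂ prj).compr₂ bil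
  have hF : ∀ m u v w, F m u v w = bil (prj (m (prj u) (prj v))) w := fun _ _ _ _ => rfl
  have ha : F mul (axv UM 0) (axv UM 0) (axv UM 0) ≠ 0 := by
    rw [hF, prj_symm]
    simp only [prj_apply, map_sub, map_smul, LinearMap.sub_apply, LinearMap.smul_apply, (h.axs UM 0).idem, h.ad.1,
      amb.1 (axv UM 0) one, bil_symm one (axv _ _), bil_axv_one, bil_axv_self, bil_one_one, smul_eq_mul]
    norm_num
  obtain ⟨c, hc⟩ : ∃ c, c = F m (axv UM 0) (axv UM 0) (axv UM 0) / F mul (axv UM 0) (axv UM 0) (axv UM 0) := ⟨_, rfl⟩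
  have hs : ∀ u v w, F (m + (-c) • mul) u v w = F m u v w - c * F mul u v w := fun u v w => by
    simp [hF, sub_eq_add_neg]
  have t : NT ρ (F (m + (-c) • mul)) :=
    ⟨fun g u v w => by
      simp only [hs, hF, ← h.r_prj, hm g _ _ (bil_prj u) (bil_prj v), ← h.rmul, h.rbil],
      fun v w => by simp [hF, prj_one], fun v w => by simp [hF, prj_one],
      fun v w => by rw [hF, bil_symm _ one, bil_prj], by rw [hs, hc]; field_simp; ring⟩
  exact ⟨c, fun u v => bil_ext fun w => by simpa [hF, sub_eq_zero] using (hs u v w).symm.trans (t.eq_zero h u v w)⟩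

/-- Irreducibility of the complement of `one`. -/
theorem irr (W : Submodule ℝ VV) (h1 : ∀ v ∈ W, bil one v = 0) (hW : ∀ g, ∀ v ∈ W, ρ g v ∈ W) :
    W = ⊥ ∨ ∀ v, bil one v = 0 → v ∈ W := by
  have hc : IsCompl W (bil.orthogonal W) := LinearMap.BilinForm.isCompl_orthogonal_of_restrict_nondegenerate
    (LinearMap.IsSymm.isRefl ⟨bil_symm⟩) ⟨fun u hu => by
      by_contra e; exact (bil_pos u fun k => e (Subtype.ext k)).ne' (hu u), fun u hu => by
      by_contra e; exact (bil_pos u fun k => e (Subtype.ext k)).ne' (hu u)⟩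
  let K : VV →ₗ[ℝ] VV := W.subtype ∘ₗ W.projectionOnto _ hc
  have k1 : ∀ v ∈ W, K v = v := fun v hv => congrArg Subtype.val (Submodule.projectionOnto_apply_left hc ⟨v, hv⟩)
  have k2 : ∀ v, (∀ w ∈ W, bil w v = 0) → K v = 0 := fun v hv =>
    congrArg Subtype.val (Submodule.projectionOnto_apply_right hc ⟨v, hv⟩)
  have k3 : ∀ v, K v ∈ W := fun v => (W.projectionOnto _ hc v).2
  have k4 : ∀ v, ∀ w ∈ W, bil w (v - K v) = 0 := fun v => by
    obtain ⟨a, ha, b, hb, rfl⟩ := Submodule.mem_sup.1 (hc.sup_eq_top.ge (Submodule.mem_top (x := v)))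
    rw [map_add, k1 a ha, k2 b hb, add_zero, add_sub_cancel_left]; exact hb
  obtain ⟨κ, hκ⟩ := h.schurM K (fun g v => by
      have := k2 (ρ g (v - K v)) fun w hw => by rw [bil_symm, h.rbil', bil_symm, k4 _ _ (hW _ w hw)]
      rwa [map_sub, map_sub, k1 _ (hW g _ (k3 v)), sub_eq_zero] at this)
    (fun u v => by
      have e1 := k4 v _ (k3 u)
      have e2 := k4 u _ (k3 v)
      rw [map_sub, sub_eq_zero] at e1 e2
      rw [e1, bil_symm u, e2, bil_symm]) ⟨0, by rw [k2 _ fun w hw => (bil_symm ..).trans (h1 w hw), zero_smul]⟩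
  by_cases e : κ = 0
  · exact Or.inl ((Submodule.eq_bot_iff _).2 fun v hv => by
      rw [← k1 v hv, hκ v ((bil_symm ..).trans (h1 v hv)), e, zero_smul])
  · exact Or.inr fun v hv => (W.smul_mem_iff e).1 (hκ v ((bil_symm ..).trans hv) ▸ k3 v)

/-- The Norton pair. -/
theorem s5540 {G : Type*} [Group G] (φ : G ≃* H) : ∃ ρ : Representation ℝ G (Fin 196883 → ℝ), Function.Injective ρ ∧
    (∀ W : Submodule ℝ (Fin 196883 → ℝ), (∀ g : G, W.map (ρ g) ≤ W) → W = ⊥ ∨ W = ⊤) ∧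
    (∃ B : LinearMap.BilinForm ℝ (Fin 196883 → ℝ), B ≠ 0 ∧ (∀ u v, B u v = B v u) ∧
      ∀ (g : G) (u v : (Fin 196883 → ℝ)), B (ρ g u) (ρ g v) = B u v) ∧
    ∃ m : (Fin 196883 → ℝ) →ₗ[ℝ] (Fin 196883 → ℝ) →ₗ[ℝ] (Fin 196883 → ℝ), m ≠ 0 ∧ (∀ u v, m u v = m v u) ∧
      (∀ (g : G) (u v : (Fin 196883 → ℝ)), m (ρ g u) (ρ g v) = ρ g (m u v)) ∧
      ∀ m' : (Fin 196883 → ℝ) →ₗ[ℝ] (Fin 196883 → ℝ) →ₗ[ℝ] (Fin 196883 → ℝ),
        (∀ (g : G) (u v : (Fin 196883 → ℝ)), m' (ρ g u) (ρ g v) = ρ g (m' u v)) → ∃ c : ℝ, m' = c • m := by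
  have hW : Module.finrank ℝ (LinearMap.ker (bil one)) = 196883 := by
    have := Module.Dual.finrank_ker_add_one_of_ne_zero (f := bil one) fun e => by
      have := bil_one_one; rw [e] at this; norm_num at this
    rw [h.tv.1] at this
    exact Nat.succ_injective this
  generalize 196883 = n at hW ⊢
  obtain ⟨e⟩ := nor_equiv _ hW
  obtain ⟨j, hj⟩ : ∃ j : (Fin n → ℝ) →ₗ[ℝ] VV, j = (LinearMap.ker (bil one)).subtype ∘ₗ e.symm.toLinearMap := ⟨_, rfl⟩
  obtain ⟨q, hq⟩ : ∃ q : VV →ₗ[ℝ] (Fin n → ℝ), q = e.toLinearMap ∘ₗ prj.codRestrict _ bil_prj := ⟨_, rfl⟩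
  have j0 : ∀ x, bil one (j x) = 0 := fun x => hj ▸ (e.symm x).2
  have jq : ∀ v, j (q v) = prj v := fun v => by simp [hj, hq]; rfl
  have ji : Function.Injective j := hj ▸ (Submodule.injective_subtype _).comp e.symm.injective
  have r0 : ∀ g v, bil one v = 0 → bil one (ρ g v) = 0 := fun g v hv => by rw [← h.r_one g, h.rbil, hv]
  have qj : ∀ x, q (j x) = x := fun x => ji (by rw [jq, prj_of (j0 x)])
  let R : Representation ℝ G (Fin n → ℝ) :=
    { toFun g := q ∘ₗ (ρ (φ g)).toLinearMap ∘ₗ j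
      map_one' := LinearMap.ext fun x => by simp [qj]
      map_mul' g k := LinearMap.ext fun x => ji (by simp [jq, prj_of, r0, j0]) }
  have jR : ∀ g x, j (R g x) = ρ (φ g) (j x) := fun g x => (jq _).trans (prj_of (r0 _ _ (j0 x)))
  have a0 : prj (axv UM 0) ≠ 0 := fun k => by
    have := congrArg (bil (axv UM 0)) k
    rw [prj_apply, map_sub, map_smul, bil_symm one, bil_axv_one, bil_axv_self, map_zero] at this
    norm_num at this
  refine ⟨R, (injective_iff_map_eq_one _).2 fun g hg => φ.injective (h.inj (LinearEquiv.ext fun v => ?_)),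
    fun W hW => ?_, ⟨bil.compl₁₂ j j, fun k => ?_, fun u v => bil_symm _ _, fun g u v => ?_⟩,
    (mul.compl₁₂ j j).compr₂ q, fun k => ?_, fun u v => congrArg q (amb.1 _ _), fun g u v => ji ?_, fun m' hm => ?_⟩
  · have := jR g (q v)
    rw [hg, Module.End.one_apply, jq, prj_apply, map_sub, map_smul, h.r_one, sub_left_inj] at this
    rw [← this, map_one, map_one]; rfl
  · refine (h.irr (W.map j) (by rintro _ ⟨x, -, rfl⟩; exact j0 x) ?_).imp
      (fun k => Submodule.map_injective_of_injective ji (by rw [k, Submodule.map_bot]))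
      fun k => eq_top_iff.2 fun x _ => let ⟨y, hy, e⟩ := k _ (j0 x); ji e ▸ hy
    rintro g _ ⟨x, hx, rfl⟩
    exact ⟨_, hW (φ.symm g) ⟨x, hx, rfl⟩, by rw [jR, φ.apply_symm_apply]⟩
  · have := bil_pos _ a0
    rw [← jq] at this
    exact this.ne' (LinearMap.congr_fun₂ k _ _)
  · simp [jR, h.rbil]
  · have := congrArg (fun x => bil (j x) (axv UM 0)) (LinearMap.congr_fun₂ k (q (axv UM 0)) (q (axv UM 0)))
    simp only [LinearMap.compr₂_apply, LinearMap.compl₁₂_apply, jq, LinearMap.zero_apply, map_zero] at this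
    rw [prj_symm] at this
    simp only [prj_apply, map_sub, map_smul, LinearMap.sub_apply, LinearMap.smul_apply, (h.axs UM 0).idem, h.ad.1,
      amb.1 (axv UM 0) one, bil_symm one (axv _ _), bil_axv_one, bil_axv_self, bil_one_one, smul_eq_mul] at this
    norm_num at this
  · simp [jR, jq, h.r_prj, h.rmul]
  · obtain ⟨c, hc⟩ := h.prod_unique ((m'.compl₁₂ q q).compr₂ j) fun g u v hu hv => by
      obtain ⟨g, rfl⟩ := φ.surjective g
      have k : ∀ v, bil one v = 0 → q (ρ (φ g) v) = R g (q v) := fun v hv => ji (by rw [jR, jq, jq, h.r_prj])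
      simp [prj_of, j0, k u hu, k v hv, hm, jR, r0]
    refine ⟨c, LinearMap.ext₂ fun u v => ji ?_⟩
    simpa [prj_of, j0, qj, jq] using hc (j u) (j v)

end CS

end CL.Mj
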