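/-
The centralizer of a 2-central involution of HS is a maximal subgroup.
-/
import Cfsg.Agent.Spor.MsHSD
import Cfsg.Agent.Spor.HSRM

set_option autoImplicit false
set_option maxRecDepth 200000

namespace CL.MS
open CL.PG Subgroup

section
variable {G : Type*} [Group G] [Finite G]

theorem hsm_sylow (hG : Nat.card G = 44352000) {j : G} (hj : orderOf j = 2)
    (h : 512 ∣ Nat.card (centralizer {j})) :
    ∃ P : Subgroup G, Nat.card P = 2 ^ 9 ∧ j ∈ P ⊓ centralizer (P : Set G) := by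
  have : Fact (Nat.Prime 2) := ⟨Nat.prime_two⟩
  obtain ⟨Q, hQ⟩ := Sylow.exists_subgroup_card_pow_prime (G := centralizer ({j} : Set G)) 2 (n := 9) h
  have hP : Nat.card (Q.map (centralizer ({j} : Set G)).subtype) = 2 ^ 9 := by
    rw [card_map_of_injective (subtype_injective _), hQ]
  have hle : Q.map (centralizer ({j} : Set G)).subtype ≤ centralizer {j} := map_subtype_le Q
  set P := Q.map (centralizer ({j} : Set G)).subtype
  have hf : (Nat.card G).factorization 2 = 9 := by rw [hG]; decide +kernel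
  let S : Sylow 2 G := Sylow.ofCard P (by rw [hf, hP])
  have hz : IsPGroup 2 (zpowers j) := IsPGroup.of_card (n := 1) (by rw [Nat.card_zpowers, hj]; rfl)
  have hn : P ≤ normalizer (zpowers j) := fun x hx => by
    have hx' : j * x = x * j := mem_centralizer_iff.mp (hle hx) j rfl
    have hc : x ∈ centralizer (zpowers j : Set G) := by
      rw [mem_centralizer_iff]
      rintro _ ⟨k, rfl⟩
      exact ((show Commute j x from hx').zpow_left k).eq
    exact centralizer_le_normalizer _ hc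
  have hs : IsPGroup 2 (P ⊔ zpowers j : Subgroup G) := IsPGroup.to_sup_of_normal_right' S.isPGroup' hz hn
  have he : P ⊔ zpowers j = P := S.is_maximal' hs le_sup_left
  refine ⟨P, hP, by rw [← he]; exact mem_sup_right (mem_zpowers j), mem_centralizer_iff.mpr fun x hx => ?_⟩
  exact (mem_centralizer_iff.mp (hle hx) j rfl).symm

theorem hsm_conj (hG : Nat.card G = 44352000)
    (hZ : ∀ P : Subgroup G, Nat.card P = 2 ^ 9 → Nat.card (P ⊓ centralizer (P : Set G) : Subgroup G) = 2)
    {j k : G} (hj : orderOf j = 2) (h : 512 ∣ Nat.card (centralizer {j}))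
    (hk : orderOf k = 2) (h' : 512 ∣ Nat.card (centralizer {k})) : ∃ g, g * j * g⁻¹ = k := by
  obtain ⟨P, hP, hjP⟩ := hsm_sylow hG hj h
  obtain ⟨Q, hQ, hkQ⟩ := hsm_sylow hG hk h'
  obtain ⟨g, hg⟩ := conj_of_sylow_card Nat.prime_two hG (k := 9) (by decide +kernel) hP hQ
  have hm : g * j * g⁻¹ ∈ Q ⊓ centralizer (Q : Set G) := by
    refine ⟨by rw [← hg]; exact ⟨j, hjP.1, rfl⟩, mem_centralizer_iff.mpr fun x hx => ?_⟩
    rw [← hg] at hx
    obtain ⟨y, hy, rfl⟩ := hx
    have := mem_centralizer_iff.mp hjP.2 y hy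
    show g * y * g⁻¹ * (g * j * g⁻¹) = g * j * g⁻¹ * (g * y * g⁻¹)
    calc g * y * g⁻¹ * (g * j * g⁻¹) = g * (y * j) * g⁻¹ := by group
      _ = g * (j * y) * g⁻¹ := by rw [this]
      _ = _ := by group
  refine ⟨g, ?_⟩
  have h2 := hZ Q hQ
  have hj1 : j ≠ 1 := by rintro rfl; simp at hj
  have hk1 : k ≠ 1 := by rintro rfl; simp at hk
  have hg1 : g * j * g⁻¹ ≠ 1 := fun h => hj1 (by
    have : j = g⁻¹ * (g * j * g⁻¹) * g := by group
    rw [this, h]; group)
  obtain ⟨y, -, hy⟩ := (Nat.card_eq_two_iff' (1 : (Q ⊓ centralizer (Q : Set G) : Subgroup G))).mp h2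
  have a := hy ⟨_, hm⟩ (fun h => hg1 (congrArg Subtype.val h))
  have b := hy ⟨_, hkQ⟩ (fun h => hk1 (congrArg Subtype.val h))
  exact congrArg Subtype.val (a.trans b.symm)

omit [Finite G] in
theorem hsm_cent_conj (g j : G) :
    centralizer {g * j * g⁻¹} = (centralizer {j}).map (MulAut.conj g).toMonoidHom := by
  ext x
  rw [mem_map_equiv, mem_centralizer_singleton_iff, mem_centralizer_singleton_iff]
  simp only [MulAut.conj_symm_apply]
  constructor
  · intro h
    calc g⁻¹ * x * g * j = g⁻¹ * (x * (g * j * g⁻¹)) * g := by group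
      _ = g⁻¹ * ((g * j * g⁻¹) * x) * g := by rw [h]
      _ = _ := by group
  · intro h
    calc x * (g * j * g⁻¹) = g * (g⁻¹ * x * g * j) * g⁻¹ := by group
      _ = g * (j * (g⁻¹ * x * g)) * g⁻¹ := by rw [h]
      _ = _ := by group

end

theorem hs_card : Nat.card Cfsg.Spor.HS = 44352000 := Spor.Leech.isHS_HS.2

theorem hs_zsyl (P : Subgroup Cfsg.Spor.HS) (hP : Nat.card P = 2 ^ 9) :
    Nat.card (P ⊓ centralizer (P : Set Cfsg.Spor.HS) : Subgroup Cfsg.Spor.HS) = 2 := by
  obtain ⟨_, cs, t⟩ := CL.HSRM.xtop CL.Std.HS.iso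
  obtain ⟨e', cs', t', hS⟩ := t.wlog_sylow (p := 2) (k := 9) Nat.prime_two (by decide +kernel)
    (CL.HSRM.xS_card t.c) hP
  rw [← hS, CL.HSRM.xz t'.c, CL.PG.subW_single, CL.HSRM.xza t'.c, ← CL.PG.subW_single]
  exact CL.HSRM.xot t'.c

theorem hsu_mov : movB HSU.P.n HSU.P.N HSU.ns [52] 0 = true ∨ movB HSU.P.n HSU.P.N HSU.ns [52] 1 = true ∨
    movB HSU.P.n HSU.P.N HSU.ns [52] 2 = true ∨ movB HSU.P.n HSU.P.N HSU.ns [52] 3 = true := by decide +kernel

theorem hs_model : ∃ j : Cfsg.Spor.HS, orderOf j = 2 ∧ Nat.card (centralizer {j}) = 7680 ∧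
    IsCoatom (centralizer {j}) := by
  have iso : Nonempty (subW HSU.gs1 [[0], [2]] ≃* Cfsg.Spor.HS) :=
    ⟨((HSU.toT HSU.c1 CL.Std.HS.c1 ((faithful_eF _).mono le_top)).equiv_of_card (HSU.G_ub HSU.c1)
      (CL.Std.HS.G_lb CL.Std.HS.c1)).some.trans CL.Std.HS.iso.some⟩
  obtain ⟨_, cs, t⟩ := HSU.c1.exists_top (b := 35) (l := [[0], [2]]) (o := 44352000) (by decide +kernel)
    (by decide +kernel) ((faithful_eF _).mono le_top) ((Nat.card_congr iso.some.toEquiv).trans hs_card)
    (by norm_num) iso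
  have h1 : wordG cs [52] ≠ 1 := by
    rcases hsu_mov with h | h | h | h <;> exact t.c.ne_one h
  have h2 : wordG cs [52] ^ 2 = 1 := by
    have := HSU.jj t.c
    rw [← wordG_powW]; exact this
  have hst : MulAction.stabilizer Cfsg.Spor.HS (eF HSU.P.n 176) = subW cs [[34], [36]] :=
    t.top_inf (HSU.D_ex t.c).stab
  have hcard : Nat.card (subW cs [[34], [36]]) = 7680 :=
    (HSU.D_ex t.c).tail.card.trans (by decide +kernel)
  have hco : IsCoatom (subW cs [[34], [36]]) := by
    have hm := HSU.max t.c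
    rw [← hst]
    have key : ∀ H : Subgroup Cfsg.Spor.HS, H = ⊤ → IsCoatom (MulAction.stabilizer H (eF HSU.P.n 176)) →
        IsCoatom (MulAction.stabilizer Cfsg.Spor.HS (eF HSU.P.n 176)) := by
      rintro _ rfl h
      have e1 : MulAction.stabilizer Cfsg.Spor.HS (eF HSU.P.n 176) =
          (MulEquiv.mapSubgroup (topEquiv (G := Cfsg.Spor.HS))) (MulAction.stabilizer (⊤ : Subgroup Cfsg.Spor.HS) (eF HSU.P.n 176)) := by
        ext x
        simp only [MulEquiv.mapSubgroup_apply, mem_map]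
        exact ⟨fun hx => ⟨⟨x, trivial⟩, hx, rfl⟩, fun ⟨y, hy, e⟩ => e ▸ hy⟩
      rw [e1]
      exact (OrderIso.isCoatom_iff _ _).mpr h
    exact key _ t.top hm
  have hle : subW cs [[34], [36]] ≤ centralizer {wordG cs [52]} := fun x hx =>
    mem_centralizer_singleton_iff.mpr (HSU.cm t.c x hx _ (mem_subW List.mem_cons_self))
  have hne : centralizer {wordG cs [52]} ≠ ⊤ := fun h => by
    have := Spor.Leech.isHS_HS.1
    have hc : wordG cs [52] ∈ center Cfsg.Spor.HS := mem_center_iff.mpr fun g =>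
      mem_centralizer_singleton_iff.mp (h ▸ mem_top g : g ∈ centralizer {wordG cs [52]})
    have hn : (zpowers (wordG cs [52])).Normal := ⟨fun n hn g => by
      have : n ∈ center Cfsg.Spor.HS := (zpowers_le.mpr hc) hn
      rw [mem_center_iff.mp this g]; simpa using hn⟩
    rcases hn.eq_bot_or_eq_top with hb | hb
    · exact h1 (zpowers_eq_bot.mp hb)
    · have := congrArg (fun H : Subgroup Cfsg.Spor.HS => Nat.card H) hb
      simp only [Nat.card_zpowers, card_top, hs_card] at this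
      have := orderOf_le_of_pow_eq_one (by norm_num) h2
      omega
  have he : centralizer {wordG cs [52]} = subW cs [[34], [36]] := ((hco.le_iff.mp hle).resolve_left hne)
  have : Fact (Nat.Prime 2) := ⟨Nat.prime_two⟩
  exact ⟨wordG cs [52], orderOf_eq_prime h2 h1, by rw [he, hcard], he ▸ hco⟩

theorem hs_cent {j : Cfsg.Spor.HS} (hj : orderOf j = 2) (h : 512 ∣ Nat.card (centralizer {j})) :
    Nat.card (centralizer {j}) = 7680 ∧ IsCoatom (centralizer {j}) := by
  have : Finite Cfsg.Spor.HS := Nat.finite_of_card_ne_zero (by rw [hs_card]; norm_num)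
  obtain ⟨k, hk, hc, hco⟩ := hs_model
  obtain ⟨g, rfl⟩ := hsm_conj hs_card hs_zsyl hk (by rw [hc]; norm_num) hj h
  rw [hsm_cent_conj]
  refine ⟨by rw [card_map_of_injective (MulAut.conj g).injective, hc], ?_⟩
  exact (OrderIso.isCoatom_iff (MulEquiv.mapSubgroup (MulAut.conj g)) _).mpr hco

theorem hs_max (L : Subgroup Cfsg.Spor.HS) {j : Cfsg.Spor.HS} (hj : orderOf j = 2)
    (h1 : 7680 ∣ Nat.card (L ⊓ Subgroup.centralizer {j} : Subgroup Cfsg.Spor.HS))
    (h2 : ¬ L ≤ Subgroup.centralizer {j}) : L = ⊤ := by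
  have : Finite Cfsg.Spor.HS := Nat.finite_of_card_ne_zero (by rw [hs_card]; norm_num)
  have hd : Nat.card (L ⊓ Subgroup.centralizer {j} : Subgroup Cfsg.Spor.HS) ∣ Nat.card (centralizer {j}) :=
    card_dvd_of_le inf_le_right
  obtain ⟨hc, hco⟩ := hs_cent hj ((show 512 ∣ 7680 by norm_num).trans (h1.trans hd))
  have he : L ⊓ Subgroup.centralizer {j} = centralizer {j} :=
    eq_of_le_of_card_ge inf_le_right (by rw [hc]; exact Nat.le_of_dvd Nat.card_pos h1)
  have hle : centralizer {j} ≤ L := he ▸ inf_le_left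
  exact hco.2 L (lt_of_le_of_ne hle fun h => h2 h.ge)

end CL.MS
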