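/-
Codes (`Spor/Mx3`) of the root elements of a Chevalley group over `ZMod 3`; a test for membership in the group.
-/
import Cfsg.Agent.Spor.Mx3
import Cfsg.Agent.Chev.Real

set_option autoImplicit false

namespace CL.Mx3

open CL.Mx CL.Chev Cfsg.Lie Matrix

/-- column `i` of a plane, moved to column `j` -/
def mv (o X i j : ℕ) : ℕ := Nat.shiftLeft (Nat.land (Nat.shiftRight X i) o) j

theorem mv_bit {n : ℕ} (X i a : ℕ) {j b : ℕ} (hj : j < n) (hb : b < n) :
    (mv (ones n n) X i j).testBit (a * n + b) = (decide (a < n ∧ j = b) && X.testBit (a * n + i)) := by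
  rw [show mv (ones n n) X i j = 2 ^ j * (X >>> i &&& ones n n) from (Nat.shiftLeft_eq _ _).trans (mul_comm _ _),
    testBit_eq_lane _ _ _ hb, lane_mul_and_ones (by omega) (Nat.pow_lt_pow_right (by norm_num) hj),
    Nat.testBit_shiftRight, add_comm i]
  by_cases h : a < n <;> cases X.testBit (a * n + i) <;> simp [h, Nat.testBit_two_pow]

/-- `(x, y) + (p, m) * E` with `E` given by its entries `(row, column, value)` -/
noncomputable def mulE {α : Type} (n o p m : ℕ) (k : ℕ → ℕ → α) (l : List (ℕ × ℕ × ℤ)) : ℕ → ℕ → α :=
  List.rec (motive := fun _ => ℕ → ℕ → α) k (fun e _ ih x y => Prod.rec (fun i e => Prod.rec (fun j z =>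
    cond (Nat.blt i n && Nat.blt j n) (if z % 3 = 1 then addK x y (mv o p i j) (mv o m i j) ih
      else if z % 3 = 2 then addK x y (mv o m i j) (mv o p i j) ih else ih x y) (ih x y)) e) e) l

theorem mulE_spec {α : Type} {n p m : ℕ} (hn : 0 < n) (h0 : Dis (p, m)) (k : ℕ → ℕ → α) (l : List (ℕ × ℕ × ℤ))
    {x y : ℕ} (h : Dis (x, y)) : ∃ x' y', mulE n (ones n n) p m k l x y = k x' y' ∧ Dis (x', y') ∧
      ∀ a b : Fin n, val (x', y') (a * n + b) = val (x, y) (a * n + b) + ∑ c : Fin n, val (p, m) (a * n + c) *
        (l.map fun e => if e.1 = (c : ℕ) ∧ e.2.1 = (b : ℕ) then (e.2.2 : ZMod 3) else 0).sum := by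
  induction l generalizing x y with
  | nil => exact ⟨x, y, rfl, h, fun a b => by simp⟩
  | cons e l ih =>
    obtain ⟨i, j, z⟩ := e
    have e1 : mulE n (ones n n) p m k ((i, j, z) :: l) x y = cond (Nat.blt i n && Nat.blt j n)
      (if z % 3 = 1 then addK x y (mv (ones n n) p i j) (mv (ones n n) m i j) (mulE n (ones n n) p m k l)
      else if z % 3 = 2 then addK x y (mv (ones n n) m i j) (mv (ones n n) p i j) (mulE n (ones n n) p m k l)
      else mulE n (ones n n) p m k l x y) (mulE n (ones n n) p m k l x y) := rfl
    have hz : (z : ZMod 3) = ((z % 3 : ℤ) : ZMod 3) := (ZMod.intCast_mod z 3).symm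
    simp only [e1, List.map_cons, List.sum_cons, mul_add, Finset.sum_add_distrib]
    by_cases hij : i < n ∧ j < n
    · have hs : ∀ a b : Fin n, ∑ c : Fin n, val (p, m) (a * n + c) * (if i = c ∧ j = b then (z : ZMod 3) else 0) =
          if j = b then val (p, m) (a * n + i) * z else 0 := fun a b => by
        rw [Finset.sum_eq_single ⟨i, hij.1⟩ (fun c _ hc => by rw [if_neg fun q => hc (Fin.ext q.1.symm), mul_zero])
          (by simp)]
        simp
      have key : ∀ u v, Dis (u, v) → (∀ c, val (u, v) c = val (p, m) c * z) → ∃ x' y',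
          addK x y (mv (ones n n) u i j) (mv (ones n n) v i j) (mulE n (ones n n) p m k l) = k x' y' ∧ Dis (x', y') ∧
          ∀ a b : Fin n, val (x', y') (a * n + b) = val (x, y) (a * n + b) +
            ((if j = b then val (p, m) (a * n + i) * z else 0) + ∑ c : Fin n, val (p, m) (a * n + c) *
            (l.map fun e => if e.1 = (c : ℕ) ∧ e.2.1 = (b : ℕ) then (e.2.2 : ZMod 3) else 0).sum) := fun u v d hv => by
        have h2 := add_spec h (p := mv (ones n n) u i j) (m := mv (ones n n) v i j) fun c => by
          rw [← Nat.div_add_mod' c n, mv_bit _ _ _ hij.2 (Nat.mod_lt c hn), mv_bit _ _ _ hij.2 (Nat.mod_lt c hn)]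
          have := d (c / n * n + i)
          cases decide (c / n < n ∧ j = c % n)
          exacts [rfl, this]
        obtain ⟨x', y', h3, h4, h5⟩ := ih fun c => (h2 c).1
        refine ⟨x', y', (frc_eq _ _).trans ((frc_eq _ _).trans h3), h4, fun a b => ?_⟩
        rw [h5, (h2 _).2, add_assoc, ← hv]
        congr 2
        rw [val, mv_bit _ _ _ hij.2 b.2, mv_bit _ _ _ hij.2 b.2]
        by_cases q : j = b <;> simp [val, q, tr]
      simp only [Nat.blt_eq.mpr hij.1, Nat.blt_eq.mpr hij.2, Bool.and_self, cond_true, hs]
      split_ifs with h1 h2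
      · exact key p m h0 fun c => by rw [hz, h1]; simp
      · refine key m p (fun c => (Bool.and_comm _ _).trans (h0 c)) fun c => ?_
        rw [hz, h2, val, val]
        cases p.testBit c <;> cases m.testBit c <;> rfl
      · obtain ⟨x', y', h3, h4, h5⟩ := ih h
        exact ⟨x', y', h3, h4, fun a b => by rw [h5, hz, show z % 3 = 0 by omega]; simp⟩
    · obtain ⟨x', y', h3, h4, h5⟩ := ih h
      rw [show (Nat.blt i n && Nat.blt j n) = false from Bool.eq_false_iff.2 (by simpa using hij), cond_false]
      refine ⟨x', y', h3, h4, fun a b => ?_⟩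
      rw [h5, Finset.sum_eq_zero (s := Finset.univ) (f := fun c : Fin n => _ * ite (i = c ∧ j = b) _ _) fun c _ => by
        rw [if_neg (by omega), mul_zero], zero_add]

variable (D : ChevalleyDatum)

/-- fast access to an array -/
noncomputable def nth {α : Type} (a : Array α) (i : ℕ) (d : α) : α :=
  List.rec (motive := fun _ => ℕ → α) (fun _ => d) (fun x _ ih i => Nat.rec x (fun j _ => ih j) i) a.toList i

theorem nth_eq {α : Type} (a : Array α) (i : ℕ) (d : α) : nth a i d = a.getD i d := by
  obtain ⟨l⟩ := a
  rw [Array.getD_eq_getD_getElem?, List.getElem?_toArray, nth]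
  induction l generalizing i with
  | nil => rfl
  | cons x l ih => cases i with
    | zero => rfl
    | succ j => exact ih j

/-- the entries of `x_r(t) - 1` -/
noncomputable def ents (r : ℕ) (t : ℤ) : List (ℕ × ℕ × ℤ) :=
  ((List.range D.rank).map fun i => (D.rank + r, i, -(nth (nth D.cartanSR i #[]) r 0) * t)) ++
  ((if nth D.negIdx r 0 = r then [] else (D.rank + r, D.rank + nth D.negIdx r 0, -(t ^ 2)) ::
    (List.range D.rank).map fun i => (i, D.rank + nth D.negIdx r 0, nth (nth D.coroot r #[]) i 0 * t)) ++
  ((nth D.chain r #[]).toList.flatMap fun e => if e.1 = r ∨ e.1 = nth D.negIdx r 0 then [] else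
    e.2.toList.zipIdx.map fun q => (D.rank + q.1.1, D.rank + e.1, q.1.2 * t ^ (q.2 + 1))))

/-- the matrix on the index set of the datum -/
def rx (A : Matrix (Fin (D.rank + D.nroots)) (Fin (D.rank + D.nroots)) (ZMod 3)) : Matrix D.Idx D.Idx (ZMod 3) :=
  A.submatrix finSumFinEquiv finSumFinEquiv

theorem sum_range_ite {k : ℕ} (i : Fin k) {q : ℕ → Prop} {_ : DecidablePred q} {f : ℕ → ZMod 3}
    (h : ∀ j, q j → j = i) : ((List.range k).map fun j => if q j then f j else 0).sum = if q i then f i else 0 := by
  rw [← List.sum_toFinset _ List.nodup_range, List.toFinset_range]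
  exact Finset.sum_eq_single_of_mem _ (Finset.mem_range.2 i.2) fun j _ hj => if_neg (mt (h j) hj)

theorem sum_flatMap {α β : Type*} (l : List α) (g : α → List β) (f : β → ZMod 3) :
    ((l.flatMap g).map f).sum = (l.map fun a => ((g a).map f).sum).sum := by
  induction l <;> simp [*]

theorem sum_filter {α : Type*} (l : List α) (p : α → Bool) (f : α → ZMod 3) :
    ((l.filter p).map f).sum = (l.map fun a => if p a then f a else 0).sum := by
  induction l with
  | nil => rfl
  | cons a l ih => by_cases h : p a <;> simp [h, ih]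

theorem sum_zero {α : Type*} {l : List α} {f : α → ZMod 3} (h : ∀ a ∈ l, f a = 0) : (l.map f).sum = 0 :=
  List.sum_eq_zero fun x hx => by obtain ⟨a, ha, rfl⟩ := List.mem_map.1 hx; exact h a ha

/-- the matrix of a list of entries -/
def matL (n : ℕ) (l : List (ℕ × ℕ × ℤ)) : Matrix (Fin n) (Fin n) (ZMod 3) :=
  1 + of fun c b : Fin n => (l.map fun e => if e.1 = (c : ℕ) ∧ e.2.1 = (b : ℕ) then (e.2.2 : ZMod 3) else 0).sum

theorem rx_ents (r : Fin D.nroots) (t : ℤ) : rx D (matL _ (ents D r t)) = D.xMat (ZMod 3) r t := by
  ext a b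
  rw [rx, submatrix_apply, matL, Matrix.add_apply, of_apply, one_apply, ents]
  simp only [nth_eq, List.map_append, List.sum_append, List.map_map, Function.comp_def, sum_flatMap, EmbeddingLike.apply_eq_iff_eq]
  have hr := r.2
  cases b with
  | inl i =>
    have hi := i.2
    rw [sum_zero (l := (D.chain.getD r #[]).toList) fun e _ => by
        split_ifs
        · rfl
        · rw [List.map_map]
          exact sum_zero fun q _ => if_neg (by simp; omega),
      sum_zero (l := ite _ _ _) fun e he => by
        split_ifs at he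
        · cases he
        · rcases List.mem_cons.1 he with rfl | he
          · exact if_neg (by simp; omega)
          · obtain ⟨j, -, rfl⟩ := List.mem_map.1 he
            exact if_neg (by simp; omega)]
    rw [sum_range_ite i fun _ h => h.2]
    cases a with
    | inl j =>
      have := j.2
      simp [ChevalleyDatum.xMat, show D.rank + r ≠ j by omega]
    | inr u => simp [ChevalleyDatum.xMat, Fin.ext_iff, eq_comm]
  | inr s =>
    rw [sum_zero (l := List.range D.rank) fun j hj => if_neg (by simp at hj ⊢; omega)]
    simp only [finSumFinEquiv_apply_right, Fin.val_natAdd, zero_add]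
    by_cases h2 : s = r
    · subst h2
      rw [sum_zero (l := (D.chain.getD s #[]).toList) fun e _ => by
          split_ifs with h
          · rfl
          · rw [List.map_map]
            exact sum_zero fun q _ => if_neg (by simp at h ⊢; omega),
        sum_zero (l := ite _ _ _) fun e he => by
          split_ifs at he with h
          · cases he
          · rcases List.mem_cons.1 he with rfl | he
            · exact if_neg (by simp at h ⊢; omega)
            · obtain ⟨j, -, rfl⟩ := List.mem_map.1 he
              exact if_neg (by simp at h ⊢; omega)]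
      cases a <;> simp [ChevalleyDatum.xMat]
    have h2' : (s : ℕ) ≠ r := fun h => h2 (Fin.ext h)
    by_cases h3 : (s : ℕ) = D.negIdx.getD r 0
    · rw [sum_zero (l := (D.chain.getD r #[]).toList) fun e _ => by
          split_ifs with h
          · rfl
          · rw [List.map_map]
            exact sum_zero fun q _ => if_neg (by simp at h h3 ⊢; omega), if_neg (show ¬ D.negIdx.getD r 0 = r by omega)]
      simp only [ChevalleyDatum.xMat, of_apply, if_neg h2, List.map_cons, List.sum_cons, List.map_map,
        Function.comp_def, ← h3, and_true, add_zero]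
      cases a with
      | inl j =>
        have := j.2
        rw [sum_range_ite j]
        swap
        · exact fun _ h => h
        simp [show D.rank + r ≠ j by omega]
      | inr u =>
        rw [sum_zero (l := List.range D.rank) fun j hj => if_neg (by simp at hj ⊢; omega)]
        by_cases h4 : u = s
        · simp [h4, h2'.symm]
        · simp only [if_neg h4, Sum.inr.injEq]
          simp [Fin.ext_iff, eq_comm]
    · rw [sum_zero (l := ite _ _ _) fun e he => by
          split_ifs at he with h
          · cases he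
          · rcases List.mem_cons.1 he with rfl | he
            · exact if_neg (by simp at h3 ⊢; omega)
            · obtain ⟨j, -, rfl⟩ := List.mem_map.1 he
              exact if_neg (by simp at h3 ⊢; omega)]
      simp only [ChevalleyDatum.xMat, of_apply, if_neg h2, if_neg h3, zero_add]
      cases a with
      | inl j =>
        have := j.2
        rw [sum_zero fun e _ => by
          split_ifs with h
          · rfl
          · rw [List.map_map]
            exact sum_zero fun q _ => if_neg (by simp; omega)]
        simp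
      | inr u =>
        simp only [Sum.inr.injEq, ChevalleyDatum.chainCoeff, sum_flatMap, sum_filter, List.map_map]
        congr 2
        refine List.map_congr_left fun e _ => ?_
        by_cases h4 : e.1 = s
        · rw [if_neg (by omega), List.map_map]
          simp [h4, Function.comp_def]
        · rw [if_neg (show ¬ (decide (e.1 = s) = true) by simpa using h4)]
          split_ifs with h
          · rfl
          · rw [List.map_map]
            exact sum_zero fun q _ => if_neg (by simp; omega)

/-- the entries of the letter `c`: `x_r(1)` for `c = 2 r`, `x_r(-1)` for `c = 2 r + 1` -/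
noncomputable def xtab (c : ℕ) : List (ℕ × ℕ × ℤ) :=
  cond (Nat.blt (c / 2) D.nroots) (ents D (c / 2) (cond (Nat.beq (c % 2) 0) 1 (-1))) []

/-- `(x, y)` times a word in root elements -/
noncomputable def xmul (n o : ℕ) (w : List ℕ) : ℕ → ℕ → ℕ × ℕ :=
  List.rec (motive := fun _ => ℕ → ℕ → ℕ × ℕ) Prod.mk (fun c _ ih x y => mulE n o x y ih (xtab D c) x y) w

/-- the change of the index set -/
noncomputable def rxG : GL (Fin (D.rank + D.nroots)) (ZMod 3) →* GL D.Idx (ZMod 3) :=
  Units.map (reindexAlgEquiv (ZMod 3) (ZMod 3) finSumFinEquiv.symm).toMonoidHom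

theorem rxG_val (g : GL (Fin (D.rank + D.nroots)) (ZMod 3)) : (rxG D g).val = rx D g.val := rfl

theorem rxG_inj : Function.Injective (rxG D) :=
  Units.map_injective (reindexAlgEquiv (ZMod 3) (ZMod 3) finSumFinEquiv.symm).injective

variable {D}

theorem rx_mul (A B : Matrix (Fin (D.rank + D.nroots)) (Fin (D.rank + D.nroots)) (ZMod 3)) :
    rx D (A * B) = rx D A * rx D B := (submatrix_mul_equiv A B _ _ _).symm

/-- the code describes an element of the Chevalley group -/
def InG (A : ℕ × ℕ) : Prop := Dis A ∧ ∃ g ∈ D.group (ZMod 3), g.val = rx D (dec _ A)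

theorem inG_one : InG (D := D) (one (D.rank + D.nroots)) :=
  ⟨(one_spec _).1, 1, one_mem _, by rw [(one_spec _).2, rx, submatrix_one_equiv]; rfl⟩

theorem xtab_mem (E : Real D) (c : ℕ) : ∃ g ∈ D.group (ZMod 3), g.val = rx D (matL _ (xtab D c)) := by
  rw [xtab]
  by_cases h : c / 2 < D.nroots
  · rw [Nat.blt_eq.mpr h, cond_true]
    generalize cond (Nat.beq (c % 2) 0) (1 : ℤ) (-1) = t
    refine ⟨(E.S (ZMod 3)).x ⟨_, h⟩ t, ?_, ((E.x_val _ _).trans ?_).trans (rx_ents D ⟨_, h⟩ t).symm⟩
    · rw [E.group_eq]
      exact StSys.x_mem_grp _ _ _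
    · rw [ChevalleyDatum.x, dif_pos h]
  · rw [Bool.eq_false_iff.2 (mt Nat.blt_eq.mp h), cond_false]
    exact ⟨1, one_mem _, by
      rw [show matL (D.rank + D.nroots) [] = 1 from add_zero _, rx, submatrix_one_equiv]; rfl⟩

theorem inG_xmul (E : Real D) (w : List ℕ) {x y : ℕ} (hA : InG (D := D) (x, y)) :
    InG (D := D) (xmul D (D.rank + D.nroots) (ones (D.rank + D.nroots) (D.rank + D.nroots)) w x y) := by
  induction w generalizing x y with
  | nil => exact hA
  | cons c w ih =>
    obtain ⟨h1, g, hg, e⟩ := hA
    obtain ⟨k, hk, e'⟩ := xtab_mem E c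
    obtain ⟨x', y', m1, m2, m3⟩ := mulE_spec (n := D.rank + D.nroots) (by have := E.two_le_rank; omega) h1
      (xmul D (D.rank + D.nroots) (ones (D.rank + D.nroots) (D.rank + D.nroots)) w) (xtab D c) h1
    refine (congrArg InG m1).mpr (ih ⟨m2, g * k, mul_mem hg hk, ?_⟩)
    rw [Units.val_mul, e, e', ← rx_mul, matL, Matrix.mul_add, Matrix.mul_one]
    exact congrArg _ (ext fun a b => (m3 a b).symm)

/-- `P A = X P` with `X` the word `w` in root elements -/
noncomputable def chevT (D : ChevalleyDatum) (P A : ℕ × ℕ) (w : List ℕ) : Bool :=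
  (fun n => eqB (mul n P A) (mul n (xmul D n (ones n n) w (one n).1 (one n).2) P)) (D.rank + D.nroots)

theorem mem_of_chevT (E : Real D) {P A : ℕ × ℕ} {w : List ℕ} (h : chevT D P A w = true) (hP : Dis P) (hA : Dis A)
    {p g : GL (Fin (D.rank + D.nroots)) (ZMod 3)} (hp : p.val = dec _ P) (hg : g.val = dec _ A) :
    rxG D (p * g * p⁻¹) ∈ D.group (ZMod 3) := by
  have hn : 0 < D.rank + D.nroots := by have := E.two_le_rank; omega
  obtain ⟨h1, k, hk, e⟩ := inG_xmul E w (x := (one _).1) (y := (one _).2) inG_one
  have h2 := congrArg (dec (D.rank + D.nroots)) (eqB_iff.1 h)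
  rw [(mul_spec hn hP hA).2, (mul_spec hn h1 hP).2, ← hp, ← hg] at h2
  convert hk using 1
  refine Units.ext ?_
  rw [e, rxG_val, Units.val_mul, Units.val_mul, h2, Matrix.mul_assoc, Units.mul_inv, Matrix.mul_one]

end CL.Mx3
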