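/-
Odd transpositions, I: the elementary theory of a set closed under conjugation by its own members.
-/
import Cfsg.Agent.Chev.RootDisc2

set_option autoImplicit false
set_option linter.unusedVariables false
set_option linter.unusedSectionVars false

namespace CL.OTr

open Cfsg CL.Inv CL.Chev.RInv Subgroup

variable {G : Type*} [Group G] {D T : Set G} {a a' b b' c c' d e g m r w x y z : G}

/-- A set of involutions closed under conjugation by its members, any two of which commute or have a product of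
odd order. -/
structure OT (D : Set G) : Prop where
  sq : ∀ {a : G}, a ∈ D → a * a = 1
  ne : ∀ {a : G}, a ∈ D → a ≠ 1
  cj : ∀ {a b : G}, a ∈ D → b ∈ D → b * a * b ∈ D
  odd : ∀ {a b : G}, a ∈ D → b ∈ D → ¬ Commute a b → Odd (orderOf (a * b))

theorem comm_conj (h : Commute a b) (g : G) : Commute (g * a * g⁻¹) (g * b * g⁻¹) :=
  (h.map (MulAut.conj g) :)

theorem comm_conj_iff (g : G) : Commute (g * a * g⁻¹) (g * b * g⁻¹) ↔ Commute a b :=
  ⟨fun h => by simpa [mul_assoc] using comm_conj h g⁻¹, fun h => comm_conj h g⟩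

theorem comm_cj (hg : g * g = 1) (h : Commute a b) : Commute (g * a * g) (g * b * g) := by
  simpa only [inv_eq_self_of_mul_self hg] using comm_conj h g

theorem cj_cj (hg : g * g = 1) (a : G) : g * (g * a * g) * g = a := by
  simp only [mul_assoc, cancel hg, hg, mul_one]

theorem comm_cj_iff (hg : g * g = 1) : Commute (g * a * g) (g * b * g) ↔ Commute a b :=
  ⟨fun h => by simpa only [cj_cj hg] using comm_cj hg h, comm_cj hg⟩

theorem cj_eq_of_comm (hg : g * g = 1) (h : Commute g a) : g * a * g = a := by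
  rw [h.eq, mul_assoc, hg, mul_one]

theorem conj_eq_of_comm (h : Commute g a) : g * a * g⁻¹ = a := by rw [h.eq, mul_inv_cancel_right]

theorem comm_of_cj_eq (hg : g * g = 1) (h : g * a * g = a) : Commute g a := by
  change g * a = a * g
  conv_rhs => rw [← h, mul_assoc, hg, mul_one]

theorem comm_cj_left (hg : g * g = 1) (h : Commute (g * a * g) b) : Commute a (g * b * g) := by
  simpa only [cj_cj hg] using comm_cj hg h

theorem comm_mul_cj (hr : r * r = 1) (h : Commute x (r * x * r)) : Commute (x * (r * x * r)) r := by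
  refine (comm_of_cj_eq hr ?_).symm
  conv_rhs => rw [h.eq]
  simp only [mul_assoc, hr, mul_one]

theorem comm_of_sq (ho : Odd (orderOf x)) (h : Commute g (x * x)) : Commute g x := by
  obtain ⟨k, hk⟩ := ho
  have h3 : x = (x * x) ^ (k + 1) := by
    rw [← pow_two, ← pow_mul, show 2 * (k + 1) = 2 * k + 1 + 1 by ring, pow_succ, ← hk, pow_orderOf_eq_one, one_mul]
  exact h3 ▸ h.pow_right _

theorem comm_closure {U : Set G} (h : ∀ u ∈ U, Commute g u) (hx : x ∈ closure U) : Commute g x := by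
  have : closure U ≤ centralizer {g} := (closure_le _).2 fun u hu => mem_centralizer_singleton_iff.2 (h u hu).symm
  exact (mem_centralizer_singleton_iff.1 (this hx)).symm

theorem OT.of_odd (h : IsOddTranspositionSet D) : OT D where
  sq := Chev.RInv.sq h.1
  ne := Chev.RInv.ne_one h.1
  cj := Chev.RInv.conj_mem h.1
  odd := fun ha hb hn => by
    rcases h.1.pair _ ha _ hb with h1 | h1 | h1
    exacts [absurd h1 hn, h1, absurd h1.1 (h.2 _ ha _ hb)]

/-- The members of `D` commuting with the same members as `d`. -/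
def Blk (D : Set G) (d : G) : Set G := {e | e ∈ D ∧ ∀ y ∈ D, Commute y d ↔ Commute y e}

theorem blk_eq : sameCommutingClass D d = Blk D d :=
  Set.ext fun _ => and_congr_right fun _ => commutingMembers_eq_iff

theorem blk_self (hd : d ∈ D) : d ∈ Blk D d := ⟨hd, fun _ _ => Iff.rfl⟩

theorem blk_symm (hd : d ∈ D) (h : e ∈ Blk D d) : d ∈ Blk D e := ⟨hd, fun y hy => (h.2 y hy).symm⟩

theorem blk_trans (h : e ∈ Blk D d) (h' : c ∈ Blk D e) : c ∈ Blk D d :=
  ⟨h'.1, fun y hy => (h.2 y hy).trans (h'.2 y hy)⟩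

theorem blk_congr (hd : d ∈ D) (h : e ∈ Blk D d) : Blk D e = Blk D d :=
  Set.ext fun _ => ⟨blk_trans h, blk_trans (blk_symm hd h)⟩

theorem blk_comm (h : e ∈ Blk D d) (hy : y ∈ D) (hc : Commute y d) : Commute y e := (h.2 y hy).1 hc

theorem blk_comm' (h : e ∈ Blk D d) (hy : y ∈ D) (hc : Commute y e) : Commute y d := (h.2 y hy).2 hc

theorem blk_comm_self (hd : d ∈ D) (h : e ∈ Blk D d) : Commute d e := blk_comm h hd (Commute.refl d)

theorem blk_comm_blk (hc : c ∈ D) (h : Commute c d) (ha : a ∈ Blk D d) (hb : b ∈ Blk D c) : Commute a b :=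
  blk_comm hb ha.1 (blk_comm ha hc h).symm

theorem blk_comm₂ (hd : d ∈ D) (ha : a ∈ Blk D d) (hb : b ∈ Blk D d) : Commute a b :=
  blk_comm_blk hd (Commute.refl d) ha hb

/-- `a` and `c` move `x` to commuting members. -/
def Good (x a c : G) : Prop := Commute (a * x * a) (c * x * c)

theorem Good.symm (h : Good x a c) : Good x c a := Commute.symm h

theorem Good.rfl : Good x a a := Commute.refl _

/-- The members of `D` are conjugate in the subgroup they generate. -/
def Cl (D : Set G) : Prop := ∀ a ∈ D, ∀ b ∈ D, ∃ g ∈ closure D, b = g * a * g⁻¹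

/-- The block of `d` contains a line. -/
def BLine (D : Set G) (d : G) : Prop := ∃ a ∈ Blk D d, ∃ b ∈ Blk D d, a * b ∈ D

/-- The conjugates of `d` under `U`. -/
def cls (U : Subgroup G) (d : G) : Set G := {w | ∃ g ∈ U, w = g * d * g⁻¹}

theorem self_mem_cls (U : Subgroup G) (d : G) : d ∈ cls U d := ⟨1, one_mem _, by simp⟩

theorem conj_mem_cls {U : Subgroup G} (hg : g ∈ U) (h : w ∈ cls U d) : g * w * g⁻¹ ∈ cls U d := by
  obtain ⟨k, hk, rfl⟩ := h
  exact ⟨g * k, mul_mem hg hk, by group⟩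

theorem cls_subset {U : Subgroup G} (hd : d ∈ U) : cls U d ⊆ U := by
  rintro _ ⟨g, hg, rfl⟩
  exact mul_mem (mul_mem hg hd) (inv_mem hg)

namespace OT

variable (hD : OT D)
include hD

theorem inv (ha : a ∈ D) : a⁻¹ = a := inv_eq_self_of_mul_self (hD.sq ha)

theorem conj_mem (hg : g ∈ closure D) (ha : a ∈ D) : g * a * g⁻¹ ∈ D := by
  induction hg using closure_induction_left with
  | one => simpa using ha
  | mul_left u hu y _ ih => simpa only [mul_inv_rev, hD.inv hu, mul_assoc] using hD.cj ih hu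
  | inv_mul_cancel u hu y _ ih => simpa only [mul_inv_rev, hD.inv hu, mul_assoc] using hD.cj ih hu

theorem cj_mem (hg : g ∈ closure D) (hg2 : g * g = 1) (ha : a ∈ D) : g * a * g ∈ D := by
  simpa only [inv_eq_self_of_mul_self hg2] using hD.conj_mem hg ha

theorem mul_sq (ha : a ∈ D) (hb : b ∈ D) (h : Commute a b) : a * b * (a * b) = 1 :=
  mul_self_of_commute (hD.sq ha) (hD.sq hb) h

theorem eq_of_mul (hb : b ∈ D) (h : a * b = 1) : a = b := by
  rw [eq_inv_of_mul_eq_one_left h, hD.inv hb]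

/-- A member commuting with the product of two different members commutes with them. -/
theorem comm_of_mul (ha : a ∈ D) (hb : b ∈ D) (hab : a ≠ b) (hy : y ∈ D) (h : Commute y (a * b)) : Commute y a := by
  by_contra hya
  have ha2 := hD.sq ha
  have hb2 := hD.sq hb
  have ho := hD.odd ha hy fun h => hya h.symm
  have h1 : a * y * (a * b) * (a * y)⁻¹ = (a * b)⁻¹ := by
    rw [mul_assoc a y, h.eq]
    simp only [mul_inv_rev, hD.inv ha, hD.inv hb, hD.inv hy, mul_assoc, cancel ha2, cancel (hD.sq hy)]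
  have h2 : a * b * (a * b) = 1 := by
    nth_rewrite 1 [← eq_inv_of_odd_of_inverts ho h1]; exact inv_mul_cancel _
  have h3 := commute_of_mul_self ha2 hb2 h2
  have hyb : ¬ Commute b y := fun h4 => hya (by simpa only [mul_assoc, hb2, mul_one] using h.mul_right h4.symm)
  have h4 : Commute (a * b) (a * y) := ((Commute.refl a).mul_left h3.symm).mul_right h.symm
  have h5 : b * y = a * b * (a * y) := by rw [h3.eq]; simp only [mul_assoc, cancel ha2]
  obtain ⟨k, hk⟩ := ho.mul (hD.odd hb hy hyb)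
  have h6 : (b * y) ^ (orderOf (a * y) * orderOf (b * y)) = 1 := by
    rw [mul_comm, pow_mul, pow_orderOf_eq_one, one_pow]
  rw [h5, h4.mul_pow, pow_mul (a * y), pow_orderOf_eq_one, one_pow, mul_one, ← h5, hk, pow_succ, pow_mul, pow_two, h2,
    one_pow, one_mul] at h6
  exact hab (hD.eq_of_mul hb h6)

theorem comm_of_mul' (ha : a ∈ D) (hb : b ∈ D) (hab : a ≠ b) (hy : y ∈ D) (h : Commute y (a * b)) : Commute y b := by
  simpa only [cancel (hD.sq ha)] using (hD.comm_of_mul ha hb hab hy h).mul_right h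

/-- An element commuting with `a` and with `b a b` commutes with `b`. -/
theorem comm_of_cj (ha : a ∈ D) (hb : b ∈ D) (hab : ¬ Commute a b) (h : Commute g a) (h' : Commute g (b * a * b)) :
    Commute g b := by
  have := comm_of_sq (hD.odd ha hb hab) (g := g) (by simpa only [mul_assoc] using h.mul_right h')
  simpa only [cancel (hD.sq ha)] using h.mul_right this

theorem opp_cj (ha : a ∈ D) (hb : b ∈ D) (hab : ¬ Commute a b) : ¬ Commute a (b * a * b) := fun h =>
  hab (hD.comm_of_cj ha hb hab (Commute.refl a) h)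

/-- Opposite members are interchanged by a member of the dihedral group they generate. -/
theorem exists_swap (ha : a ∈ D) (hb : b ∈ D) (h : ¬ Commute a b) :
    ∃ m ∈ D, m ∈ cls (closure {a, b}) a ∧ m * a * m = b := by
  have ho := hD.odd ha hb h
  obtain ⟨k, hk1, hk⟩ := exists_invol_conj_of_odd (hD.sq ha) (hD.sq hb) ho
  have ho' : Odd (orderOf ((a * b) ^ k)) := ho.of_dvd_nat (orderOf_pow_dvd k)
  obtain ⟨j, hj⟩ := ho'
  have h1 : (a * b) ^ k = (a * b) ^ (2 * ((k * (j + 1) : ℕ) : ℤ)) := by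
    rw [← Nat.cast_ofNat, ← Nat.cast_mul, zpow_natCast, show 2 * (k * (j + 1)) = k * (2 * j + 1) + k by ring, pow_add,
      pow_mul, ← hj, pow_orderOf_eq_one, one_mul]
  obtain ⟨g, hg, e⟩ := (exists_conj_closure_pair_iff (hD.sq ha) (hD.sq hb) (a * (a * b) ^ k)).2 ⟨_, by rw [← h1]⟩
  refine ⟨_, e ▸ hD.conj_mem (closure_mono (by rintro _ (rfl | rfl) <;> assumption) hg) ha, ⟨g, hg, e.symm⟩, ?_⟩
  rwa [inv_eq_self_of_mul_self hk1] at hk

theorem swap_unique (ha : a ∈ D) (hb : b ∈ D) (h : ¬ Commute a b) (hc : c ∈ D) (hc' : c' ∈ D) (e : c * a * c = b)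
    (e' : c' * a * c' = b) : c = c' := by
  by_contra hne
  have h1 : Commute a (c * c') := by
    have : c * (c' * a * c') * c = a := by rw [e', ← e, cj_cj (hD.sq hc)]
    change a * (c * c') = c * c' * a
    conv_lhs => rw [← this]
    simp only [mul_assoc, cancel (hD.sq hc), hD.sq hc', mul_one]
  have h2 := hD.comm_of_mul hc hc' hne ha h1
  rw [cj_eq_of_comm (hD.sq hc) h2.symm] at e
  exact h (e ▸ Commute.refl a)

theorem cls_of_opp {U : Subgroup G} (ha : a ∈ D) (hb : b ∈ D) (h : ¬ Commute a b) (haU : a ∈ U) (hbU : b ∈ U) :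
    b ∈ cls U a := by
  obtain ⟨m, hm, hm', e⟩ := hD.exists_swap ha hb h
  have : closure {a, b} ≤ U := (closure_le _).2 (by rintro _ (rfl | rfl) <;> assumption)
  exact ⟨m, this (cls_subset (subset_closure (.inl rfl)) hm'), by rw [hD.inv hm, e]⟩

/-- The midpoint of `x` and its conjugate under an involution `r`. -/
theorem exists_mid (hx : x ∈ D) (hr : r ∈ closure D) (hr2 : r * r = 1) (h : ¬ Commute x (r * x * r)) :
    ∃ m ∈ D, m ∈ cls (closure {x, r * x * r}) x ∧ Commute m r ∧ Commute (r * m) x ∧ ¬ Commute m x ∧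
      ∀ g : G, Commute g x → Commute g (r * x * r) → Commute g m := by
  obtain ⟨m, hm, hm', e⟩ := hD.exists_swap hx (hD.cj_mem hr hr2 hx) h
  have hm2 := hD.sq hm
  have e1 : m * (r * x * r) * m = x := by rw [← e, cj_cj hm2]
  refine ⟨m, hm, hm', ?_, ?_, fun hc => h ?_, fun g h1 h2 => comm_closure (by rintro _ (rfl | rfl) <;> assumption)
    (cls_subset (subset_closure (.inl rfl)) hm')⟩
  · refine (comm_of_cj_eq hr2 (hD.swap_unique hx (hD.cj_mem hr hr2 hx) h (hD.cj_mem hr hr2 hm) hm ?_ e)).symm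
    conv_rhs => rw [← e1]
    simp only [mul_assoc]
  · have h1 : Commute m r := by
      refine (comm_of_cj_eq hr2 (hD.swap_unique hx (hD.cj_mem hr hr2 hx) h (hD.cj_mem hr hr2 hm) hm ?_ e)).symm
      conv_rhs => rw [← e1]
      simp only [mul_assoc]
    change r * m * x = x * (r * m)
    have : m * x = r * x * r * m := by rw [← e, mul_assoc, hm2, mul_one]
    rw [mul_assoc, this]
    simp only [mul_assoc, cancel hr2]
  · rw [← e, cj_eq_of_comm hm2 hc]

theorem good_iff (ha : a ∈ D) (hc : c ∈ D) (hac : Commute a c) : Good x a c ↔ Commute x (a * c * x * (a * c)) := by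
  rw [Good, ← comm_cj_iff (hD.sq ha), cj_cj (hD.sq ha)]
  nth_rewrite 2 [hac.eq]
  simp only [mul_assoc]

theorem mul_mem_closure (ha : a ∈ D) (hc : c ∈ D) : a * c ∈ closure D :=
  mul_mem (subset_closure ha) (subset_closure hc)

/-- The central element of a bad triple. -/
theorem exists_zeta (ha : a ∈ D) (hc : c ∈ D) (hx : x ∈ D) (hac : Commute a c) (h : ¬ Good x a c) :
    ∃ m ∈ D, m ∈ cls (closure {a, c, x}) x ∧ Commute m a ∧ Commute m c ∧ Commute (a * c * m) x ∧ ¬ Commute m x ∧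
      ∀ g : G, Commute g (a * x * a) → Commute g (c * x * c) → Commute g m := by
  have hne : a ≠ c := by rintro rfl; exact h Good.rfl
  rw [hD.good_iff ha hc hac] at h
  obtain ⟨m, hm, hm', h1, h2, h3, h4⟩ := hD.exists_mid hx (hD.mul_mem_closure ha hc) (hD.mul_sq ha hc hac) h
  have h5 := hD.comm_of_mul ha hc hne hm h1
  refine ⟨m, hm, ?_, h5, hD.comm_of_mul' ha hc hne hm h1, h2, h3, fun g h6 h7 => ?_⟩
  · obtain ⟨g, hg, e⟩ := hm'
    refine ⟨g, (closure_le _).2 ?_ hg, e⟩
    have k1 : a ∈ closure ({a, c, x} : Set G) := subset_closure (by simp)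
    have k2 : c ∈ closure ({a, c, x} : Set G) := subset_closure (by simp)
    have k3 : x ∈ closure ({a, c, x} : Set G) := subset_closure (by simp)
    rintro _ (rfl | rfl)
    exacts [k3, mul_mem (mul_mem (mul_mem k1 k2) k3) (mul_mem k1 k2)]
  · have := h4 (a * g * a) (comm_cj_left (hD.sq ha) h6.symm).symm (by
      nth_rewrite 2 [hac.eq]
      simpa only [mul_assoc] using comm_cj (hD.sq ha) h7)
    rw [← cj_eq_of_comm (hD.sq ha) h5.symm] at this
    exact (comm_cj_iff (hD.sq ha)).1 this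

/-- Goodness is transitive on commuting members. -/
theorem good_trans (ha : a ∈ D) (hb : b ∈ D) (hc : c ∈ D) (hx : x ∈ D) (hab : Commute a b) (hac : Commute a c)
    (hbc : Commute b c) (h1 : Good x a b) (h2 : Good x a c) : Good x b c := by
  by_contra h
  obtain ⟨m, hm, hm', h3, h4, -, h6, h7⟩ := hD.exists_zeta hb hc hx hbc h
  have ha2 := hD.sq ha
  have h8 : Commute (a * m * a) x := (comm_cj_left ha2 (h7 _ h1 h2)).symm
  have h9 : Commute (a * m * a) m := by
    refine comm_closure ?_ (cls_subset (subset_closure (by simp)) hm')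
    rintro _ (rfl | rfl | rfl)
    · simpa only [cj_eq_of_comm ha2 hab] using comm_cj ha2 h3
    · simpa only [cj_eq_of_comm ha2 hac] using comm_cj ha2 h4
    · exact h8
  by_cases h0 : Commute m a
  · rw [cj_eq_of_comm ha2 h0.symm] at h8; exact h6 h8
  · exact hD.opp_cj hm ha h0 h9.symm

/-- A line is not good. -/
theorem not_good_line (ha : a ∈ D) (hb : b ∈ D) (hab : Commute a b) (hm : a * b ∈ D) (hx : x ∈ D)
    (h : ¬ Commute x (a * b)) : ¬ Good x a b := by
  rw [hD.good_iff ha hb hab]; exact hD.opp_cj hx hm h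

/-- An element centralising a product of two commuting members conjugates them to members commuting with them. -/
theorem comm_conj_of_comm_mul (ha : a ∈ D) (hb : b ∈ D) (hab : Commute a b) (hne : a ≠ b) (hg : g ∈ closure D)
    (h : Commute g (a * b)) : Commute a (g * a * g⁻¹) ∧ Commute b (g * a * g⁻¹) := by
  have e : g * a * g⁻¹ * (g * b * g⁻¹) = a * b := by rw [← conj_eq_of_comm h]; group
  have hne' : g * a * g⁻¹ ≠ g * b * g⁻¹ := fun h => hne (by simpa using h)
  exact ⟨hD.comm_of_mul (hD.conj_mem hg ha) (hD.conj_mem hg hb) hne' ha (e ▸ (Commute.refl a).mul_right hab),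
    hD.comm_of_mul (hD.conj_mem hg ha) (hD.conj_mem hg hb) hne' hb (e ▸ hab.symm.mul_right (Commute.refl b))⟩

/-! ### The subgroup generated by two commuting blocks and an opposite member -/

theorem blk_mul (ha : a ∈ Blk D d) (hb : b ∈ Blk D d) (hm : a * b ∈ D) : a * b ∈ Blk D d :=
  ⟨hm, fun y hy => ⟨fun h => (blk_comm ha hy h).mul_right (blk_comm hb hy h), fun h => blk_comm' ha hy
    (hD.comm_of_mul ha.1 hb.1 (fun e => hD.ne hm (by rw [e, hD.sq hb.1])) hy h)⟩⟩

theorem exists_not_good (hd : d ∈ D) (hl : BLine D d) (hx : x ∈ D) (hdx : ¬ Commute x d) (hc : c ∈ D)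
    (hcd : Commute c d) : ∃ a ∈ Blk D d, ¬ Good x a c := by
  obtain ⟨a, ha, b, hb, hm⟩ := hl
  by_contra h
  push Not at h
  exact hD.not_good_line ha.1 hb.1 (blk_comm₂ hd ha hb) hm hx (fun h => hdx (blk_comm' (hD.blk_mul ha hb hm) hx h))
    (hD.good_trans hc ha.1 hb.1 hx (blk_comm ha hc hcd) (blk_comm hb hc hcd) (blk_comm₂ hd ha hb) (h a ha).symm
      (h b hb).symm)

/-- A member of `⟨E_d, E_c, x⟩` commuting with `d` commutes with `c`. -/
theorem comm_of_mem_closure (hd : d ∈ D) (hl : BLine D d) (hx : x ∈ D) (hdx : ¬ Commute x d) (hc : c ∈ D)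
    (hcd : Commute c d) (hw : w ∈ D) (hwU : w ∈ closure (Blk D d ∪ Blk D c ∪ {x})) (hwd : Commute w d) :
    Commute w c := by
  obtain ⟨a, ha, h⟩ := hD.exists_not_good hd hl hx hdx hc hcd
  have hac := (blk_comm ha hc hcd).symm
  obtain ⟨m, hm, -, h1, h2, h3, h4, -⟩ := hD.exists_zeta ha.1 hc hx hac h
  have h5 : Commute (a * c * m) w := by
    refine comm_closure ?_ hwU
    rintro u ((hu | hu) | rfl)
    · exact ((blk_comm₂ hd ha hu).mul_left (blk_comm hu hc hcd)).mul_left (blk_comm hu hm (blk_comm' ha hm h1))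
    · exact ((blk_comm hu ha.1 hac).mul_left (blk_comm_self hc hu)).mul_left (blk_comm hu hm h2)
    · exact h3
  have h6 : Commute w (c * m) := by
    simpa only [mul_assoc, cancel (hD.sq ha.1)] using (blk_comm ha hw hwd).mul_right h5.symm
  refine hD.comm_of_mul hc hm ?_ hw h6
  rintro rfl
  rw [mul_assoc, hD.sq hm, mul_one] at h3
  exact hdx (blk_comm' ha hx h3.symm)

/-- The members of `⟨E_d, x⟩` commuting with `d` lie in `E_d`. -/
theorem mem_blk_of_mem_closure (hd : d ∈ D) (hl : BLine D d) (hx : x ∈ D) (hdx : ¬ Commute x d) (hw : w ∈ D)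
    (hwU : w ∈ closure (Blk D d ∪ {x})) (hwd : Commute w d) (hw' : ∀ y ∈ D, Commute y w → Commute y d) :
    w ∈ Blk D d :=
  ⟨hw, fun c hc => ⟨fun h => (hD.comm_of_mem_closure hd hl hx hdx hc h hw
    (closure_mono (Set.union_subset_union_left _ Set.subset_union_left) hwU) hwd).symm, hw' c hc⟩⟩

/-! ### Classes -/

theorem cls_sub {U : Subgroup G} (hU : U ≤ closure D) (hd : d ∈ D) : cls U d ⊆ D := by
  rintro _ ⟨g, hg, rfl⟩
  exact hD.conj_mem (hU hg) hd

theorem mono (hT : T ⊆ D) (h : ∀ a ∈ T, ∀ b ∈ T, b * a * b ∈ T) : OT T :=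
  ⟨fun ha => hD.sq (hT ha), fun ha => hD.ne (hT ha), fun ha hb => h _ ha _ hb, fun ha hb => hD.odd (hT ha) (hT hb)⟩

theorem cls_ot {U : Subgroup G} (hU : U ≤ closure D) (hd : d ∈ D) (hdU : d ∈ U) : OT (cls U d) :=
  hD.mono (hD.cls_sub hU hd) fun a ha b hb => by
    simpa only [hD.inv (hD.cls_sub hU hd hb)] using conj_mem_cls (cls_subset hdU hb) ha

omit hD in
theorem closure_cls (hd : d ∈ closure T) (hT : T ⊆ cls (closure T) d) : closure (cls (closure T) d) = closure T :=
  le_antisymm ((closure_le _).2 (cls_subset hd)) (closure_mono hT)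

omit hD in
theorem cls_cl (hd : d ∈ closure T) (hT : T ⊆ cls (closure T) d) : Cl (cls (closure T) d) := by
  rintro _ ⟨g, hg, rfl⟩ _ ⟨k, hk, rfl⟩
  exact ⟨k * g⁻¹, (closure_cls hd hT).symm ▸ mul_mem hk (inv_mem hg), by group⟩

omit hD in
theorem cls_trans {U : Subgroup G} (h : a ∈ cls U d) (h' : b ∈ cls U a) : b ∈ cls U d := by
  obtain ⟨g, hg, rfl⟩ := h'
  exact conj_mem_cls hg h

theorem conj_mem_iff (hg : g ∈ closure D) : g * a * g⁻¹ ∈ D ↔ a ∈ D :=
  ⟨fun h => by simpa [mul_assoc] using hD.conj_mem (inv_mem hg) h, hD.conj_mem hg⟩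

theorem conj_mem_blk (hg : g ∈ closure D) (h : e ∈ Blk D d) : g * e * g⁻¹ ∈ Blk D (g * d * g⁻¹) := by
  refine ⟨hD.conj_mem hg h.1, fun y hy => ?_⟩
  obtain ⟨y, rfl⟩ : ∃ y', y = g * y' * g⁻¹ := ⟨g⁻¹ * y * g, by group⟩
  rw [comm_conj_iff, comm_conj_iff]
  exact h.2 y ((hD.conj_mem_iff hg).1 hy)

theorem conj_mem_blk_iff (hg : g ∈ closure D) : g * e * g⁻¹ ∈ Blk D (g * d * g⁻¹) ↔ e ∈ Blk D d :=
  ⟨fun h => by simpa [mul_assoc] using hD.conj_mem_blk (inv_mem hg) h, hD.conj_mem_blk hg⟩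

theorem BLine.conj (hg : g ∈ closure D) (h : BLine D d) : BLine D (g * d * g⁻¹) := by
  obtain ⟨a, ha, b, hb, hm⟩ := h
  exact ⟨_, hD.conj_mem_blk hg ha, _, hD.conj_mem_blk hg hb, by
    simpa [mul_assoc] using hD.conj_mem hg hm⟩

theorem ncard_blk (hcl : Cl D) (hd : d ∈ D) (hc : c ∈ D) : (Blk D c).ncard = (Blk D d).ncard := by
  obtain ⟨g, hg, rfl⟩ := hcl d hd c hc
  rw [← Set.ncard_image_of_injective (Blk D d) (MulAut.conj g).injective]
  congr 1
  ext y
  obtain ⟨y, rfl⟩ := (MulAut.conj g).surjective y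
  rw [(MulAut.conj g).injective.mem_set_image]
  exact hD.conj_mem_blk_iff hg

theorem mem_blk_of_subset [Finite G] (hcl : Cl D) (ha : a ∈ D) (hb : b ∈ D)
    (h : ∀ y ∈ D, Commute y a → Commute y b) : b ∈ Blk D a := by
  obtain ⟨g, hg, rfl⟩ := hcl a ha b hb
  have h1 : {y | y ∈ D ∧ Commute y (g * a * g⁻¹)} = MulAut.conj g '' {y | y ∈ D ∧ Commute y a} := by
    ext y
    obtain ⟨y, rfl⟩ := (MulAut.conj g).surjective y
    rw [(MulAut.conj g).injective.mem_set_image]
    exact and_congr (hD.conj_mem_iff hg) (comm_conj_iff g)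
  have h2 : {y | y ∈ D ∧ Commute y a} = {y | y ∈ D ∧ Commute y (g * a * g⁻¹)} :=
    Set.eq_of_subset_of_ncard_le (fun y hy => ⟨hy.1, h y hy.1 hy.2⟩)
      (by rw [h1, Set.ncard_image_of_injective _ (MulAut.conj g).injective])
  exact ⟨hb, fun y hy => ⟨h y hy, fun h3 => ((Set.ext_iff.1 h2 y).2 ⟨hy, h3⟩).2⟩⟩

theorem mem_blk_of_line [Finite G] (hcl : Cl D) (ha : a ∈ D) (hb : b ∈ D) (hab : Commute a b) (hm : a * b ∈ D) :
    b ∈ Blk D a := by
  have hne : a ≠ b := fun e => hD.ne hm (by rw [e, hD.sq hb])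
  exact blk_trans (blk_symm hm (hD.mem_blk_of_subset hcl hm ha fun y hy => hD.comm_of_mul ha hb hne hy))
    (hD.mem_blk_of_subset hcl hm hb fun y hy => hD.comm_of_mul' ha hb hne hy)

theorem bline_of_hasLine [Finite G] (hcl : Cl D) (hl : HasLine D) (hd : d ∈ D) : BLine D d := by
  obtain ⟨a, ha, b, hb, hab, hm⟩ := hl
  obtain ⟨g, hg, rfl⟩ := hcl a ha d hd
  exact BLine.conj hD hg ⟨a, blk_self ha, b, hD.mem_blk_of_line hcl ha hb hab hm, hm⟩

omit hD in
theorem BLine.hasLine (hd : d ∈ D) (h : BLine D d) : HasLine D := by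
  obtain ⟨a, ha, b, hb, hm⟩ := h
  exact ⟨a, ha.1, b, hb.1, blk_comm₂ hd ha hb, hm⟩

theorem mem_blk_of_mem_closure' [Finite G] (hcl : Cl D) (hd : d ∈ D) (hl : BLine D d) (hx : x ∈ D)
    (hdx : ¬ Commute x d) (hw : w ∈ D) (hwU : w ∈ closure (Blk D d ∪ {x})) (hwd : Commute w d) : w ∈ Blk D d :=
  hD.mem_blk_of_subset hcl hd hw fun c hc h => (hD.comm_of_mem_closure hd hl hx hdx hc h hw
    (closure_mono (Set.union_subset_union_left _ Set.subset_union_left) hwU) hwd).symm

theorem exists_opp (hcl : Cl D) (hx : x ∈ D) (hy : y ∈ D) (h : ¬ Commute x y) (ha : a ∈ D) :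
    ∃ w ∈ D, ¬ Commute w a := by
  obtain ⟨g, hg, rfl⟩ := hcl x hx a ha
  exact ⟨_, hD.conj_mem hg hy, fun h1 => h ((comm_conj_iff g).1 h1).symm⟩

/-- Two members of a class have a common opposite. -/
theorem exists_opp_opp (hcl : Cl D) (hx : x ∈ D) (hy : y ∈ D) (h : ¬ Commute x y) (ha : a ∈ D) (hc : c ∈ D) :
    ∃ w ∈ D, ¬ Commute w a ∧ ¬ Commute w c := by
  obtain ⟨g, hg, rfl⟩ := hcl a ha c hc
  clear hc
  have step : ∀ u ∈ D, ∀ c ∈ D, (∃ w ∈ D, ¬ Commute w a ∧ ¬ Commute w c) →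
      ∃ w ∈ D, ¬ Commute w a ∧ ¬ Commute w (u * c * u) := by
    have key : ∀ c ∈ D, ∀ e ∈ D, ¬ Commute c e → (∃ w ∈ D, ¬ Commute w a ∧ ¬ Commute w c) →
        ∃ w ∈ D, ¬ Commute w a ∧ ¬ Commute w e := by
      rintro c hc e he hce ⟨w, hw, h1, h2⟩
      by_cases hca : ¬ Commute c a
      · exact ⟨c, hc, hca, hce⟩
      by_cases hwe : ¬ Commute w e
      · exact ⟨w, hw, h1, hwe⟩
      push Not at hca hwe
      refine ⟨_, hD.cj hc hw, fun h3 => h2 ?_, fun h3 => hce ?_⟩
      · exact (hD.comm_of_cj ha hw (fun h => h1 h.symm) hca (comm_cj_left (hD.sq hw) h3)).symm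
      · simpa only [cj_eq_of_comm (hD.sq hw) hwe] using comm_cj_left (hD.sq hw) h3
    intro u hu c hc h
    by_cases h1 : Commute c u
    · rwa [cj_eq_of_comm (hD.sq hu) h1.symm]
    · exact key c hc _ (hD.cj hc hu) (hD.opp_cj hc hu h1) h
  induction hg using closure_induction_left with
  | one =>
    obtain ⟨w, hw, h1⟩ := hD.exists_opp hcl hx hy h ha
    exact ⟨w, hw, h1, by simpa using h1⟩
  | mul_left u hu k hk ih =>
    simpa only [mul_inv_rev, hD.inv hu, mul_assoc] using step u hu _ (hD.conj_mem hk ha) ih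
  | inv_mul_cancel u hu k hk ih =>
    simpa only [mul_inv_rev, hD.inv hu, mul_assoc] using step u hu _ (hD.conj_mem hk ha) ih

/-! ### Good partners -/

omit hD in
/-- The good partners of `a` with respect to `x`. -/
def _root_.CL.OTr.GP (D : Set G) (a x : G) : Set G := {b | b ∈ D ∧ Commute a b ∧ ¬ Commute x b ∧ Good x a b}

theorem gp_map (ha : a ∈ D) (hx : x ∈ D) (hax : ¬ Commute x a) (hb : b ∈ GP D a x) :
    a * b * x * (a * b) ∈ GP D x a := by
  obtain ⟨hb, hab, hxb, hg⟩ := hb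
  have hr := hD.mul_mem_closure ha hb
  have hr2 := hD.mul_sq ha hb hab
  have h1 := (hD.good_iff ha hb hab).1 hg
  have h2 := hD.cj_mem hr hr2 hx
  have h3 : Commute (a * b) a := (Commute.refl a).mul_left hab.symm
  refine ⟨h2, h1, fun h => hax ?_, ?_⟩
  · simpa only [cj_eq_of_comm hr2 h3] using comm_cj_left hr2 h.symm
  rw [hD.good_iff hx h2 h1]
  by_cases e : a = b
  · subst e; simp only [hD.sq ha, one_mul, mul_one, hD.sq hx]; exact Commute.refl a
  have h4 := comm_mul_cj hr2 h1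
  simpa only [inv_eq_self_of_mul_self (hD.mul_sq hx h2 h1)] using
    (hD.comm_conj_of_comm_mul ha hb hab e (hD.mul_mem_closure hx h2) h4).1

theorem gp_inj (ha : a ∈ D) (hx : x ∈ D) (hb : b ∈ GP D a x) (hb' : b' ∈ GP D a x)
    (e : a * b * x * (a * b) = a * b' * x * (a * b')) : b = b' := by
  by_contra hne
  rw [hb.2.1.eq, hb'.2.1.eq] at e
  nth_rewrite 2 [← hb.2.1.eq, ← hb'.2.1.eq] at e
  have h1 : Commute (a * x * a) (b * b') := by
    change a * x * a * (b * b') = b * b' * (a * x * a)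
    calc a * x * a * (b * b') = b * (b * a * x * (a * b)) * b' := by simp only [mul_assoc, cancel (hD.sq hb.1)]
      _ = _ := by rw [e]; simp only [mul_assoc, hD.sq hb'.1, mul_one]
  have h2 := comm_cj_left (hD.sq ha) (hD.comm_of_mul hb.1 hb'.1 hne (hD.cj hx ha) h1)
  rw [cj_eq_of_comm (hD.sq ha) hb.2.1] at h2
  exact hb.2.2.1 h2

/-- A good partner of `a` is the conjugate of `a` by a product `x x'`. -/
theorem gp_surj [Finite G] (ha : a ∈ D) (hx : x ∈ D) (hax : ¬ Commute x a) (hb : b ∈ GP D a x) :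
    ∃ x' ∈ GP D x a, b = x * x' * a * (x * x') := by
  have hxa : ¬ Commute a x := fun h => hax h.symm
  have i1 : Set.InjOn (fun b => a * b * x * (a * b)) (GP D a x) := fun _ h _ h' => hD.gp_inj ha hx h h'
  have i2 : Set.InjOn (fun b => x * b * a * (x * b)) (GP D x a) := fun _ h _ h' => hD.gp_inj hx ha h h'
  have h1 := Set.ncard_le_ncard_of_injOn _ (fun _ h => hD.gp_map ha hx hax h) i1
  have h2 : (fun b => x * b * a * (x * b)) '' GP D x a = GP D a x :=
    Set.eq_of_subset_of_ncard_le (by rintro _ ⟨y, hy, rfl⟩; exact hD.gp_map hx ha hxa hy)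
      (by rw [i2.ncard_image]; exact h1)
  obtain ⟨x', hx', e⟩ := h2.symm ▸ hb
  exact ⟨x', hx', e.symm⟩

/-- A common neighbour of `b` and `x` gives one of `a` and `x`. -/
theorem exists_comm_of_gp [Finite G] (ha : a ∈ D) (hx : x ∈ D) (hax : ¬ Commute x a) (hb : b ∈ GP D a x)
    (hy : y ∈ D) (hyb : Commute y b) (hyx : Commute y x) : ∃ e ∈ D, Commute e a ∧ Commute e x := by
  obtain ⟨x', hx', rfl⟩ := hD.gp_surj ha hx hax hb
  have h2 := hD.mul_sq hx hx'.1 hx'.2.1
  refine ⟨_, hD.cj_mem (hD.mul_mem_closure hx hx'.1) h2 hy, (comm_cj_left h2 hyb.symm).symm, ?_⟩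
  simpa only [cj_eq_of_comm h2 ((Commute.refl x).mul_left hx'.2.1.symm)] using comm_cj h2 hyx

/-- The four points `a, b, a ^ s, b ^ s` of a plane. -/
theorem exists_four (ha : a ∈ D) (hx : x ∈ D) (hax : ¬ Commute x a) (hb : b ∈ GP D a x) (hne : a ≠ b)
    (h3 : (a * x) ^ 3 ≠ 1) : ∃ a' ∈ D, ∃ b' ∈ D, Commute a a' ∧ Commute b a' ∧ Commute a b' ∧ Commute b b' ∧
      a ≠ a' ∧ b ≠ a' ∧ a * b = a' * b' := by
  obtain ⟨hx', h1, -, -⟩ := hD.gp_map ha hx hax hb
  obtain ⟨hb, hab, -, -⟩ := hb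
  have hr2 := hD.mul_sq ha hb hab
  have ha2 := hD.sq ha
  have hx2 := hD.sq hx
  have hs := hD.mul_mem_closure hx hx'
  have hs2 := hD.mul_sq hx hx' h1
  have h4 := comm_mul_cj hr2 h1
  have h5 := hD.comm_conj_of_comm_mul ha hb hab hne hs h4
  have h6 := hD.comm_conj_of_comm_mul hb ha hab.symm hne.symm hs (hab.eq ▸ h4)
  have hxx : x ≠ a * b * x * (a * b) := fun e =>
    hax (hD.comm_of_mul ha hb hne hx (comm_of_cj_eq hr2 e.symm).symm)
  have hxs : Commute x (x * (a * b * x * (a * b))) := (Commute.refl x).mul_right h1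
  have hxr : x * (a * b) * x = x * (a * b * x * (a * b)) * (a * b) := by
    rw [mul_assoc x _ (a * b), mul_assoc _ (a * b) (a * b), hr2, mul_one, mul_assoc]
  have hL := fun h => hD.comm_of_mul hx hx' hxx ha h
  generalize x * (a * b * x * (a * b)) = s at hs hs2 h4 h5 h6 hxs hxr hL
  rw [inv_eq_self_of_mul_self hs2] at h5 h6
  refine ⟨_, hD.cj_mem hs hs2 ha, _, hD.cj_mem hs hs2 hb, h5.1, h5.2, h6.2, h6.1,
    fun e => hax (hL (comm_of_cj_eq hs2 e.symm).symm).symm, fun e => h3 ?_, ?_⟩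
  · have har : Commute a (a * b) := (Commute.refl a).mul_right hab
    have has : a * s * a = a * b * s := by rw [e]; simp only [mul_assoc, hs2, mul_one]
    have hw := hD.cj (hD.cj hx ha) hx
    have hL2 := hD.comm_of_mul ha hb hne hw
    generalize a * b = r at *
    have f1 : SemiconjBy (a * x) r s := by
      change a * x * r = s * (a * x)
      calc a * x * r = a * (x * r * x) * x := by simp only [mul_assoc, hx2, mul_one]
        _ = a * s * a * (a * r * a) * (a * x) := by rw [hxr]; simp only [mul_assoc, cancel ha2]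
        _ = _ := by rw [has, cj_eq_of_comm ha2 har, cj_eq_of_comm hr2 h4.symm]
    have f2 : SemiconjBy (a * x) s (r * s) := by
      change a * x * s = r * s * (a * x)
      rw [← has, mul_assoc, hxs.eq]; simp only [mul_assoc, cancel ha2]
    have f3 : SemiconjBy (a * x) (r * s) r := by
      have := f1.mul_right f2
      rwa [← mul_assoc, cj_eq_of_comm hs2 h4] at this
    have f4 : Commute ((a * x) ^ 3) r := by
      rw [pow_succ, pow_two]; exact (f3.mul_left f2).mul_left f1
    have e3 : (a * x) ^ 3 = a * (x * (a * x * a) * x) := by simp only [pow_succ, pow_zero, one_mul, mul_assoc]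
    have f5 := hL2 (by simpa only [e3, cancel ha2] using har.mul_left f4)
    refine eq_one_of_odd_of_pow ((hD.odd ha hx fun h => hax h.symm).of_dvd_nat (orderOf_pow_dvd 3)) (k := 1) ?_
    rw [pow_one, pow_two, e3]
    exact hD.mul_sq ha hw f5.symm
  · rw [← cj_eq_of_comm hs2 h4]; simp only [mul_assoc, cancel hs2]

end OT

end CL.OTr
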