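/-
The 4371-dimensional representation of the Baby Monster: the weights of `Y` on the `-1` eigenspace of `z` are lines.
-/
import Cfsg.Agent.Spor.Rb1

set_option autoImplicit false
set_option linter.unusedSectionVars false

namespace CL.RB
open Cfsg Cfsg.Spor Subgroup CL.Even CL.Grp CL.Spor.Leech CL.Spor.Mon CL.Mj Module MulAction
open CL.INC (fs mem_fs card_fs)

variable {G : Type*} [Group G] {F V V' : Type*} [Field F] [AddCommGroup V] [Module F V] [AddCommGroup V']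
  [Module F V']

namespace Su
variable [Finite G] {S : Su G} {ρ : G → End F V}

theorem an1_key [Module.Finite F V] (h : Rp S.K ρ) {l : G → F} (hl : Ch S.Y l) (hz : l S.z = -1) :
    2048 * finrank F (Wt ρ S.Y l) ≤ finrank F (Ev ρ S.z (-1)) := by
  classical
  have h1 := sum_le (ρ := ρ) (w := fun x y => l y * sg F x y) (S := fun x => Wt ρ S.Y fun y => l y * sg F x y)
    (M := Ev ρ S.z (-1)) h.two S.p2Y (k := 2 ^ 13) (fs S.Q1) (fun x hx => hl.prod (S.ch_Y (mem_fs.1 hx).1))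
    (fun _ _ => le_rfl) (fun i hi => by
      rw [← S.card_Y, ← card_fs]
      refine Finset.card_le_card_of_injOn (· * i⁻¹) (fun j hj => ?_) fun a _ b _ e => mul_right_cancel e
      obtain ⟨hj, e⟩ := Finset.mem_filter.1 (Finset.mem_coe.1 hj)
      have hi := (mem_fs.1 hi).1
      have hj := (mem_fs.1 hj).1
      refine Finset.mem_coe.2 (mem_fs.2 (S.cent_Y (mul_mem hj (inv_mem hi)) fun a ha => (sg_eq_one h.two).1 ?_))
      rw [sg_mul S.xe hj (inv_mem hi) ha.1, mul_left_cancel₀ (hl.ne_zero ha) (e ha), sg_comm a i⁻¹,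
        (ch_sg S.xe ha.1).inv hi, sg_comm i a, (ch_sg S.xe hi).sq ha.1])
    fun x hx => by
      have := Wt_le_Ev (ρ := ρ) (l := fun y => l y * sg F x y) S.zY
      rwa [sg_pos (S.xe.comm (mem_fs.1 hx).1).symm, mul_one, hz] at this
  have h2 := Finset.card_nsmul_le_sum (fs S.Q1) (fun x => finrank F (Wt ρ S.Y fun y => l y * sg F x y)) _
    fun x hx => h.finrank_le (T := Wt ρ S.Y l) (S.Q1_le_K (mem_fs.1 hx)) fun v hv => wtA_map h hl hz (mem_fs.1 hx) hv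
  rw [card_fs, S.card_Q1, smul_eq_mul] at h2
  omega

theorem an1 [Module.Finite F V] (h : Rp S.K ρ) (hs : ρ S.s = 1) (hz : ρ S.z ≠ 1) (hd : finrank F V ≤ 4371) :
    (∀ l, Ch S.Y l → l S.z = -1 → Ln (Wt ρ S.Y l)) ∧ 2048 ≤ finrank F (Ev ρ S.z (-1)) ∧
      Ev ρ S.z 1 ⊓ Ev ρ S.t (-1) ≠ ⊥ := by
  have _ := hs
  have A0 : Ev ρ S.z (-1) ≠ ⊥ := fun e => hz (LinearMap.ext fun v => by
    have := le_Ev_sup (T := ⊤) (ρ := ρ) (g := S.z) h.two (fun _ _ => trivial) (fun v _ => h.sq S.zK S.zz v)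
      (Submodule.mem_top (x := v))
    rw [e, inf_bot_eq, sup_bot_eq] at this
    exact mem_Ev_one.1 this.2)
  have qz : ∀ {v}, v ∈ Ev ρ S.z (-1) → ρ S.q v ∈ Ev ρ S.z (-1) := h.ev_comm S.qK S.zK (S.xe.comm S.qQ)
  have h1 := (Submodule.finrank_mono (le_Ev_sup (T := Ev ρ S.z (-1)) (ρ := ρ) (g := S.t) h.two
    (fun _ => h.ev_comm S.tK S.zK S.tz) fun v _ => h.sq S.tK S.tt v)).trans
    (Submodule.finrank_add_le_finrank_add_finrank _ _)
  have h2 : finrank F ↥(Ev ρ S.z (-1) ⊓ Ev ρ S.t (-1)) ≤ finrank F ↥(Ev ρ S.z (-1) ⊓ Ev ρ S.t 1) :=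
    h.finrank_le S.qK fun v hv => ⟨qz hv.1, by simpa using q_t h hv.1 hv.2⟩
  have h3 : finrank F ↥(Ev ρ S.z (-1) ⊓ Ev ρ S.t 1) ≤ finrank F ↥(Ev ρ S.z 1 ⊓ Ev ρ S.t (-1)) :=
    h.finrank_le S.σK fun v hv => ⟨σ_tz h hv.2, σ_zt h hv.1⟩
  have h4 := finrank_add_le (M := ⊤) ((disjoint_Ev (ρ := ρ) (g := S.z) h.two).mono_left
    (inf_le_left (b := Ev ρ S.t (-1)))) le_top le_top
  rw [finrank_top] at h4
  have h5 := one_le_finrank A0
  refine ⟨fun l hl e => ln_of_finrank ?_, ?_, fun e => ?_⟩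
  · have := an1_key h hl e
    omega
  · obtain ⟨m, hm, v, hv, hv0, hw⟩ := h.exists_wt S.Y_le_K (T := Ev ρ S.z (-1))
      (fun y hy _ => h.ev_comm (S.Y_le_K hy) S.zK (S.Y_comm hy S.zY))
      (fun y hy v _ => h.sq (S.Y_le_K hy) (S.Y_sq hy) v)
      (fun _ hx _ hy v _ => h.comm (S.Y_le_K hx) (S.Y_le_K hy) (S.Y_comm hx hy) v) A0
    have h6 := an1_key h hm (smul_left_injective F hv0 ((hw _ S.zY).symm.trans hv))
    have h7 := one_le_finrank ((Wt ρ S.Y m).ne_bot_iff.2 ⟨v, hw, hv0⟩)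
    omega
  · rw [e, finrank_bot] at h3
    omega

end Su
end CL.RB
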