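/-
The 4371-dimensional representation of the Baby Monster: the structure of a small module.
-/
import Cfsg.Agent.Spor.Rb1

set_option autoImplicit false
set_option linter.unusedSectionVars false

namespace CL.RB
open Cfsg Cfsg.Spor Subgroup CL.Even CL.Grp CL.Spor.Leech CL.Spor.Mon CL.Mj Module MulAction

variable {G : Type*} [Group G] {F V V' : Type*} [Field F] [AddCommGroup V] [Module F V] [AddCommGroup V']
  [Module F V']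

namespace Su
variable [Finite G] {S : Su G} {ρ : G → End F V} {x y y' : G} {v : V} {l : G → F}

namespace AN2

theorem B_inv (h : Rp S.K ρ) : Inv ρ S.Q1 (Ev ρ S.z 1) := fun _ hx _ =>
  h.ev_comm (S.Q1_le_K hx) S.zK (S.xe.comm hx.1)

theorem B_sq (h : Rp S.K ρ) (hx : x ∈ S.Q1) (hv : v ∈ Ev ρ S.z 1) : ρ x (ρ x v) = v := by
  rw [← h.app (S.Q1_le_K hx) (S.Q1_le_K hx), ← pow_two]
  rcases S.xe.mem_Z.1 (S.xe.sq x hx.1) with e | e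
  · rw [e, h.one_app]
  · rw [e]; exact mem_Ev_one.1 hv

theorem B_comm (h : Rp S.K ρ) (hx : x ∈ S.Q1) (hy : y ∈ S.Q1) (hv : v ∈ Ev ρ S.z 1) :
    ρ x (ρ y v) = ρ y (ρ x v) := by
  have hx' := S.Q1_le_K hx
  have hy' := S.Q1_le_K hy
  rcases conj_cases S.xe hx.1 hy.1 with e | e <;> rw [mul_inv_eq_iff_eq_mul] at e
  · exact h.comm hx' hy' e v
  · rw [← h.app hx' hy', e, mul_assoc, h.app S.zK (mul_mem hy' hx'), mem_Ev_one.1 (B_inv h _ (mul_mem hy hx) v hv),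
      h.app hy' hx']

theorem wt_W (h : Rp S.K ρ) (hs : ρ S.s = 1) (hl : Ch S.Q1 l) (hv : v ∈ Ev ρ S.z 1) (hw : v ∈ Wt ρ S.Q1 l)
    (h0 : v ≠ 0) : ∃ x ∈ S.Q1, Wt ρ S.Q1 l = S.W ρ x := by
  obtain ⟨x, hx, e⟩ := exists_sg S.xe h.two S.Q1_le_Q S.zQ1 hl (smul_left_injective F h0 ((hw _ S.zQ1).symm.trans hv))
  exact ⟨x, S.mem_Q1.2 ⟨hx, ((sg_eq_one h.two).1 ((e S.sQ1).symm.trans (wt_s hs S.sQ1 hw h0))).symm⟩, Wt_congr e⟩

variable (S F) in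
/-- the weight of `Y` on `σ⁻¹ W y` -/
noncomputable def lam (y a : G) : F := sg F y (S.σ⁻¹⁻¹ * a * S.σ⁻¹)

theorem lam_mem {a : G} (ha : a ∈ S.Y) : S.σ⁻¹⁻¹ * a * S.σ⁻¹ ∈ S.Y := by rw [inv_inv]; exact S.σY'.2 ha

theorem lam_ch (hy : y ∈ S.Q) : Ch S.Y (lam F S y) := (S.ch_Y hy).conj fun _ => lam_mem

theorem lam_z (n : y * S.t ≠ S.t * y) : lam F S y S.z = -1 := by rw [lam, inv_inv, S.σz, sg_neg n.symm]

theorem lam_t (hy : y ∈ S.Q) : lam F S y S.t = 1 := by rw [lam, inv_inv, S.σt, sg_pos (S.xe.comm hy).symm]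

theorem lam_s (hy : y ∈ S.Q1) : lam F S y S.s = 1 := by rw [lam, inv_inv, S.σs'', sg_pos (S.mem_Q1.1 hy).2.symm]

theorem σ_W (h : Rp S.K ρ) (hv : v ∈ S.W ρ y) : ρ S.σ⁻¹ v ∈ Wt ρ S.Y (lam F S y) :=
  h.wt_map (inv_mem S.σK) S.Y_le_K (fun _ ha => ⟨S.Y_le_Q1 (lam_mem ha), rfl⟩) hv

section
variable (h : Rp S.K ρ) (h1 : ∀ l, Ch S.Y l → l S.z = -1 → Ln (Wt ρ S.Y l))
include h h1

theorem ln_odd (hy : y ∈ S.Q) (n : y * S.t ≠ S.t * y) : Ln (S.W ρ y) :=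
  h.ln (inv_mem S.σK) (fun _ => σ_W h) (h1 _ (lam_ch hy) (lam_z n))

theorem odd_conj (hy : y ∈ S.Q1) (hy' : y' ∈ S.Q1) (b : S.W ρ y ≠ ⊥) (b' : S.W ρ y' ≠ ⊥) (n : y * S.t ≠ S.t * y)
    (n' : y' * S.t ≠ S.t * y') : ∃ r ∈ S.R2, S.Cl (r * y * r⁻¹) y' := by
  obtain ⟨v, hv, v0⟩ := (Submodule.ne_bot_iff _).1 b
  obtain ⟨v', hv', v0'⟩ := (Submodule.ne_bot_iff _).1 b'
  obtain ⟨x, hx, e⟩ := S.exists_Q1 h.two (lam_ch (F := F) hy.1) (lam_ch hy'.1) ((lam_z n).trans (lam_z n').symm)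
    ((lam_s hy).trans (lam_s hy').symm)
  have xR : x ∈ S.R1 := S.mem_R1.2 ⟨hx, ((sg_eq_one h.two).1 (by
    have : lam F S y' S.t = lam F S y S.t * sg F x S.t := e S.tY
    rw [lam_t hy.1, lam_t hy'.1, one_mul] at this
    exact this.symm)).symm⟩
  obtain ⟨c, hc⟩ := h1 _ (lam_ch hy'.1) (lam_z n') _ (σ_W h hv') (h.ne_zero (inv_mem S.σK) v0') _
    ((Wt_congr e).ge (wtA_map h (lam_ch hy.1) (lam_z n) hx (σ_W h hv)))
  have rR : S.σ * x * S.σ⁻¹ ∈ S.R2 := conj_mem_cj _ xR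
  have h2 : ρ (S.σ * x * S.σ⁻¹) v ∈ S.W ρ y' := by
    rw [h.app (mul_mem S.σK (S.Q1_le_K hx)) (inv_mem S.σK), h.app S.σK (S.Q1_le_K hx), hc, map_smul, h.app_inv S.σK]
    exact Submodule.smul_mem _ _ hv'
  exact ⟨_, rR, S.cl_of_sg h.two ((S.conj_Q1' (S.R2_le_C rR)).2 hy).1 hy'.1
    (eqOn_of_mem h2 (W_map h (S.R2_le_C rR) hv) (h.ne_zero (S.R2_le_K rR) v0))⟩

theorem supp (hG : S.GF) (hy : y ∈ S.Q1) (b : S.W ρ y ≠ ⊥) : S.Cl 1 y ∨ y ∈ S.SY :=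
  hG.supp {y | y ∈ S.Q1 ∧ S.W ρ y ≠ ⊥} (fun _ h => h.1)
    (fun _ hc _ hy => ⟨(S.conj_Q1' hc).2 hy.1, h.ne_bot (S.C_le_K hc) (fun _ => W_map h hc) hy.2⟩)
    (fun _ hy => ⟨⟨mul_mem S.zQ1 hy.1, (Cl.W S (.inr (.inl rfl)) ρ).symm ▸ hy.2⟩,
      ⟨mul_mem S.sQ1 hy.1, (Cl.W S (.inr (.inr (.inl rfl))) ρ).symm ▸ hy.2⟩⟩)
    (fun _ hy _ hy' => odd_conj h h1 hy.1 hy'.1 hy.2 hy'.2) y ⟨hy, b⟩

end

theorem fix (hG : S.GF) (h : Rp S.K ρ) (hy : y ∈ S.SY) (ln : Ln (S.W ρ y)) :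
    ∀ c ∈ S.C, c * y = y * c → ∀ v ∈ S.W ρ y, ρ c v = v := fun c hc e =>
  h.triv (L := S.C ⊓ centralizer {y}) (N := S.Q1 ⊓ centralizer {y}) (inf_le_left.trans S.C_le_K) (fun a ha => by
    by_cases b : S.W ρ y = ⊥
    · exact ⟨0, fun v hv => by rw [b] at hv; rw [(Submodule.mem_bot F).1 hv, map_zero, smul_zero]⟩
    obtain ⟨u, hu, u0⟩ := (Submodule.ne_bot_iff _).1 b
    have h1 := W_map h ha.1 hu
    rw [mem_cent_singleton.1 ha.2, mul_inv_cancel_right] at h1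
    obtain ⟨k, hk⟩ := ln u hu u0 _ h1
    refine ⟨k, fun v hv => ?_⟩
    obtain ⟨m, rfl⟩ := ln u hu u0 v hv
    rw [map_smul, hk, smul_comm])
    (fun n hn v hv => by rw [hv n hn.1, sg_pos (mem_cent_singleton.1 hn.2), one_smul])
    (inf_le_left.trans S.Q1_le_K) (hG.perfU y hy) c ⟨hc, mem_cent_singleton.2 e⟩

theorem dim_le [Module.Finite F V] (h : Rp S.K ρ) (ne : ∀ y ∈ S.SY, S.W ρ y ≠ ⊥) :
    finrank F (S.D ρ) + 2300 ≤ finrank F (Ev ρ S.z 1) := by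
  classical
  have h1 := sum_le (ρ := ρ) (w := fun y => sg F y) (S := S.W ρ) (M := ⨆ y ∈ S.SY, S.W ρ y) h.two S.p2Q1 (k := 4)
    (Set.toFinite S.SY).toFinset (fun y hy => S.ch_Q1 ((Set.Finite.mem_toFinset _).1 hy).1) (fun _ _ => le_rfl)
    (fun i hi => (Finset.card_le_card fun j hj => by
      obtain ⟨hj, e⟩ := Finset.mem_filter.1 hj
      simpa [Cl] using S.cl_of_sg h.two ((Set.Finite.mem_toFinset _).1 hi).1 ((Set.Finite.mem_toFinset _).1 hj).1 e).trans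
        (Finset.card_le_four (a := i) (b := S.z * i) (c := S.s * i) (d := S.z * S.s * i)))
    fun y hy => le_biSup (S.W ρ) ((Set.Finite.mem_toFinset _).1 hy)
  have h2 := Finset.card_nsmul_le_sum (Set.toFinite S.SY).toFinset (fun y => finrank F (S.W ρ y)) 1
    fun y hy => one_le_finrank (ne y ((Set.Finite.mem_toFinset _).1 hy))
  rw [← Set.ncard_eq_toFinset_card, S.card_SY, smul_eq_mul] at h2
  have h3 : Disjoint (S.D ρ) (⨆ y ∈ S.SY, S.W ρ y) := Submodule.disjoint_def.2 fun v hv hv' =>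
    (Submodule.mem_bot F).1 ((iSup₂_le (a := (⊥ : Submodule F V)) fun _ hy => let ⟨_, ha, e⟩ := S.SY_R1 hy.1
      absurd ((sg_eq_one h.two).1 (hy.2 (S.R1_le_Q1 ha))) e)
      (RB.sel (w := fun y => sg F y) h.two S.p2Q1 (fun _ hy => S.ch_Q1 hy.1) (fun _ _ => le_rfl) ch_one hv' hv))
  have h4 := finrank_add_le h3 (S.W_one ρ ▸ W_le_z (one_mem _)) (iSup₂_le fun _ hy => W_le_z hy.1)
  omega

end AN2

open AN2 in
theorem an2 [Module.Finite F V] (hG : S.GF) (h : Rp S.K ρ) (hs : ρ S.s = 1) (hz : ρ S.z ≠ 1)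
    (hd : finrank F V ≤ 4371) (h1 : ∀ l, Ch S.Y l → l S.z = -1 → Ln (Wt ρ S.Y l))
    (h2 : 2048 ≤ finrank F (Ev ρ S.z (-1))) (h3 : Ev ρ S.z 1 ⊓ Ev ρ S.t (-1) ≠ ⊥) : S.Gd ρ ∧ S.Sm ρ := by
  obtain ⟨y, hy, b, ln⟩ : ∃ y ∈ S.SY, S.W ρ y ≠ ⊥ ∧ Ln (S.W ρ y) := by
    obtain ⟨l, hl, v, hv, v0, hw⟩ := h.exists_wt S.Q1_le_K (T := Ev ρ S.z 1 ⊓ Ev ρ S.t (-1))
      (fun x hx v hv => ⟨B_inv h x hx v hv.1, by
        have e : ρ S.t v = _ := hv.2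
        change ρ S.t (ρ x v) = _
        rw [B_comm h S.tQ1 hx hv.1, e, map_smul]⟩)
      (fun _ hx _ hv => B_sq h hx hv.1) (fun _ hx _ hy _ hv => B_comm h hx hy hv.1) h3
    obtain ⟨y, hy, e⟩ := wt_W h hs hl hv.1 hw v0
    rw [e] at hw
    have n : y * S.t ≠ S.t * y := fun c => one_ne_neg h.two (smul_left_injective F v0 (by
      have := hw _ S.tQ1
      rw [sg_pos c.symm] at this
      exact this.symm.trans hv.2))
    have b := (Submodule.ne_bot_iff _).2 ⟨v, hw, v0⟩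
    refine ⟨y, (supp h h1 hG hy b).resolve_left fun c => n ?_, b, ln_odd h h1 hy.1 n⟩
    rcases c with rfl | rfl | rfl | rfl
    · simp
    · rw [mul_one, S.tz]
    · rw [mul_one, S.ts]
    · rw [mul_one, mul_assoc, ← S.ts, ← mul_assoc, ← S.tz, mul_assoc]
  have ne : ∀ y ∈ S.SY, S.W ρ y ≠ ⊥ := fun y' hy' => by
    obtain ⟨c, hc, rfl⟩ := hG.trans y hy y' hy'
    exact h.ne_bot (S.C_le_K hc) (fun _ => W_map h hc) b
  have lnB : ∀ y ∈ S.SY, Ln (S.W ρ y) := fun y' hy' => by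
    obtain ⟨c, hc, rfl⟩ := hG.trans y' hy' y hy
    exact h.ln (S.C_le_K hc) (fun _ => W_map h hc) ln
  refine ⟨⟨h, hs, (h.decomp S.Q1_le_K (B_inv h) (fun _ hx _ => B_sq h hx) fun _ hx _ hy _ => B_comm h hx hy).trans
    (iSup₂_le fun l hl v hv => ?_), fun y hy => fix hG h hy (lnB y hy)⟩, hz, h1, lnB, ne, ?_⟩
  · by_cases v0 : v = 0
    · exact v0 ▸ zero_mem _
    obtain ⟨x, hx, e⟩ := wt_W h hs hl hv.1 hv.2 v0
    have hw : v ∈ S.W ρ x := e ▸ hv.2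
    rcases supp h h1 hG hx ((Submodule.ne_bot_iff _).2 ⟨v, hw, v0⟩) with c | c
    · exact le_biSup (S.W ρ) (Set.mem_insert _ _) (Cl.W S c ρ ▸ hw)
    · exact le_biSup (S.W ρ) (Set.mem_insert_of_mem _ c) hw
  · have h4 := dim_le h ne
    have h5 := finrank_add_le (M := ⊤) (disjoint_Ev (ρ := ρ) (g := S.z) h.two) le_top le_top
    rw [finrank_top] at h5
    omega

end Su
end CL.RB
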