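/-
The 4371-dimensional representation of the Baby Monster: small modules of `Co₂`.
-/
import Cfsg.Agent.Spor.Rb2

set_option autoImplicit false
set_option linter.unusedSectionVars false

namespace CL.RB
open Cfsg Cfsg.Spor Subgroup CL.Even CL.Grp CL.Spor.Leech CL.Spor.Mon CL.Mj Module MulAction
open scoped commutatorElement

/-- Commutators of elements acting by scalars act trivially. -/
theorem Rp.comm_le_Fx {G F V : Type*} [Group G] [Field F] [AddCommGroup V] [Module F V] {K L : Subgroup G}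
    {ρ : G → End F V} {T : Submodule F V} (h : Rp K ρ) (hL : L ≤ K)
    (hs : ∀ c ∈ L, ∃ e : F, ∀ v ∈ T, ρ c v = e • v) : ⁅L, L⁆ ≤ h.Fx T := commutator_le.2 fun a ha b hb =>
    ⟨hL (mul_mem (mul_mem (mul_mem ha hb) (inv_mem ha)) (inv_mem hb)), fun v hv => by
  obtain ⟨e, he⟩ := hs a ha
  obtain ⟨e', he'⟩ := hs b hb
  have hK := hL ha
  have hK' := hL hb
  have h1 : ρ (a * b) v = ρ (b * a) v := by
    rw [h.app hK hK', h.app hK' hK, he' v hv, he v hv, map_smul, map_smul, he v hv, he' v hv, smul_comm]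
  obtain ⟨e1, h2⟩ := hs (a⁻¹ * b⁻¹) (mul_mem (inv_mem ha) (inv_mem hb))
  rw [commutatorElement_def, mul_assoc, h.app (mul_mem hK hK') (mul_mem (inv_mem hK) (inv_mem hK')), h2 v hv,
    map_smul, h1, ← map_smul, ← h2 v hv, ← h.app (mul_mem hK' hK) (mul_mem (inv_mem hK) (inv_mem hK'))]
  simp [h.one_app]⟩

variable {F V : Type*} [Field F] [AddCommGroup V] [Module F V] {τ : Co0 → End F V} {x e q : Co0} {j : Fin 4 → Co0}
  {a b : GolayPt} {v : V}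

/-- the part belonging to the tetrad -/
noncomputable def X3 (τ : Co0 → End F V) (a b : GolayPt) : Submodule F V := V0 τ ⊔ (Vi τ a ⊔ Vi τ b)
/-- the twenty points outside the tetrad -/
def o20 (a b : GolayPt) : Set GolayPt := {i | i ∈ rest ∧ i ≠ a ∧ i ≠ b}
/-- the part belonging to the other twenty points -/
noncomputable def X20 (τ : Co0 → End F V) (a b : GolayPt) : Submodule F V := ⨆ i ∈ o20 a b, Vi τ i

theorem rest_cases {i : GolayPt} (hi : i ∈ rest) (a b : GolayPt) : i = a ∨ i = b ∨ i ∈ o20 a b := by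
  by_cases h1 : i = a
  · exact Or.inl h1
  by_cases h2 : i = b
  exacts [Or.inr (Or.inl h2), Or.inr (Or.inr ⟨hi, h1, h2⟩)]

theorem Dm.top_le (d : Dm τ) (a b : GolayPt) : ⊤ ≤ X3 τ a b ⊔ X20 τ a b :=
  d.dec.trans (sup_le (le_sup_of_le_left le_sup_left) (iSup₂_le fun i hi => by
    rcases rest_cases hi a b with rfl | rfl | h
    exacts [le_sup_of_le_left (le_sup_of_le_right le_sup_left), le_sup_of_le_left (le_sup_of_le_right le_sup_right),
      le_sup_of_le_right (le_biSup (Vi τ) h)]))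

theorem inv_X20 : Inv τ EE (X20 τ a b) := fun c hc =>
  maps_biSup fun _ hi v hv => le_biSup (Vi τ) hi (inv_Wt c hc v hv)

namespace CF
variable (h : CF x e q j a b)
include h

theorem xH : x ∈ stabilizer Co0 leechU := h.xU
theorem gN2 : x * e * x ∈ N2 := ⟨h.gN, mul_mem (mul_mem h.xH (EE_le h.eE)) h.xH⟩
theorem gg : x * e * x * (x * e * x) = 1 := by
  rw [show x * e * x * (x * e * x) = x * (e * (x * x) * e) * x by group, h.xx, mul_one, EE_sq h.eE, mul_one, h.xx]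
theorem gb : (x * e * x) • e8 b = e8 a ∨ (x * e * x) • e8 b = -e8 a := by
  have k : (x * e * x) • (x * e * x) • e8 a = e8 a := by rw [← mul_smul, h.gg, one_smul]
  refine h.ga.imp (fun l => ?_) fun l => ?_
  · rwa [l] at k
  · rwa [l, smul_neg, neg_eq_iff_eq_neg] at k
theorem X3_j (k : Fin 4) : X3 τ a b ≤ Ev τ (j k) 1 :=
  sup_le (V0_le (h.jE k)) (sup_le (Vi_pos (h.jE k) (h.ja k)) (Vi_pos (h.jE k) (h.jb k)))
theorem M2_e : Vi τ a ⊔ Vi τ b ≤ Ev τ e (-1) := sup_le (Vi_neg h.eE h.ea) (Vi_neg h.eE h.eb)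

variable (d : Dm τ)
include d

theorem mem_X3 (hv : ∀ k, v ∈ Ev τ (j k) 1) : v ∈ X3 τ a b := by
  obtain ⟨u, hu, w, hw, rfl⟩ := Submodule.mem_sup.1 (d.top_le a b (Submodule.mem_top (x := v)))
  have hJ : closure (Set.range j) ≤ EE := (closure_le _).2 (by rintro _ ⟨k, rfl⟩; exact h.jE k)
  have h1 : closure (Set.range j) ≤ d.rp.Fx (⨅ k, Ev τ (j k) 1) := (closure_le _).2 (by
    rintro _ ⟨k, rfl⟩
    exact ⟨EE_le (h.jE k), fun v hv => mem_Ev_one.1 ((Submodule.mem_iInf _).1 hv k)⟩)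
  have h2 : w ∈ ⨅ k, Ev τ (j k) 1 := (Submodule.mem_iInf _).2 fun k =>
    (Submodule.add_mem_iff_right _ (h.X3_j k hu)).1 (hv k)
  have h3 := sel (w := fun i => kap F i) (S := Vi τ) d.rp.two (p2EE.to_le hJ) (fun i _ => (ch_kap i).mono hJ)
    (fun _ _ => Wt_mono hJ) ch_one hw (mem_Wt_one.2 fun c hc => (h1 hc).2 w h2)
  exact add_mem hu ((iSup₂_le (a := X3 τ a b) fun i hi =>
    let ⟨k, hk⟩ := h.jo i hi.1.1 hi.1.2.1 hi.1.2.2
    absurd ((kap_eq_one d.rp.two).1 (hi.2 (subset_closure ⟨k, rfl⟩))) hk) h3)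
theorem x_X3 (hv : v ∈ X3 τ a b) : τ x v ∈ X3 τ a b :=
  h.mem_X3 d fun k => d.rp.ev_comm h.xH (EE_le (h.jE k)) (h.xj k) (h.X3_j k hv)
theorem g_a (hv : v ∈ Vi τ a) : τ (x * e * x) v ∈ Vi τ b := Vi_map d.rp h.gN2 h.ga hv
theorem g_b (hv : v ∈ Vi τ b) : τ (x * e * x) v ∈ Vi τ a := Vi_map d.rp h.gN2 h.gb hv
theorem g_g (v : V) : τ (x * e * x) (τ (x * e * x) v) = v := d.rp.sq (N2_le h.gN2) h.gg v
theorem x_V0 (hv : v ∈ X3 τ a b) (hg : v ∈ Ev τ (x * e * x) 1) : τ x v ∈ V0 τ :=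
  sel_Ev d.rp.two (V0_le h.eE) h.M2_e one_ne_zero (h.x_X3 d hv) (d.rp.ev_map h.xH (EE_le h.eE)
    (by rwa [inv_eq_of_mul_eq_one_left h.xx]))

omit d in
theorem coS : CoS F V := fun τ d _ hd ⟨i0, hi0, h0⟩ => by
  classical
  have mp : ∀ i ∈ rest, ∀ i' ∈ rest, ∃ k ∈ N2, ∀ v ∈ Vi τ i, τ k v ∈ Vi τ i' := fun i hi i' hi' =>
    let ⟨k, hk, e⟩ := N2_trans hi hi'; ⟨k, hk, fun _ => Vi_map d.rp hk (Or.inl e)⟩
  have n0 : ∀ i ∈ rest, Vi τ i ≠ ⊥ := fun i hi => let ⟨k, hk, e⟩ := mp _ hi0 i hi; d.rp.ne_bot (N2_le hk) e h0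
  have s1 : ∑ i ∈ rest, finrank F (Vi τ i) ≤ 1 * finrank F ↥(⨆ i ∈ (rest : Set GolayPt), Vi τ i) :=
    sum_le (w := fun i => kap F i) d.rp.two p2EE rest (fun i _ => ch_kap i) (fun _ _ => le_rfl)
      (fun i _ => Finset.card_le_one.2 fun _ h1 _ h2 =>
        (kap_inj d.rp.two (Finset.mem_filter.1 h1).1 (Finset.mem_filter.1 h1).2).trans
          (kap_inj d.rp.two (Finset.mem_filter.1 h2).1 (Finset.mem_filter.1 h2).2).symm)
      fun i hi => le_biSup (Vi τ) (Finset.mem_coe.2 hi)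
  have s2 := finrank_add_le (T := V0 τ) (T' := ⨆ i ∈ (rest : Set GolayPt), Vi τ i) (Submodule.disjoint_def.2
    fun v h1 h2 => (iSup₂_le (a := (⊥ : Submodule F V)) fun i hi => absurd hi.2 (kap_ne_one d.rp.two hi.1))
      (sel (w := fun i => kap F i) (S := Vi τ) d.rp.two p2EE (fun i _ => ch_kap i) (fun _ _ => le_rfl) ch_one h2 h1))
    le_top le_top
  rw [finrank_top] at s2
  have s3 : ∀ i ∈ rest, 22 * finrank F (Vi τ i) ≤ ∑ i ∈ rest, finrank F (Vi τ i) := fun i hi =>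
    card_rest ▸ Finset.card_nsmul_le_sum rest _ _ fun i' hi' =>
      let ⟨k, hk, e⟩ := mp i hi i' hi'; d.rp.finrank_le (N2_le hk) e
  have l1 : ∀ i ∈ rest, Ln (Vi τ i) := fun i hi => ln_of_finrank (by have := s3 i hi; omega)
  have l0 : Ln (V0 τ) := ln_of_finrank (by have := s3 i0 hi0; have := one_le_finrank (n0 i0 hi0); omega)
  obtain ⟨u, hu, u0⟩ := Submodule.exists_mem_ne_zero_of_ne_bot (n0 a h.ha)
  obtain ⟨w, w1, w0, w2⟩ : ∃ w ∈ Vi τ a ⊔ Vi τ b, w ≠ 0 ∧ τ x w ∈ V0 τ := by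
    have k := Submodule.add_mem_sup hu (h.g_a d hu)
    refine ⟨_, k, fun l => u0 (Submodule.disjoint_def.1 (disjoint_Ev d.rp.two) u ?_ (Vi_neg h.qE h.qa hu)),
      h.x_V0 d (Submodule.mem_sup_right k) (mem_Ev_one.2 (by rw [map_add, h.g_g d, add_comm]))⟩
    rw [eq_neg_of_add_eq_zero_left l]
    exact neg_mem (Vi_pos h.qE h.qb (h.g_a d hu))
  have g0 : V0 τ ≤ Ev τ (x * e * x) (-1) := (le_Ev_sup d.rp.two (inv_V0 d.rp _ h.gN2) fun v _ => h.g_g d v).trans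
    (sup_le (fun v hv => by_contra fun v0 => by
      obtain ⟨c, hc⟩ := l0 _ (h.x_V0 d (Submodule.mem_sup_left hv.1) hv.2)
        (d.rp.ne_zero h.xH fun l => v0 (l ▸ zero_mem _)) _ w2
      rw [← map_smul] at hc
      exact w0 (Submodule.disjoint_def.1 (disjoint_Ev d.rp.two) w
        (d.rp.inj h.xH hc ▸ V0_le h.eE (Submodule.smul_mem _ c hv.1)) (h.M2_e w1))) inf_le_right)
  have f0 : N2 ⊓ stabilizer Co0 leechU' ≤ d.rp.Fx (V0 τ) := h.perf.trans (sup_le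
    (fun c hc => ⟨EE_le hc, fun v hv => mem_Wt_one.1 hv c hc⟩) (d.rp.comm_le_Fx N2_le fun c hc => by
      obtain ⟨r, hr⟩ := l0 _ w2 (d.rp.ne_zero h.xH w0) _ (inv_V0 d.rp c hc _ w2)
      refine ⟨r, fun v hv => ?_⟩
      obtain ⟨s, rfl⟩ := l0 _ w2 (d.rp.ne_zero h.xH w0) _ hv
      rw [map_smul, hr, smul_comm]))
  refine ⟨fun k hk v hv => ?_, fun v hv => eq_zero_of_eq_neg d.rp.two ((hv _ (N2_le h.gN2)).symm.trans
    (mem_Ev_neg.1 (g0 (mem_Wt_one.2 fun c hc => hv c (EE_le hc))))), fun T hT ⟨i, hi, t0⟩ => ?_⟩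
  · rcases N2_U' hk with l | l
    · rw [eN_pos l, one_smul]; exact (f0 ⟨hk, l⟩).2 v hv
    have k1 := (f0 (x := x * e * x * k) ⟨mul_mem h.gN2 hk, mem_stabilizer_iff.2 (by
      rw [mul_smul, l, smul_neg, h.gU, neg_neg])⟩).2 v hv
    rw [d.rp.app (N2_le h.gN2) (N2_le hk), mem_Ev_neg.1 (g0 (inv_V0 d.rp k hk v hv))] at k1
    rw [eN_neg (l ▸ U'_ne_neg), neg_one_smul, ← neg_eq_iff_eq_neg, k1]
  obtain ⟨t, ht, t0⟩ := Submodule.exists_mem_ne_zero_of_ne_bot t0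
  have k1 : ∀ i' ∈ rest, Vi τ i' ≤ T := fun i' hi' v hv => by
    obtain ⟨k, hk, l⟩ := mp i' hi' i hi
    rw [← d.rp.inv_app (N2_le hk) v]
    exact hT _ (inv_mem (N2_le hk)) _ ((l1 i hi).le ht.2 t0 ht.1 (l v hv))
  exact eq_top_iff.2 (d.dec.trans (sup_le (l0.le w2 (d.rp.ne_zero h.xH w0)
    (hT x h.xH w (sup_le (k1 a h.ha) (k1 b h.hb) w1))) (iSup₂_le k1)))

end CF

end CL.RB
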