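/-
The 4371-dimensional representation of the Baby Monster: gluing for `Co₂`.
-/
import Cfsg.Agent.Spor.RbCoS

set_option autoImplicit false
set_option linter.unusedSectionVars false

namespace CL.RB
open Cfsg Cfsg.Spor Subgroup CL.Even CL.Grp CL.Spor.Leech CL.Spor.Mon CL.Mj Module MulAction

variable {F V : Type*} [Field F] [AddCommGroup V] [Module F V] {τ : Co0 → End F V} {x e q : Co0} {j : Fin 4 → Co0}
  {a b : GolayPt} {v : V}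

namespace CF
variable (h : CF x e q j a b) (d : Dm τ)
include h d

theorem x_X20 : ∀ v ∈ X20 τ a b, τ x v ∈ X20 τ a b := maps_biSup fun i hi v hv => by
  obtain ⟨k, hk⟩ := h.jo i hi.1 hi.2.1 hi.2.2
  have h1 := mem_Ev_neg.1 (d.rp.ev_comm h.xH (EE_le (h.jE k)) (h.xj k) (Vi_neg (h.jE k) hk hv))
  obtain ⟨u, hu, w, hw, l⟩ := Submodule.mem_sup.1 (d.top_le a b (Submodule.mem_top (x := τ x v)))
  rw [← l, map_add, mem_Ev_one.1 (h.X3_j k hu), ← add_eq_zero_iff_eq_neg] at h1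
  have h2 : (2 : F) • u = -(w + τ (j k) w) := by rw [two_smul, ← add_eq_zero_iff_eq_neg, ← h1]; abel
  exact l ▸ add_mem ((Submodule.smul_mem_iff _ d.rp.two).1 (h2 ▸ neg_mem (add_mem hw (inv_X20 _ (h.jE k) w hw)))) hw

/-- `g` and `q` anticommute on the two coordinates of the tetrad -/
theorem g_q (hv : v ∈ Vi τ a ⊔ Vi τ b) : τ (x * e * x) (τ q v) = -τ q (τ (x * e * x) v) := by
  obtain ⟨u, hu, w, hw, rfl⟩ := Submodule.mem_sup.1 hv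
  simp only [map_add, map_neg, mem_Ev_neg.1 (Vi_neg h.qE h.qa hu), mem_Ev_one.1 (Vi_pos h.qE h.qb hw),
    mem_Ev_one.1 (Vi_pos h.qE h.qb (h.g_a d hu)), mem_Ev_neg.1 (Vi_neg h.qE h.qa (h.g_b d hw))]
  abel

omit d in
theorem coG : CoG F V := fun τ d c0 Γ hΓ hI => by
  obtain ⟨p, hp, hb⟩ := h.br
  have qH := EE_le h.qE
  have s1 : Γ ≤ Γ ⊓ (Vi τ a ⊔ Vi τ b) ⊔ Γ ⊓ X20 τ a b := (le_inf le_rfl hΓ).trans
    ((split_Vi d.rp (I := (rest : Set GolayPt)) (hI.mono EE_le_N2)).trans (iSup₂_le fun i hi => by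
      rcases rest_cases hi a b with rfl | rfl | l
      exacts [le_sup_of_le_left (inf_le_inf_left _ le_sup_left), le_sup_of_le_left (inf_le_inf_left _ le_sup_right),
        le_sup_of_le_right (inf_le_inf_left _ (le_biSup (Vi τ) l))]))
  have s2 := le_Ev_sup (T := Γ ⊓ (Vi τ a ⊔ Vi τ b)) d.rp.two (fun v hv => ⟨hI _ h.gN2 v hv.1, maps_sup
    (fun _ hv => Submodule.mem_sup_right (h.g_a d hv)) (fun _ hv => Submodule.mem_sup_left (h.g_b d hv)) v hv.2⟩)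
    fun v _ => h.g_g d v
  have s3 : (Γ ⊓ (Vi τ a ⊔ Vi τ b) ⊓ Ev τ (x * e * x) 1).map (τ x) ≤ V0 τ := by
    rintro _ ⟨v, hv, rfl⟩
    exact h.x_V0 d (Submodule.mem_sup_right hv.1.2) hv.2
  have xS : x ∈ d.rp.St (X20 τ a b) := ⟨h.xH, h.x_X20 d⟩
  have eS : EE ≤ d.rp.St (X20 τ a b) := (d.rp.inv_iff EE_le).1 inv_X20
  have s4 : ∀ v ∈ Γ ⊓ X20 τ a b, τ x v ∈ Γ ⊓ X20 τ a b := by
    have k : ∀ c ∈ N2, c ∈ d.rp.St (X20 τ a b) → c ∈ d.rp.St (Γ ⊓ X20 τ a b) := fun c h1 h2 =>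
      ⟨h2.1, fun v hv => ⟨hI c h1 v hv.1, h2.2 v hv.2⟩⟩
    refine d.rp.glue h.xH hb (k q (EE_le_N2 h.qE) (eS h.qE)) (k p hp ?_) (h.xx ▸ one_mem _) fun v hv => ?_
    · rw [← mul_mem_cancel_left (mul_mem (mul_mem (eS h.qE) xS) (eS h.qE)), ← hb]
      exact mul_mem (mul_mem xS (eS h.qE)) xS
    obtain ⟨w, hw, l⟩ := maps_of_scalar (X := EE ⊓ Nsub.comap (MulAut.conj x).toMonoidHom) (I := o20 a b)
      (w := fun i => kap F i) (S := Vi τ) (c := fun i => kap F i q) (M := (Γ ⊓ X20 τ a b).map (τ x)) d.rp.two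
      (p2EE.to_le inf_le_left) (fun i _ => (ch_kap i).mono inf_le_left) (fun _ _ => Wt_mono inf_le_left)
      (fun i _ v hv => hv q h.qE) (fun i hi i' hi' l => by_contra fun l' => by
        obtain ⟨c, hc, c1, c2, c3⟩ := h.sep i' hi'.1 i hi.1 hi'.2.1 hi'.2.2 hi.2.1 hi.2.2 fun l => l' (l ▸ rfl)
        exact c2 ((kap_eq_one d.rp.two).1 ((l ⟨hc, show x * c * x⁻¹ ∈ Nsub by
          rwa [inv_eq_of_mul_eq_one_left h.xx]⟩).trans (kap_pos c3))))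
      (by
        rintro c hc _ ⟨u, hu, rfl⟩
        have l := mul_mem (mul_mem (inv_mem xS) (eS hc.1)) xS
        refine ⟨_, (k _ ⟨?_, l.1⟩ l).2 u hu, (d.rp.conj h.xH (EE_le hc.1) u).symm⟩
        have l' : x * c * x⁻¹ ∈ Nsub := hc.2
        rwa [inv_eq_of_mul_eq_one_left h.xx] at l' ⊢)
      (by rintro _ ⟨u, hu, rfl⟩; exact xS.2 u hu.2) _ ⟨v, hv, rfl⟩
    exact ⟨w, hw, l.symm⟩
  refine ⟨_, s3, (d.rp.inv_iff le_rfl).2 (h.gen _ ((d.rp.inv_iff N2_le).1 (hI.sup fun k hk v hv => ?_))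
    ⟨h.xH, maps_sup (fun v hv => maps_sup (fun v hv => maps_sup
      (fun v hv => Submodule.mem_sup_right (Submodule.mem_map_of_mem hv)) (fun w hw => Submodule.mem_sup_left ?_) v (s2 hv))
      (fun v hv => Submodule.mem_sup_left (s4 v hv).1) v (s1 hv)) ?_⟩)⟩
  · rw [c0 k hk v (s3 hv)]; exact Submodule.smul_mem _ _ hv
  · have k1 : τ q w ∈ Γ ⊓ (Vi τ a ⊔ Vi τ b) ⊓ Ev τ (x * e * x) 1 :=
      ⟨⟨hI q (EE_le_N2 h.qE) w hw.1.1, (inv_Wt.sup inv_Wt) q h.qE w hw.1.2⟩, mem_Ev_one.2 (by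
        rw [h.g_q d hw.1.2, mem_Ev_neg.1 hw.2, map_neg, neg_neg])⟩
    have k2 : τ (q * x * q * p) (τ q w) = τ q w := by
      rw [← hb, d.rp.app (mul_mem h.xH qH) h.xH, d.rp.app h.xH qH, mem_Ev_one.1 (V0_le h.qE (s3 ⟨_, k1, rfl⟩)),
        d.rp.sq h.xH h.xx]
    rw [d.rp.app (mul_mem (mul_mem qH h.xH) qH) (N2_le hp), d.rp.app (mul_mem qH h.xH) qH, d.rp.app qH h.xH] at k2
    rw [← d.rp.inj qH k2, d.rp.sq h.xH h.xx]
    exact hI q (EE_le_N2 h.qE) _ (hI p hp _ k1.1.1)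
  · rintro _ ⟨v, hv, rfl⟩
    rw [d.rp.sq h.xH h.xx]
    exact Submodule.mem_sup_left hv.1.1

end CF

end CL.RB
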