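/-
The 4371-dimensional representation of the Baby Monster: gluing on the faithful part and on the odd part.
-/
import Cfsg.Agent.Spor.Rb1

set_option autoImplicit false
set_option linter.unusedSectionVars false

namespace CL.RB
open Cfsg Cfsg.Spor Subgroup CL.Even CL.Grp CL.Spor.Leech CL.Spor.Mon CL.Mj Module MulAction

variable {G : Type*} [Group G] {F V V' : Type*} [Field F] [AddCommGroup V] [Module F V] [AddCommGroup V']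
  [Module F V']

namespace Su
variable [Finite G] {S : Su G} {ρ : G → End F V} {Γ : Submodule F V} {y y' c : G} {γ : V}

theorem W_le_t_neg (hy : y ∈ S.OY) : S.W ρ y ≤ Ev ρ S.t (-1) := by
  rw [← sg_neg (F := F) (Ne.symm hy.2)]; exact Wt_le_Ev S.tQ1

theorem W_le_t_pos (hy : y * S.t = S.t * y) : S.W ρ y ≤ Ev ρ S.t 1 := by
  rw [← sg_pos (F := F) hy.symm]; exact Wt_le_Ev S.tQ1

/-- every element of the class of an odd vector is conjugate to it under `P0` -/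
theorem g1_cl (hG : S.GF) (hy : y ∈ S.OY) (h : S.Cl y y') : ∃ g ∈ S.P0, g * y * g⁻¹ = y' := by
  have tP : S.t ∈ S.P0 := S.R1_le_P0 (S.Y_le_R1 S.tY)
  have e1 : S.t * y * S.t⁻¹ = S.z * y := conj_eq_of_ne S.xe S.tQ hy.1.1 (Ne.symm hy.2)
  have e2 : S.t * (S.s * y) * S.t⁻¹ = S.z * S.s * y := by
    rw [← conj_mul, e1, S.ts, mul_inv_cancel_right, ← mul_assoc, S.sz]
  have e3 : S.t * (S.z * S.s * y) * S.t⁻¹ = S.s * y := by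
    rw [mul_assoc S.z, ← conj_mul, e2, S.tz, mul_inv_cancel_right, ← mul_assoc, ← mul_assoc, S.zz, one_mul]
  have e4 : ∀ g : G, S.t * g * y * (S.t * g)⁻¹ = S.t * (g * y * g⁻¹) * S.t⁻¹ := fun g => by group
  obtain ⟨g, hg, e⟩ := hG.outer y hy
  rcases h with rfl | rfl | rfl | rfl
  · exact ⟨1, one_mem _, by simp⟩
  · exact ⟨_, tP, e1⟩
  · exact e.elim (fun e => ⟨g, hg, e⟩) fun e => ⟨_, mul_mem tP hg, by rw [e4, e, e3]⟩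
  · exact e.elim (fun e => ⟨_, mul_mem tP hg, by rw [e4, e, e2]⟩) fun e => ⟨g, hg, e⟩

variable (hG : S.GF) (h : S.Gd ρ) (ha : S.GA ρ Γ y γ)
include h ha

theorem g1_inv : Inv ρ S.P0 ((Γ ⊓ Ev ρ S.t 1).map (ρ S.σ)) :=
  inv_map_σ h.rp fun c hc v hv =>
    ⟨ha.inv c (S.P0_le_C hc) v hv.1, h.rp.ev_comm (S.P0_le_K hc) S.tK (S.mem_P0.1 hc).2 hv.2⟩

theorem g1_W (hc : c ∈ S.C) : ρ c γ ∈ S.GB ρ γ ⊓ S.W ρ (c * y * c⁻¹) :=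
  ⟨Submodule.subset_span ⟨c, hc, rfl⟩, W_map h.rp hc ha.mem.2⟩

theorem g1_z : S.GB ρ γ ≤ Ev ρ S.z 1 := Submodule.span_le.2 (by
  rintro _ ⟨c, hc, rfl⟩
  exact W_le_z (S.SY_conj hc ha.oy.1).1 (g1_W h ha hc).2)

theorem g1_A : (Γ ⊓ Ev ρ S.t 1).map (ρ S.σ) ≤ S.GB ρ γ :=
  ha.span.trans (Submodule.span_mono fun _ ⟨r, hr, e⟩ => ⟨r, S.R2_le_C hr, e⟩)

include hG

/-- the stabiliser of the class of `y` fixes the line of `γ` -/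
theorem g1_sl (hc : c ∈ S.C) (hl : S.Cl y (c * y * c⁻¹)) : ∃ e : F, ρ c γ = e • γ := by
  by_cases h0 : γ = 0
  · exact ⟨0, by simp [h0]⟩
  obtain ⟨g, hg, e⟩ := g1_cl hG ha.oy hl
  have h1 := h.fix y ha.oy.1 (g⁻¹ * c) (mul_mem (inv_mem (S.P0_le_C hg)) hc) (by
    calc g⁻¹ * c * y = g⁻¹ * (c * y * c⁻¹) * c := by group
      _ = _ := by rw [← e]; group) γ ha.mem.2
  rw [h.rp.app (inv_mem (S.P0_le_K hg)) (S.C_le_K hc)] at h1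
  rw [← h.rp.app_inv (S.P0_le_K hg) (ρ c γ), h1]
  exact ha.ln γ ha.mem h0 _ ⟨g1_inv h ha g hg γ ha.mem.1,
    Cl.W S hl ρ ▸ e ▸ W_map h.rp (S.P0_le_C hg) ha.mem.2⟩

theorem g1_B : S.GB ρ γ ⊓ Ev ρ S.t (-1) ≤ (Γ ⊓ Ev ρ S.t 1).map (ρ S.σ) := fun u hu => by
  have h1 : S.GB ρ γ ≤ (Γ ⊓ Ev ρ S.t 1).map (ρ S.σ) ⊓ Ev ρ S.t (-1) ⊔ Ev ρ S.t 1 := Submodule.span_le.2 (by
    rintro _ ⟨c, hc, rfl⟩
    by_cases e : c * y * c⁻¹ * S.t = S.t * (c * y * c⁻¹)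
    · exact Submodule.mem_sup_right (W_le_t_pos e (g1_W h ha hc).2)
    have ho : c * y * c⁻¹ ∈ S.OY := ⟨S.SY_conj hc ha.oy.1, e⟩
    obtain ⟨r, hr, hl⟩ := hG.odd y ha.oy _ ho
    have rC := S.R2_le_C hr
    obtain ⟨a, e'⟩ := g1_sl hG h ha (mul_mem (inv_mem rC) hc) (by
      have := Cl.conj S hl (inv_mem rC)
      rwa [show r⁻¹ * (r * y * r⁻¹) * r⁻¹⁻¹ = y by group,
        show r⁻¹ * (c * y * c⁻¹) * r⁻¹⁻¹ = r⁻¹ * c * y * (r⁻¹ * c)⁻¹ by group] at this)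
    refine Submodule.mem_sup_left ⟨?_, W_le_t_neg ho (g1_W h ha hc).2⟩
    rw [h.rp.app (inv_mem (S.C_le_K rC)) (S.C_le_K hc)] at e'
    rw [← h.rp.app_inv (S.C_le_K rC) (ρ c γ), e', map_smul]
    exact Submodule.smul_mem _ _ (g1_inv h ha r (S.R2_le_P0 hr) γ ha.mem.1))
  exact (sel_Ev h.rp.two inf_le_right (by rw [neg_neg]) (neg_ne_zero.2 one_ne_zero) (h1 hu.1) hu.2).1

theorem g1_two : ∀ u ∈ S.GB ρ γ ⊓ Ev ρ S.t (-1), ρ S.σ u ∈ Γ := fun u hu => by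
  obtain ⟨w, hw, rfl⟩ := g1_B hG h ha hu
  rw [← h.rp.app S.σK S.σK]
  exact ha.inv _ (S.P0_le_C S.σσ) w hw.1

theorem g1 : (∀ u ∈ Γ, ρ S.σ u ∈ Γ ⊔ S.GB ρ γ) ∧ (∀ u ∈ S.GB ρ γ ⊓ Ev ρ S.t (-1), ρ S.σ u ∈ Γ) ∧
    S.GB ρ γ ≤ Ev ρ S.z 1 ∧
    S.GB ρ γ ≤ S.GB ρ γ ⊓ Ev ρ S.t (-1) ⊔ S.GB ρ γ ⊓ S.VX ρ ⊔ ⨆ y' ∈ S.TY, S.GB ρ γ ⊓ S.W ρ y' := by
  refine ⟨fun u hu => maps_sup (fun w hw => Submodule.mem_sup_right (g1_A h ha ⟨w, hw, rfl⟩))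
    (fun w hw => Submodule.mem_sup_left ?_) u (le_Ev_sup h.rp.two
      (ha.inv _ (S.Q1_le_C S.tQ1)) (fun v _ => h.rp.sq S.tK S.tt v) hu), g1_two hG h ha, g1_z h ha,
    Submodule.span_le.2 ?_⟩
  · obtain ⟨p, hp, e⟩ := S.braid
    have pK := S.P0_le_K hp
    have h1 : ρ p⁻¹ (ρ S.q⁻¹ w) ∈ Γ ⊓ Ev ρ S.t 1 :=
      ⟨ha.inv _ (inv_mem (S.P0_le_C hp)) _ (ha.inv _ (inv_mem S.qC) w hw.1),
        h.rp.ev_comm (inv_mem pK) S.tK (S.mem_P0.1 (inv_mem hp)).2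
          (by simpa using q_t' h.rp (ha.le hw.1) hw.2)⟩
    have h2 := g1_A h ha ⟨_, h1, rfl⟩
    have h3 := g1_two hG h ha _ ⟨inv_GB h.rp γ _ S.qC _ h2,
      by simpa using q_t h.rp (g1_z h ha h2) (σ_zt h.rp (ha.le h1.1))⟩
    rw [← h.rp.app S.σK S.qK, ← h.rp.app (mul_mem S.σK S.qK) S.σK, e,
      h.rp.app (mul_mem (mul_mem S.qK S.σK) S.qK) pK, h.rp.app_inv pK, h.rp.app (mul_mem S.qK S.σK) S.qK,
      h.rp.app_inv S.qK, h.rp.app S.qK S.σK] at h3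
    exact h.rp.inv_app S.qK (ρ S.σ w) ▸ ha.inv _ (inv_mem S.qC) _ h3
  · rintro _ ⟨c, hc, rfl⟩
    have hW := g1_W h ha hc
    rcases S.SY_cases (S.SY_conj hc ha.oy.1) with k | k | k
    · exact Submodule.mem_sup_left (Submodule.mem_sup_left ⟨hW.1, W_le_t_neg k hW.2⟩)
    · exact Submodule.mem_sup_left (Submodule.mem_sup_right ⟨hW.1, le_biSup (S.W ρ) k hW.2⟩)
    · exact Submodule.mem_sup_right (le_biSup (fun y' => S.GB ρ γ ⊓ S.W ρ y') k hW)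

end Su

end CL.RB
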