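/-
The 4371-dimensional representation of the Baby Monster: gluing on the octad part, and irreducibility.
-/
import Cfsg.Agent.Spor.Rb1

set_option autoImplicit false
set_option linter.unusedSectionVars false

namespace CL.RB
open Cfsg Cfsg.Spor Subgroup CL.Even CL.Grp CL.Spor.Leech CL.Spor.Mon CL.Mj Module MulAction

variable {G : Type*} [Group G] {F V V' : Type*} [Field F] [AddCommGroup V] [Module F V] [AddCommGroup V']
  [Module F V']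

namespace Su
variable [Finite G] {S : Su G} {ρ : G → End F V}

theorem W_le_VX {y : G} (hy : y ∈ S.XY) : S.W ρ y ≤ S.VX ρ := le_biSup (S.W ρ) hy

theorem σ_VX (h : S.Gd ρ) : ∀ v ∈ S.VX ρ, ρ S.σ v ∈ S.VX ρ := maps_biSup fun y hy v hv => by
  refine (iSup₂_le (a := S.VX ρ) fun y' hy' => W_le_VX ?_) (h.sel S.Y_le_Q1 S.zY
    ((S.ch_Y hy.1.1).conj fun a ha => S.σY.2 ha) (by rw [S.σz', sg_pos hy.2.1.symm])
    (h.rp.wt_map S.σK S.Y_le_K (fun a ha => ⟨S.Y_le_Q1 (S.σY.2 ha), rfl⟩) hv))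
  have k : ¬ ∀ a ∈ S.Y, a * y' = y' * a := fun e => hy.2.2 (S.cent_Y hy.1.1 fun b hb => (sg_eq_one h.rp.two).1 (by
    have l := (hy'.2 (S.σY'.2 hb)).symm
    simp only [sg_pos (e _ (S.σY'.2 hb))] at l
    simpa [mul_assoc] using l))
  refine ⟨hy'.1.resolve_left fun e => k (by simp [e]), ((sg_eq_one h.rp.two).1 ((hy'.2 S.tY).trans ?_)).symm,
    fun e => k fun a ha => S.Y_comm ha e⟩
  simp only [S.σt', sg_pos (S.xe.comm hy.1.1).symm]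

theorem g2 (hG : S.GF) (h : S.Gd ρ) {M : Submodule F V} (hM : Inv ρ S.C M) :
    ∀ u ∈ M ⊓ S.VX ρ, ρ S.σ u ∈ M ⊓ S.VX ρ := by
  have h1 : Inv ρ S.P0 (M ⊓ S.VX ρ) := (hM.mono S.P0_le_C).inf fun c hc =>
    maps_biSup fun y hy v hv => W_le_VX (S.XY_conj hc hy) (W_map h.rp hc.1 hv)
  obtain ⟨p, hp, hb⟩ := S.braid
  refine h.rp.glue S.σK hb ⟨S.qK, fun v hv => ⟨hM _ S.qC v hv.1,
    maps_biSup (fun y hy v hv => W_le_VX hy (inv_Wt _ S.qQ1 v hv)) v hv.2⟩⟩ ⟨S.P0_le_K hp, h1 p hp⟩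
    ⟨S.P0_le_K S.σσ, h1 _ S.σσ⟩ fun v hv => ?_
  obtain ⟨w, hw, e⟩ := maps_of_scalar (I := S.XY) (w := fun y => sg F y) (S := S.W ρ) (c := fun y => sg F y S.q) h.rp.two
    S.p2R1 (fun y hy => S.ch_R1 hy.1.1) (fun y _ => Wt_mono S.R1_le_Q1) (fun y _ v hv => hv _ S.qQ1)
    (fun y hy y' hy' e => (S.cl_of_sg_R1 h.rp.two hy.1.1 hy'.1.1 e).elim (fun e => Cl.sg S e S.qQ1) fun e =>
      (hy.2.2 (hG.ty y hy.1 hy.2.1 (Cl.SY S (Cl.symm S e) hy'.1))).elim)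
    ((inv_map_σ h.rp h1).mono S.R1_le_P0) (by rintro _ ⟨v, hv, rfl⟩; exact σ_VX h v hv.2) _ ⟨v, hv, rfl⟩
  exact ⟨w, hw, e.symm⟩

theorem exists_OY (h : S.Gd ρ) (hm : S.Sm ρ) : ∃ y, y ∈ S.OY := by
  by_contra! k
  have h1 : Ev ρ S.z 1 ≤ Ev ρ S.t 1 := h.dec.trans (iSup₂_le fun y hy => (Wt_le_Ev S.tQ1).trans_eq (by
    rw [sg_pos (hy.elim (fun e => by simp [e]) fun hy => (by_contra fun e => k y ⟨hy, e⟩ : y * S.t = S.t * y).symm)]))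
  have h2 : ∀ v ∈ Ev ρ S.z (-1), v ∈ Ev ρ S.t 1 → v = 0 := fun v hz ht => h.rp.eq_zero S.σK
    (Submodule.disjoint_def.1 (disjoint_Ev h.rp.two) _ (h1 (σ_tz h.rp ht)) (σ_zt h.rp hz))
  have h3 : Ev ρ S.z (-1) ≤ ⊥ := (le_Ev_sup h.rp.two (fun v hv => h.rp.ev_comm S.tK S.zK S.tz hv)
    fun v _ => h.rp.sq S.tK S.tt v).trans (sup_le (fun v hv => h2 v hv.1 hv.2) fun v hv => h.rp.eq_zero S.qK
      (h2 _ (h.rp.ev_comm S.qK S.zK (S.xe.comm S.qQ) hv.1) (by simpa using q_t h.rp hv.1 hv.2)))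
  exact hm.nz (LinearMap.ext fun v => mem_Ev_one.1 ((le_Ev_sup h.rp.two (T := ⊤) (fun _ _ => trivial)
    fun v _ => h.rp.sq S.zK S.zz v).trans (sup_le inf_le_right (inf_le_right.trans (h3.trans bot_le))) trivial))

theorem irr (hG : S.GF) (h : S.Gd ρ) (hm : S.Sm ρ) (h1 : S.DFix ρ) (h2 : S.DIrr ρ) : S.Irr ρ := fun T hT => by
  refine or_iff_not_imp_left.2 fun h0 => ?_
  have hA : Inv ρ S.Q1 (Ev ρ S.z (-1)) := fun x hx v hv => h.rp.ev_comm (S.Q1_le_K hx) S.zK (S.xe.comm hx.1) hv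
  have k1 : T ⊓ Ev ρ S.z (-1) ≠ ⊥ := fun e => h0 (eq_bot_iff.2 fun v hv => by
    have l1 := le_Ev_sup h.rp.two (hT _ S.zK) fun v _ => h.rp.sq S.zK S.zz v
    rw [e, sup_bot_eq] at l1
    have l2 := S.normal_eq (N := h.rp.Fx T) (fun _ hg => hg.1) (fun g hg n hn => ⟨mul_mem (mul_mem hg hn.1) (inv_mem hg),
      fun v hv => by rw [h.rp.app (mul_mem hg hn.1) (inv_mem hg), h.rp.app hg hn.1, hn.2 _ (hT _ (inv_mem hg) v hv),
        h.rp.app_inv hg]⟩) ⟨S.Q1_le_K S.sQ1, fun v _ => by rw [h.hs]; rfl⟩ ⟨S.zK, fun v hv => mem_Ev_one.1 (l1 hv).2⟩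
    exact h1 v (mem_Wt_one.2 fun x hx => (l2 (S.Q1_le_K hx)).2 v hv) fun c hc => (l2 (S.C_le_K hc)).2 v hv)
  have k2 : Ev ρ S.z (-1) ≤ T := (h.rp.decomp S.Y_le_K (hA.mono S.Y_le_Q1)
    (fun y hy v _ => h.rp.sq (S.Y_le_K hy) (S.Y_sq hy) v)
    fun _ hx _ hy v _ => h.rp.comm (S.Y_le_K hx) (S.Y_le_K hy) (S.Y_comm hx hy) v).trans (iSup₂_le fun l hl a ha => by
      by_cases l0 : a = 0
      · exact l0 ▸ zero_mem _
      have l1 : l S.z = -1 := smul_left_injective F l0 ((ha.2 _ S.zY).symm.trans ha.1)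
      obtain ⟨v, hv, l2, l3⟩ := exists_wtA h.rp h.hs ((hT.mono S.Q1_le_K).inf hA) inf_le_right k1 hl l1
        (wt_s h.hs S.sY ha.2 l0)
      exact (hm.lnA l hl l1).le l3 l2 hv.1 ha.2)
  have k3 : ∀ y' ∈ S.SY, S.W ρ y' ≤ T := fun y' hy' v hv => by
    obtain ⟨y, hy⟩ := exists_OY h hm
    obtain ⟨c, hc, rfl⟩ := hG.trans y' hy' y hy.1
    have l1 := Wt_le_Ev S.tQ1 (W_map h.rp hc hv)
    rw [sg_neg (Ne.symm hy.2)] at l1
    rw [← h.rp.inv_app (S.C_le_K hc) v, ← h.rp.inv_app S.σK (ρ c v)]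
    exact hT _ (inv_mem (S.C_le_K hc)) _ (hT _ (inv_mem S.σK) _ (k2 (σ_tz h.rp l1)))
  have k4 : S.D ρ ≤ T := (h2 (T ⊓ S.D ρ) inf_le_right ((hT.mono S.C_le_K).inf (inv_D h.rp)) (by
    obtain ⟨i, hi⟩ := Finset.card_pos.1 (card_rest ▸ (by norm_num : 0 < 22))
    obtain ⟨y, hy, -⟩ := hG.ity i hi
    obtain ⟨v, hv, l0⟩ := Submodule.exists_mem_ne_zero_of_ne_bot (hm.neB y hy.1)
    obtain ⟨r, hr, e⟩ := S.TY_mv hy
    have l1 := h.plus_D hy hr e hv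
    exact ⟨_, S.TY_σ hy, fun e' => h.rp.ne_zero S.σK (h.plus_ne hy hr e hv l0) (e'.le ⟨⟨hT _ S.σK _
      (add_mem (k3 y hy.1 hv) (hT r (S.R2_le_K hr) v (k3 y hy.1 hv))), l1.1⟩, l1.2⟩)⟩)).trans inf_le_left
  exact eq_top_iff.2 ((le_Ev_sup h.rp.two (T := ⊤) (fun _ _ => trivial) fun v _ => h.rp.sq S.zK S.zz v).trans
    (sup_le (inf_le_right.trans (h.dec.trans (iSup₂_le fun y hy => hy.elim (fun e => e ▸ (S.W_one ρ).trans_le k4) (k3 y))))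
      (inf_le_right.trans k2)))

end Su

end CL.RB
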