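/-
The 4371-dimensional representation of the Baby Monster: gluing on the `T` and `D` parts, assembly.
-/
import Cfsg.Agent.Spor.Rb1

set_option autoImplicit false
set_option linter.unusedSectionVars false

namespace CL.RB
open Cfsg Cfsg.Spor Subgroup CL.Even CL.Grp CL.Spor.Leech CL.Spor.Mon CL.Mj Module MulAction

variable {G : Type*} [Group G] {F V V' : Type*} [Field F] [AddCommGroup V] [Module F V] [AddCommGroup V']
  [Module F V']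

namespace Su
variable [Finite G] {S : Su G} {rho : G → End F V}

theorem g3 (h : S.Gd rho) (hG : S.GF) (h0 : S.E0 rho) (hg : S.DGl rho) {M : Submodule F V} (hM : Inv rho S.C M) :
    ∃ ΓD ≤ S.D rho, Inv rho S.C ΓD ∧ (∀ u ∈ ΓD, rho S.σ u ∈ M ⊔ ΓD) ∧
      ∀ y ∈ S.TY, ∀ u ∈ M ⊓ S.W rho y, rho S.σ u ∈ M ⊔ ΓD := by
  have hr := h.rp
  set VT : Submodule F V := ⨆ y ∈ S.TY, S.W rho y with hVT
  have hle : ∀ y ∈ S.TY, S.W rho y ≤ VT := fun y hy => le_biSup (fun y => S.W rho y) hy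
  have iVT : Inv rho S.P0 VT := fun c hc =>
    maps_biSup fun y hy v hv => hle _ (S.TY_conj hc hy) (W_map hr (S.P0_le_C hc) hv)
  set B0 : Submodule F V := M ⊓ VT ⊓ Wt rho S.R2 (fun _ => 1) with hB0
  have iB0 : Inv rho S.P0 B0 := ((hM.mono S.P0_le_C).inf iVT).inf (inv_R2_one hr)
  have hD : ∀ v ∈ B0, rho S.σ v ∈ S.D rho := fun v hv => h.σ_R2_one hv.2
  have hDD : B0.map (rho S.σ) ≤ S.DD rho := by
    rintro _ ⟨v, hv, rfl⟩
    refine mem_DD hr (fun y hy => hy.2) (hD v hv) (maps_biSup (fun y hy u hu => ?_) v hv.1.2)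
    exact (le_biSup (fun y => Wt rho S.R2 (sg F y)) (S.TY_σ hy)) (σ_R1 hr (Wt_mono S.R1_le_Q1 hu))
  obtain ⟨Γ0, hΓ0, hC⟩ := hg _ hDD (inv_map_σ hr iB0)
  obtain ⟨p, hp, hb⟩ := S.braid
  have hq : ∀ v ∈ S.D rho, rho S.q v = v := fun v hv => mem_Wt_one.1 hv _ S.qQ1
  have hσ := S.σK
  have hqK := S.qK
  have hpK := S.P0_le_K hp
  have hbr : ∀ v, rho S.σ (rho S.q (rho S.σ v)) = rho S.q (rho S.σ (rho S.q (rho p v))) := fun v => by
    rw [← hr.app hσ hqK, ← hr.app (mul_mem hσ hqK) hσ, hb, hr.app (mul_mem (mul_mem hqK hσ) hqK) hpK,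
      hr.app (mul_mem hqK hσ) hqK, hr.app hqK hσ]
  have hσσ : ∀ v ∈ M, rho S.σ (rho S.σ v) ∈ M := fun v hv => by
    rw [← hr.app hσ hσ]; exact hM _ (S.P0_le_C S.σσ) v hv
  refine ⟨B0.map (rho S.σ) ⊔ Γ0, sup_le ?_ (hΓ0.trans inf_le_left), hC, maps_sup ?_ fun v hv => ?_,
    fun y hy δ hδ => ?_⟩
  · rintro _ ⟨v, hv, rfl⟩; exact hD v hv
  · rintro _ ⟨v, hv, rfl⟩; exact Submodule.mem_sup_left (hσσ v hv.1.1)
  · obtain ⟨k, hk, hi⟩ := hG.imgP p hp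
    have h1 := h0 p hp k hk hi v (hΓ0 hv)
    have h2 : rho S.σ v ∈ S.D rho := h.σ_R2_one (hΓ0 hv).2
    have h3 := hbr v
    rw [hq _ h2, h1, map_smul, hq v (hΓ0 hv).1, map_smul, map_smul, hq _ h2, ← map_smul] at h3
    rw [hr.inj hσ h3]
    exact Submodule.mem_sup_right (Submodule.mem_sup_right (Γ0.smul_mem _ hv))
  · obtain ⟨r, hr2, e⟩ := S.TY_mv hy
    have hB : δ + rho r δ ∈ B0 := ⟨⟨add_mem hδ.1 (hM r (S.R2_le_C hr2) δ hδ.1),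
      add_mem (hle y hy hδ.2) (hle _ (S.TY_t hy) (h.r_mem hy hr2 e hδ.2))⟩, h.plus_R2 hy hr2 e hδ.2⟩
    have h1 : rho S.σ (rho S.q (δ + rho r δ)) ∈ M := by
      have hu := iB0 _ (inv_mem hp) _ hB
      have h2 := hbr (rho p⁻¹ (δ + rho r δ))
      rw [hq _ (hD _ hu), hr.app_inv hpK] at h2
      rw [← hr.inv_app hqK (rho S.σ (rho S.q _)), ← h2]
      exact hM _ (inv_mem S.qC) _ (hσσ _ hu.1.1)
    rw [h.plus_q hy hr2 e hδ.2, map_smul] at h1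
    have h2 : rho S.σ (δ - rho r δ) ∈ M := by
      have := M.smul_mem (sg F y S.q) h1
      rwa [smul_smul, (S.ch_Q1 hy.1.1).sq S.qQ1, one_smul] at this
    have e1 : δ = (2 : F)⁻¹ • ((δ - rho r δ) + (δ + rho r δ)) := by
      rw [sub_add_add_cancel, ← two_smul F, smul_smul, inv_mul_cancel₀ hr.two, one_smul]
    rw [e1, map_smul, map_add]
    exact Submodule.smul_mem _ _ (Submodule.add_mem_sup h2 (Submodule.mem_sup_left ⟨_, hB, rfl⟩))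

theorem glue_of {Γ B ΓD : Submodule F V} (hG : S.GF) (h : S.Gd rho) (a1 : Γ ≤ Ev rho S.z (-1))
    (a2 : Inv rho S.C Γ) (b1 : Inv rho S.C B) (b2 : ∀ u ∈ Γ, rho S.σ u ∈ Γ ⊔ B)
    (b3 : ∀ u ∈ B ⊓ Ev rho S.t (-1), rho S.σ u ∈ Γ) (b4 : B ≤ Ev rho S.z 1)
    (b5 : B ≤ B ⊓ Ev rho S.t (-1) ⊔ B ⊓ S.VX rho ⊔ ⨆ y' ∈ S.TY, B ⊓ S.W rho y')
    (x1 : ∀ u ∈ B ⊓ S.VX rho, rho S.σ u ∈ B ⊓ S.VX rho) (d1 : ΓD ≤ S.D rho) (d2 : Inv rho S.C ΓD)
    (d3 : ∀ u ∈ ΓD, rho S.σ u ∈ B ⊔ ΓD) (d4 : ∀ y ∈ S.TY, ∀ u ∈ B ⊓ S.W rho y, rho S.σ u ∈ B ⊔ ΓD) :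
    ∃ T, Inv rho S.K T ∧ T ⊓ Ev rho S.z (-1) = Γ := by
  have hC : Inv rho S.C (Γ ⊔ (B ⊔ ΓD)) := a2.sup (b1.sup d2)
  have hσ : S.σ ∈ h.rp.St (Γ ⊔ (B ⊔ ΓD)) := by
    refine ⟨S.σK, maps_sup (fun u hu => (sup_le_sup_left (le_sup_left : B ≤ B ⊔ ΓD) Γ) (b2 u hu))
      (maps_sup (fun u hu => maps_sup (maps_sup (fun u hu => Submodule.mem_sup_left (b3 u hu)) fun u hu =>
        Submodule.mem_sup_right (Submodule.mem_sup_left (x1 u hu).1))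
        (maps_biSup fun y hy u hu => Submodule.mem_sup_right (d4 y hy u hu)) u (b5 hu))
        fun u hu => Submodule.mem_sup_right (d3 u hu))⟩
  refine ⟨Γ ⊔ (B ⊔ ΓD), (h.rp.inv_iff le_rfl).2 (hG.gen _ ((h.rp.inv_iff S.C_le_K).1 hC) hσ),
    le_antisymm (fun v hv => sel_Ev h.rp.two a1 ?_ (neg_ne_zero.2 one_ne_zero) hv.1 hv.2) (le_inf le_sup_left a1)⟩
  rw [neg_neg]
  exact sup_le b4 (d1.trans ((S.W_one rho).ge.trans (W_le_z (one_mem _))))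

theorem ev_ne (h : Rp S.K rho) (hz : rho S.z ≠ 1) : ∃ a ∈ Ev rho S.z (-1), a ≠ 0 := by
  by_contra! h1
  refine hz (LinearMap.ext fun v => ?_)
  have h2 := le_Ev_sup (T := ⊤) (ρ := rho) (g := S.z) h.two (fun _ _ => trivial) (fun v _ => h.sq S.zK S.zz v)
    (Submodule.mem_top (x := v))
  obtain ⟨a, ha, b, hb, rfl⟩ := Submodule.mem_sup.1 h2
  rw [h1 b hb.2, add_zero]
  exact mem_Ev_one.1 ha.2

theorem iso_of {rho' : G → End F V'} (h : Rp S.K rho) (h' : Rp S.K rho') (hz : rho S.z ≠ 1) (hz' : rho' S.z ≠ 1)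
    (i : S.Irr rho) (i' : S.Irr rho') {Γ T : Submodule F (V × V')} (hT : Inv (pd rho rho') S.K T)
    (e : T ⊓ Ev (pd rho rho') S.z (-1) = Γ) (h0 : Γ ≠ ⊥) (h1 : ∀ u ∈ Γ, u.1 = 0 → u = 0)
    (h2 : ∀ u ∈ Γ, u.2 = 0 → u = 0) :
    ∃ f : V ≃ₗ[F] V', ∀ g ∈ S.K, ∀ v, f (rho g v) = rho' g (f v) := by
  have k1 : ∀ v, (v, (0 : V')) ∈ T → v = 0 := by
    rcases i (T.comap (LinearMap.inl F V V')) (fun g hg v hv => by
      have := hT g hg _ hv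
      simpa [pd_apply] using this) with e1 | e1
    · exact fun v hv => (Submodule.eq_bot_iff _).1 e1 v hv
    · obtain ⟨a, ha, ha0⟩ := ev_ne h hz
      have h3 : (a, (0 : V')) ∈ Γ := e ▸ ⟨e1.ge (Submodule.mem_top (x := a)), mem_Ev_pd.2 ⟨ha, zero_mem _⟩⟩
      exact absurd (congrArg Prod.fst (h2 _ h3 rfl)) ha0
  have k2 : ∀ v, ((0 : V), v) ∈ T → v = 0 := by
    rcases i' (T.comap (LinearMap.inr F V V')) (fun g hg v hv => by
      have := hT g hg _ hv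
      simpa [pd_apply] using this) with e1 | e1
    · exact fun v hv => (Submodule.eq_bot_iff _).1 e1 v hv
    · obtain ⟨a, ha, ha0⟩ := ev_ne h' hz'
      have h3 : ((0 : V), a) ∈ Γ := e ▸ ⟨e1.ge (Submodule.mem_top (x := a)), mem_Ev_pd.2 ⟨zero_mem _, ha⟩⟩
      exact absurd (congrArg Prod.snd (h1 _ h3 rfl)) ha0
  obtain ⟨u0, hu0, hne⟩ := Submodule.exists_mem_ne_zero_of_ne_bot h0
  have hu0T : u0 ∈ T := (e.ge hu0).1
  have s1 : T.map (LinearMap.fst F V V') = ⊤ := (i _ (by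
    rintro g hg _ ⟨u, hu, rfl⟩
    exact ⟨_, hT g hg u hu, rfl⟩)).resolve_left fun e1 =>
      hne (h1 u0 hu0 ((Submodule.eq_bot_iff _).1 e1 _ ⟨u0, hu0T, rfl⟩))
  have s2 : T.map (LinearMap.snd F V V') = ⊤ := (i' _ (by
    rintro g hg _ ⟨u, hu, rfl⟩
    exact ⟨_, hT g hg u hu, rfl⟩)).resolve_left fun e1 =>
      hne (h2 u0 hu0 ((Submodule.eq_bot_iff _).1 e1 _ ⟨u0, hu0T, rfl⟩))
  have b1 : Function.Bijective ((LinearMap.fst F V V').comp T.subtype) := by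
    refine ⟨(injective_iff_map_eq_zero _).2 fun u hu => ?_, fun v => ?_⟩
    · have h3 : u.1.1 = 0 := hu
      refine Subtype.ext (Prod.ext h3 (k2 _ ?_))
      rw [← h3]; exact u.2
    · obtain ⟨u, hu, rfl⟩ := s1.ge (Submodule.mem_top (x := v))
      exact ⟨⟨u, hu⟩, rfl⟩
  have b2 : Function.Bijective ((LinearMap.snd F V V').comp T.subtype) := by
    refine ⟨(injective_iff_map_eq_zero _).2 fun u hu => ?_, fun v => ?_⟩
    · have h3 : u.1.2 = 0 := hu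
      refine Subtype.ext (Prod.ext (k1 _ ?_) h3)
      rw [← h3]; exact u.2
    · obtain ⟨u, hu, rfl⟩ := s2.ge (Submodule.mem_top (x := v))
      exact ⟨⟨u, hu⟩, rfl⟩
  refine ⟨(LinearEquiv.ofBijective _ b1).symm ≪≫ₗ LinearEquiv.ofBijective _ b2, fun g hg v => ?_⟩
  have hf : ∀ u : T, ((LinearEquiv.ofBijective _ b1).symm ≪≫ₗ LinearEquiv.ofBijective _ b2) u.1.1 = u.1.2 :=
    fun u => by
      rw [LinearEquiv.trans_apply, show u.1.1 = LinearEquiv.ofBijective _ b1 u from rfl,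
        LinearEquiv.symm_apply_apply]
      rfl
  obtain ⟨u, rfl⟩ := b1.2 v
  exact (hf ⟨_, hT g hg _ u.2⟩).trans (congrArg (rho' g) (hf u).symm)

end Su

end CL.RB
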