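/-
The 4371-dimensional representation of the Baby Monster: gluing on the `-1`-eigenspace of `z`.
-/
import Cfsg.Agent.Spor.Rb1

set_option autoImplicit false
set_option linter.unusedSectionVars false

namespace CL.RB
open Cfsg Cfsg.Spor Subgroup CL.Even CL.Grp CL.Spor.Leech CL.Spor.Mon CL.Mj Module MulAction
open scoped commutatorElement

variable {G : Type*} [Group G] {F V V' : Type*} [Field F] [AddCommGroup V] [Module F V] [AddCommGroup V']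
  [Module F V']

namespace Su
variable [Finite G] {S : Su G} {x y : G} {l : G → F} {ρ : G → End F V} {ρ' : G → End F V'} {a v : V}
  {T : Submodule F V}

variable (S ρ) in
/-- the span of the images of `a` under `Q1` -/
noncomputable def Gm (a : V) : Submodule F V := ⨆ x ∈ (S.Q1 : Set G), Submodule.span F {ρ x a}

theorem mem_Gm (hx : x ∈ S.Q1) : ρ x a ∈ S.Gm ρ a :=
  le_biSup (fun x => Submodule.span F {ρ x a}) (show x ∈ (S.Q1 : Set G) from hx) (Submodule.mem_span_singleton_self _)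
theorem Gm_le' (h : ∀ x ∈ S.Q1, ρ x a ∈ T) : S.Gm ρ a ≤ T :=
  iSup₂_le fun x hx => (Submodule.span_singleton_le_iff_mem _ _).2 (h x hx)
theorem Gm_le (hT : Inv ρ S.Q1 T) (ha : a ∈ T) : S.Gm ρ a ≤ T := Gm_le' fun x hx => hT x hx a ha

section
variable (h : Rp S.K ρ)
include h

theorem self_mem_Gm : a ∈ S.Gm ρ a := by simpa only [h.one_app] using mem_Gm (ρ := ρ) (a := a) (one_mem S.Q1)
theorem inv_Gm : Inv ρ S.Q1 (S.Gm ρ a) := fun x hx _ hv => Gm_le' (T := (S.Gm ρ a).comap (ρ x)) (fun y hy => by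
  rw [Submodule.mem_comap, ← h.app (S.Q1_le_K hx) (S.Q1_le_K hy)]; exact mem_Gm (mul_mem hx hy)) hv
theorem ga_inv_Ev {e : F} : Inv ρ S.C (Ev ρ S.z e) := fun _ hc _ => h.ev_comm (S.C_le_K hc) S.zK (S.mem_C.1 hc).1
theorem ga_Ev_ne (hz : ρ S.z ≠ 1) : Ev ρ S.z (-1) ≠ ⊥ := fun e => hz (LinearMap.ext fun v => by
  have := le_Ev_sup (T := ⊤) (ρ := ρ) (g := S.z) h.two (fun _ _ => trivial) (fun v _ => h.sq S.zK S.zz v)
    (Submodule.mem_top (x := v))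
  rw [e, inf_bot_eq, sup_bot_eq] at this
  exact mem_Ev_one.1 this.2)
theorem ga_σ (hv : v ∈ Wt ρ S.Y l) : ρ S.σ v ∈ Wt ρ S.Y fun y => l (S.σ⁻¹ * y * S.σ) :=
  h.wt_map S.σK S.Y_le_K (fun _ hy => ⟨S.σY.2 hy, rfl⟩) hv
theorem ga_σ' (hv : v ∈ Wt ρ S.Y fun y => l (S.σ⁻¹ * y * S.σ)) : ρ S.σ⁻¹ v ∈ Wt ρ S.Y l :=
  h.wt_map (inv_mem S.σK) S.Y_le_K (fun y hy => ⟨by rw [inv_inv]; exact S.σY'.2 hy,
    show l (S.σ⁻¹ * (S.σ⁻¹⁻¹ * y * S.σ⁻¹) * S.σ) = l y by congr 1; group⟩) hv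

theorem ga_char (hs : ρ S.s = 1) (hz : ρ S.z ≠ 1) : ∃ l : G → F, Ch S.Y l ∧ l S.z = -1 ∧ l S.s = 1 ∧ l S.t = 1 := by
  obtain ⟨m, hm, v, hv, h0, hw⟩ := h.exists_wt S.Y_le_K ((ga_inv_Ev h).mono (S.Y_le_Q1.trans S.Q1_le_C))
    (fun y hy v _ => h.sq (S.Y_le_K hy) (S.Y_sq hy) v)
    (fun _ hx _ hy v _ => h.comm (S.Y_le_K hx) (S.Y_le_K hy) (S.Y_comm hx hy) v) (ga_Ev_ne h hz)
  have h1 : m S.z = -1 := smul_left_injective F h0 ((hw _ S.zY).symm.trans hv)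
  have h2 := wt_s hs S.sY hw h0
  rcases hm.pm _ S.tY with e | e
  · exact ⟨m, hm, h1, h2, e⟩
  · exact ⟨_, hm.prod (S.ch_Y S.qQ), by rw [h1, sg_pos (S.xe.comm S.qQ).symm, mul_one], by rw [h2, sg_pos S.qs.symm, mul_one],
      by rw [e, sg_neg S.qt_ne.symm, neg_mul_neg, one_mul]⟩

variable (hl : Ch S.Y l) (hz : l S.z = -1) (ha : a ∈ Wt ρ S.Y l)
include hl hz ha

omit hl in
theorem Gm_z : S.Gm ρ a ≤ Ev ρ S.z (-1) := Gm_le ((ga_inv_Ev h).mono S.Q1_le_C) (hz ▸ Wt_le_Ev S.zY ha)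

theorem Gm_wt (hv : v ∈ S.Gm ρ a) (hv' : v ∈ Wt ρ S.Y l) : ∃ c : F, c • a = v := by
  refine Submodule.mem_span_singleton.1 ((iSup₂_le (a := Submodule.span F {a}) fun x hx => ?_)
    (sel (w := fun x y => l y * sg F x y) h.two S.p2Y (fun x hx => hl.prod (S.ch_Y hx.1))
      (fun x hx => (Submodule.span_singleton_le_iff_mem _ _).2 (wtA_map h hl hz hx ha)) hl hv hv'))
  rw [Submodule.span_singleton_le_iff_mem, ha x (S.cent_Y hx.1.1 fun y hy => (sg_eq_one h.two).1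
    (mul_left_cancel₀ (hl.ne_zero hy) ((hx.2 hy).trans (mul_one _).symm)))]
  exact Submodule.smul_mem _ _ (Submodule.mem_span_singleton_self a)

theorem Gm_irr (hs : ρ S.s = 1) (h1 : l S.s = 1) (hT : Inv ρ S.Q1 T) (h2 : a ∉ T) (hv : v ∈ S.Gm ρ a) (hv' : v ∈ T) :
    v = 0 := by
  by_contra h0
  obtain ⟨u, hu, h3, h4⟩ := exists_wtA h hs ((inv_Gm h).inf hT) (inf_le_left.trans (Gm_z h hz ha))
    ((Submodule.ne_bot_iff _).2 ⟨v, ⟨hv, hv'⟩, h0⟩) hl hz h1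
  obtain ⟨c, rfl⟩ := Gm_wt h hl hz ha hu.1 h4
  exact h2 ((T.smul_mem_iff (left_ne_zero_of_smul h3)).1 hu.2)

theorem Gm_span (ht : l S.t = 1) : (S.Gm ρ a ⊓ Ev ρ S.t 1).map (ρ S.σ) ≤
    Submodule.span F {u | ∃ r ∈ S.R2, ρ r (ρ S.σ a) = u} := by
  rintro _ ⟨v, hv, rfl⟩
  refine (sel_Ev (T := Ev ρ S.t 1 ⊓ (Submodule.span F {u | ∃ r ∈ S.R2, ρ r (ρ S.σ a) = u}).comap (ρ S.σ)) h.two
    inf_le_left le_rfl one_ne_zero (Gm_le' (fun x hx => ?_) hv.1) hv.2).2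
  have h1 := Wt_le_Ev S.tY (wtA_map h hl hz hx ha)
  rw [ht, one_mul] at h1
  by_cases e : S.t * x = x * S.t
  · rw [sg_pos e] at h1
    refine Submodule.mem_sup_left ⟨h1, Submodule.subset_span ⟨_, conj_mem_cj _ (S.mem_R1.2 ⟨hx, e.symm⟩), ?_⟩⟩
    rw [h.conj S.σK (mul_mem (mul_mem S.σK (S.Q1_le_K hx)) (inv_mem S.σK))]
    congr 3; group
  · rw [sg_neg e] at h1
    exact Submodule.mem_sup_right h1

end

theorem Gd.ga_oy (h : S.Gd ρ) (hl : Ch S.Y l) (hz : l S.z = -1) (ht : l S.t = 1) (ha : a ∈ Wt ρ S.Y l) (h0 : a ≠ 0) :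
    ∃ y ∈ S.OY, Set.EqOn (sg F y) (fun y => l (S.σ⁻¹ * y * S.σ)) S.Y := by
  by_contra hn
  refine h.rp.ne_zero S.σK h0 ((iSup₂_le (a := (⊥ : Submodule F V)) fun y hy => (hn ?_).elim :) (h.sel S.Y_le_Q1 S.zY
    (hl.conj fun _ => S.σY.2) (by rw [S.σz', ht]) (ga_σ h.rp ha)))
  have h1 : y * S.t ≠ S.t * y := fun e => one_ne_neg h.rp.two
    ((sg_pos e.symm).symm.trans ((hy.2 S.tY).trans (by rw [← hz, ← S.σt'])))
  exact ⟨y, ⟨hy.1.resolve_left fun e => h1 (by simp [e]), h1⟩, hy.2⟩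

theorem Sm.ga_W (hm : S.Sm ρ) (h : Rp S.K ρ) (hl : Ch S.Y l) (hz : l S.z = -1) (hy : y ∈ S.SY)
    (e : Set.EqOn (sg F y) (fun y => l (S.σ⁻¹ * y * S.σ)) S.Y) : S.W ρ y = Wt ρ S.Y fun y => l (S.σ⁻¹ * y * S.σ) :=
  (h.ln (inv_mem S.σK) (fun _ => ga_σ' h) (hm.lnA l hl hz)).eq_of_le ((Wt_mono S.Y_le_Q1).trans (Wt_congr e).le)
    (hm.neB y hy)

theorem ga (hG : S.GF) (h : S.Gd ρ) (hm : S.Sm ρ) (h' : S.Gd ρ') (hm' : S.Sm ρ') :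
    ∃ Γ y γ, S.GA (pd ρ ρ') Γ y γ ∧ Γ ≠ ⊥ ∧ (∀ u ∈ Γ, u.1 = 0 → u = 0) ∧ ∀ u ∈ Γ, u.2 = 0 → u = 0 := by
  have hR := h.prod h'
  obtain ⟨l, hl, hz, hs, ht⟩ := ga_char h.rp h.hs hm.nz
  obtain ⟨a, -, a0, ha⟩ := exists_wtA h.rp h.hs ((ga_inv_Ev h.rp).mono S.Q1_le_C) le_rfl (ga_Ev_ne h.rp hm.nz) hl hz hs
  obtain ⟨a', -, a0', ha'⟩ := exists_wtA h'.rp h'.hs ((ga_inv_Ev h'.rp).mono S.Q1_le_C) le_rfl (ga_Ev_ne h'.rp hm'.nz)
    hl hz hs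
  have hw : (a, a') ∈ Wt (pd ρ ρ') S.Y l := mem_Wt_pd.2 ⟨ha, ha'⟩
  have w0 : (a, a') ≠ 0 := fun e => a0 (congrArg Prod.fst e)
  have hΓ : (a, a') ∈ S.Gm (pd ρ ρ') (a, a') := self_mem_Gm hR.rp
  have L1 : ∀ u ∈ S.Gm (pd ρ ρ') (a, a'), u.1 = 0 → u = 0 := fun u hu e =>
    Gm_irr (T := LinearMap.ker (LinearMap.fst F V V')) hR.rp hl hz hw hR.hs hs
      (fun x _ v hv => (congrArg (ρ x) hv).trans (map_zero _)) a0 hu e
  have L2 : ∀ u ∈ S.Gm (pd ρ ρ') (a, a'), u.2 = 0 → u = 0 := fun u hu e =>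
    Gm_irr (T := LinearMap.ker (LinearMap.snd F V V')) hR.rp hl hz hw hR.hs hs
      (fun x _ v hv => (congrArg (ρ' x) hv).trans (map_zero _)) a0' hu e
  have hinv : Inv (pd ρ ρ') S.C (S.Gm (pd ρ ρ') (a, a')) := by
    let T : F → End F (V × V') := fun m => LinearMap.prodMap LinearMap.id (m • LinearMap.id)
    have hT : ∀ m g u, T m (pd ρ ρ' g u) = pd ρ ρ' g (T m u) := fun m g u => Prod.ext rfl (map_smul (ρ' g) m u.2).symm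
    let P : G → F → Prop := fun c m => ∀ u ∈ S.Gm (pd ρ ρ') (a, a'), pd ρ ρ' c (T m u) ∈ S.Gm (pd ρ ρ') (a, a')
    have P1 : ∀ c ∈ S.C, ∃ m, P c m := fun c hc => by
      have hK := S.C_le_K hc
      have i1 : Inv (pd ρ ρ') S.Q1 ((S.Gm (pd ρ ρ') (a, a')).comap (pd ρ ρ' c)) := fun x hx v hv => by
        have := inv_Gm hR.rp _ ((S.conj_Q1' hc).2 hx) _ hv
        rwa [hR.rp.conj hK (S.Q1_le_K ((S.conj_Q1' hc).2 hx)), show c⁻¹ * (c * x * c⁻¹) * c = x by group] at this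
      obtain ⟨u, hu, u0, h1⟩ := exists_wtA hR.rp hR.hs i1 (fun v hv =>
        hR.rp.inv_app hK v ▸ ga_inv_Ev hR.rp _ (inv_mem hc) _ (Gm_z hR.rp hz hw hv))
        ((Submodule.ne_bot_iff _).2 ⟨_, by rwa [Submodule.mem_comap, hR.rp.app_inv hK], hR.rp.ne_zero (inv_mem hK) w0⟩)
        hl hz hs
      obtain ⟨β, e⟩ := hm.lnA l hl hz a ha a0 _ (mem_Wt_pd.1 h1).1
      obtain ⟨β', e'⟩ := hm'.lnA l hl hz a' ha' a0' _ (mem_Wt_pd.1 h1).2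
      have h2 : β ≠ 0 := fun e0 => u0 (hR.rp.eq_zero hK (L1 _ hu (by
        rw [pd_apply, e, e0, zero_smul, map_zero])))
      refine ⟨β⁻¹ * β', fun v hv => Gm_le (T := ((S.Gm (pd ρ ρ') (a, a')).comap (pd ρ ρ' c)).comap (T (β⁻¹ * β')))
        (fun x hx v hv => ?_) ?_ hv⟩
      · rw [Submodule.mem_comap, hT]
        exact i1 x hx _ hv
      · rw [Submodule.mem_comap, show T (β⁻¹ * β') (a, a') = β⁻¹ • u from Prod.ext
          (by rw [Prod.smul_fst, e, inv_smul_smul₀ h2]; rfl) (by rw [Prod.smul_snd, e', smul_smul]; rfl)]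
        exact Submodule.smul_mem _ _ hu
    have P2 : ∀ {c c' m m'}, c ∈ S.C → c' ∈ S.C → P c m → P c' m' → P (c * c') (m * m') := fun hc hc' p p' u hu => by
      have := p _ (p' u hu)
      rw [hT, ← hR.rp.app (S.C_le_K hc) (S.C_le_K hc')] at this
      convert this using 2
      exact Prod.ext rfl (mul_smul _ _ _)
    have P3 : ∀ {c m n}, c ∈ S.C → P c m → P c⁻¹ n → m * n = 1 := fun {c m n} hc p p' => by
      have h1 := P2 hc (inv_mem hc) p p' _ hΓ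
      rw [mul_inv_cancel, hR.rp.one_app] at h1
      have h2 := congrArg Prod.snd (L1 _ (sub_mem h1 hΓ) (sub_self a))
      exact smul_left_injective F a0' ((sub_eq_zero.1 h2).trans (one_smul F a').symm)
    refine (hR.rp.inv_iff S.C_le_K).2 (hG.perfC.trans (sup_le ((hR.rp.inv_iff S.Q1_le_K).1 (inv_Gm hR.rp))
      (commutator_le.2 fun c hc d hd => ⟨S.C_le_K (mul_mem (mul_mem (mul_mem hc hd) (inv_mem hc)) (inv_mem hd)),
        fun u hu => ?_⟩)))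
    obtain ⟨m, p1⟩ := P1 c hc
    obtain ⟨m', p2⟩ := P1 d hd
    obtain ⟨n, p3⟩ := P1 _ (inv_mem hc)
    obtain ⟨n', p4⟩ := P1 _ (inv_mem hd)
    have := P2 (mul_mem (mul_mem hc hd) (inv_mem hc)) (inv_mem hd) (P2 (mul_mem hc hd) (inv_mem hc) (P2 hc hd p1 p2) p3)
      p4 u hu
    rwa [show m * m' * n * n' = 1 by linear_combination (m' * n') * P3 hc p1 p3 + P3 hd p2 p4,
      show T 1 u = u from Prod.ext rfl (one_smul _ _)] at this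
  obtain ⟨y, hy, e⟩ := h.ga_oy hl hz ht ha a0
  refine ⟨_, y, pd ρ ρ' S.σ (a, a'), ⟨Gm_z hR.rp hz hw, hinv, hy, ⟨⟨_, ⟨hΓ, ht ▸ Wt_le_Ev S.tY hw⟩, rfl⟩,
    mem_Wt_pd.2 ⟨(hm.ga_W h.rp hl hz hy.1 e).ge (ga_σ h.rp ha), (hm'.ga_W h'.rp hl hz hy.1 e).ge (ga_σ h'.rp ha')⟩⟩,
    ?_, Gm_span hR.rp hl hz hw ht⟩, (Submodule.ne_bot_iff _).2 ⟨_, hΓ, w0⟩, L1, L2⟩
  have key : ∀ u ∈ (S.Gm (pd ρ ρ') (a, a') ⊓ Ev (pd ρ ρ') S.t 1).map (pd ρ ρ' S.σ) ⊓ S.W (pd ρ ρ') y,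
      ∃ c : F, c • pd ρ ρ' S.σ (a, a') = u := by
    rintro _ ⟨⟨u, hu, rfl⟩, h1⟩
    have h2 := ga_σ' hR.rp ((Wt_congr e).le (Wt_mono S.Y_le_Q1 h1))
    rw [hR.rp.inv_app S.σK] at h2
    obtain ⟨c, rfl⟩ := Gm_wt hR.rp hl hz hw hu.1 h2
    exact ⟨c, (map_smul _ _ _).symm⟩
  intro u hu u0 v hv
  obtain ⟨c, rfl⟩ := key u hu
  obtain ⟨d, rfl⟩ := key v hv
  exact ⟨d * c⁻¹, by rw [smul_smul, inv_mul_cancel_right₀ (left_ne_zero_of_smul u0)]⟩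

end Su

end CL.RB
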