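/-
The 4371-dimensional representation of the Baby Monster: group-theoretic facts, part a.
-/
import Cfsg.Agent.Spor.Rb1

set_option autoImplicit false
set_option linter.unusedSectionVars false

namespace CL.RB
open Cfsg Cfsg.Spor Subgroup CL.Even CL.Grp CL.Spor.Leech CL.Spor.Mon CL.Mj Module MulAction

variable {G : Type*} [Group G]

namespace Su
variable [Finite G] (S : Su G)

namespace GFa

theorem two {x y : G} (h1 : x = y ∨ x = S.z * y) (h2 : x = y ∨ x = S.t * y) : x = y :=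
  h1.elim id fun e => h2.resolve_right fun e' => S.sw.ne S.mt (mul_right_cancel (e'.symm.trans e))

theorem nbr_sum {w : leechLattice} (hw : w ∈ nbr leechU 16) :
    (w : GolayPt → ℤ) none + (w : GolayPt → ℤ) p0 = 4 := by
  have := hw.2
  rw [dot_comm, dot_U] at this
  omega

theorem U_none : (leechU : GolayPt → ℤ) none = 4 := by decide +kernel
theorem U_p0 : (leechU : GolayPt → ℤ) p0 = 4 := by decide +kernel

theorem lemW {w : leechLattice} {y : G} {i : GolayPt} (hw : w ∈ nbr leechU 16) (hy : S.R w y) (yY : y ∈ S.Y)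
    (h0 : (w : GolayPt → ℤ) i ≠ 0) (h1 : ∀ j ∈ rest, j ≠ i → (w : GolayPt → ℤ) j = 0) :
    ∀ r ∈ S.R2, ∀ k ∈ EE, S.Im r k → (r * y = y * r ↔ k • e8 i = e8 i) := by
  rintro r hr _ ⟨⟨c, hc, rfl⟩, hU⟩ hk
  have hU : ∀ j, (if j ∈ c then -(leechU : GolayPt → ℤ) j else (leechU : GolayPt → ℤ) j) = (leechU : GolayPt → ℤ) j :=
    fun j => congrFun (congrArg Subtype.val (mem_stabilizer_iff.1 hU)) j
  have c1 : none ∉ c := fun h => by have := hU none; rw [if_pos h, U_none] at this; omega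
  have c2 : p0 ∉ c := fun h => by have := hU p0; rw [if_pos h, U_p0] at this; omega
  have hR := Im.R S hk hy
  by_cases hi : i ∈ c
  · refine iff_of_false (fun e => ?_) fun e => ?_
    · rw [e, mul_inv_cancel_right] at hR
      rcases ((S.mt.dbl_iff' hR hy).2 (.inl rfl)).pm_of_lt (by rw [sqNorm_smul, hw.1]; omega) (by rw [hw.1]; omega)
        with e | e
      · have := congrFun (congrArg Subtype.val e) i
        rw [eps_apply, if_pos hi] at this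
        omega
      · have h2 := congrFun (congrArg Subtype.val e) none
        have h3 := congrFun (congrArg Subtype.val e) p0
        rw [eps_apply, if_neg c1, AddSubgroup.coe_neg, Pi.neg_apply] at h2
        rw [eps_apply, if_neg c2, AddSubgroup.coe_neg, Pi.neg_apply] at h3
        have := nbr_sum hw
        omega
    · have := congrFun (congrArg Subtype.val e) i
      rw [eps_apply, if_pos hi, coe_e8, Pi.single_eq_same] at this
      omega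
  · refine iff_of_true (mul_inv_eq_iff_eq_mul.1 (two S ((S.mt.dbl_iff' hR hy).1 ?_) (S.R2_cases hr yY)))
      (Subtype.ext (funext fun j => ?_))
    · rw [show eps c hc • w = w from Subtype.ext (funext fun j => by
        rw [eps_apply]
        split_ifs with h
        · rw [h1 j (mem_rest.2 ⟨fun e => c1 (e ▸ h), fun e => c2 (e ▸ h)⟩) fun e => hi (e ▸ h), neg_zero]
        · rfl)]
      exact Dbl.refl w
    · rw [eps_apply]
      split_ifs with h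
      · rw [coe_e8, Pi.single_eq_of_ne fun e : j = i => hi (e ▸ h), neg_zero]
      · rfl

theorem cross {v : leechLattice} (h : Dbl (v - e8 none)) (hn : sqNorm (v : GolayPt → ℤ) = 64) (j : GolayPt) :
    (8 : ℤ) ∣ (v : GolayPt → ℤ) j := by
  obtain ⟨u, hu, e⟩ := h.coe
  obtain ⟨i, e | e⟩ := mem_stdCross_iff.1 (mem_stdCross_of_congr none v.2 hu hn e) <;> rw [e, Pi.single_apply] <;>
    split_ifs <;> norm_num

end GFa

open GFa

theorem gf_img2 : ∀ r ∈ S.R2, ∃ k ∈ EE, S.Im r k := fun r hr => by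
  obtain ⟨k, hk, hc, e⟩ := S.im_C (S.R2_le_C hr)
  obtain ⟨-, k0, h1, h2, -⟩ := S.mt.pair (g := S.σ) (S.σz ▸ S.tQ) (S.σz ▸ S.sw.ne S.mt)
  have h3 : k0 ∈ Nsub := clsStab_e8 none ▸ mem_clsStab.2 ((S.mt.dbl_iff' h1 S.ht).2 (.inl S.σz))
  obtain ⟨n, hn, rfl⟩ : k ∈ Eps.map (MulAut.conj k0).toMonoidHom := h2 ▸ ⟨⟨r, hc⟩, ⟨S.R2_le_Q' hr, hc⟩, e⟩
  exact ⟨_, ⟨conj_mem_Eps h3 hn, hk⟩, hc, e⟩

theorem gf_lift2 : ∀ k ∈ EE, ∃ r ∈ S.R2, S.Im r k := by
  rintro _ ⟨⟨c, hc, rfl⟩, hU⟩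
  obtain ⟨r, hr, e⟩ := p2_lift S.mt (S.σz ▸ S.ht) c hc
  have hI : S.Im r (eps c hc) := ⟨r.2, e⟩
  have h1 := Im.R S hI S.gd.hs
  rw [mem_stabilizer_iff.1 hU] at h1
  have h2 := mul_inv_eq_iff_eq_mul.1 (two S ((S.mt.dbl_iff' h1 S.gd.hs).1 (Dbl.refl _)) (conj_cases S.xe' hr S.sY.2))
  refine ⟨r, S.mem_R2.2 (S.mem_R1.2 ⟨S.mem_Q1.2 ⟨mem_cj.1 hr, ?_⟩, ?_⟩), hI⟩
  · rw [← S.σs']; exact (comm_conj S.σ).2 h2
  · rw [← S.σz']; exact (comm_conj S.σ).2 (mem_cent_singleton.1 r.2)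

theorem gf_imgP : ∀ c ∈ S.P0, ∃ k ∈ N2, S.Im c k := fun c hc => by
  obtain ⟨k, hk, e⟩ := S.im_C hc.1
  exact ⟨k, ⟨clsStab_e8 none ▸ mem_clsStab.2 ((S.mt.dbl_iff' (Im.R S e S.ht) S.ht).2
    (.inl (mul_inv_eq_iff_eq_mul.2 (S.mem_P0.1 hc).2))), hk⟩, e⟩

theorem gf_liftP : ∀ k ∈ N2, ∃ c ∈ S.P0, S.Im c k := fun k hk => by
  obtain ⟨c, hc, e⟩ := S.lift_C hk.2
  rcases (S.mt.dbl_iff' (Im.R S e S.ht) S.ht).1 (mem_clsStab.1 ((clsStab_e8 none).symm ▸ hk.1)) with h | h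
  · exact ⟨c, S.mem_P0.2 ⟨hc, mul_inv_eq_iff_eq_mul.1 h⟩, e⟩
  · refine ⟨S.q⁻¹ * c, S.mem_P0.2 ⟨mul_mem (inv_mem S.qC) hc, mul_inv_eq_iff_eq_mul.1 ?_⟩,
      one_mul k ▸ Im.mul S (S.im_one.2 (inv_mem S.qQ)) e⟩
    calc _ = S.q⁻¹ * (c * S.t * c⁻¹) * S.q := by group
      _ = _ := by rw [h, ← S.qt]; group

theorem gf_tyi : ∀ y ∈ S.TY, ∃ i ∈ rest, ∀ r ∈ S.R2, ∀ k ∈ EE, S.Im r k → (r * y = y * r ↔ k • e8 i = e8 i) := by
  intro y hy
  obtain ⟨w, hw, hR⟩ := S.SY_iff.1 hy.1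
  obtain ⟨v, hv, hn, h4⟩ := S.sw.of_SS S.mt (CL.INC.mem_SS.2 ⟨hy.2, S.gd.t_ne_one hy.1.2.1, S.gd.not_conj' hy.1.2.1⟩)
  have h5 : ∀ j, (4 : ℤ) ∣ (w : GolayPt → ℤ) j := fun j => by
    rcases ((S.mt.dbl_iff' hR hv).2 (.inl rfl)).pm_of_lt (by rw [hw.1]; omega) (by omega) with rfl | rfl
    · exact h4 j
    · exact (h4 j).neg_right
  have h6 : ∀ j, (w : GolayPt → ℤ) j ^ 2 ≤ 32 := fun j => hw.1 ▸ sq_le_sqNorm _ j
  have h7 := nbr_sum hw
  obtain ⟨a, ha⟩ := h5 none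
  obtain ⟨b, hb⟩ := h5 p0
  have h8 := h6 none
  have h9 := h6 p0
  rw [ha] at h8
  rw [hb] at h9
  have : (a = 1 ∧ b = 0) ∨ (a = 0 ∧ b = 1) := by
    have : a ≤ 1 := by nlinarith
    have : b ≤ 1 := by nlinarith
    omega
  rcases this with ⟨rfl, rfl⟩ | ⟨rfl, rfl⟩
  · obtain ⟨i, h1, h2, h3⟩ := shape32_four w.2 hw.1 (i := none) (by rw [ha]; rfl)
    exact ⟨i, mem_rest.2 ⟨h1, fun e => by rw [e, hb] at h2; norm_num at h2⟩, lemW S hw hR hy.2
      (fun e => by rw [e] at h2; norm_num at h2) fun j hj ne => h3 j (mem_rest.1 hj).1 ne⟩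
  · obtain ⟨i, h1, h2, h3⟩ := shape32_four w.2 hw.1 (i := p0) (by rw [hb]; rfl)
    exact ⟨i, mem_rest.2 ⟨fun e => by rw [e, ha] at h2; norm_num at h2, h1⟩, lemW S hw hR hy.2
      (fun e => by rw [e] at h2; norm_num at h2) fun j hj ne => h3 j (mem_rest.1 hj).2 ne⟩

theorem gf_ity : ∀ i ∈ rest, ∃ y ∈ S.TY, ∀ r ∈ S.R2, ∀ k ∈ EE, S.Im r k → (r * y = y * r ↔ k • e8 i = e8 i) := by
  intro i hi
  obtain ⟨h1, h2⟩ := mem_rest.1 hi
  have ap : ∀ j, (p2f i none : GolayPt → ℤ) j = (if j = i then 4 else 0) + if j = none then 4 else 0 := fun j => by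
    simp [p2f, Pi.single_apply]
  have hw : p2f i none ∈ nbr leechU 16 := ⟨by
    change sqNorm (Pi.single i 4 + Pi.single none 4 : GolayPt → ℤ) = 32
    rw [sqNorm_add, sqNorm_single, sqNorm_single, dot_single, Pi.single_eq_of_ne h1.symm]; norm_num, by
    rw [dot_comm, dot_U, ap, ap, if_neg h1.symm, if_neg h2.symm, if_pos rfl, if_neg p0_ne]; norm_num⟩
  obtain ⟨y, hy⟩ := S.mt.exR (p2f i none)
  have yY : y ∈ S.Y := S.sw.mem_P S.mt hy fun j => by rw [ap]; split_ifs <;> norm_num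
  exact ⟨y, ⟨S.SY_iff.2 ⟨_, hw, hy⟩, yY⟩, lemW S hw hy yY (by rw [ap, if_pos rfl, if_neg h1]; norm_num)
    fun j hj ne => by rw [ap, if_neg ne, if_neg (mem_rest.1 hj).1]; rfl⟩

theorem gf_ty : ∀ y ∈ S.SY, y * S.t = S.t * y → S.t * y ∈ S.SY → y ∈ S.Y := by
  intro y hy _ hy'
  obtain ⟨w, hw, hR⟩ := S.SY_iff.1 hy
  obtain ⟨w', hw', hR'⟩ := S.SY_iff.1 hy'
  have h1 := (S.mt.dbl_iff' hR' (S.mt.mul S.ht hR)).2 (.inl rfl)
  have h2 : Dbl (w + w' - e8 none) := (h1.add ⟨w, rfl⟩).of_eq (by abel)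
  have h3 : Dbl (w - w' - e8 none) := (h2.add (Dbl.neg_sub w')).of_eq (by abel)
  have n2 : sqNorm ((w + w' : leechLattice) : GolayPt → ℤ) = 64 + 2 * dotInt (w : GolayPt → ℤ) w' := by
    rw [AddSubgroup.coe_add, sqNorm_add, hw.1, hw'.1]; ring
  have n3 : sqNorm ((w - w' : leechLattice) : GolayPt → ℤ) = 64 - 2 * dotInt (w : GolayPt → ℤ) w' := by
    rw [AddSubgroup.coe_sub, sqNorm_sub, hw.1, hw'.1]; ring
  have h0 : dotInt (w : GolayPt → ℤ) w' = 0 := by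
    rcases le_total (dotInt (w : GolayPt → ℤ) w') 0 with h | h
    · have := h2.sqNorm_eq (by omega) (sqNorm_e8 _).le
      rw [sqNorm_e8] at this
      omega
    · have := h3.sqNorm_eq (by omega) (sqNorm_e8 _).le
      rw [sqNorm_e8] at this
      omega
  refine S.sw.mem_P S.mt hR fun j => ?_
  have h4 := cross h2 (by omega) j
  have h5 := cross h3 (by omega) j
  rw [AddSubgroup.coe_add, Pi.add_apply] at h4
  rw [AddSubgroup.coe_sub, Pi.sub_apply] at h5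
  omega

end Su
end CL.RB
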