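/-
The 4371-dimensional representation of the Baby Monster, part GFb: perfectness, transitivity, odd vectors.
-/
import Cfsg.Agent.Spor.Rb1
import Cfsg.Agent.Spor.ConwUni
import Cfsg.Agent.Spor.Co2U62
import Cfsg.Agent.Cls.UniSimple

set_option autoImplicit false
set_option linter.unusedSectionVars false

namespace CL.RB
open Cfsg Cfsg.Spor Subgroup CL.Even CL.Grp CL.Spor.Leech CL.Spor.Mon CL.Mj Module MulAction
open scoped commutatorElement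

variable {G : Type*} [Group G]

theorem gfb_simple {H : Subgroup G} [Finite H] (hs : IsSimpleGroup H) (hp : ¬ (Nat.card H).Prime) : H ≤ ⁅H, H⁆ := by
  rcases hs.eq_bot_or_eq_top_of_normal (commutator H) inferInstance with e | e
  · let _ : CommGroup H := { (inferInstance : Group H) with
      mul_comm := fun a b => commutatorElement_eq_one_iff_mul_comm.1
        (mem_bot.1 (e ▸ commutator_mem_commutator (mem_top a) (mem_top b))) }
    exact absurd IsSimpleGroup.prime_card hp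
  · have := congrArg (Subgroup.map H.subtype) e
    rw [commutator_def, map_commutator, ← MonoidHom.range_eq_map, range_subtype] at this
    exact this.ge

/-- an odd vector with inner product `16` with `U` -/
def OW (w : leechLattice) : Prop := w ∈ nbr leechU 16 ∧ (w : GolayPt → ℤ) none % 2 = 1

namespace OW
variable {w w' : leechLattice} (h : OW w)
include h

theorem odd (j : GolayPt) : (w : GolayPt → ℤ) j % 2 = 1 := odd_of_one w.2 h.2 j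

theorem sum : (w : GolayPt → ℤ) none + (w : GolayPt → ℤ) p0 = 4 := by
  have := h.1.2
  rw [dot_comm, dot_U] at this
  omega

theorem ne_five (j : GolayPt) : |(w : GolayPt → ℤ) j| ≠ 5 := fun e => by
  have h1 := h.1.1
  obtain ⟨h2, h3⟩ := CL.Spor.Leech.odd_shape (x := w) (by omega) h.odd
  have h4 := Finset.card_pos.2 ⟨j, mem_lev.2 e⟩
  omega

theorem cases : (w : GolayPt → ℤ) none = 3 ∨ (w : GolayPt → ℤ) none = 1 := by
  have h1 := h.sum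
  have h2 := h.2
  have h3 : ∀ j, |(w : GolayPt → ℤ) j| < 5 := fun j => by
    have h4 := (sq_le_sqNorm (w : GolayPt → ℤ) j).trans_eq h.1.1
    have h5 : |(w : GolayPt → ℤ) j| < 6 := abs_lt_of_sq_lt_sq (by omega) (by norm_num)
    have h6 := h.ne_five j
    omega
  have h4 := abs_lt.1 (h3 none)
  have h5 := abs_lt.1 (h3 p0)
  omega

theorem abs_rest {j : GolayPt} (h1 : j ≠ none) (h2 : j ≠ p0) : |(w : GolayPt → ℤ) j| = 1 := by
  have h3 := h.sum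
  rcases h.cases with e | e
  · exact abs_eq_one_of_odd h.odd (i := none) (by rw [h.1.1, e]; rfl) h1
  · exact abs_eq_one_of_odd h.odd (i := p0) (by rw [h.1.1, show (w : GolayPt → ℤ) p0 = 3 by omega]; rfl) h2

theorem exists_eps (h' : OW w') (e : (w : GolayPt → ℤ) none = (w' : GolayPt → ℤ) none) : ∃ k ∈ EE, k • w = w' := by
  have e0 : (w : GolayPt → ℤ) p0 = (w' : GolayPt → ℤ) p0 := by have := h.sum; have := h'.sum; omega
  have ab : ∀ i, |(w : GolayPt → ℤ) i| = |(w' : GolayPt → ℤ) i| := fun i => by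
    by_cases h1 : i = none
    · rw [h1, e]
    by_cases h2 : i = p0
    · rw [h2, e0]
    rw [h.abs_rest h1 h2, h'.abs_rest h1 h2]
  exact ⟨_, ⟨eps_mem_Eps _ _, (eps_fix _ (fun a => mem_dif.1 a e) fun a => mem_dif.1 a e0).1⟩, eps_dif_smul ab h.odd⟩

omit h in
theorem sub_none (w : leechLattice) :
    ((leechU - w : leechLattice) : GolayPt → ℤ) none = 4 - (w : GolayPt → ℤ) none := by
  rw [AddSubgroup.coe_sub, Pi.sub_apply, coe_U]; rfl

theorem sub : OW (leechU - w) := ⟨CL.Co2R.sub_mem_nbr h.1, by have := h.2; rw [sub_none]; omega⟩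

theorem exists_outer : ∃ k ∈ N2, k • w = leechU - w := by
  obtain ⟨τ, hτ⟩ := CL.Spor.M24_exists_eq_on {none, p0} (Finset.card_le_two.trans (by norm_num)) (Equiv.swap none p0)
  have t1 : τ • (none : GolayPt) = p0 := (hτ _ (by simp)).trans (Equiv.swap_apply_left _ _)
  have t2 : τ • p0 = none := (hτ _ (by simp)).trans (Equiv.swap_apply_right _ _)
  have hU : pm τ • leechU = leechU := Subtype.ext (funext fun i => by
    have key : (τ⁻¹ • i = none ↔ i = p0) ∧ (τ⁻¹ • i = p0 ↔ i = none) := by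
      rw [inv_smul_eq_iff, inv_smul_eq_iff, t1, t2]; simp
    rw [pm_apply]
    simp only [coe_U, Pi.add_apply, Pi.single_apply, key, add_comm])
  have h1 : ((pm τ • w : leechLattice) : GolayPt → ℤ) none = (w : GolayPt → ℤ) p0 := by rw [← t2, pm_apply_smul]
  have h2 : OW (pm τ • w) := ⟨hU ▸ (smul_mem_nbr _).2 h.1, h1 ▸ h.odd p0⟩
  obtain ⟨k, hk, e⟩ := h2.exists_eps h.sub (by have := h.sum; rw [h1, sub_none]; omega)
  exact ⟨k * pm τ, ⟨mul_mem (Eps_le hk.1) (pm_mem τ), mul_mem hk.2 hU⟩, by rw [mul_smul, e]⟩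

end OW

namespace Su
variable [Finite G] (S : Su G) {y y' : G} {w w' : leechLattice}

theorem gfb_perf {L : Subgroup G} {H : Subgroup Co0} (h1 : ∀ c ∈ L, ∃ k ∈ H, S.Im c k)
    (h2 : ∀ k ∈ H, ∃ c ∈ L, S.Im c k) (h3 : H ≤ ⁅H, H⁆) : L ≤ S.Q ⊓ L ⊔ ⁅L, L⁆ := fun c hc => by
  let M : Subgroup Co0 :=
    { carrier := {k | ∃ c ∈ ⁅L, L⁆, S.Im c k}
      one_mem' := ⟨1, one_mem _, S.im_one.2 (one_mem _)⟩
      mul_mem' := fun ⟨_, ha, e⟩ ⟨_, hb, e'⟩ => ⟨_, mul_mem ha hb, Im.mul S e e'⟩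
      inv_mem' := fun ⟨_, ha, e⟩ => ⟨_, inv_mem ha, Im.inv S e⟩ }
  have hM : ⁅H, H⁆ ≤ M := commutator_le.2 fun a ha b hb => by
    obtain ⟨u, hu, e⟩ := h2 a ha
    obtain ⟨v, hv, e'⟩ := h2 b hb
    exact ⟨⁅u, v⁆, commutator_mem_commutator hu hv,
      Im.mul S (Im.mul S (Im.mul S e e') (Im.inv S e)) (Im.inv S e')⟩
  have hL : ⁅L, L⁆ ≤ L := commutator_le.2 fun a ha b hb =>
    mul_mem (mul_mem (mul_mem ha hb) (inv_mem ha)) (inv_mem hb)
  obtain ⟨k, hk, e⟩ := h1 c hc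
  obtain ⟨d, hd, e'⟩ := hM (h3 hk)
  rw [← mul_inv_cancel_left d c]
  exact mul_mem (mem_sup_right hd) (mem_sup_left ⟨Im.div S e' e, L.mul_mem (L.inv_mem (hL hd)) hc⟩)

theorem gfb_lift (hy : S.R w y) (hy' : S.R w' y') (h' : y' ∈ S.SY) {k : Co0} (hk : k ∈ stabilizer Co0 leechU)
    (e : k • w = w') : ∃ c ∈ S.C, S.Im c k ∧ c * y * c⁻¹ = y' := by
  obtain ⟨c, hc, ec⟩ := S.lift_C hk
  rcases (S.mt.dbl_iff' (Im.R S ec hy) hy').1 (e ▸ Dbl.refl _) with h1 | h1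
  · exact ⟨c, hc, ec, h1⟩
  obtain ⟨a, ha, h2⟩ := S.SY_R1 h'
  have h3 : a * (S.z * y') * a⁻¹ = y' := by
    rw [← conj_mul, conj_eq_of_ne S.xe ha.1.1 h'.1 h2, S.xe.comm ha.1.1, mul_inv_cancel_right, ← mul_assoc, S.zz,
      one_mul]
  refine ⟨a * c, mul_mem (S.Q1_le_C ha.1) hc, one_mul k ▸ Im.mul S (S.im_one.2 ha.1.1) ec, ?_⟩
  rw [← h3, ← h1]; group

theorem gf_perfC : S.C ≤ S.Q1 ⊔ ⁅S.C, S.C⁆ :=
  (S.gfb_perf (fun _ => S.im_C) (fun _ => S.lift_C) (gfb_simple (simple_stab32 sqNorm_U) (by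
    rw [card_stab32 sqNorm_U]; norm_num))).trans (sup_le_sup_right (inf_le_inf_left _ inf_le_right) _)

theorem gf_perfU : ∀ y ∈ S.SY, S.C ⊓ centralizer {y} ≤
    S.Q1 ⊓ centralizer {y} ⊔ ⁅S.C ⊓ centralizer {y}, S.C ⊓ centralizer {y}⁆ := fun y hy => by
  obtain ⟨w, hw, hR⟩ := S.SY_iff.1 hy
  have hn : -w ∈ nbr leechU (-16) :=
    ⟨by rw [AddSubgroup.coe_neg, sqNorm_neg, hw.1], by rw [AddSubgroup.coe_neg, dot_neg_right, hw.2]⟩
  refine (S.gfb_perf (H := stabilizer Co0 leechU ⊓ stabilizer Co0 (-w)) (fun c hc => ?_) (fun k hk => ?_)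
    (gfb_simple ?_ ?_)).trans (sup_le_sup_right (fun x hx => ⟨⟨hx.1, hx.2.1.2⟩, hx.2.2⟩) _)
  · obtain ⟨k, hk, e⟩ := S.im_C hc.1
    have h1 := (S.mt.dbl_iff' (Im.R S e hR) hR).2 (Or.inl (mul_inv_eq_iff_eq_mul.2 (mem_cent_singleton.1 hc.2)))
    rcases h1.pm_of_lt (by rw [sqNorm_smul, hw.1]; norm_num) (by rw [hw.1]; norm_num) with h2 | h2
    · exact ⟨k, ⟨hk, mem_stabilizer_iff.2 (by rw [smul_neg, h2])⟩, e⟩
    · have h3 := ((smul_mem_nbr k).2 hw).2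
      rw [mem_stabilizer_iff.1 hk, h2, hn.2] at h3
      omega
  · obtain ⟨c, hc, e, e'⟩ := S.gfb_lift hR hR hy hk.1 (neg_injective ((smul_neg k w).symm.trans hk.2))
    exact ⟨c, ⟨hc, mem_cent_singleton.2 (mul_inv_eq_iff_eq_mul.1 e')⟩, e⟩
  · let _ := Fintype.ofFinite (GaloisField 2 2)
    have hF : Fintype.card (GaloisField 2 2) = 4 := by
      rw [← Nat.card_eq_fintype_card, GaloisField.card 2 2 two_ne_zero]; rfl
    obtain ⟨f⟩ := iso_U62 hF sqNorm_U hn.1 hn.2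
    have := CL.Uni.isSimpleGroup_PSU (q := 2) hF (n := 6) (by norm_num) (by norm_num)
    exact f.isSimpleGroup
  · rw [card_stab_32_m16 sqNorm_U hn]; norm_num

theorem gf_trans : ∀ y ∈ S.SY, ∀ y' ∈ S.SY, ∃ c ∈ S.C, c * y * c⁻¹ = y' := fun y hy y' hy' => by
  obtain ⟨w, hw, hR⟩ := S.SY_iff.1 hy
  obtain ⟨w', hw', hR'⟩ := S.SY_iff.1 hy'
  obtain ⟨k, hk, e⟩ := CL.Co2R.u62_trans hw hw'
  obtain ⟨c, hc, -, e'⟩ := S.gfb_lift hR hR' hy' hk e
  exact ⟨c, hc, e'⟩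

theorem gfb_ow (hy : y ∈ S.OY) : ∃ w, OW w ∧ S.R w y := by
  obtain ⟨w, hw, hR⟩ := S.SY_iff.1 hy.1
  have h1 := fun e => hy.2 ((S.mt.comm_iff hR S.ht).2 e)
  rw [dot_e8] at h1
  exact ⟨w, ⟨hw, by_contra fun e => h1 (by omega)⟩, hR⟩

theorem gfb_s (hy : S.R w y) : S.R (leechU - w) (S.s * y) := S.mt.congr (S.mt.mul S.gd.hs hy) ⟨-w, by abel⟩

theorem gf_odd (h : ∀ k ∈ EE, ∃ r ∈ S.R2, S.Im r k) :
    ∀ y ∈ S.OY, ∀ y' ∈ S.OY, ∃ r ∈ S.R2, S.Cl (r * y * r⁻¹) y' := fun y hy y' hy' => by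
  obtain ⟨w, hw, hR⟩ := S.gfb_ow hy
  obtain ⟨w', hw', hR'⟩ := S.gfb_ow hy'
  have key : ∀ u x, OW u → S.R u x → (w : GolayPt → ℤ) none = (u : GolayPt → ℤ) none →
      ∃ r ∈ S.R2, r * y * r⁻¹ = x ∨ r * y * r⁻¹ = S.z * x := fun u x hu hx e => by
    obtain ⟨k, hk, e'⟩ := hw.exists_eps hu e
    obtain ⟨r, hr, e''⟩ := h k hk
    exact ⟨r, hr, (S.mt.dbl_iff' (Im.R S e'' hR) hx).1 (e' ▸ Dbl.refl _)⟩
  by_cases e : (w : GolayPt → ℤ) none = (w' : GolayPt → ℤ) none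
  · obtain ⟨r, hr, h1⟩ := key w' y' hw' hR' e
    exact ⟨r, hr, Cl.symm S (h1.imp_right Or.inl)⟩
  · obtain ⟨r, hr, h1⟩ := key _ _ hw'.sub (S.gfb_s hR') (by
      have := hw.cases; have := hw'.cases; rw [OW.sub_none]; omega)
    exact ⟨r, hr, Cl.symm S (Or.inr (Or.inr (h1.imp_right fun e => e.trans (mul_assoc _ _ _).symm)))⟩

theorem gf_outer (h : ∀ k ∈ N2, ∃ c ∈ S.P0, S.Im c k) :
    ∀ y ∈ S.OY, ∃ g ∈ S.P0, g * y * g⁻¹ = S.s * y ∨ g * y * g⁻¹ = S.z * S.s * y := fun y hy => by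
  obtain ⟨w, hw, hR⟩ := S.gfb_ow hy
  obtain ⟨k, hk, e⟩ := hw.exists_outer
  obtain ⟨g, hg, e'⟩ := h k hk
  exact ⟨g, hg, ((S.mt.dbl_iff' (Im.R S e' hR) (S.gfb_s hR)).1 (e ▸ Dbl.refl _)).imp_right
    fun e => e.trans (mul_assoc _ _ _).symm⟩

end Su

end CL.RB
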